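import Mathlib

set_option autoImplicit false

namespace Cfsg.Agent.Lib.Helper16

open Polynomial

universe u v

theorem exists_aniso {F : Type u} [Field F] [Finite F] :
    ∃ a b : F, ∀ z₁ z₂ : F, z₁ ^ 2 + a * z₁ * z₂ + b * z₂ ^ 2 = 0 → z₁ = 0 ∧ z₂ = 0 := by
  have hni : ¬ Function.Injective (fun x : F => x ^ 2 + x) := by
    intro h
    have h1 : (0 : F) = -1 := @h 0 (-1) (by simp)
    have h2 : (1 : F) = 0 := by linear_combination h1
    exact one_ne_zero h2
  have hns : ¬ Function.Surjective (fun x : F => x ^ 2 + x) :=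
    fun h => hni (Finite.injective_iff_surjective.mpr h)
  simp only [Function.Surjective, not_forall, not_exists] at hns
  obtain ⟨c, hc⟩ := hns
  refine ⟨1, -c, ?_⟩
  intro z₁ z₂ h
  by_cases hz : z₂ = 0
  · subst hz
    simp at h
    exact ⟨h, rfl⟩
  · exfalso
    apply hc (z₁ / z₂)
    field_simp
    linear_combination h

theorem exists_ringHom_root {F : Type u} {K : Type v} [Field F] [Fintype F] [Field K] [Fintype K] {q : ℕ}
    (hF : Fintype.card F = q) (hK : Fintype.card K = q ^ 2) (a b : F)
    (hab : ∀ z₁ z₂ : F, z₁ ^ 2 + a * z₁ * z₂ + b * z₂ ^ 2 = 0 → z₁ = 0 ∧ z₂ = 0) :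
    ∃ (i : F →+* K) (α : K), α ^ 2 + i a * α + i b = 0 := by
  classical
  set f : F[X] := X ^ 2 + C a * X + C b with hf
  have hdeg : f.natDegree = 2 := by rw [hf]; compute_degree!
  have hmonic : f.Monic := by rw [hf]; monicity!
  have hirr : Irreducible f := by
    rw [hmonic.irreducible_iff_roots_eq_zero_of_degree_le_three (by omega) (by omega)]
    rw [Multiset.eq_zero_iff_forall_notMem]
    intro t ht
    rw [mem_roots hmonic.ne_zero, IsRoot.def] at ht
    simp only [hf, eval_add, eval_pow, eval_X, eval_mul, eval_C] at ht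
    have := hab t 1 (by linear_combination ht)
    exact one_ne_zero this.2
  haveI : Fact (Irreducible f) := ⟨hirr⟩
  have hfin : Module.finrank F (AdjoinRoot f) = 2 := by
    rw [(AdjoinRoot.powerBasis hirr.ne_zero).finrank, AdjoinRoot.powerBasis_dim, hdeg]
  haveI : Module.Finite F (AdjoinRoot f) := (AdjoinRoot.powerBasis hirr.ne_zero).finite
  haveI : Finite (AdjoinRoot f) := Module.finite_of_finite F
  haveI : Fintype (AdjoinRoot f) := Fintype.ofFinite _
  have hL : Fintype.card (AdjoinRoot f) = Fintype.card K := by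
    rw [Module.card_eq_pow_finrank (K := F) (V := AdjoinRoot f), hfin, hF, hK]
  let e : AdjoinRoot f ≃+* K := FiniteField.ringEquivOfCardEq hL
  refine ⟨(e : AdjoinRoot f →+* K).comp (AdjoinRoot.of f), e (AdjoinRoot.root f), ?_⟩
  have h0 : (AdjoinRoot.root f) ^ 2 + AdjoinRoot.of f a * AdjoinRoot.root f + AdjoinRoot.of f b = 0 := by
    have := AdjoinRoot.eval₂_root f
    simpa [hf, eval₂_add, eval₂_mul, eval₂_pow] using this
  have := congrArg e h0
  simpa using this

section Ext
variable {F : Type u} {K : Type v} [Field F] [Fintype F] [Field K] [Fintype K] [Algebra F K] {q : ℕ}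

theorem finrank_eq_two (hF : Fintype.card F = q) (hK : Fintype.card K = q ^ 2) :
    Module.finrank F K = 2 := by
  have h := Module.card_eq_pow_finrank (K := F) (V := K)
  rw [hF, hK] at h
  have hq : 1 < q := hF ▸ Fintype.one_lt_card
  exact (Nat.pow_right_injective hq h).symm

variable (F K) in
noncomputable def frob : K →ₐ[F] K := FiniteField.frobeniusAlgHom F K

theorem frob_apply (hF : Fintype.card F = q) (x : K) : frob F K x = x ^ q := by
  subst hF; rfl

theorem frob_frob (hF : Fintype.card F = q) (hK : Fintype.card K = q ^ 2) (x : K) :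
    frob F K (frob F K x) = x := by
  rw [frob_apply hF, frob_apply hF, ← pow_mul, ← sq, ← hK, FiniteField.pow_card]

theorem frob_eq_iff (hF : Fintype.card F = q) (x : K) :
    frob F K x = x ↔ ∃ c : F, algebraMap F K c = x := by
  classical
  constructor
  · intro hx
    have hq : 1 < q := hF ▸ Fintype.one_lt_card
    set P : K[X] := X ^ q - X with hP
    have hP0 : P ≠ 0 := FiniteField.X_pow_card_sub_X_ne_zero K hq
    have hPd : P.natDegree = q := FiniteField.X_pow_card_sub_X_natDegree_eq K hq
    set T : Finset K := Finset.univ.image (algebraMap F K) with hT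
    have hTc : T.card = q := by
      rw [hT, Finset.card_image_of_injective _ (algebraMap F K).injective, Finset.card_univ, hF]
    have hTS : T ⊆ P.roots.toFinset := by
      intro y hy
      obtain ⟨c, -, rfl⟩ := Finset.mem_image.mp hy
      rw [Multiset.mem_toFinset, mem_roots hP0, IsRoot.def]
      have := (frob F K).commutes c
      rw [frob_apply hF] at this
      simp [hP, this]
    have hle : P.roots.toFinset.card ≤ T.card := by
      rw [hTc, ← hPd]
      exact (Multiset.toFinset_card_le _).trans (card_roots' P)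
    have heq := Finset.eq_of_subset_of_card_le hTS hle
    have hxr : x ∈ P.roots.toFinset := by
      rw [Multiset.mem_toFinset, mem_roots hP0, IsRoot.def]
      rw [frob_apply hF] at hx
      simp [hP, hx]
    rw [← heq] at hxr
    obtain ⟨c, -, hc⟩ := Finset.mem_image.mp hxr
    exact ⟨c, hc⟩
  · rintro ⟨c, rfl⟩
    exact (frob F K).commutes c

theorem exists_norm_neg_one (hF : Fintype.card F = q) (hK : Fintype.card K = q ^ 2) :
    ∃ η : K, η * frob F K η = -1 := by
  obtain ⟨x, hx⟩ := FiniteField.norm_surjective F K (-1)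
  refine ⟨x, ?_⟩
  have h := FiniteField.algebraMap_norm_eq_pow (K := F) (K' := K) (x := x)
  rw [hx, Nat.card_eq_fintype_card, Nat.card_eq_fintype_card, hF, hK] at h
  have hq : 1 < q := hF ▸ Fintype.one_lt_card
  have hdiv : (q ^ 2 - 1) / (q - 1) = q + 1 := by
    apply Nat.div_eq_of_eq_mul_left (by omega)
    obtain ⟨r, rfl⟩ : ∃ r, q = r + 1 := ⟨q - 1, by omega⟩
    have : (r + 1) ^ 2 = (r + 1 + 1) * r + 1 := by ring
    rw [this]; simp
  rw [hdiv] at h
  rw [frob_apply hF, ← pow_succ', ← h]; simp

theorem algebraMap_not_surjective (hF : Fintype.card F = q) (hK : Fintype.card K = q ^ 2) :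
    ¬ Function.Surjective (algebraMap F K) := by
  intro hs
  have := Fintype.card_le_of_surjective _ hs
  rw [hF, hK] at this
  have hq : 1 < q := hF ▸ Fintype.one_lt_card
  nlinarith

theorem exists_trace_ne_zero (hF : Fintype.card F = q) (hK : Fintype.card K = q ^ 2) :
    ∃ x : K, x + frob F K x ≠ 0 := by
  by_contra hcon
  push Not at hcon
  have h1 := hcon 1
  rw [map_one] at h1
  have hall : ∀ x : K, frob F K x = x := by
    intro x
    have h3 := hcon x
    have h2 : x + x = 0 := by
      have : (1 + 1) * x = 0 := by rw [h1, zero_mul]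
      linear_combination this
    linear_combination h3 - h2
  exact algebraMap_not_surjective hF hK (fun x => (frob_eq_iff hF x).mp (hall x))

theorem root_conj (hF : Fintype.card F = q) (a b : F)
    (hab : ∀ z₁ z₂ : F, z₁ ^ 2 + a * z₁ * z₂ + b * z₂ ^ 2 = 0 → z₁ = 0 ∧ z₂ = 0)
    (α : K) (hα : α ^ 2 + algebraMap F K a * α + algebraMap F K b = 0) :
    α + frob F K α = - algebraMap F K a ∧ α * frob F K α = algebraMap F K b ∧
      (∀ c : F, algebraMap F K c ≠ α) ∧ frob F K α ≠ α := by
  have hnot : ∀ c : F, algebraMap F K c ≠ α := by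
    rintro c rfl
    have h1 : algebraMap F K (c ^ 2 + a * c * 1 + b * 1 ^ 2) = 0 := by
      simpa [map_add, map_mul, map_pow] using hα
    have h0 := (map_eq_zero_iff _ (algebraMap F K).injective).mp h1
    exact one_ne_zero (hab c 1 h0).2
  have hne : frob F K α ≠ α := fun h => by
    obtain ⟨c, hc⟩ := (frob_eq_iff hF α).mp h
    exact hnot c hc
  have hβ : (frob F K α) ^ 2 + algebraMap F K a * frob F K α + algebraMap F K b = 0 := by
    have := congrArg (frob F K) hα
    simpa [map_add, map_mul, map_pow, AlgHom.commutes] using this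
  have h1 : (α - frob F K α) * (α + frob F K α + algebraMap F K a) = 0 := by
    linear_combination hα - hβ
  have h2 : α + frob F K α + algebraMap F K a = 0 :=
    (mul_eq_zero.mp h1).resolve_left (sub_ne_zero.mpr (Ne.symm hne))
  exact ⟨by linear_combination h2, by linear_combination α * h2 - hα, hnot, hne⟩

end Ext

end Cfsg.Agent.Lib.Helper16
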