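import Mathlib

set_option autoImplicit false

namespace Cfsg.Agent.Lib.Helper16

/-- A commutative TI subgroup `E` of exponent `p` which contains every element conjugating one of its
non-trivial elements into it has a normal complement `K` (Burnside transfer), and every element
`k * x` with `k ∈ K`, `1 ≠ x ∈ E` is conjugate to `x`. -/
theorem frob_core {G : Type*} [Group G] [Finite G] (p : ℕ) [Fact p.Prime] (E : Subgroup G)
    (hE1 : E ≠ ⊥) (hp : ∀ x ∈ E, x ^ p = 1) (hcomm : ∀ x ∈ E, ∀ y ∈ E, x * y = y * x)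
    (hTI : ∀ g : G, ∀ x ∈ E, x ≠ 1 → g * x * g⁻¹ ∈ E → g ∈ E) :
    ∃ K : Subgroup G, (∀ g, ∃ k ∈ K, ∃ x ∈ E, g = k * x) ∧ (∀ k ∈ K, k ∈ E → k = 1) ∧
      (∀ k ∈ K, ∀ x ∈ E, x ≠ 1 → ∃ l : G, k * x = l * x * l⁻¹) := by
  classical
  have hpg : IsPGroup p E := by
    intro x
    refine ⟨1, ?_⟩
    apply Subtype.ext
    rw [pow_one]
    exact hp x.1 x.2
  obtain ⟨S, hES⟩ := hpg.exists_le_sylow
  obtain ⟨x0, hx0E, hx01⟩ : ∃ a : G, a ∈ E ∧ a ≠ 1 := by
    obtain ⟨a, ha⟩ := Subgroup.ne_bot_iff_exists_ne_one.1 hE1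
    exact ⟨a.1, a.2, fun h => ha (Subtype.ext h)⟩
  have hSE : (S : Subgroup G) = E := by
    apply le_antisymm _ hES
    haveI : Nontrivial ↥(S : Subgroup G) := ⟨⟨⟨x0, hES hx0E⟩, 1, fun h => hx01 (congrArg Subtype.val h)⟩⟩
    haveI : Nontrivial (Subgroup.center ↥(S : Subgroup G)) := IsPGroup.center_nontrivial S.2
    obtain ⟨z, hz⟩ := exists_ne (1 : Subgroup.center ↥(S : Subgroup G))
    have hz1 : (z.1.1 : G) ≠ 1 := by
      intro h
      apply hz
      apply Subtype.ext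
      apply Subtype.ext
      exact h
    have hzc : ∀ g : G, g ∈ (S : Subgroup G) → g * z.1.1 = z.1.1 * g := by
      intro g hg
      have := (Subgroup.mem_center_iff.1 z.2) ⟨g, hg⟩
      exact congrArg Subtype.val this
    have hzE : z.1.1 ∈ E := by
      apply hTI _ x0 hx0E hx01
      rw [← hzc x0 (hES hx0E), mul_inv_cancel_right]
      exact hx0E
    intro g hg
    apply hTI g _ hzE hz1
    rw [hzc g hg, mul_inv_cancel_right]
    exact hzE
  have hN : Subgroup.normalizer (S : Set G) ≤ Subgroup.centralizer (S : Set G) := by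
    intro g hg
    have h1 : g ∈ E := by
      apply hTI g x0 hx0E hx01
      rw [← hSE]
      exact (Subgroup.mem_normalizer_iff.1 hg x0).1 (hES hx0E)
    rw [Subgroup.mem_centralizer_iff]
    intro y hy
    have hy' : y ∈ E := by rw [← hSE]; exact hy
    exact hcomm y hy' g h1
  have hc := MonoidHom.ker_transferSylow_isComplement' S hN
  set K := (MonoidHom.transferSylow S hN).ker with hK
  have hKn : K.Normal := MonoidHom.normal_ker _
  have hdisj : ∀ k ∈ K, k ∈ E → k = 1 := by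
    intro k hk hkE
    have h1 := hc.disjoint
    rw [Subgroup.disjoint_def] at h1
    exact h1 hk (by rw [hSE]; exact hkE)
  refine ⟨K, ?_, hdisj, ?_⟩
  · intro g
    obtain ⟨⟨k, x⟩, hkx, -⟩ := hc.existsUnique g
    exact ⟨k.1, k.2, x.1, by rw [← hSE]; exact x.2, hkx.symm⟩
  · intro k hk x hx hx1
    let f : K → K := fun l => ⟨l.1 * (x * l.1⁻¹ * x⁻¹), K.mul_mem l.2 (hKn.conj_mem _ (K.inv_mem l.2) x)⟩
    have hf : Function.Injective f := by
      intro l l' hll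
      have h1 : l.1 * (x * l.1⁻¹ * x⁻¹) = l'.1 * (x * l'.1⁻¹ * x⁻¹) := congrArg Subtype.val hll
      have h2 : (l'.1⁻¹ * l.1) * x * (l'.1⁻¹ * l.1)⁻¹ = x := by
        have h3 : l.1 * x * l.1⁻¹ = l'.1 * x * l'.1⁻¹ := by
          have := congrArg (· * x) h1
          simpa [mul_assoc] using this
        calc (l'.1⁻¹ * l.1) * x * (l'.1⁻¹ * l.1)⁻¹ = l'.1⁻¹ * (l.1 * x * l.1⁻¹) * l'.1 := by group
          _ = l'.1⁻¹ * (l'.1 * x * l'.1⁻¹) * l'.1 := by rw [h3]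
          _ = x := by group
      have h4 : l'.1⁻¹ * l.1 ∈ E := hTI _ x hx hx1 (by rw [h2]; exact hx)
      have h5 := hdisj _ (K.mul_mem (K.inv_mem l'.2) l.2) h4
      apply Subtype.ext
      exact (inv_mul_eq_one.1 h5).symm
    obtain ⟨l, hl⟩ := (Finite.injective_iff_surjective.1 hf) ⟨k, hk⟩
    refine ⟨l.1, ?_⟩
    have h1 : l.1 * (x * l.1⁻¹ * x⁻¹) = k := congrArg Subtype.val hl
    rw [← h1]
    group

/-- version for subgroups of an ambient group -/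
theorem frob_core' {G : Type*} [Group G] (H E : Subgroup G) [Finite H] (hEH : E ≤ H) (p : ℕ)
    [Fact p.Prime] (hE1 : E ≠ ⊥) (hp : ∀ x ∈ E, x ^ p = 1)
    (hcomm : ∀ x ∈ E, ∀ y ∈ E, x * y = y * x)
    (hTI : ∀ g ∈ H, ∀ x ∈ E, x ≠ 1 → g * x * g⁻¹ ∈ E → g ∈ E) :
    ∃ K : Subgroup G, K ≤ H ∧ (∀ g ∈ H, ∃ k ∈ K, ∃ x ∈ E, g = k * x) ∧ (∀ k ∈ K, k ∈ E → k = 1) ∧
      (∀ k ∈ K, ∀ x ∈ E, x ≠ 1 → ∃ l ∈ H, k * x = l * x * l⁻¹) := by
  obtain ⟨K, h1, h2, h3⟩ := frob_core (G := H) p (E.subgroupOf H) (by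
      intro h
      apply hE1
      rw [Subgroup.subgroupOf_eq_bot] at h
      rw [← inf_eq_left.2 hEH]
      exact disjoint_iff.1 h)
    (by
      intro x hx
      apply Subtype.ext
      exact hp x.1 hx)
    (by
      intro x hx y hy
      apply Subtype.ext
      exact hcomm x.1 hx y.1 hy)
    (by
      intro g x hx hx1 hg
      exact hTI g.1 g.2 x.1 hx (fun h => hx1 (Subtype.ext h)) hg)
  refine ⟨K.map H.subtype, ?_, ?_, ?_, ?_⟩
  · rintro _ ⟨k, -, rfl⟩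
    exact k.2
  · intro g hg
    obtain ⟨k, hk, x, hx, hgx⟩ := h1 ⟨g, hg⟩
    exact ⟨k.1, ⟨k, hk, rfl⟩, x.1, hx, congrArg Subtype.val hgx⟩
  · rintro _ ⟨k, hk, rfl⟩ hkE
    have := h2 k hk hkE
    rw [this]; rfl
  · rintro _ ⟨k, hk, rfl⟩ x hx hx1
    obtain ⟨l, hl⟩ := h3 k hk ⟨x, hEH hx⟩ hx (fun h => hx1 (congrArg Subtype.val h))
    exact ⟨l.1, l.2, congrArg Subtype.val hl⟩

end Cfsg.Agent.Lib.Helper16
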