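import Cfsg.Agent.Lib.Helper16.QuadForm3
import Cfsg.Agent.Lib.Helper16.FieldExt
import Cfsg.Agent.Lib.Helper16.Transport
import Cfsg.Agent.Lib.Helper6.SympMore
import Cfsg.Prelude.Def_LieClassical

set_option autoImplicit false

namespace Cfsg.Agent.Lib.Helper16

open Module QuadraticMap Cfsg Matrix

universe u v

variable {F : Type u} {K : Type v} [Field F] [Fintype F] [Field K] [Fintype K] [Algebra F K] {q : ℕ}

variable (F) in
noncomputable def hermB (ι : Type*) [Fintype ι] : (ι → K) →ₗ[F] (ι → K) →ₗ[F] K :=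
  LinearMap.mk₂ F (fun u v => ∑ i, u i * frob F K (v i))
    (by intro u u' v; simp [add_mul, Finset.sum_add_distrib])
    (by intro c u v; simp [Finset.smul_sum])
    (by intro u v v'; simp [mul_add, Finset.sum_add_distrib])
    (by intro c u v; simp [Finset.smul_sum])

theorem hermB_apply (ι : Type*) [Fintype ι] (u v : ι → K) :
    hermB F ι u v = ∑ i, u i * frob F K (v i) := rfl

theorem hermB_eq_hermForm (hF : Fintype.card F = q) (n : ℕ) (u v : Fin n → K) :
    hermB F (Fin n) u v = hermForm n K q u v := by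
  simp [hermB_apply, hermForm, frob_apply hF]

theorem frob_hermB (hF : Fintype.card F = q) (hK : Fintype.card K = q ^ 2) {ι : Type*} [Fintype ι]
    (u v : ι → K) : frob F K (hermB F ι u v) = hermB F ι v u := by
  simp only [hermB_apply, map_sum, map_mul, frob_frob hF hK]
  exact Finset.sum_congr rfl fun i _ => mul_comm _ _

theorem hermB_surj (hF : Fintype.card F = q) (hK : Fintype.card K = q ^ 2) {ι : Type*} [Fintype ι]
    [DecidableEq ι] (u : ι → K) (hu : u ≠ 0) (y : K) : ∃ v, hermB F ι u v = y := by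
  obtain ⟨j, hj⟩ := Function.ne_iff.mp hu
  have hj' : u j ≠ 0 := hj
  refine ⟨Pi.single j (frob F K (y / u j)), ?_⟩
  rw [hermB_apply, Finset.sum_eq_single j]
  · rw [Pi.single_eq_same, frob_frob hF hK]; field_simp
  · intro i _ hij; rw [Pi.single_eq_of_ne hij, map_zero, mul_zero]
  · intro h; exact absurd (Finset.mem_univ j) h

theorem finrank_pi_ext (hF : Fintype.card F = q) (hK : Fintype.card K = q ^ 2) (ι : Type*) [Fintype ι] :
    finrank F (ι → K) = 2 * Fintype.card ι := by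
  rw [← Module.finrank_mul_finrank F K (ι → K), finrank_eq_two hF hK, Module.finrank_fintype_fun_eq_card]

theorem exists_functional (hF : Fintype.card F = q) (hK : Fintype.card K = q ^ 2) :
    ∃ l : K →ₗ[F] F, l ≠ 0 ∧ ∀ c, l (algebraMap F K c) = 0 := by
  have hlt : LinearMap.range (Algebra.linearMap F K) < ⊤ := by
    rw [lt_top_iff_ne_top]
    intro h
    apply algebraMap_not_surjective hF hK
    intro x
    have : x ∈ LinearMap.range (Algebra.linearMap F K) := h ▸ Submodule.mem_top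
    obtain ⟨c, hc⟩ := this
    exact ⟨c, hc⟩
  obtain ⟨l, hl0, hl⟩ := Submodule.exists_le_ker_of_lt_top _ hlt
  exact ⟨l, hl0, fun c => hl ⟨c, rfl⟩⟩

theorem herm_symp_iso (hF : Fintype.card F = q) (hK : Fintype.card K = q ^ 2) (m : ℕ) :
    ∃ (ψ : (Fin m → K) ≃ₗ[F] (Fin m ⊕ Fin m → F)) (l : K →ₗ[F] F),
      ∀ u v, sympForm m F (ψ u) (ψ v) = l (hermForm m K q u v) := by
  classical
  obtain ⟨l, hl0, hl⟩ := exists_functional hF hK (F := F) (K := K)
  let B : LinearMap.BilinForm F (Fin m → K) := (hermB F (Fin m)).compr₂ l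
  have hB : ∀ u v, B u v = l (hermB F (Fin m) u v) := fun u v => rfl
  have hA : B.IsAlt := by
    intro u
    rw [hB]
    have h1 : frob F K (hermB F (Fin m) u u) = hermB F (Fin m) u u := frob_hermB hF hK u u
    obtain ⟨c, hc⟩ := (frob_eq_iff hF _).mp h1
    rw [← hc, hl]
  have hnd : ∀ u, (∀ v, B u v = 0) → u = 0 := by
    intro u hu
    by_contra hne
    apply hl0
    ext y
    obtain ⟨v, hv⟩ := hermB_surj hF hK u hne y
    rw [← hv, ← hB, hu]; rfl
  obtain ⟨ψ, hψ⟩ := symp_iso B hA hnd m (by rw [finrank_pi_ext hF hK]; simp)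
  exact ⟨ψ, l, fun u v => by rw [hψ, hB, hermB_eq_hermForm hF]⟩

theorem symp_ext_iso (hF : Fintype.card F = q) (hK : Fintype.card K = q ^ 2) (a : ℕ) :
    ∃ (ψ : (Fin a ⊕ Fin a → K) ≃ₗ[F] (Fin (2 * a) ⊕ Fin (2 * a) → F)) (l : K →ₗ[F] F),
      ∀ u v, sympForm (2 * a) F (ψ u) (ψ v) = l (sympForm a K u v) := by
  classical
  obtain ⟨l, hl0, -⟩ := exists_functional hF hK (F := F) (K := K)
  let B : LinearMap.BilinForm F (Fin a ⊕ Fin a → K) :=
    LinearMap.mk₂ F (fun u v => l (sympForm a K u v))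
      (by intro u u' v; rw [Cfsg.Agent.Lib.Helper6.sympForm_add_left, map_add])
      (by
        intro c u v
        rw [algebra_compatible_smul K c u, Cfsg.Agent.Lib.Helper6.sympForm_smul_left,
          ← Algebra.smul_def, map_smul])
      (by intro u v v'; rw [Cfsg.Agent.Lib.Helper6.sympForm_add_right, map_add])
      (by
        intro c u v
        rw [algebra_compatible_smul K c v, Cfsg.Agent.Lib.Helper6.sympForm_smul_right,
          ← Algebra.smul_def, map_smul])
  have hB : ∀ u v, B u v = l (sympForm a K u v) := fun u v => rfl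
  have hA : B.IsAlt := by
    intro u
    rw [hB, Cfsg.Agent.Lib.Helper6.sympForm_self, map_zero]
  have hnd : ∀ u, (∀ v, B u v = 0) → u = 0 := by
    intro u hu
    by_contra hne
    apply hl0
    ext y
    obtain ⟨v, hv⟩ := Cfsg.Agent.Lib.Helper6.exists_sympForm_eq_one a u hne
    have := hu (y • v)
    rw [hB, Cfsg.Agent.Lib.Helper6.sympForm_smul_right, hv, mul_one] at this
    rw [this]; rfl
  obtain ⟨ψ, hψ⟩ := symp_iso B hA hnd (2 * a) (by rw [finrank_pi_ext hF hK]; simp; ring)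
  exact ⟨ψ, l, fun u v => by rw [hψ, hB]⟩

noncomputable def hermQ (r : K →ₗ[F] F) (ι : Type*) [Fintype ι] : QuadraticForm F (ι → K) :=
  LinearMap.BilinMap.toQuadraticMap ((hermB F ι).compr₂ r)

theorem hermQ_apply (r : K →ₗ[F] F) (ι : Type*) [Fintype ι] (v : ι → K) :
    hermQ r ι v = r (hermB F ι v v) := rfl

theorem polar_hermQ (r : K →ₗ[F] F) (ι : Type*) [Fintype ι] (u v : ι → K) :
    polar (hermQ r ι) u v = r (hermB F ι u v + hermB F ι v u) := by
  rw [hermQ, LinearMap.BilinMap.polar_toQuadraticMap]; simp [map_add]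

theorem hermQ_nondeg (hF : Fintype.card F = q) (hK : Fintype.card K = q ^ 2) (r : K →ₗ[F] F)
    (hr : ∀ c, r (algebraMap F K c) = c) (ι : Type*) [Fintype ι] :
    (polarBilin (hermQ r ι)).Nondegenerate := by
  classical
  apply nondeg_of_left
  intro u hu
  by_contra hne
  obtain ⟨y, hy⟩ := exists_trace_ne_zero hF hK (F := F) (K := K)
  obtain ⟨v, hv⟩ := hermB_surj hF hK u hne y
  have h1 := hu v
  rw [polar_hermQ, ← frob_hermB hF hK u v, hv] at h1
  have h2 : frob F K (y + frob F K y) = y + frob F K y := by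
    rw [map_add, frob_frob hF hK, add_comm]
  obtain ⟨c, hc⟩ := (frob_eq_iff hF _).mp h2
  rw [← hc, hr] at h1
  apply hy; rw [← hc, h1, map_zero]

theorem exists_retraction : ∃ r : K →ₗ[F] F, ∀ c, r (algebraMap F K c) = c := by
  obtain ⟨r, hr⟩ := LinearMap.exists_leftInverse_of_injective (Algebra.linearMap F K)
    (LinearMap.ker_eq_bot.mpr (algebraMap F K).injective)
  exact ⟨r, fun c => by have := congrArg (fun f => f c) hr; simpa using this⟩

theorem herm_plus_iso (hF : Fintype.card F = q) (hK : Fintype.card K = q ^ 2) (r : K →ₗ[F] F)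
    (hr : ∀ c, r (algebraMap F K c) = c) (k : ℕ) :
    ∃ ψ : (Fin (k + k) → K) ≃ₗ[F] (Fin (k + k) ⊕ Fin (k + k) → F),
      ∀ v, quadFormPlus (k + k) F (ψ v) = hermQ r (Fin (k + k)) v := by
  obtain ⟨η, hη⟩ := exists_norm_neg_one hF hK (F := F) (K := K)
  let L : (Fin k → K) →ₗ[F] (Fin (k + k) → K) :=
    LinearMap.pi (fun i => Fin.addCases (fun j => (LinearMap.proj j : (Fin k → K) →ₗ[F] K))
      (fun j => (LinearMap.mulLeft F η) ∘ₗ (LinearMap.proj j : (Fin k → K) →ₗ[F] K)) i)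
  have hL1 : ∀ x j, L x (Fin.castAdd k j) = x j := by intro x j; simp [L]
  have hL2 : ∀ x j, L x (Fin.natAdd k j) = η * x j := by
    intro x j
    simp only [L, LinearMap.pi_apply, Fin.addCases_right]
    rfl
  have hLinj : Function.Injective L := by
    intro x y hxy; ext j
    have := congrFun hxy (Fin.castAdd k j)
    rwa [hL1, hL1] at this
  apply plus_iso_of_singular (hermQ r (Fin (k + k))) (hermQ_nondeg hF hK r hr _) (k + k)
    (by rw [finrank_pi_ext hF hK]; simp) (LinearMap.range L)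
  · rintro _ ⟨x, rfl⟩
    rw [hermQ_apply, hermB_apply, Fin.sum_univ_add]
    simp only [hL1, hL2, map_mul]
    have : ∀ j, η * x j * (frob F K η * frob F K (x j)) = - (x j * frob F K (x j)) := by
      intro j; linear_combination (x j * frob F K (x j)) * hη
    simp [this]
  · rw [LinearMap.finrank_range_of_inj hLinj, finrank_pi_ext hF hK]; simp; ring

theorem norm_binary_iso (hF : Fintype.card F = q) (hK : Fintype.card K = q ^ 2) (r : K →ₗ[F] F)
    (hr : ∀ c, r (algebraMap F K c) = c) (a b : F)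
    (hab : ∀ z₁ z₂ : F, z₁ ^ 2 + a * z₁ * z₂ + b * z₂ ^ 2 = 0 → z₁ = 0 ∧ z₂ = 0)
    (α : K) (hα : α ^ 2 + algebraMap F K a * α + algebraMap F K b = 0) :
    ∃ ψ₂ : K ≃ₗ[F] (Fin 2 → F),
      ∀ x, (ψ₂ x 0) ^ 2 + a * ψ₂ x 0 * ψ₂ x 1 + b * (ψ₂ x 1) ^ 2 = r (x * frob F K x) := by
  obtain ⟨h1, h2, h3, h4⟩ := root_conj hF a b hab α hα
  let T : (Fin 2 → F) →ₗ[F] K :=
    (LinearMap.proj 0 : (Fin 2 → F) →ₗ[F] F).smulRight (1 : K) -
      (LinearMap.proj 1 : (Fin 2 → F) →ₗ[F] F).smulRight α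
  have hT : ∀ z, T z = algebraMap F K (z 0) - algebraMap F K (z 1) * α := by
    intro z; simp [T, Algebra.smul_def]
  have hinj : Function.Injective T := by
    rw [← LinearMap.ker_eq_bot, LinearMap.ker_eq_bot']
    intro z hz
    rw [hT] at hz
    have hz1 : z 1 = 0 := by
      by_contra hne
      apply h3 (z 0 / z 1)
      rw [map_div₀]
      have : algebraMap F K (z 1) ≠ 0 := (map_ne_zero _).mpr hne
      field_simp
      linear_combination hz
    have hz0 : z 0 = 0 := by
      rw [hz1] at hz; simpa using hz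
    ext i; fin_cases i <;> simp [hz0, hz1]
  let e := LinearMap.linearEquivOfInjective T hinj (by rw [finrank_eq_two hF hK]; simp)
  refine ⟨e.symm, fun x => ?_⟩
  obtain ⟨z, rfl⟩ := e.surjective x
  rw [LinearEquiv.symm_apply_apply]
  have he : e z = T z := rfl
  rw [he, hT]
  have : (algebraMap F K (z 0) - algebraMap F K (z 1) * α) *
      frob F K (algebraMap F K (z 0) - algebraMap F K (z 1) * α) =
      algebraMap F K ((z 0) ^ 2 + a * z 0 * z 1 + b * (z 1) ^ 2) := by
    simp only [map_sub, map_mul, AlgHom.commutes, map_add, map_pow]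
    linear_combination (- algebraMap F K (z 0) * algebraMap F K (z 1)) * h1 +
      (algebraMap F K (z 1)) ^ 2 * h2
  rw [this, hr]

theorem herm_minus_iso (hF : Fintype.card F = q) (hK : Fintype.card K = q ^ 2) (r : K →ₗ[F] F)
    (hr : ∀ c, r (algebraMap F K c) = c) (a b : F)
    (hab : ∀ z₁ z₂ : F, z₁ ^ 2 + a * z₁ * z₂ + b * z₂ ^ 2 = 0 → z₁ = 0 ∧ z₂ = 0)
    (α : K) (hα : α ^ 2 + algebraMap F K a * α + algebraMap F K b = 0) (k : ℕ) :
    ∃ ψ : (Fin (k + k + 1) → K) ≃ₗ[F] ((Fin (k + k) ⊕ Fin (k + k)) ⊕ Fin 2 → F),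
      ∀ v, quadFormMinus (k + k) F a b (ψ v) = hermQ r (Fin (k + k + 1)) v := by
  obtain ⟨ψ₁, h₁⟩ := herm_plus_iso hF hK r hr k
  obtain ⟨ψ₂, h₂⟩ := norm_binary_iso hF hK r hr a b hab α hα
  let I : (Fin (k + k + 1) → K) →ₗ[F] (Fin (k + k) → K) := LinearMap.funLeft F K Fin.castSucc
  let P : (Fin (k + k + 1) → K) →ₗ[F] ((Fin (k + k) ⊕ Fin (k + k)) ⊕ Fin 2 → F) :=
    LinearMap.pi (fun x => Sum.elim
      (fun y => (LinearMap.proj y : (Fin (k + k) ⊕ Fin (k + k) → F) →ₗ[F] F) ∘ₗ ψ₁.toLinearMap ∘ₗ I)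
      (fun j => (LinearMap.proj j : (Fin 2 → F) →ₗ[F] F) ∘ₗ ψ₂.toLinearMap ∘ₗ
        (LinearMap.proj (Fin.last _) : (Fin (k + k + 1) → K) →ₗ[F] K)) x)
  have hP1 : ∀ v y, P v (Sum.inl y) = ψ₁ (I v) y := fun v y => rfl
  have hP2 : ∀ v j, P v (Sum.inr j) = ψ₂ (v (Fin.last _)) j := fun v j => rfl
  have hinj : Function.Injective P := by
    rw [← LinearMap.ker_eq_bot, LinearMap.ker_eq_bot']
    intro v hv
    have e1 : ψ₁ (I v) = 0 := by ext y; rw [← hP1, hv]; rfl
    have e2 : ψ₂ (v (Fin.last _)) = 0 := by ext j; rw [← hP2, hv]; rfl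
    have e1' : I v = 0 := by simpa using e1
    have e2' : v (Fin.last _) = 0 := by simpa using e2
    ext i
    refine Fin.lastCases e2' (fun j => ?_) i
    exact congrFun e1' j
  let e := LinearMap.linearEquivOfInjective P hinj (by rw [finrank_pi_ext hF hK]; simp; ring)
  refine ⟨e, fun v => ?_⟩
  have he : e v = P v := rfl
  rw [he]
  unfold quadFormMinus
  simp only [hP1, hP2]
  have := h₁ (I v)
  unfold quadFormPlus at this
  rw [this, h₂, hermQ_apply, hermQ_apply, hermB_apply, hermB_apply, Fin.sum_univ_castSucc, map_add]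
  rfl

end Cfsg.Agent.Lib.Helper16
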