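import Mathlib

set_option autoImplicit false

namespace Cfsg.Agent.Lib.Helper16

/-- a group whose abelianisation is a four-group has exactly three subgroups of index two -/
theorem card_index_two_of_four {G : Type*} [Group G] (φ : G →* ℤˣ × ℤˣ)
    (hsurj : Function.Surjective φ) (hker : φ.ker ≤ commutator G) :
    Nat.card {H : Subgroup G // H.index = 2} = 3 := by
  classical
  set f1 : G →* ℤˣ := (MonoidHom.fst _ _).comp φ with hf1
  set f2 : G →* ℤˣ := (MonoidHom.snd _ _).comp φ with hf2
  set f3 : G →* ℤˣ := f1 * f2 with hf3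
  obtain ⟨ga, hga⟩ := hsurj (-1, 1)
  obtain ⟨gb, hgb⟩ := hsurj (1, -1)
  have v1 : ∀ g, f1 g = (φ g).1 := fun _ => rfl
  have v2 : ∀ g, f2 g = (φ g).2 := fun _ => rfl
  have v3 : ∀ g, f3 g = (φ g).1 * (φ g).2 := fun _ => rfl
  have hidx : ∀ f : G →* ℤˣ, (∃ g, f g = -1) → f.ker.index = 2 := by
    rintro f ⟨g, hg⟩
    rw [Subgroup.index_ker]
    have : f.range = ⊤ := by
      rw [eq_top_iff]
      intro u _
      rcases Int.units_eq_one_or u with rfl | rfl
      · exact one_mem _
      · exact ⟨g, hg⟩
    rw [this, Nat.card_congr Subgroup.topEquiv.toEquiv]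
    simp
  have hA : ∀ H : Subgroup G, H.index = 2 → H = f1.ker ∨ H = f2.ker ∨ H = f3.ker := by
    intro H hH
    have hm : ∀ {a b : G}, a * b ∈ H ↔ (a ∈ H ↔ b ∈ H) := Subgroup.mul_mem_iff_of_index_two hH
    have hcomm : commutator G ≤ H := by
      rw [commutator_def, Subgroup.commutator_le]
      intro g _ h _
      rw [commutatorElement_def, hm, hm, hm, inv_mem_iff, inv_mem_iff]
      tauto
    have hdep : ∀ g g', φ g = φ g' → (g ∈ H ↔ g' ∈ H) := by
      intro g g' hgg
      have : g⁻¹ * g' ∈ H := hcomm (hker (by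
        rw [MonoidHom.mem_ker, map_mul, map_inv, hgg, inv_mul_cancel]))
      rw [hm, inv_mem_iff] at this
      exact this
    have hab : φ (ga * gb) = (-1, -1) := by rw [map_mul, hga, hgb]; rfl
    have h1 : φ 1 = (1, 1) := map_one φ
    have hcases : ∀ g, φ g = (1, 1) ∨ φ g = (-1, 1) ∨ φ g = (1, -1) ∨ φ g = (-1, -1) := by
      intro g
      rcases Int.units_eq_one_or (φ g).1 with h | h <;>
        rcases Int.units_eq_one_or (φ g).2 with h' | h'
      · left; exact Prod.ext h h'
      · right; right; left; exact Prod.ext h h'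
      · right; left; exact Prod.ext h h'
      · right; right; right; exact Prod.ext h h'
    have hne : ((-1 : ℤˣ) = 1) = False := by simp
    by_cases ha : ga ∈ H <;> by_cases hb : gb ∈ H
    · exfalso
      have : H = ⊤ := by
        rw [eq_top_iff]
        intro g _
        rcases hcases g with h | h | h | h
        · exact (hdep g 1 (h.trans h1.symm)).2 H.one_mem
        · exact (hdep g ga (h.trans hga.symm)).2 ha
        · exact (hdep g gb (h.trans hgb.symm)).2 hb
        · exact (hdep g (ga * gb) (h.trans hab.symm)).2 (H.mul_mem ha hb)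
      rw [this, Subgroup.index_top] at hH
      omega
    · right; left
      ext g
      rw [MonoidHom.mem_ker, v2]
      rcases hcases g with h | h | h | h
      · rw [hdep g 1 (h.trans h1.symm), h]; simp [H.one_mem]
      · rw [hdep g ga (h.trans hga.symm), h]; simp [ha]
      · rw [hdep g gb (h.trans hgb.symm), h]; simp [hb]
      · rw [hdep g (ga * gb) (h.trans hab.symm), h, hm]; simp [ha, hb]
    · left
      ext g
      rw [MonoidHom.mem_ker, v1]
      rcases hcases g with h | h | h | h
      · rw [hdep g 1 (h.trans h1.symm), h]; simp [H.one_mem]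
      · rw [hdep g ga (h.trans hga.symm), h]; simp [ha]
      · rw [hdep g gb (h.trans hgb.symm), h]; simp [hb]
      · rw [hdep g (ga * gb) (h.trans hab.symm), h, hm]; simp [ha, hb]
    · right; right
      ext g
      rw [MonoidHom.mem_ker, v3]
      rcases hcases g with h | h | h | h
      · rw [hdep g 1 (h.trans h1.symm), h]; simp [H.one_mem]
      · rw [hdep g ga (h.trans hga.symm), h]; simp [ha]
      · rw [hdep g gb (h.trans hgb.symm), h]; simp [hb]
      · rw [hdep g (ga * gb) (h.trans hab.symm), h, hm]; simp [ha, hb]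
  have i1 : f1.ker.index = 2 := hidx f1 ⟨ga, by rw [v1, hga]⟩
  have i2 : f2.ker.index = 2 := hidx f2 ⟨gb, by rw [v2, hgb]⟩
  have i3 : f3.ker.index = 2 := hidx f3 ⟨ga, by rw [v3, hga]; rfl⟩
  have n12 : f1.ker ≠ f2.ker := by
    intro h
    have : gb ∈ f1.ker := by rw [MonoidHom.mem_ker, v1, hgb]
    rw [h, MonoidHom.mem_ker, v2, hgb] at this
    exact absurd this (by decide)
  have n13 : f1.ker ≠ f3.ker := by
    intro h
    have : gb ∈ f1.ker := by rw [MonoidHom.mem_ker, v1, hgb]
    rw [h, MonoidHom.mem_ker, v3, hgb] at this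
    exact absurd this (by decide)
  have n23 : f2.ker ≠ f3.ker := by
    intro h
    have : ga ∈ f2.ker := by rw [MonoidHom.mem_ker, v2, hga]
    rw [h, MonoidHom.mem_ker, v3, hga] at this
    exact absurd this (by decide)
  have hset : {H : Subgroup G | H.index = 2} = {f1.ker, f2.ker, f3.ker} := by
    ext H
    simp only [Set.mem_setOf_eq, Set.mem_insert_iff, Set.mem_singleton_iff]
    constructor
    · exact hA H
    · rintro (rfl | rfl | rfl)
      · exact i1
      · exact i2
      · exact i3
  show Nat.card ↥{H : Subgroup G | H.index = 2} = 3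
  rw [hset, Nat.card_coe_set_eq]
  exact Set.ncard_eq_three.2 ⟨_, _, _, n12, n13, n23, rfl⟩

end Cfsg.Agent.Lib.Helper16
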