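import Mathlib
import Cfsg.Agent.Lib.Helper16.OInv1

set_option autoImplicit false
set_option linter.unusedSectionVars false

namespace Cfsg.Agent.Lib.Helper16.OInv

open Module QuadraticMap Cfsg.Agent.Lib.Helper16.SpInv

variable {F V : Type*} [Field F] [AddCommGroup V] [Module F V] [FiniteDimensional F V]
  (Q : QuadraticForm F V)

/-- orthonormal isotropic frames -/
def ONFr (k : ℕ) (f : Fin k → V) : Prop :=
  LinearIndependent F f ∧ (∀ i j, polarBilin Q (f i) (f j) = 0) ∧ ∀ i, Q (f i) = 1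

theorem card_fib_eq [Finite F] (h2 : (2 : F) = 0) (hsq : ∀ a : F, ∃ c, c * c = a)
    (U : Submodule F V) (r : V) (hr : r ∈ U) (hQr : Q r = 1) (hperp : ∀ u ∈ U, polar Q u r = 0)
    (a : F) : Nat.card {u : U // Q u = a} = Nat.card {u : U // Q u = 1} := by
  obtain ⟨c, hc⟩ := hsq (a + 1)
  have key : ∀ u : U, Q ((u : V) + c • r) = Q u + (a + 1) := by
    intro u
    rw [QuadraticMap.map_add (⇑Q), QuadraticMap.map_smul, hQr, polar_smul_right, hperp u u.2, hc]
    simp
  set w : U := ⟨c • r, U.smul_mem c hr⟩ with hw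
  have hcan : ∀ u : U, u + w + w = u := by
    intro u
    rw [add_assoc, ← two_smul F w, h2, zero_smul, add_zero]
  have hQw : ∀ u : U, Q ((u + w : U) : V) = Q u + (a + 1) := fun u => key u
  refine Nat.card_congr ⟨fun u => ⟨u.1 + w, ?_⟩, fun u => ⟨u.1 + w, ?_⟩,
    fun u => Subtype.ext (hcan _), fun u => Subtype.ext (hcan _)⟩
  · rw [hQw, u.2]; linear_combination a * h2
  · rw [hQw, u.2]; linear_combination h2

theorem card_Q_one [Fintype F] (h2 : (2 : F) = 0) (hsq : ∀ a : F, ∃ c, c * c = a)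
    (U : Submodule F V) (r : V) (hr : r ∈ U) (hQr : Q r = 1) (hperp : ∀ u ∈ U, polar Q u r = 0) :
    Fintype.card F * Nat.card {v : V // v ∈ U ∧ Q v = 1} = Nat.card U := by
  haveI : Finite V := Module.finite_of_finite F
  rw [← Nat.card_congr (Equiv.sigmaFiberEquiv (fun u : U => Q u)), Nat.card_sigma]
  simp only [card_fib_eq Q h2 hsq U r hr hQr hperp, Finset.sum_const, Finset.card_univ,
    smul_eq_mul]
  congr 1
  exact (Nat.card_congr (Equiv.subtypeSubtypeEquivSubtypeInter (fun v => v ∈ U)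
    (fun v => Q v = 1))).symm

theorem span_iso' {k : ℕ} {f : Fin k → V} (h : ∀ i j, polarBilin Q (f i) (f j) = 0) :
    ∀ x ∈ Submodule.span F (Set.range f), ∀ y ∈ Submodule.span F (Set.range f),
      polarBilin Q x y = 0 := by
  intro x hx y hy
  induction hx using Submodule.span_induction with
  | mem x hx =>
    obtain ⟨i, rfl⟩ := hx
    induction hy using Submodule.span_induction with
    | mem y hy => obtain ⟨j, rfl⟩ := hy; exact h i j
    | zero => simp
    | add a b _ _ ha hb => rw [map_add, ha, hb, add_zero]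
    | smul c a _ ha => rw [map_smul, ha, smul_zero]
  | zero => simp
  | add a b _ _ ha hb => rw [map_add, LinearMap.add_apply, ha, hb, add_zero]
  | smul c a _ ha => rw [map_smul, LinearMap.smul_apply, ha, smul_zero]

theorem card_ext_on [Fintype F] (h2 : (2 : F) = 0) (hsq : ∀ a : F, ∃ c, c * c = a)
    (hB : (polarBilin Q).Nondegenerate) {k : ℕ} (f : Fin (k + 1) → V) (hf : ONFr Q (k + 1) f) :
    Fintype.card F * Nat.card {v : V // ((∀ i, polarBilin Q (f i) v = 0) ∧
          v ∉ Submodule.span F (Set.range f)) ∧ Q v = 1}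
      = Fintype.card F ^ (finrank F V - (k + 1)) - Fintype.card F ^ (k + 1) := by
  classical
  haveI : Finite V := Module.finite_of_finite F
  obtain ⟨U, hU⟩ : ∃ U, U = Submodule.span F (Set.range f) := ⟨_, rfl⟩
  obtain ⟨P, hP⟩ : ∃ P, P = LinearMap.BilinForm.orthogonal (polarBilin Q) U := ⟨_, rfl⟩
  rw [← hU]
  have hmem : ∀ v, (∀ i, polarBilin Q (f i) v = 0) ↔ v ∈ P := by
    intro v
    rw [hP, LinearMap.BilinForm.mem_orthogonal_iff]
    constructor
    · intro h n hn
      show polarBilin Q n v = 0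
      rw [hU] at hn
      induction hn using Submodule.span_induction with
      | mem x hx => obtain ⟨i, rfl⟩ := hx; exact h i
      | zero => simp
      | add a b _ _ ha hb => rw [map_add, LinearMap.add_apply, ha, hb, add_zero]
      | smul c a _ ha => rw [map_smul, LinearMap.smul_apply, ha, smul_zero]
    · intro h i
      exact h (f i) (by rw [hU]; exact Submodule.subset_span ⟨i, rfl⟩)
  have hUP : U ≤ P := by
    intro v hv
    rw [← hmem]
    intro i
    rw [hU] at hv
    exact span_iso' Q hf.2.1 _ (Submodule.subset_span ⟨i, rfl⟩) _ hv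
  have hcU : Nat.card U = Fintype.card F ^ (k + 1) := by
    rw [Module.natCard_eq_pow_finrank (K := F), hU, finrank_span_eq_card hf.1, Fintype.card_fin,
      Nat.card_eq_fintype_card]
  have hcP : Nat.card P = Fintype.card F ^ (finrank F V - (k + 1)) := by
    rw [Module.natCard_eq_pow_finrank (K := F), hP,
      LinearMap.BilinForm.finrank_orthogonal hB, hU,
      finrank_span_eq_card hf.1, Fintype.card_fin, Nat.card_eq_fintype_card]
  have hrU : f 0 ∈ U := by rw [hU]; exact Submodule.subset_span ⟨0, rfl⟩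
  have hperpP : ∀ u ∈ P, polar Q u (f 0) = 0 := by
    intro u hu
    rw [polar_comm]
    exact (hmem u).2 hu 0
  have c1 := card_Q_one Q h2 hsq U (f 0) hrU (hf.2.2 0) (fun u hu => hperpP u (hUP hu))
  have c2 := card_Q_one Q h2 hsq P (f 0) (hUP hrU) (hf.2.2 0) hperpP
  have hsub : {v : V | v ∈ U ∧ Q v = 1} ⊆ {v : V | v ∈ P ∧ Q v = 1} :=
    fun v hv => ⟨hUP hv.1, hv.2⟩
  have c3 : Nat.card {v : V // ((∀ i, polarBilin Q (f i) v = 0) ∧ v ∉ U) ∧ Q v = 1} =
      Nat.card {v : V // v ∈ P ∧ Q v = 1} - Nat.card {v : V // v ∈ U ∧ Q v = 1} := by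
    have := Set.ncard_sdiff hsub (Set.toFinite _)
    rw [← Nat.card_coe_set_eq, ← Nat.card_coe_set_eq, ← Nat.card_coe_set_eq] at this
    show _ = Nat.card ↥{v : V | v ∈ P ∧ Q v = 1} - Nat.card ↥{v : V | v ∈ U ∧ Q v = 1}
    rw [← this]
    refine Nat.card_congr (Equiv.subtypeEquivRight ?_)
    intro v
    rw [hmem]
    simp only [Set.mem_sdiff, Set.mem_setOf_eq]
    tauto
  rw [c3, Nat.mul_sub, c1, c2, hcU, hcP]

/-- peeling off the first vector of an orthonormal frame. -/
def onFrEquiv (h2 : (2 : F) = 0) (k : ℕ) :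
    {f : Fin (k + 1) → V // ONFr Q (k + 1) f} ≃
      Σ f : {f : Fin k → V // ONFr Q k f},
        {v : V // ((∀ i, polarBilin Q (f.1 i) v = 0) ∧
          v ∉ Submodule.span F (Set.range f.1)) ∧ Q v = 1} where
  toFun s := ⟨⟨Fin.tail s.1, (linearIndependent_finSucc.mp s.2.1).1,
      fun i j => s.2.2.1 i.succ j.succ, fun i => s.2.2.2 i.succ⟩,
    ⟨s.1 0, ⟨fun i => s.2.2.1 i.succ 0, (linearIndependent_finSucc.mp s.2.1).2⟩, s.2.2.2 0⟩⟩
  invFun p := ⟨Fin.cons p.2.1 p.1.1, linearIndependent_finCons.mpr ⟨p.1.2.1, p.2.2.1.2⟩, by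
      intro i j
      refine Fin.cases ?_ (fun i => ?_) i <;> refine Fin.cases ?_ (fun j => ?_) j
      · simp only [Fin.cons_zero]
        exact polar_isAlt Q h2 _
      · simp only [Fin.cons_zero, Fin.cons_succ]
        rw [polarBilin_apply_apply, polar_comm]
        exact p.2.2.1.1 j
      · simp only [Fin.cons_zero, Fin.cons_succ]
        exact p.2.2.1.1 i
      · simp only [Fin.cons_succ]
        exact p.1.2.2.1 i j, by
      intro i
      refine Fin.cases ?_ (fun i => ?_) i
      · simp only [Fin.cons_zero]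
        exact p.2.2.2
      · simp only [Fin.cons_succ]
        exact p.1.2.2.2 i⟩
  left_inv _ := by simp only [Fin.cons_self_tail, Subtype.coe_eta]
  right_inv := fun ⟨⟨_, _⟩, ⟨_, _⟩⟩ => rfl

theorem card_onFr [Fintype F] (h2 : (2 : F) = 0) (hsq : ∀ a : F, ∃ c, c * c = a)
    (hB : (polarBilin Q).Nondegenerate) (k : ℕ) :
    Fintype.card F ^ k * Nat.card {f : Fin (k + 1) → V // ONFr Q (k + 1) f}
      = Nat.card {v : V // Q v = 1} * ∏ i ∈ Finset.range k,
        (Fintype.card F ^ (finrank F V - (i + 1)) - Fintype.card F ^ (i + 1)) := by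
  classical
  haveI : Finite V := Module.finite_of_finite F
  induction k with
  | zero =>
    rw [Finset.range_zero, Finset.prod_empty, pow_zero, one_mul, mul_one]
    haveI : Subsingleton (Fin (0 + 1)) := (inferInstance : Subsingleton (Fin 1))
    refine Nat.card_congr ⟨fun f => ⟨f.1 0, f.2.2.2 0⟩, fun v => ⟨fun _ => v.1, ?_, ?_, ?_⟩,
      fun f => ?_, fun v => rfl⟩
    · apply LinearIndependent.of_subsingleton 0
      intro h
      have := v.2
      rw [h, map_zero] at this
      exact zero_ne_one this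
    · intro _ _; exact polar_isAlt Q h2 _
    · intro _; exact v.2
    · apply Subtype.ext
      funext i
      rw [Subsingleton.elim i 0]
  | succ k ih =>
    haveI : Fintype {f : Fin (k + 1) → V // ONFr Q (k + 1) f} := Fintype.ofFinite _
    rw [Nat.card_congr (onFrEquiv Q h2 (k + 1)), Nat.card_sigma, Finset.prod_range_succ,
      ← mul_assoc, ← ih, pow_succ, mul_assoc, Finset.mul_sum,
      Finset.sum_congr rfl (fun f _ => card_ext_on Q h2 hsq hB f.1 f.2), Finset.sum_const,
      Finset.card_univ, smul_eq_mul, Nat.card_eq_fintype_card, mul_assoc, ← pow_succ]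

/-- the nonzero values of `Q` are equidistributed -/
theorem card_val_eq [Finite F] (hsq : ∀ a : F, ∃ c, c * c = a) (a : F) (ha : a ≠ 0) :
    Nat.card {v : V // Q v = a} = Nat.card {v : V // Q v = 1} := by
  obtain ⟨c, hc⟩ := hsq a
  have hc0 : c ≠ 0 := by rintro rfl; exact ha (by rw [← hc, mul_zero])
  refine Nat.card_congr ⟨fun v => ⟨c⁻¹ • v.1, ?_⟩, fun v => ⟨c • v.1, ?_⟩,
    fun v => Subtype.ext ?_, fun v => Subtype.ext ?_⟩
  · rw [QuadraticMap.map_smul, v.2, ← hc, smul_eq_mul]; field_simp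
  · rw [QuadraticMap.map_smul, v.2, hc, smul_eq_mul, mul_one]
  · simp [smul_smul, hc0]
  · simp [smul_smul, hc0]

theorem card_total [Fintype F] (hsq : ∀ a : F, ∃ c, c * c = a) :
    Nat.card V = Nat.card {v : V // Q v = 0} +
      (Fintype.card F - 1) * Nat.card {v : V // Q v = 1} := by
  classical
  haveI : Finite V := Module.finite_of_finite F
  rw [← Nat.card_congr (Equiv.sigmaFiberEquiv (fun u : V => Q u)), Nat.card_sigma,
    ← Finset.add_sum_erase _ _ (Finset.mem_univ (0 : F))]
  congr 1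
  rw [Finset.sum_congr rfl (fun a ha => card_val_eq Q hsq a (Finset.ne_of_mem_erase ha)),
    Finset.sum_const, Finset.card_erase_of_mem (Finset.mem_univ _), Finset.card_univ, smul_eq_mul]

end Cfsg.Agent.Lib.Helper16.OInv
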