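import Mathlib
import Cfsg.Agent.Lib.Helper16.OInv5

set_option autoImplicit false
set_option linter.unusedSectionVars false

namespace Cfsg.Agent.Lib.Helper16.OInv

open Cfsg Module QuadraticMap Matrix Cfsg.Agent.Lib.Helper16 Cfsg.Agent.Lib.Helper16.SpInv
  Cfsg.Agent.Lib.Helper16.POAut

variable {F : Type*} [Field F] {ι : Type} [Fintype ι] [DecidableEq ι]
  {Q : QuadraticForm F (ι → F)}

theorem isConj_sub_iff {G : Type*} [Group G] (H : Subgroup G) (a b : H) :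
    IsConj a b ↔ ∃ g ∈ H, g * (a : G) * g⁻¹ = (b : G) := by
  rw [isConj_iff]
  constructor
  · rintro ⟨c, hc⟩
    exact ⟨c, c.2, by rw [← hc]; simp⟩
  · rintro ⟨g, hg, h⟩
    exact ⟨⟨g, hg⟩, Subtype.ext (by simpa using h)⟩

theorem prop_aux (p q b : Prop) (h1 : ¬ (p ↔ q)) (h2 : ¬ (p ↔ b)) : q ↔ b := by tauto

set_option maxHeartbeats 4000000 in
/-- number of classes of involutions in `Ω(Q)`, characteristic two -/
theorem card_classes_omega [Finite F] (h2 : (2 : F) = 0) (hsq : ∀ a : F, ∃ c, c * c = a)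
    (hB : (polarBilin Q).Nondegenerate) (m w e : ℕ) (hm1 : 1 ≤ m)
    (hcard : Fintype.card ι = 2 * m) (hwm : w ≤ m) (he : e ≤ 1)
    {κ : Type*} [Fintype κ] (R : κ → (ι → F)) (hli : LinearIndependent F R)
    (h0 : ∀ i j, polarBilin Q (R i) (R j) = 0) (hQR : ∀ i, Q (R i) = 1) (hκ : Fintype.card κ = m)
    {κ' : Type*} [Fintype κ'] (R' : κ' → (ι → F)) (hli' : LinearIndependent F R')
    (h0' : ∀ i j, polarBilin Q (R' i) (R' j) = 0) (hQR' : ∀ i, Q (R' i) = 0)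
    (hκ' : Fintype.card κ' = w)
    (hw : ∀ U : Submodule F (ι → F), (∀ u ∈ U, Q u = 0) → finrank F U ≤ w)
    (ε : ↥(isometryGroup F ⇑Q) →* ℤˣ) (hε1 : ∀ g, g ∈ Omega F ⇑Q ↔ ε g = 1)
    (hε2 : ∀ g : ↥(isometryGroup F ⇑Q), ε g = 1 ↔ Even (((g : GL ι F) : Matrix ι ι F) - 1).rank)
    (bit : ↥(isometryGroup F ⇑Q) → Prop)
    (B1 : ∀ t, bit t → (((t : GL ι F) : Matrix ι ι F) - 1).rank = m ∧
      ∀ v, polarBilin Q v (((t : GL ι F) : Matrix ι ι F) *ᵥ v) = 0)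
    (B2 : ∀ t s g : ↥(isometryGroup F ⇑Q), t * t = 1 →
      (((t : GL ι F) : Matrix ι ι F) - 1).rank = m →
      (∀ v, polarBilin Q v (((t : GL ι F) : Matrix ι ι F) *ᵥ v) = 0) → g * t * g⁻¹ = s →
      (ε g = 1 ↔ (bit t ↔ bit s)))
    (B3 : e = 0 → ∀ t : ↥(isometryGroup F ⇑Q), t * t = 1 →
      ¬ ((((t : GL ι F) : Matrix ι ι F) - 1).rank = m ∧
      ∀ v, polarBilin Q v (((t : GL ι F) : Matrix ι ι F) *ᵥ v) = 0))
    (B4 : e = 1 → Even m ∧ w = m) :
    Nat.card {C : ConjClasses ↥(Omega F ⇑Q) //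
      ∃ g : ↥(Omega F ⇑Q), ConjClasses.mk g = C ∧ orderOf g = 2} = m / 2 + w / 2 + e := by
  classical
  let alt : ↥(isometryGroup F ⇑Q) → Prop := fun t =>
    ∀ v, polarBilin Q v (((t : GL ι F) : Matrix ι ι F) *ᵥ v) = 0
  let rk : ↥(isometryGroup F ⇑Q) → ℕ := fun t => (((t : GL ι F) : Matrix ι ι F) - 1).rank
  let spec : Fin (m / 2) ⊕ (Fin (w / 2) ⊕ Fin e) → ↥(isometryGroup F ⇑Q) → Prop := fun x t =>
    t * t = 1 ∧ match x with
      | Sum.inl i => rk t = 2 * ((i : ℕ) + 1) ∧ ¬ alt t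
      | Sum.inr (Sum.inl j) => rk t = 2 * ((j : ℕ) + 1) ∧ alt t ∧ ¬ bit t
      | Sum.inr (Sum.inr _) => rk t = m ∧ alt t ∧ bit t
  -- an element outside Ω
  obtain ⟨c, -, hc, -⟩ := exists_nonalt_O h2 hB R hli h0 hQR 1 le_rfl (by omega)
  have hcε : ε c ≠ 1 := by rw [Ne, hε2, hc]; decide
  -- conjugation invariance
  have hinv : ∀ t g : ↥(isometryGroup F ⇑Q), (g * t * g⁻¹) * (g * t * g⁻¹) = 1 ↔ t * t = 1 := by
    intro t g
    have : (g * t * g⁻¹) * (g * t * g⁻¹) = g * (t * t) * g⁻¹ := by group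
    rw [this]
    constructor
    · intro h
      have h' : t * t = g⁻¹ * (g * (t * t) * g⁻¹) * g := by group
      rw [h', h]; group
    · intro h; rw [h]; group
  have hinv2 : ∀ t g : ↥(isometryGroup F ⇑Q), rk t = rk (g * t * g⁻¹) ∧
      (alt t ↔ alt (g * t * g⁻¹)) := by
    intro t g
    exact inv_of_conj (PB_of_iso g.2) (by
      rw [← Subgroup.coe_mul, ← Subgroup.coe_mul]; congr 1; group)
  -- adjust the bit
  have hadj : ∀ t : ↥(isometryGroup F ⇑Q), t * t = 1 → rk t = m → alt t → ∀ b : Prop,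
      ∃ t', t' * t' = 1 ∧ rk t' = m ∧ alt t' ∧ (bit t' ↔ b) := by
    intro t ht hr ha b
    by_cases hb : bit t ↔ b
    · exact ⟨t, ht, hr, ha, hb⟩
    · refine ⟨c * t * c⁻¹, (hinv t c).2 ht, (hinv2 t c).1 ▸ hr, (hinv2 t c).2.1 ha, ?_⟩
      have := B2 t _ c ht hr ha rfl
      exact prop_aux _ _ _ (fun h => hcε (this.2 h)) hb
  have H1 : ∀ x, ∃ t, spec x t := by
    rintro (i | j | j)
    · obtain ⟨t, h1, h3, h4⟩ := exists_nonalt_O h2 hB R hli h0 hQR (2 * ((i : ℕ) + 1)) (by omega)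
        (by have := i.2; omega)
      exact ⟨t, h1, h3, h4⟩
    · obtain ⟨t, h1, h3, h4⟩ := exists_alt_O h2 hB R' hli' h0' hQR' ((j : ℕ) + 1)
        (by have := j.2; omega)
      by_cases hb : bit t
      · obtain ⟨t', k1, k2, k3, k4⟩ := hadj t h1 (B1 t hb).1 h4 False
        exact ⟨t', k1, by rw [k2, ← (B1 t hb).1]; exact h3, k3, by simpa using k4⟩
      · exact ⟨t, h1, h3, h4, hb⟩
    · have he1 : e = 1 := by have := j.2; omega
      obtain ⟨⟨k, hk⟩, hwm'⟩ := B4 he1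
      obtain ⟨t, h1, h3, h4⟩ := exists_alt_O h2 hB R' hli' h0' hQR' k (by omega)
      obtain ⟨t', k1, k2, k3, k4⟩ := hadj t h1
        (by show (((t : GL ι F) : Matrix ι ι F) - 1).rank = m; omega) h4 True
      exact ⟨t', k1, k2, k3, by simpa using k4⟩
  have Hrk : ∀ x t, spec x t → Even (rk t) ∧ 1 ≤ rk t := by
    rintro (i | j | j) t ⟨h1, h3⟩
    · exact ⟨⟨(i : ℕ) + 1, by rw [h3.1]; ring⟩, by rw [h3.1]; omega⟩
    · exact ⟨⟨(j : ℕ) + 1, by rw [h3.1]; ring⟩, by rw [h3.1]; omega⟩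
    · exact ⟨even_rank_of_alt h2 hB h1 h3.2.1, by rw [h3.1]; exact hm1⟩
  have HΩ : ∀ x t, spec x t → t ∈ Omega F ⇑Q := fun x t h => by
    rw [hε1, hε2]; exact (Hrk x t h).1
  have H5 : ∀ x t, spec x t → orderOf t = 2 := by
    intro x t h
    apply orderOf_eq_prime (by rw [_root_.sq, h.1])
    rintro rfl
    have : rk (1 : ↥(isometryGroup F ⇑Q)) = 0 := by simp [rk]
    have := (Hrk x 1 h).2
    omega
  have H2 : ∀ t, t ∈ Omega F ⇑Q → orderOf t = 2 → ∃ x, spec x t := by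
    intro t htΩ ht
    have h1 : t * t = 1 := by
      have := pow_orderOf_eq_one t
      rw [ht, _root_.sq] at this; exact this
    have hne : t ≠ 1 := by
      rintro rfl
      simp at ht
    have h3 := rank_le h2 (coe_sq h1)
    have h4 := rank_pos (a := (t : GL ι F)) (fun h => hne (Subtype.ext h))
    rw [hε1, hε2] at htΩ
    obtain ⟨k, hk⟩ := htΩ
    by_cases ha : alt t
    · have h5 := hw _ (range_singular h2 ha)
      rw [← rank_eq] at h5
      by_cases hb : bit t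
      · have he1 : e ≠ 0 := fun h => B3 h t h1 (B1 t hb)
        exact ⟨Sum.inr (Sum.inr ⟨0, by omega⟩), h1, (B1 t hb).1, ha, hb⟩
      · refine ⟨Sum.inr (Sum.inl ⟨k - 1, by omega⟩), h1, ?_, ha, hb⟩
        show (((t : GL ι F) : Matrix ι ι F) - 1).rank = 2 * (k - 1 + 1)
        omega
    · refine ⟨Sum.inl ⟨k - 1, by omega⟩, h1, ?_, ha⟩
      show (((t : GL ι F) : Matrix ι ι F) - 1).rank = 2 * (k - 1 + 1)
      omega
  have Hdata : ∀ x t t', spec x t → spec x t' → rk t = rk t' ∧ (alt t ↔ alt t') ∧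
      (bit t ↔ bit t') := by
    rintro (i | j | j) t t' ⟨h1, h3⟩ ⟨h1', h3'⟩
    · refine ⟨h3.1.trans h3'.1.symm, by simp [h3.2, h3'.2], ?_⟩
      have a1 : ¬ bit t := fun h => h3.2 (B1 t h).2
      have a2 : ¬ bit t' := fun h => h3'.2 (B1 t' h).2
      simp [a1, a2]
    · exact ⟨h3.1.trans h3'.1.symm, by simp [h3.2.1, h3'.2.1], by simp [h3.2.2, h3'.2.2]⟩
    · exact ⟨h3.1.trans h3'.1.symm, by simp [h3.2.1, h3'.2.1], by simp [h3.2.2, h3'.2.2]⟩
  have H3 : ∀ x t t', spec x t → spec x t' → ∃ g ∈ Omega F ⇑Q, g * t * g⁻¹ = t' := by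
    intro x t t' hs hs'
    obtain ⟨e1, e2, e3⟩ := Hdata x t t' hs hs'
    have hconj : IsConj t t' := (isConj_iff_inv h2 hsq hB hs.1 hs'.1).2 ⟨e1, e2⟩
    by_cases hexc : rk t = m ∧ alt t
    · obtain ⟨g, hg⟩ := isConj_iff.1 hconj
      exact ⟨g, (hε1 g).2 ((B2 t t' g hs.1 hexc.1 hexc.2 hg).2 e3), hg⟩
    · obtain ⟨g, hg1, hg2⟩ := omega_conj_generic h2 hsq hB hcard
        (fun U hU => (hw U hU).trans hwm) ε hε2 hs.1 hexc hconj
      exact ⟨g, (hε1 g).2 hg1, hg2⟩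
  have H4 : ∀ x x' t t', spec x t → spec x' t' → (∃ g ∈ Omega F ⇑Q, g * t * g⁻¹ = t') →
      x = x' := by
    intro x x' t t' hs hs' ⟨g, hgΩ, hg⟩
    subst hg
    obtain ⟨e1, e2⟩ := hinv2 t g
    have e3 : bit t ↔ bit (g * t * g⁻¹) := by
      by_cases hexc : rk t = m ∧ alt t
      · exact (B2 t _ g hs.1 hexc.1 hexc.2 rfl).1 ((hε1 g).1 hgΩ)
      · have a1 : ¬ bit t := fun h => hexc (B1 t h)
        have a2 : ¬ bit (g * t * g⁻¹) := fun h => hexc
          ⟨e1.trans (B1 _ h).1, e2.2 (B1 _ h).2⟩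
        simp [a1, a2]
    obtain ⟨-, h3⟩ := hs
    obtain ⟨-, h3'⟩ := hs'
    rcases x with i | j | j <;> rcases x' with i' | j' | j'
    · congr 1; apply Fin.ext
      have := h3.1; have := h3'.1; omega
    · exact absurd (e2.2 h3'.2.1) h3.2
    · exact absurd (e2.2 h3'.2.1) h3.2
    · exact absurd (e2.1 h3.2.1) h3'.2
    · congr 2; apply Fin.ext
      have := h3.1; have := h3'.1; omega
    · exact absurd (e3.2 h3'.2.2) h3.2.2
    · exact absurd (e2.1 h3.2.1) h3'.2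
    · exact absurd (e3.1 h3.2.2) h3'.2.2
    · congr 2; apply Fin.ext
      have := j.2; have := j'.2; omega
  have hbij : Function.Bijective (fun x : Fin (m / 2) ⊕ (Fin (w / 2) ⊕ Fin e) =>
      (⟨ConjClasses.mk (⟨(H1 x).choose, HΩ x _ (H1 x).choose_spec⟩ : ↥(Omega F ⇑Q)),
        ⟨(H1 x).choose, HΩ x _ (H1 x).choose_spec⟩, rfl, by
          rw [← Subgroup.orderOf_coe]; exact H5 x _ (H1 x).choose_spec⟩ :
        {C : ConjClasses ↥(Omega F ⇑Q) //
          ∃ g : ↥(Omega F ⇑Q), ConjClasses.mk g = C ∧ orderOf g = 2})) := by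
    constructor
    · intro x x' h
      have h' := congrArg Subtype.val h
      simp only [ConjClasses.mk_eq_mk_iff_isConj, isConj_sub_iff] at h'
      exact H4 x x' _ _ (H1 x).choose_spec (H1 x').choose_spec h'
    · rintro ⟨_, g, rfl, hg⟩
      rw [← Subgroup.orderOf_coe] at hg
      obtain ⟨x, hx⟩ := H2 g g.2 hg
      refine ⟨x, Subtype.ext ?_⟩
      simp only [ConjClasses.mk_eq_mk_iff_isConj, isConj_sub_iff]
      exact H3 x _ _ (H1 x).choose_spec hx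
  rw [← Nat.card_congr (Equiv.ofBijective _ hbij)]
  simp [add_assoc]

end Cfsg.Agent.Lib.Helper16.OInv
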