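import Mathlib
import Cfsg.Agent.Lib.Helper16.SpInv4

set_option autoImplicit false
set_option linter.unusedSectionVars false

namespace Cfsg.Agent.Lib.Helper16.SpInv

open Module Matrix

variable {F V : Type*} [Field F] [AddCommGroup V] [Module F V] [FiniteDimensional F V]
  {B : LinearMap.BilinForm F V} {ι : Type*} [Fintype ι] [DecidableEq ι]

/-- the permutation matrix of `π` -/
def Pm (F : Type*) [Field F] (π : ι → ι) : Matrix ι ι F :=
  Matrix.of fun a b => if b = π a then 1 else 0

theorem Pm_mul_self (π : ι → ι) (hπ : Function.Involutive π) : Pm F π * Pm F π = 1 := by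
  ext a c
  simp only [Matrix.mul_apply, Pm, Matrix.of_apply, ite_mul, one_mul, zero_mul,
    Finset.sum_ite_eq', Finset.mem_univ, if_true, hπ a, Matrix.one_apply]
  simp only [eq_comm]

/-- the operator attached to a matrix and a frame -/
noncomputable def TM (B : LinearMap.BilinForm F V) (r : ι → V) (M : Matrix ι ι F) (z : V) : V :=
  ∑ j, ∑ k, (M j k * B z (r j)) • r k

theorem TM_inj (hB : B.Nondegenerate) {r : ι → V} (hr : LinearIndependent F r)
    {M M' : Matrix ι ι F} (h : ∀ z, TM B r M z = TM B r M' z) : M = M' := by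
  ext j0 k0
  obtain ⟨z, hz⟩ := exists_dual hB r hr (fun j => if j = j0 then 1 else 0)
  have h1 := h z
  simp only [TM, hz, mul_ite, mul_one, mul_zero, ite_smul, zero_smul, Finset.sum_ite_irrel,
    Finset.sum_const_zero, Finset.sum_ite_eq', Finset.mem_univ, if_true] at h1
  have h2 := Fintype.linearIndependent_iff.1 hr (fun k => M j0 k - M' j0 k) (by
    simp only [sub_smul, Finset.sum_sub_distrib, h1, sub_self]) k0
  exact sub_eq_zero.1 h2

/-- transformed frame -/
def fr (r : ι → V) (A : Matrix ι ι F) (i : ι) : V := ∑ j, A i j • r j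

theorem conj_entry (π : ι → ι) (A : Matrix ι ι F) (j k : ι) :
    (Aᵀ * Pm F π * A) j k = ∑ a, A a j * A (π a) k := by
  simp only [Matrix.mul_apply, Pm, Matrix.of_apply, Matrix.transpose_apply, mul_ite, mul_one,
    mul_zero, Finset.sum_mul, ite_mul, zero_mul]
  rw [Finset.sum_comm]
  simp

theorem sum_eq_TM (π : ι → ι) (r : ι → V) (z : V) :
    ∑ i, B z (r i) • r (π i) = TM B r (Pm F π) z := by
  simp only [TM, Pm, Matrix.of_apply, ite_mul, one_mul, zero_mul, ite_smul, zero_smul,
    Finset.sum_ite_eq', Finset.mem_univ, if_true]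

theorem sum_fr_eq_TM (π : ι → ι) (r : ι → V) (A : Matrix ι ι F) (z : V) :
    ∑ i, B z (fr r A i) • fr r A (π i) = TM B r (Aᵀ * Pm F π * A) z := by
  simp only [TM, conj_entry, fr, map_sum, map_smul, smul_eq_mul, Finset.sum_smul, Finset.smul_sum,
    smul_smul, Finset.sum_mul]
  rw [Finset.sum_comm]
  conv_rhs => rw [Finset.sum_comm]
  refine Finset.sum_congr rfl fun k _ => ?_
  rw [Finset.sum_comm]
  refine Finset.sum_congr rfl fun j _ => ?_
  refine Finset.sum_congr rfl fun a _ => ?_
  congr 1; ring

theorem NF.range_eq (hB : B.Nondegenerate) {N : V →ₗ[F] V}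
    {π : ι → ι} (hπ : Function.Involutive π) {r : ι → V} (h : NF B N π r) :
    LinearMap.range N = Submodule.span F (Set.range r) := by
  apply le_antisymm
  · rintro _ ⟨z, rfl⟩
    rw [h.formula]
    exact Submodule.sum_mem _ fun i _ => Submodule.smul_mem _ _
      (Submodule.subset_span (Set.mem_range_self _))
  · rw [Submodule.span_le]
    rintro _ ⟨j, rfl⟩
    obtain ⟨z, hz⟩ := exists_dual hB r h.li (fun i => if i = π j then 1 else 0)
    refine ⟨z, ?_⟩
    rw [h.formula]
    simp only [hz, ite_smul, one_smul, zero_smul, Finset.sum_ite_eq', Finset.mem_univ, if_true]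
    rw [hπ j]

theorem fr_nf (hB : B.Nondegenerate) {N : V →ₗ[F] V} {π : ι → ι} (hπ : Function.Involutive π)
    {r : ι → V} (h : NF B N π r) (A : Matrix ι ι F) (hA : Aᵀ * Pm F π * A = Pm F π) :
    NF B N π (fr r A) := by
  refine ⟨?_, ?_, ?_⟩
  · have hu : IsUnit A := by
      rw [Matrix.isUnit_iff_isUnit_det]
      apply Matrix.isUnit_det_of_left_inverse (B := Pm F π * Aᵀ * Pm F π)
      rw [mul_assoc, mul_assoc, ← mul_assoc Aᵀ, hA, Pm_mul_self π hπ]
    rw [Fintype.linearIndependent_iff]
    intro c hc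
    have h1 : ∑ j, (c ᵥ* A) j • r j = 0 := by
      rw [← hc]
      simp only [fr, Matrix.vecMul, dotProduct, Finset.sum_smul, Finset.smul_sum, smul_smul]
      rw [Finset.sum_comm]
    have h2 := Fintype.linearIndependent_iff.1 h.li _ h1
    have h3 : c ᵥ* A = 0 := funext h2
    have h4 := Matrix.vecMul_injective_iff_isUnit.2 hu (h3.trans (Matrix.zero_vecMul A).symm)
    intro i
    rw [h4]; rfl
  · intro i j
    simp only [fr, map_sum, LinearMap.sum_apply, map_smul, LinearMap.smul_apply, h.iso, smul_zero,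
      Finset.sum_const_zero]
  · intro z
    rw [sum_fr_eq_TM, hA, ← sum_eq_TM, h.formula]

/-- the frames giving the same operator are counted by the isometries of the Gram form -/
theorem card_fiber (hB : B.Nondegenerate) {N : V →ₗ[F] V} {π : ι → ι}
    (hπ : Function.Involutive π) {r : ι → V} (h : NF B N π r) :
    Nat.card {f : ι → V // NF B N π f} =
      Nat.card {A : Matrix ι ι F // Aᵀ * Pm F π * A = Pm F π} := by
  symm
  apply Nat.card_congr
  refine Equiv.ofBijective (fun A => ⟨fr r A.1, fr_nf hB hπ h A.1 A.2⟩) ⟨?_, ?_⟩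
  · intro A A' hAA
    have h1 : fr r A.1 = fr r A'.1 := congrArg Subtype.val hAA
    apply Subtype.ext
    ext i j
    have h2 := Fintype.linearIndependent_iff.1 h.li (fun j => A.1 i j - A'.1 i j) (by
      have := congrFun h1 i
      simp only [fr] at this
      simp only [sub_smul, Finset.sum_sub_distrib, this, sub_self]) j
    exact sub_eq_zero.1 h2
  · rintro ⟨f, hf⟩
    have h1 : ∀ i, ∃ c : ι → F, ∑ j, c j • r j = f i := by
      intro i
      rw [← Submodule.mem_span_range_iff_exists_fun, ← h.range_eq hB hπ, hf.range_eq hB hπ]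
      exact Submodule.subset_span (Set.mem_range_self i)
    choose A hA using h1
    have hfr : fr r (Matrix.of A) = f := funext hA
    refine ⟨⟨Matrix.of A, ?_⟩, Subtype.ext hfr⟩
    apply TM_inj hB h.li
    intro z
    rw [← sum_fr_eq_TM, hfr, ← hf.formula, h.formula, sum_eq_TM]

end Cfsg.Agent.Lib.Helper16.SpInv
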