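import Mathlib
import Cfsg.Agent.Lib.Helper16.OCent1
import Cfsg.Agent.Lib.Helper16.OInv6
import Cfsg.Agent.Lib.Helper16.SpInv5

set_option autoImplicit false
set_option linter.unusedSectionVars false

namespace Cfsg.Agent.Lib.Helper16.OInv

open Cfsg Module QuadraticMap Matrix Cfsg.Agent.Lib.Helper16 Cfsg.Agent.Lib.Helper16.SpInv
  Cfsg.Agent.Lib.Helper16.POAut

variable {F : Type*} [Field F] {ι : Type} [Fintype ι] [DecidableEq ι]
  (Q : QuadraticForm F (ι → F))

/-- the action of `O(Q)` on families of vectors -/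
@[reducible] def frActO (κ : Type*) :
    MulAction ↥(isometryGroup F ⇑Q) (κ → (ι → F)) where
  smul g f := fun i => ((g : GL ι F) : Matrix ι ι F) *ᵥ f i
  one_smul f := by
    funext i
    change (1 : Matrix ι ι F) *ᵥ f i = f i
    simp
  mul_smul g h f := by
    funext i
    change (((g : GL ι F) : Matrix ι ι F) * ((h : GL ι F) : Matrix ι ι F)) *ᵥ f i
      = ((g : GL ι F) : Matrix ι ι F) *ᵥ (((h : GL ι F) : Matrix ι ι F) *ᵥ f i)
    rw [Matrix.mulVec_mulVec]

/-- pointwise stabiliser of a family -/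
def fixO {κ : Type*} (r : κ → (ι → F)) : Subgroup ↥(isometryGroup F ⇑Q) :=
  @MulAction.stabilizer _ _ _ (frActO Q κ) r

variable {Q}

theorem mem_fixO {κ : Type*} (r : κ → (ι → F)) (g : ↥(isometryGroup F ⇑Q)) :
    g ∈ fixO Q r ↔ ∀ i, ((g : GL ι F) : Matrix ι ι F) *ᵥ r i = r i := by
  letI := frActO Q κ
  unfold fixO
  rw [MulAction.mem_stabilizer_iff, funext_iff]
  rfl

theorem li_smul {κ : Type*} (g : GL ι F) {r : κ → (ι → F)} (h : LinearIndependent F r) :
    LinearIndependent F (fun i => (g : Matrix ι ι F) *ᵥ r i) :=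
  h.map' (glEquiv F ι g).toLinearMap (LinearEquiv.ker _)

theorem exists_O_of_equiv (φ : (ι → F) ≃ₗ[F] (ι → F)) (hφ : ∀ x, Q (φ x) = Q x) :
    ∃ g : ↥(isometryGroup F ⇑Q), ∀ x, ((g : GL ι F) : Matrix ι ι F) *ᵥ x = φ x := by
  obtain ⟨G, hG⟩ := exists_gl_of_equiv φ
  exact ⟨⟨G, by rw [mem_iso_iff]; intro v; rw [hG, hφ]⟩, hG⟩

theorem card_fixO [Finite F] (hB : (polarBilin Q).Nondegenerate) {s : ℕ}
    (r : Fin s → (ι → F)) (hr : ONFr Q s r) :
    Nat.card (fixO Q r) * Nat.card {f : Fin s → (ι → F) // ONFr Q s f}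
      = Nat.card ↥(isometryGroup F ⇑Q) := by
  letI := frActO Q (Fin s)
  have h := (MulAction.stabilizer ↥(isometryGroup F ⇑Q) r).card_mul_index
  rw [MulAction.index_stabilizer] at h
  have horb : MulAction.orbit ↥(isometryGroup F ⇑Q) r = {f | ONFr Q s f} := by
    ext f
    constructor
    · rintro ⟨g, rfl⟩
      refine ⟨li_smul _ hr.1, fun i j => ?_, fun i => ?_⟩
      · exact (PB_of_iso g.2 _ _).trans (hr.2.1 i j)
      · exact ((mem_iso_iff Q _).1 g.2 _).trans (hr.2.2 i)
    · intro hf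
      obtain ⟨φ, hφ1, hφ2⟩ := witt_q Q hB r f hr.1 hf.1 hr.2.1 hf.2.1
        (fun i => by rw [hr.2.2, hf.2.2])
      obtain ⟨g, hg⟩ := exists_O_of_equiv φ hφ1
      exact ⟨g, funext fun i => (hg _).trans (hφ2 i)⟩
  rw [horb, ← Nat.card_coe_set_eq] at h
  exact h

theorem comm_iff_O (g t : ↥(isometryGroup F ⇑Q)) :
    g * t = t * g ↔ ∀ z, ((g : GL ι F) : Matrix ι ι F) *ᵥ (NG (t : GL ι F) z) =
      NG (t : GL ι F) (((g : GL ι F) : Matrix ι ι F) *ᵥ z) := by
  constructor
  · intro h z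
    have h' : (g : GL ι F) * (t : GL ι F) = (t : GL ι F) * (g : GL ι F) := by
      rw [← Subgroup.coe_mul, h, Subgroup.coe_mul]
    rw [NG_apply, NG_apply, Matrix.mulVec_sub, ← gl_mul_mulVec, h', gl_mul_mulVec]
  · intro h
    apply Subtype.ext
    apply gl_ext
    intro z
    have := h z
    rw [NG_apply, NG_apply, Matrix.mulVec_sub] at this
    simp only [Subgroup.coe_mul]
    rw [gl_mul_mulVec, gl_mul_mulVec]
    exact sub_left_injective this

theorem card_centralizer_O [Finite F] (h2 : (2 : F) = 0) (hB : (polarBilin Q).Nondegenerate)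
    (t : ↥(isometryGroup F ⇑Q)) {κ : Type*} [Fintype κ]
    [DecidableEq κ] {π : κ → κ} (hπ : Function.Involutive π) {r : κ → (ι → F)}
    (h : NF (polarBilin Q) (NG (t : GL ι F)) π r) :
    Nat.card (Subgroup.centralizer ({t} : Set ↥(isometryGroup F ⇑Q))) =
      Nat.card (fixO Q r) *
        Nat.card {f : κ → (ι → F) // NF (polarBilin Q) (NG (t : GL ι F)) π f} := by
  classical
  letI := frActO Q κ
  set C := Subgroup.centralizer ({t} : Set ↥(isometryGroup F ⇑Q)) with hC
  have hmemC : ∀ g, g ∈ C ↔ g * t = t * g := fun g => by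
    rw [hC, Subgroup.mem_centralizer_singleton_iff]
  have hTS : fixO Q r ≤ C := by
    intro g hg
    rw [mem_fixO] at hg
    rw [hmemC, comm_iff_O]
    intro z
    rw [h.formula, h.formula, Matrix.mulVec_sum]
    refine Finset.sum_congr rfl fun i _ => ?_
    rw [Matrix.mulVec_smul, hg]
    congr 1
    conv_rhs => rw [← hg i]
    exact (PB_of_iso g.2 _ _).symm
  have hh := (MulAction.stabilizer C r).card_mul_index
  rw [MulAction.index_stabilizer] at hh
  have hst : MulAction.stabilizer C r = (fixO Q r).subgroupOf C := by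
    ext g
    rw [MulAction.mem_stabilizer_iff, Subgroup.mem_subgroupOf]
    unfold fixO
    rw [MulAction.mem_stabilizer_iff]
    rfl
  have horb : MulAction.orbit C r = {f | NF (polarBilin Q) (NG (t : GL ι F)) π f} := by
    ext f
    constructor
    · rintro ⟨g, rfl⟩
      have hg := (comm_iff_O g.1 t).1 ((hmemC g.1).1 g.2)
      refine ⟨li_smul _ h.li, ?_, ?_⟩
      · intro i j
        exact (PB_of_iso g.1.2 _ _).trans (h.iso i j)
      · intro z
        obtain ⟨z', rfl⟩ := (glEquiv F ι (g.1 : GL ι F)).surjective z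
        show NG (t : GL ι F) (((g.1 : GL ι F) : Matrix ι ι F) *ᵥ z') =
          ∑ i, polarBilin Q (((g.1 : GL ι F) : Matrix ι ι F) *ᵥ z')
            (((g.1 : GL ι F) : Matrix ι ι F) *ᵥ r i) •
            (((g.1 : GL ι F) : Matrix ι ι F) *ᵥ r (π i))
        rw [← hg, h.formula, Matrix.mulVec_sum]
        refine Finset.sum_congr rfl fun i _ => ?_
        rw [Matrix.mulVec_smul, PB_of_iso g.1.2]
    · intro hf
      obtain ⟨φ, hφ1, hφ2⟩ := witt_q Q hB r f h.li hf.li h.iso hf.iso (fun i => by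
        rw [NF.Q_eq h2 hB (NG_Q t.2) hπ h, NF.Q_eq h2 hB (NG_Q t.2) hπ hf])
      have hφB : ∀ x y, polarBilin Q (φ x) (φ y) = polarBilin Q x y := by
        intro x y
        simp only [polarBilin_apply_apply, polar, ← map_add, hφ1]
      obtain ⟨g, hg⟩ := exists_O_of_equiv φ hφ1
      have hgC : g ∈ C := by
        rw [hmemC, comm_iff_O]
        intro z
        rw [hg, hg, h.formula, hf.formula, map_sum]
        refine Finset.sum_congr rfl fun i _ => ?_
        rw [map_smul, hφ2, ← hφ2 i, hφB]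
      exact ⟨⟨g, hgC⟩, funext fun i => (hg _).trans (hφ2 i)⟩
  rw [hst, horb, ← Nat.card_coe_set_eq,
    Nat.card_congr (Subgroup.subgroupOfEquivOfLe hTS).toEquiv] at hh
  rw [← hh]
  rfl

/-- halving: the part of a centraliser inside the kernel of a sign character -/
theorem card_ker_centralizer {G : Type*} [Group G] [Finite G] (ε : G →* ℤˣ) (t c : G)
    (hc : c * t = t * c) (hc1 : ε c ≠ 1) :
    2 * Nat.card {g : ε.ker // (g : G) * t = t * (g : G)} =
      Nat.card (Subgroup.centralizer ({t} : Set G)) := by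
  set C := Subgroup.centralizer ({t} : Set G) with hC
  have hmemC : ∀ g, g ∈ C ↔ g * t = t * g := fun g => by
    rw [hC, Subgroup.mem_centralizer_singleton_iff]
  let ε' : C →* ℤˣ := ε.comp C.subtype
  have h1 := ε'.ker.card_mul_index
  rw [Subgroup.index_ker] at h1
  have hsurj : ε'.range = ⊤ := by
    rw [eq_top_iff]
    intro u _
    rcases Int.units_eq_one_or u with rfl | rfl
    · exact one_mem _
    · refine ⟨⟨c, (hmemC c).2 hc⟩, ?_⟩
      rcases Int.units_eq_one_or (ε c) with h | h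
      · exact absurd h hc1
      · exact h
  rw [hsurj, Nat.card_congr Subgroup.topEquiv.toEquiv] at h1
  have h3 : Nat.card ℤˣ = 2 := by simp
  rw [h3] at h1
  rw [← h1, mul_comm]
  congr 1
  refine Nat.card_congr ⟨fun g => ⟨⟨g.1.1, (hmemC _).2 g.2⟩, g.1.2⟩,
    fun g => ⟨⟨g.1.1, g.2⟩, (hmemC _).1 g.1.2⟩, fun g => rfl, fun g => rfl⟩

end Cfsg.Agent.Lib.Helper16.OInv
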