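import Cfsg.Agent.Lib.Helper16.StdForms
import Cfsg.Agent.Lib.Helper6.SympBasis
import Cfsg.Prelude.Def_ClassicalGeometry

set_option autoImplicit false

namespace Cfsg.Agent.Lib.Helper16

open Module QuadraticMap Cfsg

universe u v

variable {F : Type u} [Field F] {V : Type v} [AddCommGroup V] [Module F V]

theorem equivFun_basis {ι : Type*} [Fintype ι] [DecidableEq ι] (b : Basis ι F V) (i : ι) :
    b.equivFun (b i) = Pi.single i 1 := by
  funext j
  rw [Basis.equivFun_self, Pi.single_apply]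
  simp [eq_comm]

theorem iso_of_basis {ι : Type*} [Fintype ι] [DecidableEq ι] (b : Basis ι F V) (Q : QuadraticForm F V)
    (Q' : QuadraticForm F (ι → F))
    (h1 : ∀ i j, i ≠ j → polar Q (b i) (b j) = polar Q' (Pi.single i 1) (Pi.single j 1))
    (h2 : ∀ i, Q (b i) = Q' (Pi.single i 1)) : ∀ v, Q' (b.equivFun v) = Q v := by
  have key : Q = Q'.comp (b.equivFun : V →ₗ[F] (ι → F)) := by
    apply ext_basis b
    · intro i j hij
      rw [h1 i j hij]
      simp only [polar, QuadraticMap.comp_apply, LinearEquiv.coe_coe, map_add, equivFun_basis]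
    · intro i
      rw [h2 i]
      simp only [QuadraticMap.comp_apply, LinearEquiv.coe_coe, equivFun_basis]
  intro v
  rw [key]
  rfl

theorem plus_iso_of_singular [FiniteDimensional F V] (Q : QuadraticForm F V)
    (hQ : (polarBilin Q).Nondegenerate) (m : ℕ) (hV : finrank F V = 2 * m) (U : Submodule F V)
    (hU : ∀ u ∈ U, Q u = 0) (hUm : finrank F U = m) :
    ∃ ψ : V ≃ₗ[F] (Fin m ⊕ Fin m → F), ∀ v, quadFormPlus m F (ψ v) = Q v := by
  classical
  obtain ⟨k, e, f, hs, han⟩ := witt_decomp2 (2 * m) V Q hQ hV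
  have h1 := witt_index_le Q hQ e f hs han U hU
  have hli := hyp_linIndep Q e f hs (fun i : Fin 0 => (i.elim0 : V)) (linearIndependent_empty_type)
      (fun _ j => j.elim0)
  have hli' := hli.comp Sum.inl Sum.inl_injective
  have h2 := hli'.fintype_card_le_finrank
  simp only [Fintype.card_sum, Fintype.card_fin] at h2
  obtain rfl : k = m := by omega
  obtain ⟨b, hb⟩ := exists_basis_of_li _ hli' (by simp [hV]; ring)
  obtain ⟨g1, g2, g3, g4, g5⟩ := hs
  refine ⟨b.equivFun, fun v => ?_⟩
  rw [← qPlus_apply]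
  apply iso_of_basis b Q (qPlus k F)
  · intro i j _
    rw [qPlus_coe, polar_plus]
    rcases i with i | i <;> rcases j with j | j <;>
      simp only [hb, Function.comp, Sum.elim_inl, Sum.elim_inr]
    · rw [g4]; simp [Pi.single_apply]
    · rw [g3]; simp [Pi.single_apply, eq_comm]
    · rw [polar_comm, g3]; simp [Pi.single_apply, eq_comm]
    · rw [g5]; simp [Pi.single_apply]
  · intro i
    rw [qPlus_apply]
    rcases i with i | i <;> simp only [hb, Function.comp, Sum.elim_inl, Sum.elim_inr]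
    · rw [g1]; simp [quadFormPlus, Pi.single_apply]
    · rw [g2]; simp [quadFormPlus, Pi.single_apply]

theorem symp_iso [FiniteDimensional F V] (B : LinearMap.BilinForm F V) (hA : B.IsAlt)
    (hnd : ∀ u, (∀ v, B u v = 0) → u = 0) (n : ℕ) (hn : finrank F V = 2 * n) :
    ∃ ψ : V ≃ₗ[F] (Fin n ⊕ Fin n → F), ∀ u v, sympForm n F (ψ u) (ψ v) = B u v := by
  classical
  obtain ⟨m, k, b, h1, h2, h3, h4⟩ := Cfsg.Agent.Lib.Helper6.exists_symp_basis B hA
  have hk : k = 0 := by
    by_contra hk
    have hpos : 0 < k := Nat.pos_of_ne_zero hk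
    exact b.ne_zero (Sum.inr ⟨0, hpos⟩) (hnd _ (h4 _))
  subst hk
  have hm : m = n := by
    have := Module.finrank_eq_card_basis b
    simp only [Fintype.card_sum, Fintype.card_fin] at this
    omega
  subst hm
  let e : (Fin m ⊕ Fin m) ⊕ Fin 0 ≃ Fin m ⊕ Fin m := (Equiv.sumEmpty _ _).trans (Equiv.sumComm _ _)
  let b' := b.reindex e
  have hbl : ∀ x, b' (Sum.inl x) = b (Sum.inl (Sum.inr x)) := fun x => by
    simp [b', e, Basis.reindex_apply]
  have hbr : ∀ x, b' (Sum.inr x) = b (Sum.inl (Sum.inl x)) := fun x => by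
    simp [b', e, Basis.reindex_apply]
  have hsw : ∀ x y, B x y = - B y x := fun x y => (LinearMap.IsAlt.neg hA y x).symm
  let S : LinearMap.BilinForm F (Fin m ⊕ Fin m → F) := Matrix.toBilin' (Matrix.J (Fin m) F)
  have hS : ∀ x y, S x y = sympForm m F x y := fun x y => by
    simp only [S, Matrix.toBilin'_apply', sympForm]
  have key : S.comp (b'.equivFun : V →ₗ[F] _) (b'.equivFun : V →ₗ[F] _) = B := by
    apply LinearMap.BilinForm.ext_basis b'
    intro i j
    simp only [LinearMap.BilinForm.comp_apply, LinearEquiv.coe_coe, equivFun_basis, S,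
      Matrix.toBilin'_single]
    rcases i with i | i <;> rcases j with j | j
    · rw [hbl, hbl, h3]; simp [Matrix.J]
    · rw [hbl, hbr, hsw, h1]; simp [Matrix.J, Matrix.one_apply, eq_comm]
    · rw [hbr, hbl, h1]; simp [Matrix.J, Matrix.one_apply]
    · rw [hbr, hbr, h2]; simp [Matrix.J]
  refine ⟨b'.equivFun, fun u v => ?_⟩
  rw [← hS, ← key]
  rfl

end Cfsg.Agent.Lib.Helper16
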