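import Mathlib
import Cfsg.Agent.Lib.Helper16.SpInv5
import Cfsg.Agent.S0775

set_option autoImplicit false
set_option linter.unusedSectionVars false

namespace Cfsg.Agent.Lib.Helper16.SpInv

open Cfsg Cfsg.Agent.Lib.Helper6 Cfsg.Agent.Lib.Helper12 Module Matrix

variable {F : Type*} [Field F] {m : ℕ}

/-- the action of `Sp` on families of vectors -/
@[reducible] def frActI (F : Type*) [Field F] (m : ℕ) (ι : Type*) :
    MulAction (symplecticGroup (Fin m) F) (ι → (Fin m ⊕ Fin m → F)) where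
  smul g f := fun i => (g : Matrix (Fin m ⊕ Fin m) (Fin m ⊕ Fin m) F) *ᵥ f i
  one_smul f := by
    funext i
    change (1 : Matrix (Fin m ⊕ Fin m) (Fin m ⊕ Fin m) F) *ᵥ f i = f i
    simp
  mul_smul g h f := by
    funext i
    change ((g : Matrix (Fin m ⊕ Fin m) (Fin m ⊕ Fin m) F)
        * (h : Matrix (Fin m ⊕ Fin m) (Fin m ⊕ Fin m) F)) *ᵥ f i
      = (g : Matrix (Fin m ⊕ Fin m) (Fin m ⊕ Fin m) F) *ᵥ
          ((h : Matrix (Fin m ⊕ Fin m) (Fin m ⊕ Fin m) F) *ᵥ f i)
    rw [Matrix.mulVec_mulVec]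

/-- pointwise stabiliser of a family -/
def fixFr {ι : Type*} (r : ι → (Fin m ⊕ Fin m → F)) : Subgroup (symplecticGroup (Fin m) F) :=
  @MulAction.stabilizer _ _ _ (frActI F m ι) r

theorem mem_fixFr {ι : Type*} (r : ι → (Fin m ⊕ Fin m → F)) (g : symplecticGroup (Fin m) F) :
    g ∈ fixFr r ↔ ∀ i, (g : Matrix (Fin m ⊕ Fin m) (Fin m ⊕ Fin m) F) *ᵥ r i = r i := by
  letI := frActI F m ι
  unfold fixFr
  rw [MulAction.mem_stabilizer_iff, funext_iff]
  rfl

theorem card_fixFr [Fintype F] {q : ℕ} (hF : Fintype.card F = q) {ι : Type*} [Fintype ι]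
    (r : ι → (Fin m ⊕ Fin m → F)) (hli : LinearIndependent F r)
    (h0 : ∀ i j, sympForm m F (r i) (r j) = 0) (s : ℕ) (hs : Fintype.card ι = s) (hsm : s ≤ m) :
    Nat.card (fixFr r) = q ^ (s * (s + 1) / 2 + 2 * s * (m - s)) *
      (q ^ ((m - s) ^ 2) * ∏ i ∈ Finset.range (m - s), (q ^ (2 * (i + 1)) - 1)) := by
  classical
  let e : Fin s ≃ ι := (Fintype.equivFinOfCardEq hs).symm
  have hf₀ : S0775.IsoFr F m s (r ∘ e) := ⟨hli.comp e e.injective, fun i j => h0 _ _⟩
  have heq : fixFr r = fixFr (r ∘ e) := by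
    ext g
    rw [mem_fixFr, mem_fixFr]
    constructor
    · intro h i; exact h _
    · intro h i
      have := h (e.symm i)
      simpa using this
  rw [heq]
  letI := frActI F m (Fin s)
  have h1 : Nat.card (fixFr (r ∘ e)) *
      Nat.card {f : Fin s → (Fin m ⊕ Fin m → F) // S0775.IsoFr F m s f}
      = Nat.card (symplecticGroup (Fin m) F) := by
    have h := (MulAction.stabilizer (symplecticGroup (Fin m) F) (r ∘ e)).card_mul_index
    rw [MulAction.index_stabilizer] at h
    have horb : MulAction.orbit (symplecticGroup (Fin m) F) (r ∘ e) =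
        {f | S0775.IsoFr F m s f} := by
      ext f
      constructor
      · rintro ⟨g, rfl⟩
        exact S0775.isoFr_smul g _ hf₀
      · intro hf
        obtain ⟨g, hg⟩ := S0775.exists_sp_map _ f hf₀ hf
        exact ⟨g, funext hg⟩
    rw [horb, ← Nat.card_coe_set_eq] at h
    exact h
  have h3 := S0775.card_isoFr (F := F) (m := m) s
  rw [hF] at h3
  have h5 := card_Sp hF m
  have h6 := S0775.arith q m s hsm
  have hI : 0 < Nat.card {f : Fin s → (Fin m ⊕ Fin m → F) // S0775.IsoFr F m s f} := by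
    haveI : Nonempty {f : Fin s → (Fin m ⊕ Fin m → F) // S0775.IsoFr F m s f} := ⟨⟨_, hf₀⟩⟩
    exact Nat.card_pos
  apply Nat.eq_of_mul_eq_mul_right hI
  rw [h1, h5, h3, h6]

theorem comm_iff (g t : symplecticGroup (Fin m) F) :
    g * t = t * g ↔ ∀ z, (g : Matrix (Fin m ⊕ Fin m) (Fin m ⊕ Fin m) F) *ᵥ (Nm t z) =
      Nm t ((g : Matrix (Fin m ⊕ Fin m) (Fin m ⊕ Fin m) F) *ᵥ z) := by
  constructor
  · intro h z
    rw [Nm_apply, Nm_apply, Matrix.mulVec_sub, ← sp_mul_mulVec, h, sp_mul_mulVec]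
  · intro h
    apply sp_ext
    intro z
    have := h z
    rw [Nm_apply, Nm_apply, Matrix.mulVec_sub] at this
    rw [sp_mul_mulVec, sp_mul_mulVec]
    exact sub_left_injective this

theorem card_centralizer [Finite F] (t : symplecticGroup (Fin m) F) {ι : Type*} [Fintype ι]
    [DecidableEq ι] {π : ι → ι} {r : ι → (Fin m ⊕ Fin m → F)}
    (h : NF (sympB m F) (Nm t) π r) :
    Nat.card (Subgroup.centralizer ({t} : Set (symplecticGroup (Fin m) F))) =
      Nat.card (fixFr r) * Nat.card {f : ι → (Fin m ⊕ Fin m → F) // NF (sympB m F) (Nm t) π f} := by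
  classical
  letI := frActI F m ι
  have hsmul : ∀ (g : symplecticGroup (Fin m) F) (f : ι → (Fin m ⊕ Fin m → F)) (i : ι),
      (g • f) i = (g : Matrix (Fin m ⊕ Fin m) (Fin m ⊕ Fin m) F) *ᵥ f i := fun _ _ _ => rfl
  set C := Subgroup.centralizer ({t} : Set (symplecticGroup (Fin m) F)) with hC
  have hmemC : ∀ g, g ∈ C ↔ g * t = t * g := fun g => by
    rw [hC, Subgroup.mem_centralizer_singleton_iff]
  have hTS : fixFr r ≤ C := by
    intro g hg
    rw [mem_fixFr] at hg
    rw [hmemC, comm_iff]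
    intro z
    rw [h.formula, h.formula, Matrix.mulVec_sum]
    refine Finset.sum_congr rfl fun i _ => ?_
    rw [Matrix.mulVec_smul, hg]
    congr 1
    conv_rhs => rw [← hg i]
    rw [sympB_apply, sympB_apply, sympForm_mulVec]
  have hh := (MulAction.stabilizer C r).card_mul_index
  rw [MulAction.index_stabilizer] at hh
  have hst : MulAction.stabilizer C r = (fixFr r).subgroupOf C := by
    ext g
    rw [MulAction.mem_stabilizer_iff, Subgroup.mem_subgroupOf]
    unfold fixFr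
    rw [MulAction.mem_stabilizer_iff]
    rfl
  have horb : MulAction.orbit C r = {f | NF (sympB m F) (Nm t) π f} := by
    ext f
    constructor
    · rintro ⟨g, rfl⟩
      have hg := (comm_iff g.1 t).1 ((hmemC g.1).1 g.2)
      refine ⟨?_, ?_, ?_⟩
      · exact h.li.map' (Matrix.mulVecLin (g.1 : Matrix (Fin m ⊕ Fin m) (Fin m ⊕ Fin m) F)) (by
          rw [LinearMap.ker_eq_bot']
          intro v hv
          exact (vecEquiv g.1).injective (by
            show (g.1 : Matrix (Fin m ⊕ Fin m) (Fin m ⊕ Fin m) F) *ᵥ v =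
              (g.1 : Matrix (Fin m ⊕ Fin m) (Fin m ⊕ Fin m) F) *ᵥ 0
            rw [Matrix.mulVec_zero]; exact hv))
      · intro i j
        show sympForm m F ((g.1 : Matrix (Fin m ⊕ Fin m) (Fin m ⊕ Fin m) F) *ᵥ r i)
          ((g.1 : Matrix (Fin m ⊕ Fin m) (Fin m ⊕ Fin m) F) *ᵥ r j) = 0
        rw [sympForm_mulVec]; exact h.iso i j
      · intro z
        obtain ⟨z', rfl⟩ := (vecEquiv g.1).surjective z
        show Nm t ((g.1 : Matrix (Fin m ⊕ Fin m) (Fin m ⊕ Fin m) F) *ᵥ z') =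
          ∑ i, sympForm m F ((g.1 : Matrix (Fin m ⊕ Fin m) (Fin m ⊕ Fin m) F) *ᵥ z')
            ((g.1 : Matrix (Fin m ⊕ Fin m) (Fin m ⊕ Fin m) F) *ᵥ r i) •
            ((g.1 : Matrix (Fin m ⊕ Fin m) (Fin m ⊕ Fin m) F) *ᵥ r (π i))
        rw [← hg, h.formula, Matrix.mulVec_sum]
        refine Finset.sum_congr rfl fun i _ => ?_
        rw [Matrix.mulVec_smul, sympForm_mulVec, sympB_apply]
    · intro hf
      obtain ⟨φ, hφ1, hφ2⟩ := witt_ti sympB_nondegenerate sympB_isAlt r f h.li hf.li h.iso hf.iso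
      have hmem : LinearMap.toMatrix' (φ : (Fin m ⊕ Fin m → F) →ₗ[F] (Fin m ⊕ Fin m → F)) ∈
          symplecticGroup (Fin m) F := by
        rw [mem_symplecticGroup_iff_sympForm]
        intro u v
        simp only [LinearMap.toMatrix'_mulVec]
        exact hφ1 u v
      have hgC : (⟨_, hmem⟩ : symplecticGroup (Fin m) F) ∈ C := by
        rw [hmemC, comm_iff]
        intro z
        simp only [LinearMap.toMatrix'_mulVec]
        show φ (Nm t z) = Nm t (φ z)
        rw [h.formula, hf.formula, map_sum]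
        refine Finset.sum_congr rfl fun i _ => ?_
        rw [map_smul, hφ2, ← hφ2 i, hφ1]
      refine ⟨⟨⟨_, hmem⟩, hgC⟩, ?_⟩
      funext i
      show LinearMap.toMatrix' (φ : (Fin m ⊕ Fin m → F) →ₗ[F] (Fin m ⊕ Fin m → F)) *ᵥ r i = f i
      rw [LinearMap.toMatrix'_mulVec]
      exact hφ2 i
  rw [hst, horb, ← Nat.card_coe_set_eq,
    Nat.card_congr (Subgroup.subgroupOfEquivOfLe hTS).toEquiv] at hh
  rw [← hh]
  rfl

end Cfsg.Agent.Lib.Helper16.SpInv
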