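import Mathlib
import Cfsg.Agent.Lib.Helper16.SpInv6

set_option autoImplicit false
set_option linter.unusedSectionVars false

namespace Cfsg.Agent.Lib.Helper16.SpInv

open Cfsg Cfsg.Agent.Lib.Helper6 Cfsg.Agent.Lib.Helper12 Module Matrix

theorem expo (m s : ℕ) (hs : s ≤ m) :
    2 * m * s - (3 * s ^ 2 - s) / 2 = s * (s + 1) / 2 + 2 * s * (m - s) := by
  obtain ⟨d, rfl⟩ := Nat.exists_eq_add_of_le hs
  have h1 : 2 * (s + d) * s = 2 * (s * s) + 2 * (d * s) := by ring
  have h2 : 3 * s ^ 2 = 3 * (s * s) := by ring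
  have h3 : 2 * s * (s + d - s) = 2 * (d * s) := by rw [Nat.add_sub_cancel_left]; ring
  have h4 : s * (s + 1) = s * s + s := by ring
  have h5 : s ≤ s * s := Nat.le_mul_self s
  obtain ⟨T, hT⟩ := Nat.even_mul_succ_self s
  rw [h4] at hT
  rw [h1, h2, h3, h4]
  generalize s * s = a at *
  generalize d * s = b at *
  omega

variable {F : Type*} [Field F] {m : ℕ}

theorem Pm_swap (h2 : (2 : F) = 0) (k : ℕ) :
    Pm F (Sum.swap : Fin k ⊕ Fin k → Fin k ⊕ Fin k) = J (Fin k) F := by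
  have hneg : (-1 : F) = 1 := by linear_combination -h2
  ext a b
  rcases a with a | a <;> rcases b with b | b
  · simp [Pm, J]
  · simp only [Pm, J, Matrix.of_apply, Sum.swap_inl, Sum.inr.injEq, Matrix.fromBlocks_apply₁₂,
      Matrix.neg_apply, Matrix.one_apply]
    by_cases hab : a = b
    · subst hab; simp [hneg]
    · simp [hab, Ne.symm hab]
  · simp [Pm, J, Matrix.one_apply, eq_comm]
  · simp [Pm, J]

theorem card_gram_swap (h2 : (2 : F) = 0) (k : ℕ) :
    Nat.card {A : Matrix (Fin k ⊕ Fin k) (Fin k ⊕ Fin k) F //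
      Aᵀ * Pm F (Sum.swap : Fin k ⊕ Fin k → Fin k ⊕ Fin k) * A = Pm F Sum.swap} =
    Nat.card (symplecticGroup (Fin k) F) :=
  Nat.card_congr (Equiv.subtypeEquivRight (fun A => by
    rw [Pm_swap h2, SymplecticGroup.mem_iff']))

/-- centraliser order, type `a_s` -/
theorem card_centralizer_alt [Fintype F] {q : ℕ} (hF : Fintype.card F = q) (h2 : (2 : F) = 0)
    {t : symplecticGroup (Fin m) F} (ht : t * t = 1) {s : ℕ}
    (hs : ((t : Matrix (Fin m ⊕ Fin m) (Fin m ⊕ Fin m) F) - 1).rank = s)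
    (halt : ∀ v, sympForm m F v ((t : Matrix (Fin m ⊕ Fin m) (Fin m ⊕ Fin m) F) *ᵥ v) = 0) :
    Nat.card (Subgroup.centralizer ({t} : Set (symplecticGroup (Fin m) F))) =
      q ^ (2 * m * s - (3 * s ^ 2 - s) / 2) *
        (q ^ ((s / 2) ^ 2) * ∏ i ∈ Finset.range (s / 2), (q ^ (2 * (i + 1)) - 1)) *
        (q ^ ((m - s) ^ 2) * ∏ i ∈ Finset.range (m - s), (q ^ (2 * (i + 1)) - 1)) := by
  obtain ⟨k, r, hr⟩ := nf_alt h2 sympB_nondegenerate sympB_isAlt (Nm_sq h2 ht) (Nm_adj ht)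
    (by simpa only [Nm_form] using halt)
  have e1 := hr.finrank sympB_nondegenerate Sum.swap_swap
  rw [← rank_eq, hs] at e1
  have hsm : s ≤ m := hs ▸ rank_le h2 ht
  have hk : s / 2 = k := by
    simp only [Fintype.card_sum, Fintype.card_fin] at e1
    omega
  rw [card_centralizer t hr, card_fiber sympB_nondegenerate Sum.swap_swap hr, card_gram_swap h2,
    card_Sp hF k, card_fixFr hF r hr.li hr.iso s e1.symm hsm, expo m s hsm, hk]
  ring

end Cfsg.Agent.Lib.Helper16.SpInv
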