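import Mathlib
import Cfsg.Agent.Lib.Helper16.SpInv7
import Cfsg.Agent.Lib.Helper16.QuadForm3
import Cfsg.Agent.Lib.Helper12.SpTransv

set_option autoImplicit false
set_option linter.unusedSectionVars false

namespace Cfsg.Agent.Lib.Helper16.SpInv

open Cfsg Cfsg.Agent.Lib.Helper6 Cfsg.Agent.Lib.Helper12 Module Matrix

variable {F : Type*} [Field F] {n : Type*} [Fintype n] [DecidableEq n]

theorem Pm_id : Pm F (id : n → n) = 1 := by
  ext a b
  simp [Pm, Matrix.one_apply, eq_comm]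

/-- sum of the coordinates -/
def lam (x : n → F) : F := ∑ i, x i

theorem lam_eq_dot (x : n → F) : lam x = (fun _ => (1 : F)) ⬝ᵥ x := by
  simp [lam, dotProduct]

theorem lam_add (x y : n → F) : lam (x + y) = lam x + lam y := by
  simp [lam, Finset.sum_add_distrib]

theorem lam_smul (c : F) (x : n → F) : lam (c • x) = c * lam x := by
  simp [lam, Finset.mul_sum]

theorem sum_sq_char_two (h2 : (2 : F) = 0) (x : n → F) (S : Finset n) :
    ∑ i ∈ S, x i * x i = (∑ i ∈ S, x i) * (∑ i ∈ S, x i) := by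
  induction S using Finset.induction_on with
  | empty => simp
  | insert a S ha ih =>
    rw [Finset.sum_insert ha, Finset.sum_insert ha, ih]
    linear_combination (- x a * ∑ i ∈ S, x i) * h2

theorem dot_self (h2 : (2 : F) = 0) (x : n → F) : x ⬝ᵥ x = lam x * lam x :=
  sum_sq_char_two h2 x Finset.univ

theorem eq_of_sq_eq (h2 : (2 : F) = 0) {a b : F} (h : a * a = b * b) : a = b := by
  have h1 : (a - b) * (a - b) = 0 := by linear_combination h - (a * b - b * b) * h2
  exact sub_eq_zero.1 (mul_self_eq_zero.1 h1)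

theorem dot_mulVec (A : Matrix n n F) (u v : n → F) :
    (A *ᵥ u) ⬝ᵥ (A *ᵥ v) = u ⬝ᵥ ((Aᵀ * A) *ᵥ v) := by
  rw [← mulVec_mulVec, dotProduct_mulVec u Aᵀ, vecMul_transpose]

theorem orth_iff (A : Matrix n n F) :
    Aᵀ * A = 1 ↔ ∀ x y, (A *ᵥ x) ⬝ᵥ (A *ᵥ y) = x ⬝ᵥ y := by
  constructor
  · intro h x y
    rw [dot_mulVec, h, one_mulVec]
  · intro h
    ext i j
    have := h (Pi.single i 1) (Pi.single j 1)
    rw [dot_mulVec] at this
    simpa [Matrix.one_apply, Pi.single_apply, eq_comm] using this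

/-- the alternating form attached to the dot product -/
noncomputable def betaE (F : Type*) [Field F] (n : Type*) [Fintype n] [DecidableEq n] :
    LinearMap.BilinForm F (n → F) :=
  LinearMap.mk₂ F (fun x y => x ⬝ᵥ y + lam x * lam y)
    (fun x x' y => by rw [add_dotProduct, lam_add]; ring)
    (fun c x y => by rw [smul_dotProduct, lam_smul, smul_eq_mul, smul_eq_mul]; ring)
    (fun x y y' => by rw [dotProduct_add, lam_add]; ring)
    (fun c x y => by rw [dotProduct_smul, lam_smul, smul_eq_mul, smul_eq_mul]; ring)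

theorem betaE_apply (x y : n → F) : betaE F n x y = x ⬝ᵥ y + lam x * lam y := rfl

theorem betaE_alt (h2 : (2 : F) = 0) : (betaE F n).IsAlt := by
  intro x
  rw [betaE_apply, dot_self h2]
  linear_combination (lam x * lam x) * h2

theorem lam_one (hn : ((Fintype.card n : ℕ) : F) = 0) : lam (fun _ : n => (1 : F)) = 0 := by
  simp [lam, hn]

theorem betaE_nondeg (h2 : (2 : F) = 0) (hn : ((Fintype.card n : ℕ) : F) = 0) (u : n → F)
    (hu : ∀ v, betaE F n u v = 0) : u = 0 := by
  have h1 : ∀ v, (u + lam u • (fun _ : n => (1 : F))) ⬝ᵥ v = 0 := by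
    intro v
    have := hu v
    rw [betaE_apply, lam_eq_dot v] at this
    rw [add_dotProduct, smul_dotProduct, smul_eq_mul]
    exact this
  have h3 : u + lam u • (fun _ : n => (1 : F)) = 0 := dotProduct_eq_zero_iff.1 h1
  have h4 : lam u = 0 := by
    have := congrArg lam h3
    rw [lam_add, lam_smul, lam_one hn, mul_zero, add_zero] at this
    rw [this]; simp [lam]
  rw [h4, zero_smul, add_zero] at h3
  exact h3

theorem iso_iff (h2 : (2 : F) = 0) (hn : ((Fintype.card n : ℕ) : F) = 0) (A : Matrix n n F) :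
    Aᵀ * A = 1 ↔ ((∀ x y, betaE F n (A *ᵥ x) (A *ᵥ y) = betaE F n x y) ∧
      A *ᵥ (fun _ => (1 : F)) = fun _ => (1 : F)) := by
  constructor
  · intro h
    have hg := (orth_iff A).1 h
    have hl : ∀ x, lam (A *ᵥ x) = lam x := fun x => eq_of_sq_eq h2 (by
      rw [← dot_self h2, ← dot_self h2, hg])
    refine ⟨fun x y => by rw [betaE_apply, betaE_apply, hg, hl, hl], ?_⟩
    have h' : A * Aᵀ = 1 := mul_eq_one_comm.1 h
    have h5 : Aᵀ *ᵥ (fun _ => (1 : F)) = fun _ => (1 : F) := by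
      have : ∀ y, (Aᵀ *ᵥ (fun _ => (1 : F)) - fun _ => (1 : F)) ⬝ᵥ y = 0 := by
        intro y
        rw [sub_dotProduct, ← lam_eq_dot, mulVec_transpose, ← dotProduct_mulVec, ← lam_eq_dot, hl,
          sub_self]
      exact sub_eq_zero.1 (dotProduct_eq_zero_iff.1 this)
    calc A *ᵥ (fun _ => (1 : F)) = A *ᵥ (Aᵀ *ᵥ (fun _ => (1 : F))) := by rw [h5]
      _ = fun _ => (1 : F) := by rw [mulVec_mulVec, h', one_mulVec]
  · rintro ⟨hb, hd⟩
    rw [orth_iff]
    have hl0 : ∀ x : n → F, betaE F n (fun _ => (1 : F)) x = lam x := by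
      intro x
      rw [betaE_apply, lam_one hn, zero_mul, add_zero, lam_eq_dot]
    have hl : ∀ x, lam (A *ᵥ x) = lam x := by
      intro x
      calc lam (A *ᵥ x) = betaE F n (fun _ => (1 : F)) (A *ᵥ x) := (hl0 _).symm
        _ = betaE F n (A *ᵥ (fun _ => (1 : F))) (A *ᵥ x) := by rw [hd]
        _ = betaE F n (fun _ => (1 : F)) x := hb _ _
        _ = lam x := hl0 x
    intro x y
    have := hb x y
    rw [betaE_apply, betaE_apply, hl, hl] at this
    exact add_right_cancel this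

/-- the orthogonal group of the dot product in even dimension, characteristic two -/
theorem card_orth_even [Finite F] (h2 : (2 : F) = 0) (s k : ℕ) (hs : s = 2 * k) (hk : 1 ≤ k) :
    ∃ v : Fin k ⊕ Fin k → F, v ≠ 0 ∧
      Nat.card {A : Matrix (Fin s) (Fin s) F // Aᵀ * Pm F id * A = Pm F id} =
        Nat.card (spFix k v) := by
  have hn : ((Fintype.card (Fin s) : ℕ) : F) = 0 := by
    rw [Fintype.card_fin, hs]; push_cast; rw [h2, zero_mul]
  obtain ⟨ψ, hψ⟩ := symp_iso (betaE F (Fin s)) (betaE_alt h2) (betaE_nondeg h2 hn) k (by simp [hs])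
  have hd0 : (fun _ : Fin s => (1 : F)) ≠ 0 := by
    intro h
    have := congrFun h ⟨0, by omega⟩
    simp at this
  refine ⟨ψ (fun _ => 1), fun h => hd0 (by simpa using h), ?_⟩
  let E : Matrix (Fin s) (Fin s) F ≃ Matrix (Fin k ⊕ Fin k) (Fin k ⊕ Fin k) F :=
    (Matrix.toLin' : Matrix (Fin s) (Fin s) F ≃ₗ[F] _).toEquiv.trans
      (ψ.conj.toEquiv.trans (LinearMap.toMatrix' : _ ≃ₗ[F] Matrix (Fin k ⊕ Fin k) (Fin k ⊕ Fin k) F).toEquiv)
  have hE : ∀ A w, E A *ᵥ w = ψ (A *ᵥ ψ.symm w) := by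
    intro A w
    simp [E, LinearMap.toMatrix'_mulVec, LinearEquiv.conj_apply]
  have h1 : Nat.card {A : Matrix (Fin s) (Fin s) F // Aᵀ * Pm F id * A = Pm F id} =
      Nat.card {M : Matrix (Fin k ⊕ Fin k) (Fin k ⊕ Fin k) F //
        M ∈ symplecticGroup (Fin k) F ∧ M *ᵥ ψ (fun _ => 1) = ψ (fun _ => 1)} := by
    refine Nat.card_congr (Equiv.subtypeEquiv E (fun A => ?_))
    rw [Pm_id, mul_one, iso_iff h2 hn, mem_symplecticGroup_iff_sympForm]
    refine and_congr ⟨fun h u v => ?_, fun h x y => ?_⟩ ?_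
    · rw [hE, hE, hψ, h, ← hψ, LinearEquiv.apply_symm_apply, LinearEquiv.apply_symm_apply]
    · have := h (ψ x) (ψ y)
      rw [hE, hE, hψ, hψ, LinearEquiv.symm_apply_apply, LinearEquiv.symm_apply_apply] at this
      exact this
    · rw [hE, LinearEquiv.symm_apply_apply]
      exact ⟨fun h => by rw [h], fun h => ψ.injective h⟩
  rw [h1]
  exact Nat.card_congr
    { toFun := fun y => ⟨⟨y.1, y.2.1⟩, y.2.2⟩
      invFun := fun x => ⟨x.1.1, x.1.2, x.2⟩
      left_inv := fun _ => rfl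
      right_inv := fun _ => rfl }

end Cfsg.Agent.Lib.Helper16.SpInv
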