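import Mathlib
import Cfsg.Agent.Lib.Helper16.SpInv8

set_option autoImplicit false
set_option linter.unusedSectionVars false

namespace Cfsg.Agent.Lib.Helper16.SpInv

open Cfsg Cfsg.Agent.Lib.Helper6 Cfsg.Agent.Lib.Helper12 Module Matrix

theorem expo2 (m s : ℕ) (hs : s ≤ m) (hs1 : 1 ≤ s) :
    2 * m * s - (3 * s ^ 2 - 3 * s) / 2 - 1 = (s * (s + 1) / 2 + 2 * s * (m - s)) + (s - 1) := by
  obtain ⟨d, rfl⟩ := Nat.exists_eq_add_of_le hs
  have h1 : 2 * (s + d) * s = 2 * (s * s) + 2 * (d * s) := by ring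
  have h2 : 3 * s ^ 2 = 3 * (s * s) := by ring
  have h3 : 2 * s * (s + d - s) = 2 * (d * s) := by rw [Nat.add_sub_cancel_left]; ring
  have h4 : s * (s + 1) = s * s + s := by ring
  have h5 : s ≤ s * s := Nat.le_mul_self s
  obtain ⟨T, hT⟩ := Nat.even_mul_succ_self s
  rw [h4] at hT
  rw [h1, h2, h3, h4]
  generalize s * s = a at *
  generalize d * s = b at *
  omega

variable {F : Type*} [Field F] {m : ℕ}

theorem card_spFix_formula [Fintype F] {q : ℕ} (hF : Fintype.card F = q) (k : ℕ) (hk : 1 ≤ k)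
    (v : Fin k ⊕ Fin k → F) (hv : v ≠ 0) :
    Nat.card (spFix k v) = q ^ (2 * k - 1) *
      (q ^ ((k - 1) ^ 2) * ∏ i ∈ Finset.range (k - 1), (q ^ (2 * (i + 1)) - 1)) := by
  have h1 := card_spFix k v hv
  rw [card_Sp hF k, hF] at h1
  obtain ⟨j, rfl⟩ : ∃ j, k = j + 1 := ⟨k - 1, by omega⟩
  have hq : 2 ≤ q := by rw [← hF]; exact Fintype.one_lt_card
  have hpos : 0 < q ^ (2 * (j + 1)) - 1 := by
    have : 2 ≤ q ^ (2 * (j + 1)) := le_trans hq (Nat.le_self_pow (by omega) q)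
    omega
  apply Nat.eq_of_mul_eq_mul_left hpos
  rw [h1, Finset.prod_range_succ, Nat.add_sub_cancel]
  have e1 : (j + 1) ^ 2 = (2 * (j + 1) - 1) + j ^ 2 := by
    have : 2 * (j + 1) - 1 = 2 * j + 1 := by omega
    rw [this]; ring
  rw [e1, pow_add]
  ring

/-- centraliser order, type `c_s` -/
theorem card_centralizer_c [Fintype F] {q : ℕ} (hF : Fintype.card F = q) (h2 : (2 : F) = 0)
    (hsq : ∀ a : F, ∃ c, c * c = a)
    {t : symplecticGroup (Fin m) F} (ht : t * t = 1) {s : ℕ}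
    (hs : ((t : Matrix (Fin m ⊕ Fin m) (Fin m ⊕ Fin m) F) - 1).rank = s) (hev : Even s)
    (hna : ∃ v, sympForm m F v ((t : Matrix (Fin m ⊕ Fin m) (Fin m ⊕ Fin m) F) *ᵥ v) ≠ 0) :
    Nat.card (Subgroup.centralizer ({t} : Set (symplecticGroup (Fin m) F))) =
      q ^ (2 * m * s - (3 * s ^ 2 - 3 * s) / 2 - 1) *
        (q ^ (((s - 2) / 2) ^ 2) * ∏ i ∈ Finset.range ((s - 2) / 2), (q ^ (2 * (i + 1)) - 1)) *
        (q ^ ((m - s) ^ 2) * ∏ i ∈ Finset.range (m - s), (q ^ (2 * (i + 1)) - 1)) := by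
  obtain ⟨s', r, hr⟩ := nf_nonalt h2 hsq sympB_nondegenerate sympB_isAlt (Nm_sq h2 ht) (Nm_adj ht)
    (by simpa only [Nm_form] using hna)
  have e1 := hr.finrank sympB_nondegenerate (fun _ => rfl)
  rw [← rank_eq, hs, Fintype.card_fin] at e1
  subst e1
  have hsm : s ≤ m := hs ▸ rank_le h2 ht
  have hne : t ≠ 1 := by
    rintro rfl
    obtain ⟨v, hv⟩ := hna
    apply hv
    simp [sympForm_self]
  have hs1 : 1 ≤ s := hs ▸ rank_pos hne
  obtain ⟨k, hk⟩ := hev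
  have hk' : s = 2 * k := by omega
  obtain ⟨v, hv, hcard⟩ := card_orth_even (F := F) h2 s k hk' (by omega)
  rw [card_centralizer t hr, card_fiber sympB_nondegenerate (fun _ => rfl) hr, hcard,
    card_spFix_formula hF k (by omega) v hv,
    card_fixFr hF r hr.li hr.iso s (by simp) hsm, expo2 m s hsm hs1]
  have e3 : (s - 2) / 2 = k - 1 := by omega
  have e4 : 2 * k - 1 = s - 1 := by omega
  rw [e3, e4, pow_add]
  ring

end Cfsg.Agent.Lib.Helper16.SpInv
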