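import Mathlib
import Cfsg.Agent.Lib.Helper16.SpInv9

set_option autoImplicit false
set_option linter.unusedSectionVars false

namespace Cfsg.Agent.Lib.Helper16.SpInv

open Cfsg Cfsg.Agent.Lib.Helper6 Cfsg.Agent.Lib.Helper12 Module Matrix

variable {F : Type*} [Field F]

set_option synthInstance.maxHeartbeats 400000 in
/-- the pointwise stabiliser of a hyperbolic pair -/
theorem card_stab_pair [Finite F] (k : ℕ) (p : HypPair (k + 1) F) :
    Nat.card {M : Matrix (Fin (k + 1) ⊕ Fin (k + 1)) (Fin (k + 1) ⊕ Fin (k + 1)) F //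
      M ∈ symplecticGroup (Fin (k + 1)) F ∧ M *ᵥ p.1.1 = p.1.1 ∧ M *ᵥ p.1.2 = p.1.2} =
    Nat.card (symplecticGroup (Fin k) F) := by
  classical
  let _ := spAction (F := F) (k + 1)
  have hsmul1 : ∀ (g : symplecticGroup (Fin (k + 1)) F) (p : HypPair (k + 1) F),
      (g • p).1.1 = (g : Matrix (Fin (k + 1) ⊕ Fin (k + 1)) (Fin (k + 1) ⊕ Fin (k + 1)) F) *ᵥ p.1.1 :=
    fun _ _ => rfl
  have hsmul2 : ∀ (g : symplecticGroup (Fin (k + 1)) F) (p : HypPair (k + 1) F),
      (g • p).1.2 = (g : Matrix (Fin (k + 1) ⊕ Fin (k + 1)) (Fin (k + 1) ⊕ Fin (k + 1)) F) *ᵥ p.1.2 :=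
    fun _ _ => rfl
  have h1 := (MulAction.stabilizer (symplecticGroup (Fin (k + 1)) F) p).card_mul_index
  rw [MulAction.index_stabilizer] at h1
  have horb : MulAction.orbit (symplecticGroup (Fin (k + 1)) F) p = Set.univ := by
    ext p'
    simp only [Set.mem_univ, iff_true]
    obtain ⟨g, -, hg1, hg2⟩ := sympTv_trans_pair (k + 1) ⊤ p.1.1 p.1.2 p'.1.1 p'.1.2
      trivial trivial trivial trivial p.2 p'.2
    exact ⟨g, Subtype.ext (Prod.ext (by change (g • p).1.1 = _; rw [hsmul1, hg1])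
      (by change (g • p).1.2 = _; rw [hsmul2, hg2]))⟩
  rw [horb, Set.ncard_univ, card_Sp_succ k, mul_comm] at h1
  have hpos : 0 < Nat.card (HypPair (k + 1) F) := by
    haveI : Nonempty (HypPair (k + 1) F) := ⟨p⟩
    haveI : Finite (HypPair (k + 1) F) := Subtype.finite
    exact Nat.card_pos
  have h3 := Nat.eq_of_mul_eq_mul_left hpos h1
  rw [← h3]
  refine Nat.card_congr
    { toFun := fun y => ⟨⟨y.1, y.2.1⟩, ?_⟩
      invFun := fun x => ⟨x.1.1, x.1.2, ?_, ?_⟩
      left_inv := fun _ => rfl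
      right_inv := fun _ => rfl }
  · rw [MulAction.mem_stabilizer_iff]
    exact Subtype.ext (Prod.ext (by rw [hsmul1]; exact y.2.2.1) (by rw [hsmul2]; exact y.2.2.2))
  · have := MulAction.mem_stabilizer_iff.mp x.2
    have h := congrArg (fun z : HypPair (k + 1) F => z.1.1) this
    exact h
  · have := MulAction.mem_stabilizer_iff.mp x.2
    have h := congrArg (fun z : HypPair (k + 1) F => z.1.2) this
    exact h

/-- orthogonal matrices as orthogonal matrices of one more dimension fixing the last vector -/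
theorem card_orth_succ {n : Type*} [Fintype n] [DecidableEq n] :
    Nat.card {A : Matrix n n F // Aᵀ * A = 1} =
      Nat.card {A' : Matrix (n ⊕ Unit) (n ⊕ Unit) F // A'ᵀ * A' = 1 ∧
        A' *ᵥ (Pi.single (Sum.inr ()) 1) = Pi.single (Sum.inr ()) 1} := by
  refine Nat.card_congr (Equiv.ofBijective (fun A => ⟨fromBlocks A.1 0 0 1, ?_, ?_⟩) ⟨?_, ?_⟩)
  · simp [fromBlocks_transpose, fromBlocks_multiply, A.2]
  · rw [Matrix.mulVec_single_one]
    ext i
    rcases i with i | i <;> simp [Pi.single_apply]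
  · intro A B h
    have h1 := congrArg Subtype.val h
    exact Subtype.ext (fromBlocks_inj.1 h1).1
  · rintro ⟨A', h1, h2⟩
    have hcol : ∀ i, A' i (Sum.inr ()) = (Pi.single (Sum.inr ()) 1 : n ⊕ Unit → F) i := by
      intro i
      have := congrFun h2 i
      rwa [Matrix.mulVec_single_one] at this
    have h3 : A'ᵀ *ᵥ (Pi.single (Sum.inr ()) 1) = Pi.single (Sum.inr ()) 1 := by
      conv_lhs => rw [← h2]
      rw [mulVec_mulVec, h1, one_mulVec]
    have hrow : ∀ j, A' (Sum.inr ()) j = (Pi.single (Sum.inr ()) 1 : n ⊕ Unit → F) j := by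
      intro j
      have := congrFun h3 j
      rwa [Matrix.mulVec_single_one] at this
    have hA' : A' = fromBlocks A'.toBlocks₁₁ 0 0 1 := by
      ext i j
      rcases i with i | i <;> rcases j with j | j
      · simp [toBlocks₁₁]
      · rw [hcol]; simp
      · rw [hrow]; simp
      · rw [hcol]; simp
    refine ⟨⟨A'.toBlocks₁₁, ?_⟩, Subtype.ext hA'.symm⟩
    rw [hA'] at h1
    simp only [fromBlocks_transpose, fromBlocks_multiply, transpose_zero, transpose_one, mul_zero,
      zero_mul, add_zero, mul_one, zero_add, ← fromBlocks_one] at h1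
    simpa using (fromBlocks_inj.1 h1).1

/-- the orthogonal group of the dot product in odd dimension, characteristic two -/
theorem card_orth_odd [Finite F] (h2 : (2 : F) = 0) (s k : ℕ) (hs : s = 2 * k + 1) :
    Nat.card {A : Matrix (Fin s) (Fin s) F // Aᵀ * Pm F id * A = Pm F id} =
      Nat.card (symplecticGroup (Fin k) F) := by
  have hn : ((Fintype.card (Fin s ⊕ Unit) : ℕ) : F) = 0 := by
    rw [Fintype.card_sum, Fintype.card_fin, Fintype.card_unit, hs]
    push_cast
    linear_combination ((k : F) + 1) * h2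
  obtain ⟨ψ, hψ⟩ := symp_iso (betaE F (Fin s ⊕ Unit)) (betaE_alt h2) (betaE_nondeg h2 hn) (k + 1)
    (by simp [hs]; ring)
  set d : Fin s ⊕ Unit → F := fun _ => 1 with hd
  set e : Fin s ⊕ Unit → F := Pi.single (Sum.inr ()) 1 with he
  have hde : sympForm (k + 1) F (ψ d) (ψ e) = 1 := by
    rw [hψ, betaE_apply, lam_one hn, zero_mul, add_zero, ← lam_eq_dot]
    simp [lam, he, Fintype.sum_sum_type, Pi.single_apply]
  let E : Matrix (Fin s ⊕ Unit) (Fin s ⊕ Unit) F ≃
      Matrix (Fin (k + 1) ⊕ Fin (k + 1)) (Fin (k + 1) ⊕ Fin (k + 1)) F :=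
    (Matrix.toLin' : Matrix (Fin s ⊕ Unit) (Fin s ⊕ Unit) F ≃ₗ[F] _).toEquiv.trans
      (ψ.conj.toEquiv.trans (LinearMap.toMatrix' :
        _ ≃ₗ[F] Matrix (Fin (k + 1) ⊕ Fin (k + 1)) (Fin (k + 1) ⊕ Fin (k + 1)) F).toEquiv)
  have hE : ∀ A w, E A *ᵥ w = ψ (A *ᵥ ψ.symm w) := by
    intro A w
    simp [E, LinearMap.toMatrix'_mulVec, LinearEquiv.conj_apply]
  have h0 : Nat.card {A : Matrix (Fin s) (Fin s) F // Aᵀ * Pm F id * A = Pm F id} =
      Nat.card {A : Matrix (Fin s) (Fin s) F // Aᵀ * A = 1} :=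
    Nat.card_congr (Equiv.subtypeEquivRight (fun A => by rw [Pm_id, mul_one]))
  rw [h0, card_orth_succ, ← card_stab_pair k ⟨(ψ d, ψ e), hde⟩]
  refine Nat.card_congr (Equiv.subtypeEquiv E (fun A => ?_))
  rw [iso_iff h2 hn, mem_symplecticGroup_iff_sympForm, and_assoc]
  refine and_congr ⟨fun h u v => ?_, fun h x y => ?_⟩ (and_congr ?_ ?_)
  · rw [hE, hE, hψ, h, ← hψ, LinearEquiv.apply_symm_apply, LinearEquiv.apply_symm_apply]
  · have := h (ψ x) (ψ y)
    rw [hE, hE, hψ, hψ, LinearEquiv.symm_apply_apply, LinearEquiv.symm_apply_apply] at this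
    exact this
  · show _ ↔ E A *ᵥ ψ d = ψ d
    rw [hE, LinearEquiv.symm_apply_apply]
    exact ⟨fun h => by rw [h], fun h => ψ.injective h⟩
  · show _ ↔ E A *ᵥ ψ e = ψ e
    rw [hE, LinearEquiv.symm_apply_apply]
    exact ⟨fun h => by rw [h], fun h => ψ.injective h⟩

end Cfsg.Agent.Lib.Helper16.SpInv
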