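import Mathlib
import Cfsg.Agent.Lib.Helper16.OCent2
import Cfsg.Agent.Lib.Helper16.Orth25
import Cfsg.Agent.Lib.Helper16.SpInv10

set_option autoImplicit false
set_option linter.unusedSectionVars false

namespace Cfsg.Agent.Lib.Helper16.OInv

open Cfsg Module QuadraticMap Matrix Cfsg.Agent.Lib.Helper16 Cfsg.Agent.Lib.Helper16.SpInv
  Cfsg.Agent.Lib.Helper16.POAut

theorem arith_fix (q j k Fx Fr N1 Pi' E P : ℕ) (hq : 2 ≤ q) (hkm : k ≤ j)
    (h1 : Fx * Fr = 2 * q ^ ((j + 1) * j) * (q ^ (j + 1) - 1) * P)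
    (h2 : q ^ k * Fr = N1 * Pi')
    (h3 : q * N1 + q ^ (j + 1) = q ^ (2 * (j + 1)))
    (h4 : E * (Pi' * (q ^ (2 * (j + 1)) - 1)) = q ^ ((j + 1) ^ 2) * (P * (q ^ (2 * (j + 1)) - 1)))
    (hFr : 0 < Fr) :
    q ^ (2 * (j + 1) - (k + 1)) * Fx = 2 * E := by
  have hN : q * N1 = q ^ (j + 1) * (q ^ (j + 1) - 1) := by
    rw [Nat.mul_sub, mul_one, ← pow_add, ← two_mul]; omega
  have hb : 0 < q ^ (2 * (j + 1)) - 1 := by
    have : 2 ≤ q ^ (2 * (j + 1)) := le_trans hq (Nat.le_self_pow (by omega) q)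
    omega
  generalize q ^ (j + 1) - 1 = a at *
  generalize hbb : q ^ (2 * (j + 1)) - 1 = b at *
  have hM : 0 < q ^ (k + 1) * Fr * b := by positivity
  apply Nat.eq_of_mul_eq_mul_right hM
  have e1 : 2 * (j + 1) - (k + 1) + (k + 1) = 2 * (j + 1) := by omega
  calc q ^ (2 * (j + 1) - (k + 1)) * Fx * (q ^ (k + 1) * Fr * b)
      = q ^ (2 * (j + 1) - (k + 1) + (k + 1)) * b * (Fx * Fr) := by rw [pow_add]; ring
    _ = q ^ (2 * (j + 1)) * b * (2 * q ^ ((j + 1) * j) * a * P) := by rw [e1, h1]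
    _ = 2 * (q ^ (j + 1) * a) * (q ^ ((j + 1) ^ 2) * (P * b)) := by ring
    _ = 2 * (q * N1) * (E * (Pi' * b)) := by rw [hN, h4]
    _ = 2 * E * (q * (N1 * Pi') * b) := by ring
    _ = 2 * E * (q ^ (k + 1) * Fr * b) := by rw [← h2]; ring

theorem arith_N1 (q X Y Z N : ℕ) (hq : 2 ≤ q) (hA : q * Z + Y = X + q * Y)
    (hB : X = Z + (q - 1) * N) : q * N + Y = X := by
  obtain ⟨p, rfl⟩ : ∃ p, q = p + 1 := ⟨q - 1, by omega⟩
  rw [Nat.add_sub_cancel] at hB
  have hp : 0 < p := by omega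
  apply Nat.eq_of_mul_eq_mul_left hp
  subst hB
  nlinarith

variable {F : Type*} [Field F] {m : ℕ}

theorem card_Q1_plus [Fintype F] {q : ℕ} (hF : Fintype.card F = q)
    (hsq : ∀ a : F, ∃ c, c * c = a) :
    q * Nat.card {v : Fin m ⊕ Fin m → F // qPlus m F v = 1} + q ^ m = q ^ (2 * m) := by
  have hq : 2 ≤ q := by rw [← hF]; exact Fintype.one_lt_card
  have h5 : finrank F (Fin m ⊕ Fin m → F) = 2 * m := by simp [two_mul]
  have hA := card_sing_formula (F := F) 0 m _ (qPlus m F) qPlus_nondeg qPlus_wtype (by rw [h5]; rfl)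
  have hB := card_total (qPlus m F) hsq
  rw [Module.natCard_eq_pow_finrank (K := F), h5] at hB
  simp only [Nat.card_eq_fintype_card (α := F), hF, add_zero] at hA hB
  exact arith_N1 q _ _ _ _ hq (by rw [hA, pow_succ]; ring) hB

set_option maxHeartbeats 1000000 in
/-- the centraliser in `Ω⁺` of a non-alternating involution, up to the count of the Gram
isometries -/
theorem card_omega_cent_nonalt [Fintype F] {q : ℕ} (hF : Fintype.card F = q) (h2 : (2 : F) = 0)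
    (hsq : ∀ a : F, ∃ c, c * c = a) (h : Fintype.card F ≠ 2 ∨ m ≠ 2)
    (t : ↥(isometryGroup F ⇑(qPlus m F))) (ht : t * t = 1) {s : ℕ}
    (hs : (((t : GL (Fin m ⊕ Fin m) F) : Matrix (Fin m ⊕ Fin m) (Fin m ⊕ Fin m) F) - 1).rank = s)
    (hna : ∃ v, polarBilin (qPlus m F) v
      (((t : GL (Fin m ⊕ Fin m) F) : Matrix (Fin m ⊕ Fin m) (Fin m ⊕ Fin m) F) *ᵥ v) ≠ 0) :
    1 ≤ s ∧ s ≤ m ∧
    q ^ (2 * m - s) * Nat.card {g : ↥(Omega F ⇑(qPlus m F)) //
        (g : ↥(isometryGroup F ⇑(qPlus m F))) * t = t * (g : ↥(isometryGroup F ⇑(qPlus m F)))} =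
      q ^ (s * (s + 1) / 2 + 2 * s * (m - s)) *
        (q ^ ((m - s) ^ 2) * ∏ i ∈ Finset.range (m - s), (q ^ (2 * (i + 1)) - 1)) *
      Nat.card {A : Matrix (Fin s) (Fin s) F // Aᵀ * Pm F id * A = Pm F id} := by
  classical
  have hq : 2 ≤ q := by rw [← hF]; exact Fintype.one_lt_card
  have hB := qPlus_nondeg (m := m) (F := F)
  have h5 : finrank F (Fin m ⊕ Fin m → F) = 2 * m := by simp [two_mul]
  have hgen := cartan_dieudonne (qPlus m F) hB (by
    rcases h with h | h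
    · exact Or.inl h
    · right; rw [h5]; omega)
  obtain ⟨ε, hε1, hε2⟩ := exists_dickson _ h2 hB hgen
  obtain ⟨s', r, hr⟩ := nf_nonalt h2 hsq hB (polar_isAlt _ h2) (NG_sq h2 (coe_sq ht))
    (NG_adj (PB_of_iso t.2) (coe_sq ht)) (by simpa only [NG_form h2] using hna)
  have e1 := hr.finrank hB (fun _ => rfl)
  rw [← rank_eq, hs, Fintype.card_fin] at e1
  subst e1
  have hsm : s ≤ m := by
    have := rank_le h2 (coe_sq ht)
    rw [hs] at this
    simp only [Fintype.card_sum, Fintype.card_fin] at this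
    omega
  have hne : (t : GL (Fin m ⊕ Fin m) F) ≠ 1 := by
    intro h1
    obtain ⟨v, hv⟩ := hna
    apply hv
    rw [h1]
    simp only [Units.val_one, Matrix.one_mulVec]
    exact polar_isAlt _ h2 v
  have hs1 : 1 ≤ s := hs ▸ rank_pos hne
  refine ⟨hs1, hsm, ?_⟩
  obtain ⟨k, rfl⟩ : ∃ k, s = k + 1 := ⟨s - 1, by omega⟩
  obtain ⟨j, rfl⟩ : ∃ j, m = j + 1 := ⟨m - 1, by omega⟩
  have hon : ONFr (qPlus (j + 1) F) (k + 1) r := ⟨hr.li, hr.iso, fun i => by
    rw [NF.Q_eq h2 hB (NG_Q t.2) (fun _ => rfl) hr]; simp⟩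
  -- a commuting reflection
  have hN0 : NG (t : GL (Fin (j + 1) ⊕ Fin (j + 1)) F) (r 0) = 0 := by
    rw [hr.formula]
    apply Finset.sum_eq_zero
    intro i _
    rw [hr.iso, zero_smul]
  obtain ⟨c, hc1, hc2⟩ := exists_comm_refl h2 hsq hB t (r 0) hN0 (by rw [hon.2.2]; exact one_ne_zero)
  have hker : Omega F ⇑(qPlus (j + 1) F) = ε.ker := by
    ext g; rw [hε1, MonoidHom.mem_ker]
  have c1 := card_ker_centralizer ε t c hc1 (by rw [Ne, hε2, hc2]; decide)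
  rw [← hker, card_centralizer_O h2 hB t (fun _ => rfl) hr, card_fiber hB (fun _ => rfl) hr] at c1
  have c2 := card_fixO hB r hon
  rw [Nat.card_congr (bridge (qPlus (j + 1) F)).toEquiv,
    card_OG_plus j _ (qPlus (j + 1) F) hB qPlus_wtype h5, Nat.card_eq_fintype_card (α := F), hF] at c2
  have c3 := card_onFr (qPlus (j + 1) F) h2 hsq hB k
  rw [hF, h5] at c3
  have c4 := card_Q1_plus (m := j + 1) hF hsq
  have c5 := S0775.arith q (j + 1) (k + 1) hsm
  rw [Finset.prod_range_succ', Finset.prod_range_succ _ j, Nat.sub_zero, pow_zero] at c5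
  have hFr : 0 < Nat.card {f : Fin (k + 1) → (Fin (j + 1) ⊕ Fin (j + 1) → F) //
      ONFr (qPlus (j + 1) F) (k + 1) f} := by
    haveI : Nonempty {f : Fin (k + 1) → (Fin (j + 1) ⊕ Fin (j + 1) → F) //
      ONFr (qPlus (j + 1) F) (k + 1) f} := ⟨⟨_, hon⟩⟩
    exact Nat.card_pos
  have c6 := arith_fix q j k _ _ _ _ _ _ hq (by omega) c2 c3 c4 c5 hFr
  apply Nat.eq_of_mul_eq_mul_left (show 0 < 2 by norm_num)
  rw [← mul_assoc, mul_comm 2, mul_assoc, c1, ← mul_assoc, c6, mul_assoc]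

end Cfsg.Agent.Lib.Helper16.OInv
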