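import Mathlib

set_option autoImplicit false

namespace Cfsg.Agent.Lib.Helper16.OInv

theorem expoO1 (m s : ℕ) (hs : s ≤ m) (hs1 : 1 ≤ s) :
    s * (s + 1) / 2 + 2 * s * (m - s) = (2 * m - s) + (2 * m * (s - 1) - (3 * s ^ 2 - 3 * s) / 2) := by
  obtain ⟨d, rfl⟩ := Nat.exists_eq_add_of_le hs
  obtain ⟨u, rfl⟩ : ∃ u, s = u + 1 := ⟨s - 1, by omega⟩
  have h1 : 2 * (u + 1 + d) * (u + 1 - 1) = 2 * (u * u) + 2 * u + 2 * (d * u) := by
    rw [Nat.add_sub_cancel]; ring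
  have h2 : 3 * (u + 1) ^ 2 = 3 * (u * u) + 6 * u + 3 := by ring
  have h3 : 2 * (u + 1) * (u + 1 + d - (u + 1)) = 2 * (d * u) + 2 * d := by
    rw [Nat.add_sub_cancel_left]; ring
  have h4 : (u + 1) * (u + 1 + 1) = u * u + 3 * u + 2 := by ring
  obtain ⟨T, hT⟩ := Nat.even_mul_succ_self u
  have h6 : u * (u + 1) = u * u + u := by ring
  rw [h6] at hT
  rw [h1, h2, h3, h4]
  generalize u * u = a at *
  generalize d * u = b at *
  omega

theorem expoO2 (m s : ℕ) (hs : s ≤ m) (hs1 : 2 ≤ s) :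
    s * (s + 1) / 2 + 2 * s * (m - s) + (s - 1) =
      (2 * m - s) + (2 * m * (s - 1) - (3 * s ^ 2 - 5 * s) / 2 - 1) := by
  obtain ⟨d, rfl⟩ := Nat.exists_eq_add_of_le hs
  obtain ⟨u, rfl⟩ : ∃ u, s = u + 1 := ⟨s - 1, by omega⟩
  have h1 : 2 * (u + 1 + d) * (u + 1 - 1) = 2 * (u * u) + 2 * u + 2 * (d * u) := by
    rw [Nat.add_sub_cancel]; ring
  have h2 : 3 * (u + 1) ^ 2 = 3 * (u * u) + 6 * u + 3 := by ring
  have h3 : 2 * (u + 1) * (u + 1 + d - (u + 1)) = 2 * (d * u) + 2 * d := by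
    rw [Nat.add_sub_cancel_left]; ring
  have h4 : (u + 1) * (u + 1 + 1) = u * u + 3 * u + 2 := by ring
  obtain ⟨T, hT⟩ := Nat.even_mul_succ_self u
  have h6 : u * (u + 1) = u * u + u := by ring
  have h7 : u ≤ u * u := Nat.le_mul_self u
  rw [h6] at hT
  rw [h1, h2, h3, h4]
  generalize u * u = a at *
  generalize d * u = b at *
  omega

end Cfsg.Agent.Lib.Helper16.OInv
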