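import Mathlib
import Cfsg.Agent.Lib.Helper16.OCent1

set_option autoImplicit false
set_option linter.unusedSectionVars false

namespace Cfsg.Agent.Lib.Helper16.OInv

open Module QuadraticMap Cfsg.Agent.Lib.Helper16.SpInv

variable {F V : Type*} [Field F] [AddCommGroup V] [Module F V] [FiniteDimensional F V]
  (Q : QuadraticForm F V)

/-- totally singular frames -/
def TSFr (k : ℕ) (f : Fin k → V) : Prop :=
  LinearIndependent F f ∧ (∀ i j, polarBilin Q (f i) (f j) = 0) ∧ ∀ i, Q (f i) = 0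

theorem card_off_eq [Finite F] (h2 : (2 : F) = 0) {k : ℕ} (f : Fin k → V)
    (h0 : ∀ i j, polarBilin Q (f i) (f j) = 0) (hQ : ∀ i, Q (f i) = 0) (a : F) :
    Nat.card {v : {v : V // ¬ ∀ j, polarBilin Q (f j) v = 0} // Q v.1 = a} =
      Nat.card {v : {v : V // ¬ ∀ j, polarBilin Q (f j) v = 0} // Q v.1 = 0} := by
  have hex : ∀ l : Fin k → F, ∃ u : V, l ≠ 0 → (Q u = 0 ∧ (∀ j, polarBilin Q (f j) u = 0) ∧
      ∀ v, (∀ j, polarBilin Q (f j) v = l j) → polar Q v u = 1) := by
    intro l
    by_cases hl : l = 0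
    · exact ⟨0, fun h => absurd hl h⟩
    · obtain ⟨j0, hj0⟩ := Function.ne_iff.1 hl
      refine ⟨(l j0)⁻¹ • f j0, fun _ => ⟨?_, ?_, ?_⟩⟩
      · rw [QuadraticMap.map_smul, hQ, smul_zero]
      · intro j; rw [map_smul, h0, smul_zero]
      · intro v hv
        rw [polar_smul_right, polar_comm, ← polarBilin_apply_apply, hv, smul_eq_mul]
        exact inv_mul_cancel₀ hj0
  choose u hu using hex
  set lam : V → (Fin k → F) := fun v j => polarBilin Q (f j) v with hlamdef
  set T : V → V := fun v => v + a • u (lam v) with hT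
  have hne : ∀ v, (¬ ∀ j, polarBilin Q (f j) v = 0) ↔ lam v ≠ 0 := by
    intro v
    rw [Ne, funext_iff]
    rfl
  have hlam : ∀ v, lam v ≠ 0 → lam (T v) = lam v := by
    intro v hv
    funext j
    show polarBilin Q (f j) (v + a • u (lam v)) = polarBilin Q (f j) v
    rw [map_add, map_smul, (hu _ hv).2.1, smul_zero, add_zero]
  have hTT : ∀ v, lam v ≠ 0 → T (T v) = v := by
    intro v hv
    show T v + a • u (lam (T v)) = v
    rw [hlam v hv]
    show v + a • u (lam v) + a • u (lam v) = v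
    rw [add_assoc, ← two_smul F, h2, zero_smul, add_zero]
  have hQT : ∀ v, lam v ≠ 0 → Q (T v) = Q v + a := by
    intro v hv
    show Q (v + a • u (lam v)) = _
    rw [QuadraticMap.map_add (⇑Q), QuadraticMap.map_smul, (hu _ hv).1, polar_smul_right,
      (hu _ hv).2.2 v (fun _ => rfl)]
    simp
  have hmem : ∀ v, (¬ ∀ j, polarBilin Q (f j) v = 0) → ¬ ∀ j, polarBilin Q (f j) (T v) = 0 := by
    intro v hv
    rw [hne] at hv ⊢
    rw [hlam v hv]; exact hv
  refine Nat.card_congr ⟨fun v => ⟨⟨T v.1.1, hmem _ v.1.2⟩, ?_⟩,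
    fun v => ⟨⟨T v.1.1, hmem _ v.1.2⟩, ?_⟩,
    fun v => Subtype.ext (Subtype.ext (hTT _ ((hne _).1 v.1.2))),
    fun v => Subtype.ext (Subtype.ext (hTT _ ((hne _).1 v.1.2)))⟩
  · show Q (T v.1.1) = 0
    rw [hQT _ ((hne _).1 v.1.2), v.2]; linear_combination a * h2
  · show Q (T v.1.1) = a
    rw [hQT _ ((hne _).1 v.1.2), v.2, zero_add]

theorem card_off [Fintype F] (h2 : (2 : F) = 0) {k : ℕ} (f : Fin k → V)
    (h0 : ∀ i j, polarBilin Q (f i) (f j) = 0) (hQ : ∀ i, Q (f i) = 0) :
    Fintype.card F * Nat.card {v : V // (¬ ∀ j, polarBilin Q (f j) v = 0) ∧ Q v = 0} =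
      Nat.card {v : V // ¬ ∀ j, polarBilin Q (f j) v = 0} := by
  haveI : Finite V := Module.finite_of_finite F
  rw [← Nat.card_congr (Equiv.sigmaFiberEquiv
    (fun u : {v : V // ¬ ∀ j, polarBilin Q (f j) v = 0} => Q u.1)), Nat.card_sigma]
  simp only [card_off_eq Q h2 f h0 hQ, Finset.sum_const, Finset.card_univ, smul_eq_mul]
  congr 1
  exact (Nat.card_congr (Equiv.subtypeSubtypeEquivSubtypeInter
    (fun v => ¬ ∀ j, polarBilin Q (f j) v = 0) (fun v => Q v = 0))).symm

theorem span_sing {k : ℕ} {f : Fin k → V} (h0 : ∀ i j, polarBilin Q (f i) (f j) = 0)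
    (hQ : ∀ i, Q (f i) = 0) : ∀ x ∈ Submodule.span F (Set.range f), Q x = 0 := by
  intro x hx
  obtain ⟨c, rfl⟩ := (Submodule.mem_span_range_iff_exists_fun F).1 hx
  rw [Q_sum Q f h0]
  simp [hQ]

theorem card_ext_ts [Fintype F] (h2 : (2 : F) = 0)
    (hB : (polarBilin Q).Nondegenerate) {k : ℕ} (f : Fin k → V) (hf : TSFr Q k f) :
    Fintype.card F * Nat.card {v : V // ((∀ i, polarBilin Q (f i) v = 0) ∧
          v ∉ Submodule.span F (Set.range f)) ∧ Q v = 0}
      = Fintype.card F * Nat.card {v : V // Q v = 0} + Fintype.card F ^ (finrank F V - k)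
        - Fintype.card F ^ (k + 1) - Fintype.card F ^ (finrank F V) := by
  classical
  haveI : Finite V := Module.finite_of_finite F
  obtain ⟨U, hU⟩ : ∃ U, U = Submodule.span F (Set.range f) := ⟨_, rfl⟩
  obtain ⟨P, hP⟩ : ∃ P, P = LinearMap.BilinForm.orthogonal (polarBilin Q) U := ⟨_, rfl⟩
  rw [← hU]
  have hmem : ∀ v, (∀ i, polarBilin Q (f i) v = 0) ↔ v ∈ P := by
    intro v
    rw [hP, LinearMap.BilinForm.mem_orthogonal_iff]
    constructor
    · intro h n hn
      show polarBilin Q n v = 0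
      rw [hU] at hn
      induction hn using Submodule.span_induction with
      | mem x hx => obtain ⟨i, rfl⟩ := hx; exact h i
      | zero => simp
      | add a b _ _ ha hb => rw [map_add, LinearMap.add_apply, ha, hb, add_zero]
      | smul c a _ ha => rw [map_smul, LinearMap.smul_apply, ha, smul_zero]
    · intro h i
      exact h (f i) (by rw [hU]; exact Submodule.subset_span ⟨i, rfl⟩)
  have hUP : U ≤ P := by
    intro v hv
    rw [← hmem]
    intro i
    rw [hU] at hv
    exact span_iso' Q hf.2.1 _ (Submodule.subset_span ⟨i, rfl⟩) _ hv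
  have hcU : Nat.card U = Fintype.card F ^ k := by
    rw [Module.natCard_eq_pow_finrank (K := F), hU, finrank_span_eq_card hf.1, Fintype.card_fin,
      Nat.card_eq_fintype_card]
  have hcP : Nat.card P = Fintype.card F ^ (finrank F V - k) := by
    rw [Module.natCard_eq_pow_finrank (K := F), hP,
      LinearMap.BilinForm.finrank_orthogonal hB, hU,
      finrank_span_eq_card hf.1, Fintype.card_fin, Nat.card_eq_fintype_card]
  have hcV : Nat.card V = Fintype.card F ^ (finrank F V) := by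
    rw [Module.natCard_eq_pow_finrank (K := F), Nat.card_eq_fintype_card]
  have c1 := card_off Q h2 f hf.2.1 hf.2.2
  -- complement of P
  have c2 : Nat.card {v : V // ¬ ∀ j, polarBilin Q (f j) v = 0} + Nat.card P = Nat.card V := by
    have := Nat.card_congr (Equiv.sumCompl (fun v : V => v ∈ P))
    rw [Nat.card_sum] at this
    rw [← this, add_comm]
    congr 1
    exact Nat.card_congr (Equiv.subtypeEquivRight (fun v => by rw [hmem]))
  -- splitting the singular vectors
  have c3 : Nat.card {v : V // v ∈ P ∧ Q v = 0} +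
      Nat.card {v : V // (¬ ∀ j, polarBilin Q (f j) v = 0) ∧ Q v = 0} =
      Nat.card {v : V // Q v = 0} := by
    have := Nat.card_congr (Equiv.sumCompl (fun v : {v : V // Q v = 0} => v.1 ∈ P))
    rw [Nat.card_sum] at this
    rw [← this]
    congr 1
    · exact Nat.card_congr ((Equiv.subtypeEquivRight (fun v => and_comm)).trans
        (Equiv.subtypeSubtypeEquivSubtypeInter (fun v => Q v = 0) (fun v => v ∈ P)).symm)
    · exact Nat.card_congr ((Equiv.subtypeEquivRight (fun v => by rw [hmem, and_comm])).trans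
        (Equiv.subtypeSubtypeEquivSubtypeInter (fun v => Q v = 0) (fun v => ¬ v ∈ P)).symm)
  have c4 : Nat.card {v : V // ((∀ i, polarBilin Q (f i) v = 0) ∧ v ∉ U) ∧ Q v = 0} + Nat.card U =
      Nat.card {v : V // v ∈ P ∧ Q v = 0} := by
    have := Nat.card_congr (Equiv.sumCompl (fun v : {v : V // v ∈ P ∧ Q v = 0} => v.1 ∈ U))
    rw [Nat.card_sum] at this
    rw [← this, add_comm]
    congr 1
    · refine Nat.card_congr ⟨fun v => ⟨⟨v.1, hUP v.2, ?_⟩, v.2⟩, fun v => ⟨v.1.1, v.2⟩,
        fun v => rfl, fun v => rfl⟩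
      exact span_sing Q hf.2.1 hf.2.2 _ (hU ▸ v.2)
    · exact Nat.card_congr ((Equiv.subtypeEquivRight (fun v => by rw [hmem]; tauto)).trans
        (Equiv.subtypeSubtypeEquivSubtypeInter (fun v => v ∈ P ∧ Q v = 0) (fun v => ¬ v ∈ U)).symm)
  rw [hcU] at c4
  rw [hcP, hcV] at c2
  rw [← c3, ← c4, pow_succ]
  generalize Nat.card {v : V // ((∀ i, polarBilin Q (f i) v = 0) ∧ v ∉ U) ∧ Q v = 0} = X at *
  generalize Nat.card {v : V // (¬ ∀ j, polarBilin Q (f j) v = 0) ∧ Q v = 0} = Y at *
  rw [← c2, ← c1, mul_add, mul_add, mul_comm (Fintype.card F ^ k)]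
  omega

/-- peeling off the first vector of a totally singular frame. -/
def tsFrEquiv (h2 : (2 : F) = 0) (k : ℕ) :
    {f : Fin (k + 1) → V // TSFr Q (k + 1) f} ≃
      Σ f : {f : Fin k → V // TSFr Q k f},
        {v : V // ((∀ i, polarBilin Q (f.1 i) v = 0) ∧
          v ∉ Submodule.span F (Set.range f.1)) ∧ Q v = 0} where
  toFun s := ⟨⟨Fin.tail s.1, (linearIndependent_finSucc.mp s.2.1).1,
      fun i j => s.2.2.1 i.succ j.succ, fun i => s.2.2.2 i.succ⟩,
    ⟨s.1 0, ⟨fun i => s.2.2.1 i.succ 0, (linearIndependent_finSucc.mp s.2.1).2⟩, s.2.2.2 0⟩⟩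
  invFun p := ⟨Fin.cons p.2.1 p.1.1, linearIndependent_finCons.mpr ⟨p.1.2.1, p.2.2.1.2⟩, by
      intro i j
      refine Fin.cases ?_ (fun i => ?_) i <;> refine Fin.cases ?_ (fun j => ?_) j
      · simp only [Fin.cons_zero]
        exact polar_isAlt Q h2 _
      · simp only [Fin.cons_zero, Fin.cons_succ]
        rw [polarBilin_apply_apply, polar_comm]
        exact p.2.2.1.1 j
      · simp only [Fin.cons_zero, Fin.cons_succ]
        exact p.2.2.1.1 i
      · simp only [Fin.cons_succ]
        exact p.1.2.2.1 i j, by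
      intro i
      refine Fin.cases ?_ (fun i => ?_) i
      · simp only [Fin.cons_zero]
        exact p.2.2.2
      · simp only [Fin.cons_succ]
        exact p.1.2.2.2 i⟩
  left_inv _ := by simp only [Fin.cons_self_tail, Subtype.coe_eta]
  right_inv := fun ⟨⟨_, _⟩, ⟨_, _⟩⟩ => rfl

theorem card_tsFr [Fintype F] (h2 : (2 : F) = 0)
    (hB : (polarBilin Q).Nondegenerate) (k : ℕ) :
    Fintype.card F ^ k * Nat.card {f : Fin k → V // TSFr Q k f}
      = ∏ i ∈ Finset.range k,
        (Fintype.card F * Nat.card {v : V // Q v = 0} + Fintype.card F ^ (finrank F V - i)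
        - Fintype.card F ^ (i + 1) - Fintype.card F ^ (finrank F V)) := by
  classical
  haveI : Finite V := Module.finite_of_finite F
  induction k with
  | zero =>
    rw [Finset.range_zero, Finset.prod_empty, pow_zero, one_mul, Nat.card_eq_one_iff_unique]
    refine ⟨⟨fun a b => Subtype.ext (funext fun i => i.elim0)⟩,
      ⟨⟨fun i => i.elim0, linearIndependent_empty_type, fun i => i.elim0, fun i => i.elim0⟩⟩⟩
  | succ k ih =>
    haveI : Fintype {f : Fin k → V // TSFr Q k f} := Fintype.ofFinite _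
    rw [Nat.card_congr (tsFrEquiv Q h2 k), Nat.card_sigma, Finset.prod_range_succ,
      ← ih, pow_succ, mul_assoc, Finset.mul_sum,
      Finset.sum_congr rfl (fun f _ => card_ext_ts Q h2 hB f.1 f.2), Finset.sum_const,
      Finset.card_univ, smul_eq_mul,
      Nat.card_eq_fintype_card (α := {f : Fin k → V // TSFr Q k f}), mul_assoc, ← pow_succ]

end Cfsg.Agent.Lib.Helper16.OInv
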