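import Mathlib

set_option autoImplicit false

namespace Cfsg.Agent.Lib.Helper16.OInv

/-- the order of `O⁺_{2n}(q)`, `q` even -/
def Oord (q n : ℕ) : ℕ :=
  if n = 0 then 1 else 2 * q ^ (n * (n - 1)) * (q ^ n - 1) *
    ∏ i ∈ Finset.range (n - 1), (q ^ (2 * (i + 1)) - 1)

theorem Oord_succ (q n : ℕ) (hq : 1 ≤ q) :
    Oord q (n + 1) = Oord q n * q ^ (2 * n) * (q ^ (n + 1) - 1) * (q ^ n + 1) := by
  rcases n with _ | p
  · simp [Oord]; ring
  · simp only [Oord, Nat.add_sub_cancel, if_neg (Nat.succ_ne_zero _)]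
    rw [Finset.prod_range_succ]
    have h1 : q ^ (2 * (p + 1)) - 1 = (q ^ (p + 1) + 1) * (q ^ (p + 1) - 1) := by
      rw [← Nat.sq_sub_sq, one_pow, ← pow_mul, mul_comm]
    rw [h1]
    generalize (∏ i ∈ Finset.range p, (q ^ (2 * (i + 1)) - 1)) = A
    generalize q ^ (p + 1) - 1 = B
    generalize q ^ (p + 1 + 1) - 1 = C
    ring

theorem factor_ts (q m i S : ℕ) (hq : 1 ≤ q) (hi : i < m)
    (hS : q * S + q ^ m = q ^ (2 * m) + q ^ (m + 1)) :
    q * S + q ^ (2 * m - i) - q ^ (i + 1) - q ^ (2 * m) =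
      (q ^ (m - i) - 1) * q ^ (i + 1) * (q ^ (m - i - 1) + 1) := by
  obtain ⟨n, rfl⟩ : ∃ n, m = i + n + 1 := ⟨m - i - 1, by omega⟩
  have e1 : i + n + 1 - i = n + 1 := by omega
  have e2 : i + n + 1 - i - 1 = n := by omega
  have e3 : 2 * (i + n + 1) - i = (i + 1) + n + (n + 1) := by omega
  have e4 : i + n + 1 = (i + 1) + n := by omega
  have e5 : i + n + 1 + 1 = (i + 1) + (n + 1) := by omega
  rw [e2, e1, e3]
  rw [e5] at hS
  rw [e4] at hS
  have hb : 1 ≤ q ^ (n + 1) := Nat.one_le_pow _ _ hq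
  obtain ⟨b, hb'⟩ : ∃ b, q ^ (n + 1) = b + 1 := ⟨q ^ (n + 1) - 1, by omega⟩
  rw [pow_add, pow_add (a := q) (m := i + 1) (n := n), hb', Nat.add_sub_cancel]
  rw [pow_add (a := q) (m := i + 1) (n := n), pow_add (a := q) (m := i + 1) (n := n + 1), hb'] at hS
  rw [e4]
  generalize q ^ (i + 1) = c at *
  generalize q ^ n = a at *
  generalize q ^ (2 * (i + 1 + n)) = Z at *
  have key : b * c * (a + 1) + c + Z = q * S + c * a * (b + 1) := by nlinarith
  omega

theorem arith_ts (q m : ℕ) (hq : 1 ≤ q) : ∀ s, s ≤ m →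
    q ^ (s * (s - 1) / 2 + 2 * s * (m - s)) * Oord q (m - s) *
      ∏ i ∈ Finset.range s, ((q ^ (m - i) - 1) * q ^ (i + 1) * (q ^ (m - i - 1) + 1))
    = q ^ s * Oord q m := by
  intro s
  induction s with
  | zero => intro _; simp
  | succ s ih =>
    intro hs
    have ih' := ih (by omega)
    obtain ⟨d, rfl⟩ : ∃ d, m = s + 1 + d := ⟨m - (s + 1), by omega⟩
    have e0 : q ^ (s + 1) * Oord q (s + 1 + d) = q * (q ^ s * Oord q (s + 1 + d)) := by ring
    rw [e0, ← ih']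
    have e1 : s + 1 + d - (s + 1) = d := by omega
    have e2 : s + 1 + d - s = d + 1 := by omega
    have e3 : s + 1 + d - s - 1 = d := by omega
    rw [e1, e2, Finset.prod_range_succ, e3, e2, Oord_succ q d hq]
    have e4 : (s + 1) * (s + 1 - 1) / 2 = s * (s - 1) / 2 + s := by
      rcases s with _ | u
      · simp
      · have : (u + 1 + 1) * (u + 1 + 1 - 1) = (u + 1) * (u + 1 - 1) + 2 * (u + 1) := by
          simp only [Nat.add_sub_cancel]; ring
        rw [this, Nat.add_mul_div_left _ _ (by norm_num)]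
    rw [e4]
    generalize (∏ i ∈ Finset.range s, ((q ^ (s + 1 + d - i) - 1) * q ^ (i + 1) *
      (q ^ (s + 1 + d - i - 1) + 1))) = A
    generalize (q ^ (d + 1) - 1) = C
    generalize s * (s - 1) / 2 = T
    generalize Oord q d = D
    ring

theorem expoO3 (m s : ℕ) (hs : s ≤ m) :
    2 * m * s - (3 * s ^ 2 + s) / 2 = s * (s - 1) / 2 + 2 * s * (m - s) := by
  obtain ⟨d, rfl⟩ := Nat.exists_eq_add_of_le hs
  rcases s with _ | u
  · simp
  have h1 : 2 * (u + 1 + d) * (u + 1) = 2 * (u * u) + 4 * u + 2 + 2 * (d * u) + 2 * d := by ring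
  have h2 : 3 * (u + 1) ^ 2 = 3 * (u * u) + 6 * u + 3 := by ring
  have h3 : 2 * (u + 1) * (u + 1 + d - (u + 1)) = 2 * (d * u) + 2 * d := by
    rw [Nat.add_sub_cancel_left]; ring
  have h4 : (u + 1) * (u + 1 - 1) = u * u + u := by rw [Nat.add_sub_cancel]; ring
  obtain ⟨T, hT⟩ := Nat.even_mul_succ_self u
  have h6 : u * (u + 1) = u * u + u := by ring
  rw [h6] at hT
  rw [h1, h2, h3, h4]
  generalize u * u = a at *
  generalize d * u = b at *
  omega

end Cfsg.Agent.Lib.Helper16.OInv
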