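import Mathlib
import Cfsg.Agent.Lib.Helper16.OCent3
import Cfsg.Agent.Lib.Helper16.OCent5
import Cfsg.Agent.Lib.Helper16.OCent6
import Cfsg.Agent.Lib.Helper16.POAut13

set_option autoImplicit false
set_option linter.unusedSectionVars false

namespace Cfsg.Agent.Lib.Helper16.OInv

open Cfsg Module QuadraticMap Matrix Cfsg.Agent.Lib.Helper16 Cfsg.Agent.Lib.Helper16.SpInv
  Cfsg.Agent.Lib.Helper16.POAut

section gen

variable {F : Type*} [Field F] {ι : Type} [Fintype ι] [DecidableEq ι]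
  {Q : QuadraticForm F (ι → F)}

theorem card_fixO_ts [Finite F] (hB : (polarBilin Q).Nondegenerate) {κ : Type*} [Fintype κ]
    (r : κ → (ι → F)) (hli : LinearIndependent F r)
    (h0 : ∀ i j, polarBilin Q (r i) (r j) = 0) (hQ : ∀ i, Q (r i) = 0) (s : ℕ)
    (hs : Fintype.card κ = s) :
    Nat.card (fixO Q r) * Nat.card {f : Fin s → (ι → F) // TSFr Q s f}
      = Nat.card ↥(isometryGroup F ⇑Q) ∧
      0 < Nat.card {f : Fin s → (ι → F) // TSFr Q s f} := by
  classical
  let e : Fin s ≃ κ := (Fintype.equivFinOfCardEq hs).symm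
  have hr : TSFr Q s (r ∘ e) := ⟨hli.comp e e.injective, fun i j => h0 _ _, fun i => hQ _⟩
  have heq : fixO Q r = fixO Q (r ∘ e) := by
    ext g
    rw [mem_fixO, mem_fixO]
    constructor
    · intro h i; exact h _
    · intro h i
      have := h (e.symm i)
      simpa using this
  rw [heq]
  refine ⟨?_, ?_⟩
  · letI := frActO Q (Fin s)
    have h := (MulAction.stabilizer ↥(isometryGroup F ⇑Q) (r ∘ e)).card_mul_index
    rw [MulAction.index_stabilizer] at h
    have horb : MulAction.orbit ↥(isometryGroup F ⇑Q) (r ∘ e) = {f | TSFr Q s f} := by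
      ext f
      constructor
      · rintro ⟨g, rfl⟩
        refine ⟨li_smul _ hr.1, fun i j => ?_, fun i => ?_⟩
        · exact (PB_of_iso g.2 _ _).trans (hr.2.1 i j)
        · exact ((mem_iso_iff Q _).1 g.2 _).trans (hr.2.2 i)
      · intro hf
        obtain ⟨φ, hφ1, hφ2⟩ := witt_q Q hB (r ∘ e) f hr.1 hf.1 hr.2.1 hf.2.1
          (fun i => by rw [hr.2.2, hf.2.2])
        obtain ⟨g, hg⟩ := exists_O_of_equiv φ hφ1
        exact ⟨g, funext fun i => (hg _).trans (hφ2 i)⟩
    rw [horb, ← Nat.card_coe_set_eq] at h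
    exact h
  · haveI : Nonempty {f : Fin s → (ι → F) // TSFr Q s f} := ⟨⟨_, hr⟩⟩
    exact Nat.card_pos

end gen

variable {F : Type*} [Field F] {m : ℕ}

set_option maxHeartbeats 1000000 in
/-- the centraliser in `Ω⁺` of an alternating involution -/
theorem card_omega_cent_alt [Fintype F] {q : ℕ} (hF : Fintype.card F = q) (h2 : (2 : F) = 0)
    (hsq : ∀ a : F, ∃ c, c * c = a) (h : Fintype.card F ≠ 2 ∨ m ≠ 2)
    (t : ↥(isometryGroup F ⇑(qPlus m F))) (ht : t * t = 1) (ht1 : t ≠ 1) {s : ℕ}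
    (hs : (((t : GL (Fin m ⊕ Fin m) F) : Matrix (Fin m ⊕ Fin m) (Fin m ⊕ Fin m) F) - 1).rank = s)
    (halt : ∀ v, polarBilin (qPlus m F) v
      (((t : GL (Fin m ⊕ Fin m) F) : Matrix (Fin m ⊕ Fin m) (Fin m ⊕ Fin m) F) *ᵥ v) = 0) :
    s ≤ m ∧
    Nat.card {g : ↥(Omega F ⇑(qPlus m F)) //
        (g : ↥(isometryGroup F ⇑(qPlus m F))) * t = t * (g : ↥(isometryGroup F ⇑(qPlus m F)))} *
        (if s = m then 1 else 2) =
      q ^ (s * (s - 1) / 2 + 2 * s * (m - s)) * Oord q (m - s) *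
      Nat.card (symplecticGroup (Fin (s / 2)) F) := by
  classical
  have hq : 2 ≤ q := by rw [← hF]; exact Fintype.one_lt_card
  have hB := qPlus_nondeg (m := m) (F := F)
  have h5 : finrank F (Fin m ⊕ Fin m → F) = 2 * m := by simp [two_mul]
  have hgen := cartan_dieudonne (qPlus m F) hB (by
    rcases h with h | h
    · exact Or.inl h
    · right; rw [h5]; omega)
  obtain ⟨ε, hε1, hε2⟩ := exists_dickson _ h2 hB hgen
  have hw' : ∀ U : Submodule F (Fin m ⊕ Fin m → F),
      (∀ u ∈ U, qPlus m F u = 0) → Module.finrank F U ≤ m := fun U hU => by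
    have := POAut.ts_finrank_le (Q := qPlus m F) hB U hU
    omega
  obtain ⟨k, r, hr⟩ := nf_alt h2 hB (polar_isAlt _ h2) (NG_sq h2 (coe_sq ht))
    (NG_adj (PB_of_iso t.2) (coe_sq ht)) (by simpa only [NG_form h2] using halt)
  have e1 := hr.finrank hB Sum.swap_swap
  rw [← rank_eq, hs] at e1
  have hsm : s ≤ m := by
    have := rank_le h2 (coe_sq ht)
    rw [hs] at this
    simp only [Fintype.card_sum, Fintype.card_fin] at this
    omega
  have hne : (t : GL (Fin m ⊕ Fin m) F) ≠ 1 := fun h1 => ht1 (Subtype.ext h1)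
  have hs1 : 1 ≤ s := hs ▸ rank_pos hne
  refine ⟨hsm, ?_⟩
  have hk : s / 2 = k := by
    simp only [Fintype.card_sum, Fintype.card_fin] at e1
    omega
  have hQr : ∀ i, qPlus m F (r i) = 0 := fun i => by
    rw [NF.Q_eq h2 hB (NG_Q t.2) Sum.swap_swap hr]
    rcases i with i | i <;> simp
  have c0 := card_centralizer_O h2 hB t Sum.swap_swap hr
  rw [card_fiber hB Sum.swap_swap hr, card_gram_swap h2 k] at c0
  obtain ⟨c2, hpos⟩ := card_fixO_ts hB r hr.li hr.iso hQr s e1.symm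
  obtain ⟨j, hj⟩ : ∃ j, m = j + 1 := ⟨m - 1, by omega⟩
  have hO : Nat.card ↥(isometryGroup F ⇑(qPlus m F)) = Oord q m := by
    subst hj
    rw [Nat.card_congr (bridge (qPlus (j + 1) F)).toEquiv,
      card_OG_plus j _ (qPlus (j + 1) F) hB qPlus_wtype h5, Nat.card_eq_fintype_card (α := F), hF]
    simp [Oord]
  rw [hO] at c2
  have c3 := card_tsFr (qPlus m F) h2 hB s
  have hA := card_sing_formula (F := F) 0 m _ (qPlus m F) qPlus_nondeg qPlus_wtype (by rw [h5]; rfl)
  simp only [Nat.card_eq_fintype_card (α := F), hF, add_zero] at hA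
  rw [hF, h5, Finset.prod_congr rfl (fun i hi => factor_ts q m i _ (by omega)
    (by have := Finset.mem_range.1 hi; omega) hA)] at c3
  have c5 := arith_ts q m (by omega) s hsm
  have hfix : Nat.card (fixO (qPlus m F) r) =
      q ^ (s * (s - 1) / 2 + 2 * s * (m - s)) * Oord q (m - s) := by
    have hpos' : 0 < q ^ s * Nat.card {f : Fin s → (Fin m ⊕ Fin m → F) // TSFr (qPlus m F) s f} :=
      Nat.mul_pos (pow_pos (by omega) _) hpos
    apply Nat.eq_of_mul_eq_mul_right hpos'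
    conv_rhs => rw [c3, c5, ← c2]
    ring
  rw [hfix] at c0
  rw [hk, ← c0]
  have hker : Omega F ⇑(qPlus m F) = ε.ker := by
    ext g; rw [hε1, MonoidHom.mem_ker]
  by_cases hsm' : s = m
  · rw [if_pos hsm', mul_one]
    have hU : IsMTS (qPlus m F) (LinearMap.range (NG (t : GL (Fin m ⊕ Fin m) F))) :=
      ⟨range_singular h2 halt, by rw [← rank_eq, hs, h5, hsm']⟩
    refine Nat.card_congr ⟨fun g => ⟨g.1.1, Subgroup.mem_centralizer_singleton_iff.2 g.2⟩,
      fun g => ⟨⟨g.1, ?_⟩, Subgroup.mem_centralizer_singleton_iff.1 g.2⟩, fun g => rfl,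
      fun g => rfl⟩
    have hg := Subgroup.mem_centralizer_singleton_iff.1 g.2
    have hg' : (g.1 : GL (Fin m ⊕ Fin m) F) * (t : GL (Fin m ⊕ Fin m) F) =
        (t : GL (Fin m ⊕ Fin m) F) * (g.1 : GL (Fin m ⊕ Fin m) F) := by
      rw [← Subgroup.coe_mul, hg, Subgroup.coe_mul]
    rw [mem_omega_iff_parity h2 hB hgen hU hU g.1, ← range_conj hg']
  · rw [if_neg hsm', mul_comm]
    obtain ⟨u, hu1, hu2⟩ := exists_nonsingular_ker h2 (by simp [two_mul]) hw' ht
      (fun hcon => hsm' (hs ▸ hcon.1))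
    obtain ⟨c, hc1, hc2⟩ := exists_comm_refl h2 hsq hB t u hu1 hu2
    have c1 := card_ker_centralizer ε t c hc1 (by rw [Ne, hε2, hc2]; decide)
    rw [← hker] at c1
    exact c1

end Cfsg.Agent.Lib.Helper16.OInv
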