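import Mathlib
import Cfsg.Agent.Lib.Helper16.Orth32

set_option autoImplicit false

namespace Cfsg.Agent.Lib.Helper16

open Cfsg.Agent.Lib.Helper6 Module

variable {F V : Type*} [Field F] [AddCommGroup V] [Module F V] (Q : QuadraticForm F V)

local notation "P" => QuadraticMap.polarBilin Q

/-- singular vectors all of whose Siegel transformations lie in `M` -/
def XS (M : Subgroup ↥(OG Q)) : Set V :=
  {w | ∀ (hw : Q w = 0) (u : V) (huw : P u w = 0), siegO Q w u hw huw ∈ M}

variable {Q}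

theorem XS_map {M : Subgroup ↥(OG Q)} {w : V} (hw : w ∈ XS Q M) {g : ↥(OG Q)} (hg : g ∈ M) :
    g.1 w ∈ XS Q M := by
  intro hgw u hu
  have hw0 : Q w = 0 := by rw [← g.2 w]; exact hgw
  have h1 : g.1 (g⁻¹.1 u) = u := by
    change (g * g⁻¹).1 _ = _
    rw [mul_inv_cancel]; rfl
  have h2 : P (g⁻¹.1 u) w = 0 := by
    rw [← OG_polar Q g.2, h1]; exact hu
  have h3 := siegO_conj Q g w (g⁻¹.1 u) hw0 h2
  have h4 : siegO Q (g.1 w) u hgw hu = g * siegO Q w (g⁻¹.1 u) hw0 h2 * g⁻¹ := by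
    rw [h3]
    exact siegO_congr2 rfl h1.symm _ _ _ _
  rw [h4]
  exact M.mul_mem (M.mul_mem hg (hw hw0 _ h2)) (M.inv_mem hg)

theorem XS_smul {M : Subgroup ↥(OG Q)} {w : V} (hw : w ∈ XS Q M) (hw0 : Q w = 0) (c : F) :
    c • w ∈ XS Q M := by
  intro hcw u hu
  by_cases hc : c = 0
  · subst hc
    have : siegO Q ((0 : F) • w) u hcw hu = 1 := by
      apply Subtype.ext
      ext1 z
      rw [siegO_apply, siegL_apply]
      simp
    rw [this]; exact M.one_mem
  · have h1 : P u w = 0 := by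
      rw [map_smul, smul_eq_mul] at hu
      exact (mul_eq_zero.1 hu).resolve_left hc
    have h2 := siegO_smul_left c w u hw0 h1
    have h3 : siegO Q (c • w) u hcw hu = siegO Q w (c • u) hw0 (by
        rw [map_smul, LinearMap.smul_apply, h1, smul_zero]) := h2
    rw [h3]
    exact hw hw0 _ _

/-- a single Siegel transformation centred at `z` moves `x` to `y` -/
theorem sieg_move1 (z x y : V) (hz : Q z = 0) (hx : Q x = 0) (hy : Q y = 0) (hzx : P z x = 1)
    (hzy : P z y = 1) : ∃ (u : V) (hu : P u z = 0), (siegO Q z u hz hu).1 x = y := by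
  have hu : P (x - y) z = 0 := by
    rw [map_sub, LinearMap.sub_apply, wq_symm Q x z, wq_symm Q y z, hzx, hzy, sub_self]
  refine ⟨x - y, hu, ?_⟩
  rw [siegO_apply, siegL_apply, wq_symm Q x z, hzx, wq_sub, hx, hy, map_sub, wq_self, hx]
  simp

theorem XS_move {M : Subgroup ↥(OG Q)} {w x y : V} (hw : w ∈ XS Q M) (hx : x ∈ XS Q M)
    (hw0 : Q w = 0) (hx0 : Q x = 0) (hy0 : Q y = 0) (hwx : P w x ≠ 0) (hwy : P w y ≠ 0) :
    y ∈ XS Q M := by
  have h1 : P w ((P w x)⁻¹ • x) = 1 := by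
    rw [map_smul, smul_eq_mul, inv_mul_cancel₀ hwx]
  have h2 : P w ((P w y)⁻¹ • y) = 1 := by
    rw [map_smul, smul_eq_mul, inv_mul_cancel₀ hwy]
  obtain ⟨u, hu, h3⟩ := sieg_move1 (Q := Q) w ((P w x)⁻¹ • x) ((P w y)⁻¹ • y) hw0
    (by rw [wq_smul, hx0, mul_zero]) (by rw [wq_smul, hy0, mul_zero]) h1 h2
  have h4 := XS_map (XS_smul hx hx0 (P w x)⁻¹) (hw hw0 u hu)
  rw [h3] at h4
  have h5 := XS_smul h4 (by rw [wq_smul, hy0, mul_zero]) (P w y)
  rwa [smul_smul, mul_inv_cancel₀ hwy, one_smul] at h5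

theorem XS_all [Finite F] [FiniteDimensional F V] (hQ : (P).Nondegenerate)
    (hn : 3 ≤ finrank F V) {M : Subgroup ↥(OG Q)} {w x : V} (hw : w ∈ XS Q M) (hx : x ∈ XS Q M)
    (hw0 : Q w = 0) (hx0 : Q x = 0) (hwx : P w x ≠ 0) (y : V) : y ∈ XS Q M := by
  intro hy0
  by_cases hy : y = 0
  · subst hy
    intro u hu
    have : siegO Q (0 : V) u hy0 hu = 1 := by
      apply Subtype.ext
      ext1 z
      rw [siegO_apply, siegL_apply]
      simp
    rw [this]; exact M.one_mem
  · have hwne : w ≠ 0 := by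
      rintro rfl
      simp at hwx
    obtain ⟨z, hz0, hzw, hzy⟩ := exists_sing_nonorth hQ hn w y hw0 hy0 hwne hy
    have hz : z ∈ XS Q M := XS_move hw hx hw0 hx0 hz0 hwx (by rw [wq_symm]; exact hzw)
    exact XS_move hz hw hz0 hw0 hy0 hzw hzy hy0

theorem SG_le_of_XS [Finite F] [FiniteDimensional F V] (hQ : (P).Nondegenerate)
    (hn : 3 ≤ finrank F V) {M : Subgroup ↥(OG Q)} {w x : V} (hw : w ∈ XS Q M) (hx : x ∈ XS Q M)
    (hw0 : Q w = 0) (hx0 : Q x = 0) (hwx : P w x ≠ 0) : SG Q ≤ M := by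
  rw [SG, Subgroup.closure_le]
  rintro g ⟨y, u, hy, hu, rfl⟩
  exact XS_all hQ hn hw hx hw0 hx0 hwx y hy u hu

theorem comm_le_of_XS [Fintype F] [FiniteDimensional F V] (hQ : (P).Nondegenerate)
    (hn : 5 ≤ finrank F V) {M : Subgroup ↥(OG Q)} {w x : V} (hw : w ∈ XS Q M) (hx : x ∈ XS Q M)
    (hw0 : Q w = 0) (hx0 : Q x = 0) (hwx : P w x ≠ 0) : commutator ↥(OG Q) ≤ M := by
  rw [← SG_eq_comm' hQ hn]
  exact SG_le_of_XS hQ (by omega) hw hx hw0 hx0 hwx

theorem mem_stabO_iff [FiniteDimensional F V] (W : Submodule F V) (g : ↥(OG Q)) :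
    g ∈ stabO Q W ↔ ∀ w ∈ W, g.1 w ∈ W := by
  change W.map g.1.toLinearMap = W ↔ _
  constructor
  · intro h w hw
    rw [← h]
    exact Submodule.mem_map_of_mem hw
  · intro h
    apply Submodule.eq_of_le_of_finrank_eq
    · rintro _ ⟨w, hw, rfl⟩
      exact h w hw
    · exact LinearEquiv.finrank_map_eq g.1 W

theorem ts_finrank_le [FiniteDimensional F V] (hQ : (P).Nondegenerate) (U : Submodule F V)
    (hU : ∀ u ∈ U, Q u = 0) : 2 * finrank F U ≤ finrank F V := by
  have h1 := LinearMap.BilinForm.finrank_orthogonal hQ U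
  have h2 : U ≤ LinearMap.BilinForm.orthogonal (P) U := by
    intro x hx
    rw [LinearMap.BilinForm.mem_orthogonal_iff]
    intro y hy
    exact ts_polar Q hU hy hx
  have h3 := Submodule.finrank_mono h2
  have h4 := Submodule.finrank_le U
  omega

/-- a subspace of dimension `> n/2` contains a nonsingular vector -/
theorem exists_nonsing_orth [FiniteDimensional F V] (hQ : (P).Nondegenerate) (Y : Submodule F V)
    (hY : 2 * finrank F Y < finrank F V) : ∃ b, (∀ y ∈ Y, P y b = 0) ∧ Q b ≠ 0 := by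
  by_contra hcon
  push Not at hcon
  have h1 := LinearMap.BilinForm.finrank_orthogonal hQ Y
  have h2 := ts_finrank_le hQ (LinearMap.BilinForm.orthogonal (P) Y) (by
    intro u hu
    rw [LinearMap.BilinForm.mem_orthogonal_iff] at hu
    exact hcon u hu)
  omega

theorem finrank_sup_span_singleton_le [FiniteDimensional F V] (W : Submodule F V) (x : V) :
    finrank F ↥(W ⊔ Submodule.span F {x}) ≤ finrank F W + 1 := by
  have h1 := Submodule.finrank_add_le_finrank_add_finrank W (Submodule.span F {x})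
  have h2 := finrank_span_singleton_le (F := F) x
  omega

/-- **Maximality of the stabiliser of a totally singular subspace**: the key step. -/
theorem ts_stab_max [Fintype F] [FiniteDimensional F V] (hQ : (P).Nondegenerate)
    (hn : 5 ≤ finrank F V) (W : Submodule F V) (hW : ∀ w ∈ W, Q w = 0)
    (hdim : ∀ x, Q x = 0 → (∀ w ∈ W, P w x = 0) → x ∉ W → 2 * (finrank F W + 1) < finrank F V)
    (M : Subgroup ↥(OG Q)) (hM : stabO Q W ⊓ commutator ↥(OG Q) ≤ M)
    (h : ↥(OG Q)) (hhM : h ∈ M) (hh : h ∉ stabO Q W) : commutator ↥(OG Q) ≤ M := by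
  have hWX : ∀ w ∈ W, w ∈ XS Q M := by
    intro w hw hw0 u hu
    apply hM
    refine Subgroup.mem_inf.2 ⟨?_, siegO_mem_comm Q hQ (Or.inr (by omega)) w u hw0 hu⟩
    rw [mem_stabO_iff]
    intro z hz
    rw [siegO_apply, siegL_apply, ts_polar Q hW hz hw]
    simp only [mul_zero, sub_zero, neg_zero, zero_smul, add_zero]
    exact W.add_mem hz (W.smul_mem _ hw)
  rw [mem_stabO_iff] at hh
  push Not at hh
  obtain ⟨u, huW, hx⟩ := hh
  set x := h.1 u with hxdef
  have hxX : x ∈ XS Q M := XS_map (hWX u huW) hhM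
  have hx0 : Q x = 0 := by rw [hxdef, h.2 u]; exact hW u huW
  by_cases hc : ∃ w ∈ W, P w x ≠ 0
  · obtain ⟨w, hw, hwx⟩ := hc
    exact comm_le_of_XS hQ hn (hWX w hw) hxX (hW w hw) hx0 hwx
  · push Not at hc
    have hd := hdim x hx0 hc hx
    -- a nonsingular vector in `(W + x)^⊥`
    obtain ⟨b, hbY, hb0⟩ := exists_nonsing_orth hQ (W ⊔ Submodule.span F {x}) (by
      have := finrank_sup_span_singleton_le W x
      omega)
    have hbW : ∀ w ∈ W, P w b = 0 := fun w hw => hbY w (Submodule.mem_sup_left hw)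
    have hbx : P x b = 0 :=
      hbY x (Submodule.mem_sup_right (Submodule.mem_span_singleton_self x))
    -- a vector of `W^⊥` not orthogonal to `x`
    obtain ⟨y, hyW, hyx⟩ := wq_exists_orth Q hQ W x hx
    set a := y + ((Q b - Q y) / P y x) • x with hadef
    have haQ : Q a = Q b := by
      rw [hadef, wq_add, wq_smul, hx0, map_smul, smul_eq_mul]
      field_simp
      ring
    have haW : ∀ w ∈ W, P w a = 0 := by
      intro w hw
      rw [hadef, map_add, map_smul, hyW w hw, hc w hw]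
      simp
    have hax : P x a ≠ 0 := by
      rw [hadef, map_add, map_smul, wq_self, hx0, wq_symm Q x y]
      simpa using hyx
    have hg : rO Q a * rO Q b ∈ M := by
      apply hM
      refine Subgroup.mem_inf.2 ⟨?_, rO_mul_mem_of_eq Q hQ a b (by rw [haQ]; exact hb0) haQ⟩
      rw [mem_stabO_iff]
      intro w hw
      change reflE Q a (reflE Q b w) ∈ W
      rw [reflE_of_orth Q b w (hbW w hw), reflE_of_orth Q a w (haW w hw)]
      exact hw
    have hgx : (rO Q a * rO Q b).1 x = x - ((Q a)⁻¹ * P x a) • a := by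
      change reflE Q a (reflE Q b x) = _
      rw [reflE_of_orth Q b x hbx, reflE_apply]
    have hgX := XS_map hxX hg
    refine comm_le_of_XS hQ hn hxX hgX hx0 (by rw [(rO Q a * rO Q b).2 x]; exact hx0) ?_
    rw [hgx, map_sub, map_smul, wq_self, hx0, smul_eq_mul]
    have : Q a ≠ 0 := by rw [haQ]; exact hb0
    simp only [mul_zero, zero_sub, neg_ne_zero]
    exact mul_ne_zero (mul_ne_zero (inv_ne_zero this) hax) hax

/-- the stabiliser of a nonzero totally singular subspace does not contain `Ω` -/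
theorem ts_stab_ne [Fintype F] [FiniteDimensional F V] (hQ : (P).Nondegenerate)
    (hn : 5 ≤ finrank F V) (W : Submodule F V) (hW : ∀ w ∈ W, Q w = 0) (hW0 : W ≠ ⊥) :
    ∃ g ∈ commutator ↥(OG Q), g ∉ stabO Q W := by
  obtain ⟨u, huW, hu0⟩ := Submodule.exists_mem_ne_zero_of_ne_bot hW0
  obtain ⟨y, hy0, huy, -⟩ := exists_partner Q hQ u 0 (hW u huW) (by simp) (by simpa using hu0)
  have hyne : y ≠ 0 := by
    rintro rfl
    simp at huy
  obtain ⟨g, hg, c, hc, hgu⟩ := SG_trans_points hQ (by omega) u y (hW u huW) hy0 hu0 hyne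
  refine ⟨g, SG_le_comm Q hQ (Or.inr (by omega)) hg, ?_⟩
  rw [mem_stabO_iff]
  intro hcon
  have h1 := hcon u huW
  rw [hgu] at h1
  have h2 := ts_polar Q hW huW h1
  rw [map_smul, huy, smul_eq_mul, mul_one] at h2
  exact hc h2

end Cfsg.Agent.Lib.Helper16
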