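import Mathlib
import Cfsg.Prelude.Def_GeometricClasses
import Cfsg.Agent.Lib.Helper16.Orth33
import Cfsg.Agent.Lib.Helper6.GLStab

set_option autoImplicit false

namespace Cfsg.Agent.Lib.Helper16

open Cfsg Cfsg.Agent.Lib.Helper6 Module Matrix

variable {F : Type*} [Field F] {ι : Type} [Fintype ι] [DecidableEq ι]

/-- a quadratic form given as a function, as a `QuadraticForm` -/
noncomputable def toQF {Q : (ι → F) → F} (hQ : Geo.IsNondegenerateQuadraticForm Q) :
    QuadraticForm F (ι → F) where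
  toFun := Q
  toFun_smul a x := by rw [hQ.smul, smul_eq_mul, sq]
  exists_companion' := ⟨LinearMap.mk₂ F (QuadraticMap.polar Q) hQ.polar_bilinear.add_left
    hQ.polar_bilinear.smul_left hQ.polar_bilinear.add_right hQ.polar_bilinear.smul_right,
    fun x y => by simp [QuadraticMap.polar]⟩

theorem toQF_coe {Q : (ι → F) → F} (hQ : Geo.IsNondegenerateQuadraticForm Q) : ⇑(toQF hQ) = Q := rfl

theorem toQF_nondeg {Q : (ι → F) → F} (hQ : Geo.IsNondegenerateQuadraticForm Q) :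
    (QuadraticMap.polarBilin (toQF hQ)).Nondegenerate := by
  apply nondeg_of_left
  intro u hu
  by_contra hu0
  obtain ⟨-, x, hx⟩ := hQ.nondegenerate u hu0
  exact hx (hu x)

variable (Q : QuadraticForm F (ι → F))

/-- the isometry group `OG Q` inside `GL` -/
noncomputable def toGL : ↥(OG Q) →* GL ι F :=
  (isometryGroup F ⇑Q).subtype.comp (bridge Q).symm.toMonoidHom

theorem toGL_mulVec (g : ↥(OG Q)) (x : ι → F) : ((toGL Q g : GL ι F) : Matrix ι ι F) *ᵥ x = g.1 x := by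
  have h := bridge_apply Q ((bridge Q).symm g) x
  rw [MulEquiv.apply_symm_apply] at h
  exact h.symm

theorem toGL_injective : Function.Injective (toGL Q) := by
  intro a b h
  have h1 : (bridge Q).symm a = (bridge Q).symm b := Subtype.ext h
  exact (bridge Q).symm.injective h1

theorem omegaGL_eq_map : Geo.omegaGL ⇑Q = (commutator ↥(OG Q)).map (toGL Q) := by
  ext g
  constructor
  · rintro ⟨x, hx, rfl⟩
    refine ⟨bridge Q x, (mem_Omega_iff Q x).1 hx, ?_⟩
    change ((bridge Q).symm (bridge Q x) : GL ι F) = _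
    rw [MulEquiv.symm_apply_apply]; rfl
  · rintro ⟨x, hx, rfl⟩
    refine ⟨(bridge Q).symm x, (mem_Omega_iff Q _).2 (by rw [MulEquiv.apply_symm_apply]; exact hx), rfl⟩

theorem isMaximalIn_of' {G : Type*} [Group G] (K S : Subgroup G)
    (hne : ∃ g ∈ K, g ∉ S)
    (hmax : ∀ M : Subgroup G, S ⊓ K ≤ M → M ≤ K → (∃ h ∈ M, h ∉ S) → K ≤ M) :
    Geo.IsMaximalIn K (S ⊓ K) := by
  refine ⟨lt_of_le_of_ne inf_le_right ?_, ?_⟩
  · intro h
    obtain ⟨g, hg, hg'⟩ := hne
    rw [← h] at hg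
    exact hg' hg.1
  · intro M hPM hMK
    by_cases h : ∃ h ∈ M, h ∉ S
    · exact Or.inr (le_antisymm hMK (hmax M hPM hMK h))
    · push Not at h
      exact Or.inl (le_antisymm (fun x hx => ⟨h x hx, hMK hx⟩) hPM)

/-- transfer of maximality statements from `OG Q` to `GL` -/
theorem isMaximalIn_omegaGL (S : Subgroup (GL ι F)) (S' : Subgroup ↥(OG Q))
    (hS : ∀ g : ↥(OG Q), toGL Q g ∈ S ↔ g ∈ S')
    (hne : ∃ g ∈ commutator ↥(OG Q), g ∉ S')
    (hmax : ∀ M : Subgroup ↥(OG Q), S' ⊓ commutator ↥(OG Q) ≤ M → M ≤ commutator ↥(OG Q) →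
      ∀ h ∈ M, h ∉ S' → commutator ↥(OG Q) ≤ M) :
    Geo.IsMaximalIn (Geo.omegaGL ⇑Q) (S ⊓ Geo.omegaGL ⇑Q) := by
  apply isMaximalIn_of'
  · obtain ⟨g, hg, hg'⟩ := hne
    refine ⟨toGL Q g, ?_, fun h => hg' ((hS g).1 h)⟩
    rw [omegaGL_eq_map]
    exact Subgroup.mem_map_of_mem _ hg
  · intro M hPM hMK ⟨h, hhM, hhS⟩
    rw [omegaGL_eq_map] at hPM hMK ⊢
    obtain ⟨h', hh', rfl⟩ := hMK hhM
    have key := hmax (M.comap (toGL Q)) ?_ ?_ h' hhM (fun hc => hhS ((hS h').2 hc))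
    · rw [Subgroup.map_le_iff_le_comap]
      exact key
    · intro g hg
      exact hPM ⟨(hS g).2 hg.1, Subgroup.mem_map_of_mem _ hg.2⟩
    · intro g hg
      obtain ⟨g', hg', he⟩ := hMK hg
      rw [← toGL_injective Q he]
      exact hg'

/-- existence of intermediate subgroups, transferred from `OG Q` to `GL` -/
theorem exists_between_omegaGL (S : Subgroup (GL ι F)) (S' K' : Subgroup ↥(OG Q))
    (hS : ∀ g : ↥(OG Q), toGL Q g ∈ S ↔ g ∈ S')
    (h1 : S' ⊓ commutator ↥(OG Q) ≤ K') (h2 : K' ≤ commutator ↥(OG Q))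
    (h3 : ∃ g ∈ K', g ∉ S') (h4 : ∃ g ∈ commutator ↥(OG Q), g ∉ K') :
    ∃ K : Subgroup (GL ι F), S ⊓ Geo.omegaGL ⇑Q < K ∧ K < Geo.omegaGL ⇑Q := by
  refine ⟨K'.map (toGL Q), ?_, ?_⟩
  · rw [omegaGL_eq_map]
    refine lt_of_le_of_ne ?_ ?_
    · rintro g ⟨hgS, g', hg', rfl⟩
      exact Subgroup.mem_map_of_mem _ (h1 ⟨(hS g').1 hgS, hg'⟩)
    · intro he
      obtain ⟨g, hg, hgS⟩ := h3
      have : toGL Q g ∈ S ⊓ (commutator ↥(OG Q)).map (toGL Q) := by
        rw [he]; exact Subgroup.mem_map_of_mem _ hg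
      exact hgS ((hS g).1 this.1)
  · rw [omegaGL_eq_map]
    refine lt_of_le_of_ne (Subgroup.map_mono h2) ?_
    intro he
    obtain ⟨g, hg, hgK⟩ := h4
    have : toGL Q g ∈ K'.map (toGL Q) := by
      rw [he]; exact Subgroup.mem_map_of_mem _ hg
    obtain ⟨g', hg', hee⟩ := this
    rw [← toGL_injective Q hee] at hgK
    exact hgK hg'

theorem toGL_mem_subspaceStabilizer (W : Submodule F (ι → F)) (g : ↥(OG Q)) :
    toGL Q g ∈ Geo.subspaceStabilizer W ↔ g ∈ stabO Q W := by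
  rw [mem_stabO_iff, Geo.subspaceStabilizer, mem_stabilizing_submodule_iff]
  constructor
  · intro h w hw
    rw [← toGL_mulVec]
    exact h w hw
  · intro h w hw
    have := h w hw
    rw [← toGL_mulVec] at this
    exact this

theorem ts_extend {V : Type*} [AddCommGroup V] [Module F V] [FiniteDimensional F V]
    (Q : QuadraticForm F V) (W : Submodule F V) (hW : ∀ w ∈ W, Q w = 0) (x : V) (hx0 : Q x = 0)
    (hxW : ∀ w ∈ W, QuadraticMap.polarBilin Q w x = 0) (hx : x ∉ W) :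
    (∀ u ∈ W ⊔ Submodule.span F {x}, Q u = 0) ∧
      finrank F ↥(W ⊔ Submodule.span F {x}) = finrank F W + 1 := by
  constructor
  · intro u hu
    obtain ⟨w, hw, s, hs, rfl⟩ := Submodule.mem_sup.1 hu
    obtain ⟨c, rfl⟩ := Submodule.mem_span_singleton.1 hs
    rw [wq_add, wq_smul, hW w hw, hx0, map_smul, hxW w hw]
    simp
  · have h1 := finrank_sup_span_singleton_le W x
    have h2 : W < W ⊔ Submodule.span F {x} := by
      refine lt_of_le_of_ne le_sup_left ?_
      intro h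
      apply hx
      rw [h]
      exact Submodule.mem_sup_right (Submodule.mem_span_singleton_self x)
    have h3 := Submodule.finrank_lt_finrank_of_lt h2
    omega

/-- maximality of totally singular stabilisers, in `GL` form -/
theorem ts_isMaximalIn [Fintype F] (hQ : (QuadraticMap.polarBilin Q).Nondegenerate)
    (hn : 5 ≤ Fintype.card ι) (W : Submodule F (ι → F)) (hW0 : W ≠ ⊥)
    (hW : Geo.IsTotallySingularQuad ⇑Q W)
    (hdim : ∀ U : Submodule F (ι → F), Geo.IsTotallySingularQuad ⇑Q U →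
      finrank F U = finrank F W + 1 → 2 * finrank F U ≠ Fintype.card ι) :
    Geo.IsMaximalIn (Geo.omegaGL ⇑Q) (Geo.subspaceStabilizer W ⊓ Geo.omegaGL ⇑Q) := by
  have hfr : finrank F (ι → F) = Fintype.card ι := Module.finrank_fintype_fun_eq_card F
  apply isMaximalIn_omegaGL Q _ (stabO Q W) (toGL_mem_subspaceStabilizer Q W)
    (ts_stab_ne hQ (by omega) W hW hW0)
  intro M hM _ h hhM hh
  refine ts_stab_max hQ (by omega) W hW ?_ M hM h hhM hh
  intro x hx0 hxW hx
  obtain ⟨h1, h2⟩ := ts_extend Q W hW x hx0 hxW hx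
  have h3 := ts_finrank_le hQ _ h1
  have h4 := hdim _ h1 h2
  omega

end Cfsg.Agent.Lib.Helper16
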