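import Mathlib
import Cfsg.Agent.Lib.Helper16.Orth34

set_option autoImplicit false

namespace Cfsg.Agent.Lib.Helper16

open Cfsg Cfsg.Agent.Lib.Helper6 Module

variable {F V : Type*} [Field F] [AddCommGroup V] [Module F V] {Q : QuadraticForm F V}

local notation "P" => QuadraticMap.polarBilin Q

theorem siegO_fix_of_orth (w u z : V) (hw : Q w = 0) (huw : P u w = 0) (h1 : P z w = 0)
    (h2 : P z u = 0) : (siegO Q w u hw huw).1 z = z := by
  rw [siegO_apply, siegL_apply, h1, h2]
  simp

theorem OG_inv_apply (h : ↥(OG Q)) (x : V) : h.1 (h⁻¹.1 x) = x := by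
  change (h * h⁻¹).1 _ = _
  rw [mul_inv_cancel]; rfl

theorem OG_polar_inv (h : ↥(OG Q)) (x y : V) : P (h⁻¹.1 x) y = P x (h.1 y) := by
  rw [← OG_polar Q h.2, OG_inv_apply]

/-- transport of Siegel membership by an element of `M` -/
theorem siegO_mem_of_conj {M : Subgroup ↥(OG Q)} {h : ↥(OG Q)} (hh : h ∈ M) (w u : V)
    (hw : Q w = 0) (huw : P u w = 0)
    (H : ∀ (hw' : Q (h⁻¹.1 w) = 0) (hu' : P (h⁻¹.1 u) (h⁻¹.1 w) = 0),
      siegO Q (h⁻¹.1 w) (h⁻¹.1 u) hw' hu' ∈ M) : siegO Q w u hw huw ∈ M := by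
  have hw' : Q (h⁻¹.1 w) = 0 := by rw [h⁻¹.2 w]; exact hw
  have hu' : P (h⁻¹.1 u) (h⁻¹.1 w) = 0 := by rw [OG_polar Q h⁻¹.2]; exact huw
  have h3 := siegO_conj Q h (h⁻¹.1 w) (h⁻¹.1 u) hw' hu'
  have h4 : siegO Q w u hw huw = h * siegO Q (h⁻¹.1 w) (h⁻¹.1 u) hw' hu' * h⁻¹ := by
    rw [h3]
    exact siegO_congr2 (OG_inv_apply h w).symm (OG_inv_apply h u).symm _ _ _ _
  rw [h4]
  exact M.mul_mem (M.mul_mem hh (H hw' hu')) (M.inv_mem hh)

/-- **Maximality of the stabiliser of a nonsingular point** (any characteristic): key step -/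
theorem ns_point_max [Fintype F] [FiniteDimensional F V] (hQ : (P).Nondegenerate)
    (hn : 7 ≤ finrank F V) (v : V) (hv : Q v ≠ 0)
    (M : Subgroup ↥(OG Q)) (hM : stabO Q (Submodule.span F {v}) ⊓ commutator ↥(OG Q) ≤ M)
    (h : ↥(OG Q)) (hhM : h ∈ M) (hh : h ∉ stabO Q (Submodule.span F {v})) :
    commutator ↥(OG Q) ≤ M := by
  have hv0 : v ≠ 0 := by
    rintro rfl
    simp at hv
  have hv' : h.1 v ∉ Submodule.span F {v} := by
    intro hc
    apply hh
    rw [mem_stabO_iff]
    intro w hw
    obtain ⟨c, rfl⟩ := Submodule.mem_span_singleton.1 hw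
    rw [map_smul]
    exact Submodule.smul_mem _ _ hc
  set v' := h.1 v with hv'def
  -- Siegel transformations orthogonal to `v`
  have h1 : ∀ (w u : V) (hw : Q w = 0) (huw : P u w = 0), P v w = 0 → P v u = 0 →
      siegO Q w u hw huw ∈ M := by
    intro w u hw huw hvw hvu
    apply hM
    refine Subgroup.mem_inf.2 ⟨?_, siegO_mem_comm Q hQ (Or.inr (by omega)) w u hw huw⟩
    rw [mem_stabO_iff]
    intro z hz
    obtain ⟨c, rfl⟩ := Submodule.mem_span_singleton.1 hz
    rw [map_smul, siegO_fix_of_orth w u v hw huw hvw hvu]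
    exact hz
  -- Siegel transformations orthogonal to `v'`
  have h2 : ∀ (w u : V) (hw : Q w = 0) (huw : P u w = 0), P v' w = 0 → P v' u = 0 →
      siegO Q w u hw huw ∈ M := by
    intro w u hw huw hvw hvu
    apply siegO_mem_of_conj hhM
    intro hw' hu'
    apply h1
    · rw [wq_symm, OG_polar_inv, wq_symm]; exact hvw
    · rw [wq_symm, OG_polar_inv, wq_symm]; exact hvu
  obtain ⟨e, f, hp, he, hf⟩ := exists_hpair_orth hQ (Submodule.span F {v, v'}) (by
    have := finrank_span_pair_le (F := F) v v'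
    omega)
  have hev : P v e = 0 := he v (Submodule.subset_span (by simp))
  have hev' : P v' e = 0 := he v' (Submodule.subset_span (by simp))
  have hfv : P v f = 0 := hf v (Submodule.subset_span (by simp))
  have hfv' : P v' f = 0 := hf v' (Submodule.subset_span (by simp))
  have key : ∀ e f : V, Q e = 0 → P e f = 1 → P v e = 0 → P v' e = 0 → P v f = 0 → P v' f = 0 →
      e ∈ XS Q M := by
    intro e f he0 hef hev hev' hfv hfv' _ w hw
    have hnot : v ∉ Submodule.span F {e, v'} := by
      intro hc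
      obtain ⟨a, b, hab⟩ := Submodule.mem_span_pair.1 hc
      have h3 : P v f = a := by
        rw [← hab, map_add, map_smul, map_smul, LinearMap.add_apply, LinearMap.smul_apply,
          LinearMap.smul_apply, hef, hfv']
        simp
      rw [hfv] at h3
      rw [← h3, zero_smul, zero_add] at hab
      have hb : b ≠ 0 := by
        rintro rfl
        rw [zero_smul] at hab
        exact hv0 hab.symm
      apply hv'
      rw [Submodule.mem_span_singleton]
      refine ⟨b⁻¹, ?_⟩
      rw [← hab, smul_smul, inv_mul_cancel₀ hb, one_smul]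
    obtain ⟨t, ht, htv⟩ := wq_exists_orth Q hQ _ v hnot
    have hte : P e t = 0 := ht e (Submodule.subset_span (by simp))
    have htv' : P v' t = 0 := ht v' (Submodule.subset_span (by simp))
    set c := P v w / P t v with hc
    have hw2 : P (c • t) e = 0 := by
      rw [map_smul, LinearMap.smul_apply, wq_symm Q t e, hte, smul_zero]
    have hw1 : P (w - c • t) e = 0 := by
      rw [map_sub, LinearMap.sub_apply, hw, hw2, sub_zero]
    have e1 : siegO Q e w he0 hw = siegO Q e (w - c • t) he0 hw1 * siegO Q e (c • t) he0 hw2 := by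
      rw [siegO_mul]
      exact siegO_congr2 rfl (by abel) _ _ _ _
    rw [e1]
    refine M.mul_mem (h1 _ _ _ _ hev ?_) (h2 _ _ _ _ hev' ?_)
    · rw [map_sub, map_smul, wq_symm Q v t, hc, smul_eq_mul]
      field_simp
      ring
    · rw [map_smul, htv', smul_zero]
  exact comm_le_of_XS hQ (by omega) (key e f hp.he hp.hef hev hev' hfv hfv')
    (key f e hp.hf (by rw [wq_symm]; exact hp.hef) hfv hfv' hev hev') hp.he hp.hf
    (by rw [hp.hef]; exact one_ne_zero)

theorem ns_point_ne [Fintype F] [FiniteDimensional F V] (hQ : (P).Nondegenerate)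
    (hn : 7 ≤ finrank F V) (v : V) (hv : Q v ≠ 0) :
    ∃ g ∈ commutator ↥(OG Q), g ∉ stabO Q (Submodule.span F {v}) := by
  obtain ⟨e, f, hp, he, -⟩ := exists_hpair_orth hQ (Submodule.span F {v}) (by
    have := finrank_span_singleton_le (F := F) v
    omega)
  have hev : P v e = 0 := he v (Submodule.mem_span_singleton_self v)
  have hb : v + e ∉ Submodule.span F {v} := by
    intro hc
    have h1 : e ∈ Submodule.span F {v} := by
      have := Submodule.sub_mem _ hc (Submodule.mem_span_singleton_self v)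
      simpa using this
    obtain ⟨c, hc⟩ := Submodule.mem_span_singleton.1 h1
    have h2 : Q e = c * c * Q v := by rw [← hc, wq_smul]
    rw [hp.he] at h2
    have hc0 : c = 0 := by
      rcases mul_eq_zero.1 h2.symm with h3 | h3
      · exact mul_self_eq_zero.1 h3
      · exact absurd h3 hv
    rw [hc0, zero_smul] at hc
    exact hp.ne_zero hc.symm
  obtain ⟨g, hg, hgv⟩ := SG_norm_trans hQ (by omega) v (v + e) hv (by
    rw [wq_add, hp.he, hev]; simp) hb
  refine ⟨g, SG_le_comm Q hQ (Or.inr (by omega)) hg, ?_⟩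
  rw [mem_stabO_iff]
  intro hc
  have := hc v (Submodule.mem_span_singleton_self v)
  rw [hgv] at this
  exact hb this

end Cfsg.Agent.Lib.Helper16
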