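import Mathlib
import Cfsg.Agent.Lib.Helper16.Orth35

set_option autoImplicit false

namespace Cfsg.Agent.Lib.Helper16

open Cfsg Cfsg.Agent.Lib.Helper6 Module

variable {F V : Type*} [Field F] [AddCommGroup V] [Module F V] {Q : QuadraticForm F V}

local notation "P" => QuadraticMap.polarBilin Q

/-- an orthogonal splitting `V = A ⊥ X` -/
structure OSplit (Q : QuadraticForm F V) (A X : Submodule F V) : Prop where
  orth : ∀ a ∈ A, ∀ x ∈ X, QuadraticMap.polarBilin Q a x = 0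
  sup : A ⊔ X = ⊤

namespace OSplit

variable {A X : Submodule F V} (S : OSplit Q A X)

include S

theorem symm : OSplit Q X A :=
  ⟨fun x hx a ha => by rw [wq_symm]; exact S.orth a ha x hx, by rw [sup_comm]; exact S.sup⟩

theorem dec (v : V) : ∃ a ∈ A, ∃ x ∈ X, v = a + x := by
  have h : v ∈ A ⊔ X := by rw [S.sup]; trivial
  obtain ⟨a, ha, x, hx, h⟩ := Submodule.mem_sup.1 h
  exact ⟨a, ha, x, hx, h.symm⟩

theorem eq_zero_of_orth_right (hQ : (P).Nondegenerate) {x : V} (hx : x ∈ X)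
    (h : ∀ y ∈ X, P x y = 0) : x = 0 := by
  apply hQ.1
  intro v
  obtain ⟨a, ha, y, hy, rfl⟩ := S.dec v
  rw [map_add, h y hy, wq_symm, S.orth a ha x hx, add_zero]

theorem eq_zero_of_orth_left (hQ : (P).Nondegenerate) {a : V} (ha : a ∈ A)
    (h : ∀ y ∈ A, P a y = 0) : a = 0 :=
  S.symm.eq_zero_of_orth_right hQ ha h

theorem mem_right (hQ : (P).Nondegenerate) {v : V} (h : ∀ a ∈ A, P a v = 0) : v ∈ X := by
  obtain ⟨a, ha, x, hx, rfl⟩ := S.dec v
  have : a = 0 := by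
    apply S.eq_zero_of_orth_left hQ ha
    intro y hy
    have h1 := h y hy
    rw [map_add, S.orth y hy x hx, add_zero] at h1
    rw [wq_symm]; exact h1
  rw [this, zero_add]; exact hx

theorem mem_left (hQ : (P).Nondegenerate) {v : V} (h : ∀ x ∈ X, P x v = 0) : v ∈ A :=
  S.symm.mem_right hQ h

theorem eq_zero_of_mem (hQ : (P).Nondegenerate) {v : V} (h1 : v ∈ A) (h2 : v ∈ X) : v = 0 :=
  S.eq_zero_of_orth_left hQ h1 (fun y hy => by rw [wq_symm]; exact S.orth y hy v h2)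

theorem stab_le [FiniteDimensional F V] (hQ : (P).Nondegenerate) : stabO Q A ≤ stabO Q X := by
  intro g hg
  rw [mem_stabO_iff]
  intro x hx
  apply S.mem_right hQ
  intro a ha
  have h1 : g⁻¹ ∈ stabO Q A := (stabO Q A).inv_mem hg
  rw [mem_stabO_iff] at h1
  rw [← OG_polar_inv]
  exact S.orth _ (h1 a ha) x hx

theorem stab_eq [FiniteDimensional F V] (hQ : (P).Nondegenerate) : stabO Q A = stabO Q X :=
  le_antisymm (S.stab_le hQ) (S.symm.stab_le hQ)

theorem qRes_nondeg (hQ : (P).Nondegenerate) :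
    (QuadraticMap.polarBilin (qRes Q X)).Nondegenerate := by
  apply nondeg_of_left
  intro u hu
  apply Subtype.ext
  apply S.eq_zero_of_orth_right hQ u.2
  intro y hy
  have := hu ⟨y, hy⟩
  rw [← QuadraticMap.polarBilin_apply_apply, qRes_polar] at this
  exact this

/-- a hyperbolic pair of `X` orthogonal to two given vectors -/
theorem hpair_in [Finite F] [FiniteDimensional F V] (hQ : (P).Nondegenerate)
    (h7 : 7 ≤ finrank F X) (b₁ b₂ : V) :
    ∃ e ∈ X, ∃ f ∈ X, HPair Q e f ∧ P b₁ e = 0 ∧ P b₂ e = 0 ∧ P b₁ f = 0 ∧ P b₂ f = 0 := by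
  obtain ⟨a₁, ha₁, x₁, hx₁, rfl⟩ := S.dec b₁
  obtain ⟨a₂, ha₂, x₂, hx₂, rfl⟩ := S.dec b₂
  obtain ⟨e, f, hp, he, hf⟩ := exists_hpair_orth (S.qRes_nondeg hQ)
    (Submodule.span F {(⟨x₁, hx₁⟩ : X), ⟨x₂, hx₂⟩}) (by
      have := finrank_span_pair_le (F := F) (⟨x₁, hx₁⟩ : X) ⟨x₂, hx₂⟩
      omega)
  have he1 := he ⟨x₁, hx₁⟩ (Submodule.subset_span (by simp))
  have he2 := he ⟨x₂, hx₂⟩ (Submodule.subset_span (by simp))
  have hf1 := hf ⟨x₁, hx₁⟩ (Submodule.subset_span (by simp))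
  have hf2 := hf ⟨x₂, hx₂⟩ (Submodule.subset_span (by simp))
  rw [qRes_polar] at he1 he2 hf1 hf2
  refine ⟨e, e.2, f, f.2, ⟨hp.he, hp.hf, ?_⟩, ?_, ?_, ?_, ?_⟩
  · have := hp.hef
    rwa [qRes_polar] at this
  · rw [map_add, LinearMap.add_apply, S.orth a₁ ha₁ e e.2, he1, add_zero]
  · rw [map_add, LinearMap.add_apply, S.orth a₂ ha₂ e e.2, he2, add_zero]
  · rw [map_add, LinearMap.add_apply, S.orth a₁ ha₁ f f.2, hf1, add_zero]
  · rw [map_add, LinearMap.add_apply, S.orth a₂ ha₂ f f.2, hf2, add_zero]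

/-- a vector of `X` orthogonal to `N` and not to `a` -/
theorem exists_orth_in [FiniteDimensional F V] (hQ : (P).Nondegenerate) (N : Submodule F V)
    (a : V) (ha : a ∉ A ⊔ N) : ∃ t ∈ X, (∀ n ∈ N, P n t = 0) ∧ P t a ≠ 0 := by
  obtain ⟨t, ht, hta⟩ := wq_exists_orth Q hQ (A ⊔ N) a ha
  exact ⟨t, S.mem_right hQ (fun y hy => ht y (Submodule.mem_sup_left hy)),
    fun n hn => ht n (Submodule.mem_sup_right hn), hta⟩

end OSplit

/-- the splitting attached to a nondegenerate subspace -/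
theorem OSplit.of_nondeg [FiniteDimensional F V] (hQ : (P).Nondegenerate) (W : Submodule F V)
    (hW : ∀ w ∈ W, (∀ y ∈ W, P w y = 0) → w = 0) :
    OSplit Q W (LinearMap.BilinForm.orthogonal (P) W) := by
  refine ⟨fun a ha x hx => (LinearMap.BilinForm.mem_orthogonal_iff.1 hx) a ha, ?_⟩
  have h1 : W ⊓ LinearMap.BilinForm.orthogonal (P) W = ⊥ := by
    rw [eq_bot_iff]
    rintro w ⟨hw1, hw2⟩
    rw [Submodule.mem_bot]
    apply hW w hw1
    intro y hy
    rw [wq_symm]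
    exact (LinearMap.BilinForm.mem_orthogonal_iff.1 hw2) y hy
  have h2 := LinearMap.BilinForm.finrank_orthogonal hQ W
  have h3 := Submodule.finrank_sup_add_finrank_inf_eq W (LinearMap.BilinForm.orthogonal (P) W)
  rw [h1, finrank_bot] at h3
  have h4 := Submodule.finrank_le W
  apply Submodule.eq_top_of_finrank_eq
  omega

theorem OSplit.finrank_add [FiniteDimensional F V] (hQ : (P).Nondegenerate) {A X : Submodule F V}
    (S : OSplit Q A X) : finrank F A + finrank F X = finrank F V := by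
  have h1 : A ⊓ X = ⊥ := by
    rw [eq_bot_iff]
    rintro w ⟨hw1, hw2⟩
    exact S.eq_zero_of_mem hQ hw1 hw2
  have h3 := Submodule.finrank_sup_add_finrank_inf_eq A X
  rw [h1, finrank_bot, S.sup, finrank_top] at h3
  omega

end Cfsg.Agent.Lib.Helper16
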