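import Mathlib
import Cfsg.Agent.Lib.Helper16.Orth36

set_option autoImplicit false

namespace Cfsg.Agent.Lib.Helper16

open Cfsg Cfsg.Agent.Lib.Helper6 Module

variable {F V : Type*} [Field F] [AddCommGroup V] [Module F V] {Q : QuadraticForm F V}

local notation "P" => QuadraticMap.polarBilin Q

/-- the directions `z ⊥ u` whose Siegel transformation centred at `u` lies in `M` -/
def TA (M : Subgroup ↥(OG Q)) (u : V) (hu : Q u = 0) : AddSubgroup V where
  carrier := {z | ∃ hz : P z u = 0, siegO Q u z hu hz ∈ M}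
  zero_mem' := by
    refine ⟨by simp, ?_⟩
    have : siegO Q u 0 hu (by simp) = 1 := by
      apply Subtype.ext
      ext1 z
      rw [siegO_apply, siegL_apply]
      simp
    rw [this]; exact M.one_mem
  add_mem' := by
    rintro a b ⟨ha, ha'⟩ ⟨hb, hb'⟩
    refine ⟨by rw [map_add, LinearMap.add_apply, ha, hb, add_zero], ?_⟩
    have := M.mul_mem ha' hb'
    rwa [siegO_mul] at this
  neg_mem' := by
    rintro a ⟨ha, ha'⟩
    refine ⟨by rw [map_neg, LinearMap.neg_apply, ha, neg_zero], ?_⟩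
    have := M.inv_mem ha'
    rwa [siegO_inv] at this

theorem mem_TA {M : Subgroup ↥(OG Q)} {u : V} {hu : Q u = 0} {z : V} :
    z ∈ TA M u hu ↔ ∃ hz : P z u = 0, siegO Q u z hu hz ∈ M := Iff.rfl

theorem TA_of_conj {M : Subgroup ↥(OG Q)} {u : V} {hu : Q u = 0} {g : ↥(OG Q)} (hg : g ∈ M)
    {z : V} (hz : z ∈ TA M u hu) (c : F) (hgu : g.1 u = c • u) : c • g.1 z ∈ TA M u hu := by
  obtain ⟨hz1, hz2⟩ := hz
  by_cases hc : c = 0
  · rw [hc, zero_smul]; exact (TA M u hu).zero_mem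
  have h0 : P (g.1 z) u = 0 := by
    have h1 : P (g.1 z) (g.1 u) = 0 := by rw [OG_polar Q g.2]; exact hz1
    rw [hgu, map_smul, smul_eq_mul] at h1
    exact (mul_eq_zero.1 h1).resolve_left hc
  refine ⟨by rw [map_smul, LinearMap.smul_apply, h0, smul_zero], ?_⟩
  have h1 := M.mul_mem (M.mul_mem hg hz2) (M.inv_mem hg)
  rw [siegO_conj] at h1
  have h2 := siegO_smul_left c u (g.1 z) hu h0
  have h3 : siegO Q (g.1 u) (g.1 z) (by rw [g.2 u, hu]) (by rw [OG_polar Q g.2, hz1]) =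
      siegO Q (c • u) (g.1 z) (by rw [wq_smul, hu, mul_zero]) (by rw [map_smul, h0, smul_zero]) :=
    siegO_congr2 hgu rfl _ _ _ _
  rw [h3, h2] at h1
  exact h1

theorem TA_of_fix {M : Subgroup ↥(OG Q)} {u : V} {hu : Q u = 0} {g : ↥(OG Q)} (hg : g ∈ M)
    {z : V} (hz : z ∈ TA M u hu) (hgu : g.1 u = u) : g.1 z ∈ TA M u hu := by
  have := TA_of_conj hg hz 1 (by rw [one_smul]; exact hgu)
  rwa [one_smul] at this

/-- irreducibility condition for the action of the reflections and Siegel maps of `A` -/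
def IrrCond (Q : QuadraticForm F V) (A : Submodule F V) : Prop :=
  ∀ B : Submodule F V, B ≤ A → B ≠ ⊥ →
    (∀ y ∈ A, Q y ≠ 0 → ∀ z ∈ B, reflE Q y z ∈ B) →
    (∀ y ∈ A, ∀ v ∈ A, Q y = 0 → QuadraticMap.polarBilin Q v y = 0 → ∀ z ∈ B, siegL Q y v z ∈ B) →
    B = A

theorem hp_Q_sub {u f : V} (hp : HPair Q u f) (c : F) : Q (u - c • f) = -c := by
  rw [wq_sub, wq_smul, hp.he, hp.hf, map_smul, hp.hef]
  simp

theorem hp_Q_add {u f : V} (hp : HPair Q u f) (c : F) : Q (u + c • f) = c := by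
  rw [wq_add, wq_smul, hp.he, hp.hf, map_smul, hp.hef]
  simp

theorem hp_refl_left {u f : V} (hp : HPair Q u f) (c : F) (hc : c ≠ 0) :
    reflE Q (u - c • f) u = c • f := by
  rw [reflE_apply, hp_Q_sub hp, map_sub, map_smul, wq_self, hp.he, hp.hef]
  have : (-c)⁻¹ * (2 * 0 - c • (1 : F)) = 1 := by
    rw [smul_eq_mul]; field_simp; ring
  rw [this, one_smul]; abel

theorem hp_refl_right {u f : V} (hp : HPair Q u f) : reflE Q (u - (1 : F) • f) f = u := by
  rw [reflE_apply, hp_Q_sub hp, map_sub, map_smul, wq_self, hp.hf, wq_symm Q f u, hp.hef]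
  have : (-(1 : F))⁻¹ * (1 - (1 : F) • (2 * 0)) = -1 := by
    rw [smul_eq_mul]; norm_num
  rw [this, one_smul]; simp

theorem nondeg_stab_stepB [Fintype F] [FiniteDimensional F V] (hQ : (P).Nondegenerate)
    {A X : Submodule F V} (S : OSplit Q A X) (h7 : 7 ≤ finrank F X) (hirr : IrrCond Q A)
    (M : Subgroup ↥(OG Q)) (hM : stabO Q A ⊓ commutator ↥(OG Q) ≤ M)
    (u f : V) (huX : u ∈ X) (hfX : f ∈ X) (hp : HPair Q u f) (z₀ : V) (hz₀A : z₀ ∈ A)
    (hz₀ : z₀ ≠ 0) (hz₀T : z₀ ∈ TA M u hp.he) : commutator ↥(OG Q) ≤ M := by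
  have hn : 7 ≤ finrank F V := h7.trans (Submodule.finrank_le X)
  obtain ⟨e₂, he₂X, f₂, hf₂X, hp₂, h_ue, h_fe, h_uf, h_ff⟩ := S.hpair_in hQ h7 u f
  -- the elements `g_c`
  have hgc : ∀ c : F, c ≠ 0 → rO Q (u - c • f) * rO Q (e₂ - c • f₂) ∈ M := by
    intro c hc
    apply hM
    refine Subgroup.mem_inf.2 ⟨?_, rO_mul_mem_of_eq Q hQ _ _ (by rw [hp_Q_sub hp]; simpa using hc)
      (by rw [hp_Q_sub hp, hp_Q_sub hp₂])⟩
    rw [mem_stabO_iff]
    intro z hz
    change reflE Q _ (reflE Q _ z) ∈ A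
    rw [reflE_of_orth Q _ z (S.orth z hz _ (X.sub_mem he₂X (X.smul_mem _ hf₂X))),
      reflE_of_orth Q _ z (S.orth z hz _ (X.sub_mem huX (X.smul_mem _ hfX)))]
    exact hz
  have hgcA : ∀ c : F, ∀ z ∈ A, (rO Q (u - c • f) * rO Q (e₂ - c • f₂)).1 z = z := by
    intro c z hz
    change reflE Q _ (reflE Q _ z) = z
    rw [reflE_of_orth Q _ z (S.orth z hz _ (X.sub_mem he₂X (X.smul_mem _ hf₂X))),
      reflE_of_orth Q _ z (S.orth z hz _ (X.sub_mem huX (X.smul_mem _ hfX)))]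
  have hgcu : ∀ c : F, c ≠ 0 → (rO Q (u - c • f) * rO Q (e₂ - c • f₂)).1 u = c • f := by
    intro c hc
    change reflE Q _ (reflE Q _ u) = _
    rw [reflE_of_orth Q _ u (by rw [map_sub, map_smul, h_ue, h_uf]; simp), hp_refl_left hp c hc]
  have hg1f : (rO Q (u - (1 : F) • f) * rO Q (e₂ - (1 : F) • f₂)).1 f = u := by
    change reflE Q _ (reflE Q _ f) = _
    rw [reflE_of_orth Q _ f (by rw [map_sub, map_smul, h_fe, h_ff]; simp), hp_refl_right hp]
  -- Siegel transformations inside `X`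
  have hSX : ∀ x ∈ X, P x u = 0 → x ∈ TA M u hp.he := by
    intro x hx hxu
    refine ⟨hxu, hM (Subgroup.mem_inf.2 ⟨?_, siegO_mem_comm Q hQ (Or.inr (by omega)) _ _ _ _⟩)⟩
    rw [mem_stabO_iff]
    intro z hz
    rw [siegO_fix_of_orth u x z _ _ (S.orth z hz u huX) (S.orth z hz x hx)]
    exact hz
  let B : Submodule F V :=
    { carrier := {z | z ∈ A ∧ z ∈ TA M u hp.he}
      zero_mem' := ⟨A.zero_mem, (TA M u hp.he).zero_mem⟩
      add_mem' := fun ha hb => ⟨A.add_mem ha.1 hb.1, (TA M u hp.he).add_mem ha.2 hb.2⟩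
      smul_mem' := by
        rintro c z ⟨hzA, hzT⟩
        refine ⟨A.smul_mem c hzA, ?_⟩
        by_cases hc : c = 0
        · rw [hc, zero_smul]; exact (TA M u hp.he).zero_mem
        have h1 := TA_of_conj (M.mul_mem (hgc 1 one_ne_zero) (hgc c hc)) hzT c (by
          change (rO Q (u - (1 : F) • f) * rO Q (e₂ - (1 : F) • f₂)).1
            ((rO Q (u - c • f) * rO Q (e₂ - c • f₂)).1 u) = _
          rw [hgcu c hc, map_smul, hg1f])
        have h2 : ((rO Q (u - (1 : F) • f) * rO Q (e₂ - (1 : F) • f₂)) *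
            (rO Q (u - c • f) * rO Q (e₂ - c • f₂))).1 z = z := by
          change (rO Q (u - (1 : F) • f) * rO Q (e₂ - (1 : F) • f₂)).1
            ((rO Q (u - c • f) * rO Q (e₂ - c • f₂)).1 z) = _
          rw [hgcA c z hzA, hgcA 1 z hzA]
        rwa [h2] at h1 }
  have hBA : B = A := by
    apply hirr B (fun z hz => hz.1)
    · intro hB
      have : z₀ ∈ B := ⟨hz₀A, hz₀T⟩
      rw [hB, Submodule.mem_bot] at this
      exact hz₀ this
    · rintro y hy hy0 z ⟨hzA, hzT⟩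
      have hmem : rO Q y * rO Q (e₂ + Q y • f₂) ∈ M := by
        apply hM
        refine Subgroup.mem_inf.2 ⟨?_, rO_mul_mem_of_eq Q hQ _ _ hy0 (by rw [hp_Q_add hp₂])⟩
        rw [mem_stabO_iff]
        intro z hz
        change reflE Q _ (reflE Q _ z) ∈ A
        rw [reflE_of_orth Q _ z (S.orth z hz _ (X.add_mem he₂X (X.smul_mem _ hf₂X))), reflE_apply]
        exact A.sub_mem hz (A.smul_mem _ hy)
      have h1 := TA_of_fix hmem hzT (by
        change reflE Q _ (reflE Q _ u) = _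
        rw [reflE_of_orth Q _ u (by rw [map_add, map_smul, h_ue, h_uf]; simp),
          reflE_of_orth Q _ u (by rw [wq_symm]; exact S.orth y hy u huX)])
      have h2 : (rO Q y * rO Q (e₂ + Q y • f₂)).1 z = reflE Q y z := by
        change reflE Q _ (reflE Q _ z) = _
        rw [reflE_of_orth Q _ z (S.orth z hzA _ (X.add_mem he₂X (X.smul_mem _ hf₂X)))]
      rw [h2] at h1
      refine ⟨?_, h1⟩
      rw [reflE_apply]
      exact A.sub_mem hzA (A.smul_mem _ hy)
    · rintro y hy v hv hy0 hvy z ⟨hzA, hzT⟩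
      have hin : ∀ z ∈ A, siegL Q y v z ∈ A := by
        intro z hz
        rw [siegL_apply]
        exact A.add_mem (A.add_mem hz (A.smul_mem _ hy)) (A.smul_mem _ hv)
      have hmem : siegO Q y v hy0 hvy ∈ M := by
        apply hM
        refine Subgroup.mem_inf.2 ⟨?_, siegO_mem_comm Q hQ (Or.inr (by omega)) _ _ _ _⟩
        rw [mem_stabO_iff]
        intro z hz
        rw [siegO_apply]
        exact hin z hz
      have h1 := TA_of_fix hmem hzT (siegO_fix_of_orth y v u hy0 hvy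
        (by rw [wq_symm]; exact S.orth y hy u huX) (by rw [wq_symm]; exact S.orth v hv u huX))
      rw [siegO_apply] at h1
      exact ⟨hin z hzA, h1⟩
  have hXSu : u ∈ XS Q M := by
    intro hu0 w hw
    obtain ⟨a, ha, x, hx, rfl⟩ := S.dec w
    have haB : a ∈ B := by rw [hBA]; exact ha
    have hxu : P x u = 0 := by
      rw [map_add, LinearMap.add_apply, S.orth a ha u huX, zero_add] at hw
      exact hw
    obtain ⟨_, h1⟩ := (TA M u hp.he).add_mem haB.2 (hSX x hx hxu)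
    exact h1
  have hXSf : f ∈ XS Q M := by
    have := XS_map hXSu (hgc 1 one_ne_zero)
    rwa [hgcu 1 one_ne_zero, one_smul] at this
  exact comm_le_of_XS hQ (by omega) hXSu hXSf hp.he hp.hf (by rw [hp.hef]; exact one_ne_zero)

end Cfsg.Agent.Lib.Helper16
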