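import Mathlib
import Cfsg.Agent.Lib.Helper16.Orth37

set_option autoImplicit false

namespace Cfsg.Agent.Lib.Helper16

open Cfsg Cfsg.Agent.Lib.Helper6 Module

variable {F V : Type*} [Field F] [AddCommGroup V] [Module F V] {Q : QuadraticForm F V}

local notation "P" => QuadraticMap.polarBilin Q

theorem nondeg_stab_step1 [Fintype F] [FiniteDimensional F V] (hQ : (P).Nondegenerate)
    {A X : Submodule F V} (S : OSplit Q A X) (h7 : 7 ≤ finrank F X)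
    (h : ↥(OG Q)) (h1 : ¬ ∀ x ∈ X, h.1 x ∈ X) (h2 : ¬ ∀ x ∈ X, h.1 x ∈ A) :
    ∃ s ∈ X, Q s = 0 ∧ h.1 s ∉ A ∧ h.1 s ∉ X := by
  obtain ⟨e₀, he₀X, f₀, hf₀X, hp₀, -⟩ := S.hpair_in hQ h7 0 0
  by_contra hcon
  push Not at hcon h1 h2
  obtain ⟨x₁, hx₁, hx₁'⟩ := h1
  obtain ⟨x₂, hx₂, hx₂'⟩ := h2
  have ha : ∃ a₀ ∈ A, P a₀ (h.1 x₁) ≠ 0 := by
    by_contra hc
    push Not at hc
    exact hx₁' (S.mem_right hQ hc)
  obtain ⟨a₀, ha₀, ha₀'⟩ := ha
  have hb : ∃ b₀ ∈ X, P b₀ (h.1 x₂) ≠ 0 := by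
    by_contra hc
    push Not at hc
    exact hx₂' (S.mem_left hQ hc)
  obtain ⟨b₀, hb₀, hb₀'⟩ := hb
  obtain ⟨s₁, hs₁X, hs₁0, hs₁⟩ := exists_sing_of_functional hp₀ X he₀X hf₀X
    ((P a₀).comp h.1.toLinearMap) x₁ hx₁ ha₀'
  obtain ⟨s₂, hs₂X, hs₂0, hs₂⟩ := exists_sing_of_functional hp₀ X he₀X hf₀X
    ((P b₀).comp h.1.toLinearMap) x₂ hx₂ hb₀'
  have hs₁' : h.1 s₁ ∉ X := fun hc => hs₁ (S.orth a₀ ha₀ _ hc)
  have hs₂' : h.1 s₂ ∉ A := fun hc => hs₂ (by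
    change P b₀ (h.1 s₂) = 0
    rw [wq_symm]; exact S.orth _ hc b₀ hb₀)
  have hs₁A : h.1 s₁ ∈ A := by
    by_contra hc
    exact hs₁' (hcon s₁ hs₁X hs₁0 hc)
  have hs₂X' : h.1 s₂ ∈ X := hcon s₂ hs₂X hs₂0 hs₂'
  have horth : P s₁ s₂ = 0 := by
    rw [← OG_polar Q h.2]; exact S.orth _ hs₁A _ hs₂X'
  have hsum0 : Q (s₁ + s₂) = 0 := by
    rw [wq_add, hs₁0, hs₂0, horth]; simp
  have hnA : h.1 (s₁ + s₂) ∉ A := by
    intro hc
    rw [map_add] at hc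
    exact hs₂' (by simpa using A.sub_mem hc hs₁A)
  have h3 := hcon _ (X.add_mem hs₁X hs₂X) hsum0 hnA
  rw [map_add] at h3
  exact hs₁' (by simpa using X.sub_mem h3 hs₂X')

theorem nondeg_stab_stepA [Fintype F] [FiniteDimensional F V] (hQ : (P).Nondegenerate)
    {A X : Submodule F V} (S : OSplit Q A X) (h7 : 7 ≤ finrank F X)
    (M : Subgroup ↥(OG Q)) (hM : stabO Q A ⊓ commutator ↥(OG Q) ≤ M)
    (h : ↥(OG Q)) (hhM : h ∈ M) (h1 : ¬ ∀ x ∈ X, h.1 x ∈ X) (h2 : ¬ ∀ x ∈ X, h.1 x ∈ A) :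
    ∃ u f, u ∈ X ∧ f ∈ X ∧ ∃ hp : HPair Q u f, ∃ z₀ ∈ A, z₀ ≠ 0 ∧ z₀ ∈ TA M u hp.he := by
  have hn : 7 ≤ finrank F V := h7.trans (Submodule.finrank_le X)
  obtain ⟨s, hsX, hs0, hsA', hsX'⟩ := nondeg_stab_step1 hQ S h7 h h1 h2
  obtain ⟨s', hs'X, f', hf'X, hp', hss', -, hsf', -⟩ := S.hpair_in hQ h7 s 0
  obtain ⟨x₁, hx₁, x₂, hx₂, hx⟩ := S.dec (h.1 s)
  obtain ⟨y₁, hy₁, y₂, hy₂, hy⟩ := S.dec (h.1 s')
  have hx₁0 : x₁ ≠ 0 := by
    rintro rfl
    rw [zero_add] at hx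
    exact hsX' (hx ▸ hx₂)
  have hx₂0 : x₂ ≠ 0 := by
    rintro rfl
    rw [add_zero] at hx
    exact hsA' (hx ▸ hx₁)
  obtain ⟨u, huX, f, hfX, hp, hxu, hyu, hxf, hyf⟩ := S.hpair_in hQ h7 x₂ y₂
  refine ⟨u, f, huX, hfX, hp, ?_⟩
  -- Siegel transformations inside `X`
  have hSX : ∀ (w x : V) (hw : Q w = 0) (hxw : P x w = 0), w ∈ X → x ∈ X →
      siegO Q w x hw hxw ∈ M := by
    intro w x hw hxw hwX hxX
    refine hM (Subgroup.mem_inf.2 ⟨?_, siegO_mem_comm Q hQ (Or.inr (by omega)) _ _ _ _⟩)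
    rw [mem_stabO_iff]
    intro z hz
    rw [siegO_fix_of_orth w x z _ _ (S.orth z hz w hwX) (S.orth z hz x hxX)]
    exact hz
  have hx0 : Q (h.1 s) = 0 := by rw [h.2 s]; exact hs0
  have hy0 : Q (h.1 s') = 0 := by rw [h.2 s']; exact hp'.he
  have hyx : P (h.1 s') (h.1 s) = 0 := by rw [OG_polar Q h.2, wq_symm]; exact hss'
  have hsM : siegO Q (h.1 s) (h.1 s') hx0 hyx ∈ M := by
    have h3 := M.mul_mem (M.mul_mem hhM (hSX s s' hs0 (by rw [wq_symm]; exact hss') hsX hs'X))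
      (M.inv_mem hhM)
    rwa [siegO_conj] at h3
  have hux : P u (h.1 s) = 0 := by
    rw [hx, map_add, wq_symm Q u x₁, S.orth x₁ hx₁ u huX, wq_symm Q u x₂, hxu, add_zero]
  have huy : P u (h.1 s') = 0 := by
    rw [hy, map_add, wq_symm Q u y₁, S.orth y₁ hy₁ u huX, wq_symm Q u y₂, hyu, add_zero]
  have hsMu : (siegO Q (h.1 s) (h.1 s') hx0 hyx).1 u = u := siegO_fix_of_orth _ _ u _ _ hux huy
  have key : ∀ b ∈ X, P b u = 0 → P b y₂ • x₁ - P b x₂ • y₁ ∈ TA M u hp.he := by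
    intro b hb hbu
    have hb1 : b ∈ TA M u hp.he := ⟨hbu, hSX u b hp.he hbu huX hb⟩
    have h3 := TA_of_fix hsM hb1 hsMu
    rw [siegO_apply, siegL_apply, hy0] at h3
    have e1 : P b (h.1 s) = P b x₂ := by
      rw [hx, map_add, wq_symm Q b x₁, S.orth x₁ hx₁ b hb, zero_add]
    have e2 : P b (h.1 s') = P b y₂ := by
      rw [hy, map_add, wq_symm Q b y₁, S.orth y₁ hy₁ b hb, zero_add]
    rw [e1, e2, hx, hy] at h3
    have h4 : b + P b y₂ • x₂ - P b x₂ • y₂ ∈ TA M u hp.he := by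
      refine ⟨?_, hSX u _ hp.he _ huX
        (X.sub_mem (X.add_mem hb (X.smul_mem _ hx₂)) (X.smul_mem _ hy₂))⟩
      rw [map_sub, map_add, map_smul, map_smul, LinearMap.sub_apply, LinearMap.add_apply,
        LinearMap.smul_apply, LinearMap.smul_apply, hbu, hxu, hyu]
      simp
    have h5 := (TA M u hp.he).sub_mem h3 h4
    have e3 : b + (P b y₂ - 0 * P b x₂) • (x₁ + x₂) + -P b x₂ • (y₁ + y₂) -
        (b + P b y₂ • x₂ - P b x₂ • y₂) = P b y₂ • x₁ - P b x₂ • y₁ := by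
      module
    rwa [e3] at h5
  by_cases hcase : y₂ ∈ Submodule.span F {x₂}
  · obtain ⟨μ, hμ⟩ := Submodule.mem_span_singleton.1 hcase
    have hnot : x₂ ∉ A ⊔ Submodule.span F {u} := by
      intro hc
      obtain ⟨a, ha, n, hn', han⟩ := Submodule.mem_sup.1 hc
      obtain ⟨c, rfl⟩ := Submodule.mem_span_singleton.1 hn'
      have ha0 : a = 0 := by
        apply S.eq_zero_of_mem hQ ha
        have : a = x₂ - c • u := by rw [← han]; abel
        rw [this]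
        exact X.sub_mem hx₂ (X.smul_mem _ huX)
      rw [ha0, zero_add] at han
      have h3 : P x₂ f = c := by
        rw [← han, map_smul, LinearMap.smul_apply, hp.hef]; simp
      rw [hxf] at h3
      rw [← h3, zero_smul] at han
      exact hx₂0 han.symm
    obtain ⟨t, htX, htN, htx⟩ := S.exists_orth_in hQ _ x₂ hnot
    have htu : P t u = 0 := by
      rw [wq_symm]; exact htN u (Submodule.mem_span_singleton_self u)
    refine ⟨_, A.sub_mem (A.smul_mem _ hx₁) (A.smul_mem _ hy₁), ?_, key t htX htu⟩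
    intro hz
    rw [← hμ, map_smul, smul_eq_mul, mul_comm, mul_smul, ← smul_sub] at hz
    have h3 : μ • x₁ - y₁ = 0 := (smul_eq_zero.1 hz).resolve_left htx
    have h4 : h.1 s' = h.1 (μ • s) := by
      rw [map_smul, hx, hy, ← hμ, smul_add, ← sub_eq_zero.1 h3]
    have h5 : s' = μ • s := h.1.injective h4
    have h6 := hp'.hef
    rw [h5, map_smul, LinearMap.smul_apply, hsf', smul_zero] at h6
    exact zero_ne_one h6
  · have hnot : y₂ ∉ A ⊔ Submodule.span F {u, x₂} := by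
      intro hc
      obtain ⟨a, ha, n, hn', han⟩ := Submodule.mem_sup.1 hc
      obtain ⟨c, d, rfl⟩ := Submodule.mem_span_pair.1 hn'
      have ha0 : a = 0 := by
        apply S.eq_zero_of_mem hQ ha
        have : a = y₂ - (c • u + d • x₂) := by rw [← han]; abel
        rw [this]
        exact X.sub_mem hy₂ (X.add_mem (X.smul_mem _ huX) (X.smul_mem _ hx₂))
      rw [ha0, zero_add] at han
      have h3 : P y₂ f = c := by
        rw [← han, map_add, map_smul, map_smul, LinearMap.add_apply, LinearMap.smul_apply,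
          LinearMap.smul_apply, hp.hef, hxf]
        simp
      rw [hyf] at h3
      rw [← h3, zero_smul, zero_add] at han
      exact hcase (Submodule.mem_span_singleton.2 ⟨d, han⟩)
    obtain ⟨t, htX, htN, hty⟩ := S.exists_orth_in hQ _ y₂ hnot
    have htu : P t u = 0 := by
      rw [wq_symm]; exact htN u (Submodule.subset_span (by simp))
    have htx : P t x₂ = 0 := by
      rw [wq_symm]; exact htN x₂ (Submodule.subset_span (by simp))
    refine ⟨_, A.sub_mem (A.smul_mem _ hx₁) (A.smul_mem _ hy₁), ?_, key t htX htu⟩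
    rw [htx, zero_smul, sub_zero]
    exact smul_ne_zero hty hx₁0

/-- **Maximality of the stabiliser of a nondegenerate subspace**: the key step -/
theorem nondeg_stab_max [Fintype F] [FiniteDimensional F V] (hQ : (P).Nondegenerate)
    {A X : Submodule F V} (S : OSplit Q A X) (h7 : 7 ≤ finrank F X) (hirr : IrrCond Q A)
    (M : Subgroup ↥(OG Q)) (hM : stabO Q A ⊓ commutator ↥(OG Q) ≤ M)
    (h : ↥(OG Q)) (hhM : h ∈ M) (h1 : ¬ ∀ x ∈ X, h.1 x ∈ X) (h2 : ¬ ∀ x ∈ X, h.1 x ∈ A) :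
    commutator ↥(OG Q) ≤ M := by
  obtain ⟨u, f, huX, hfX, hp, z₀, hz₀A, hz₀, hz₀T⟩ := nondeg_stab_stepA hQ S h7 M hM h hhM h1 h2
  exact nondeg_stab_stepB hQ S h7 hirr M hM u f huX hfX hp z₀ hz₀A hz₀ hz₀T

end Cfsg.Agent.Lib.Helper16
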