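import Mathlib
import Cfsg.Agent.Lib.Helper16.Orth38

set_option autoImplicit false

namespace Cfsg.Agent.Lib.Helper16

open Cfsg Cfsg.Agent.Lib.Helper6 Module

variable {F V : Type*} [Field F] [AddCommGroup V] [Module F V] {Q : QuadraticForm F V}

local notation "P" => QuadraticMap.polarBilin Q

theorem finrank_inf_ker_ge [FiniteDimensional F V] (A : Submodule F V) (φ : V →ₗ[F] F) :
    finrank F A ≤ finrank F ↥(A ⊓ LinearMap.ker φ) + 1 := by
  by_cases h : ∃ a ∈ A, φ a ≠ 0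
  · have := finrank_inf_ker A φ h
    omega
  · push Not at h
    have : A ⊓ LinearMap.ker φ = A := inf_eq_left.2 (fun a ha => LinearMap.mem_ker.2 (h a ha))
    rw [this]; omega

/-- reflections: a nonsingular vector lies in an invariant subspace or is orthogonal to it -/
theorem cover_nonsing {A B : Submodule F V}
    (hr : ∀ y ∈ A, Q y ≠ 0 → ∀ z ∈ B, reflE Q y z ∈ B) (y : V) (hy : y ∈ A) (hy0 : Q y ≠ 0) :
    y ∈ B ∨ ∀ z ∈ B, P z y = 0 := by
  by_cases hall : ∀ z ∈ B, P z y = 0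
  · exact Or.inr hall
  · left
    push Not at hall
    obtain ⟨z, hz, hp⟩ := hall
    have h1 := hr y hy hy0 z hz
    rw [reflE_apply] at h1
    have h2 := B.sub_mem hz h1
    rw [sub_sub_cancel] at h2
    have h3 := B.smul_mem ((Q y)⁻¹ * P z y)⁻¹ h2
    rwa [smul_smul, inv_mul_cancel₀ (mul_ne_zero (inv_ne_zero hy0) hp), one_smul] at h3

theorem eq_of_cover {A B : Submodule F V} (hnd : ∀ a ∈ A, (∀ y ∈ A, P a y = 0) → a = 0)
    (hBA : B ≤ A) (hB0 : B ≠ ⊥) (cover : ∀ y ∈ A, y ∈ B ∨ ∀ z ∈ B, P z y = 0) : B = A := by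
  by_contra hne
  obtain ⟨y₁, hy₁A, hy₁B⟩ := SetLike.exists_of_lt (lt_of_le_of_ne hBA hne)
  have hy₁ : ∀ z ∈ B, P z y₁ = 0 := (cover y₁ hy₁A).resolve_left hy₁B
  apply hB0
  rw [eq_bot_iff]
  intro z hz
  rw [Submodule.mem_bot]
  apply hnd z (hBA hz)
  intro y hy
  rcases cover y hy with h | h
  · have h1 : ∀ z ∈ B, P z (y + y₁) = 0 := by
      refine (cover (y + y₁) (A.add_mem hy hy₁A)).resolve_left ?_
      intro hc
      exact hy₁B (by simpa using B.sub_mem hc h)
    have h2 := h1 z hz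
    rwa [map_add, hy₁ z hz, add_zero] at h2
  · exact h z hz

theorem irr_of_cover {A : Submodule F V} (hnd : ∀ a ∈ A, (∀ y ∈ A, P a y = 0) → a = 0)
    (hs : ∀ y ∈ A, y ≠ 0 → Q y = 0 → ∃ v ∈ A, ∃ v' ∈ A, P v y = 0 ∧ P v' y = 0 ∧ P v v' ≠ 0) :
    IrrCond Q A := by
  intro B hBA hB0 hr hsg
  apply eq_of_cover hnd hBA hB0
  intro y hy
  by_cases hy0 : Q y = 0
  swap
  · exact cover_nonsing hr y hy hy0
  by_cases hall : ∀ z ∈ B, P z y = 0
  · exact Or.inr hall
  left
  push Not at hall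
  obtain ⟨z, hz, hp⟩ := hall
  have hyne : y ≠ 0 := by
    rintro rfl
    simp at hp
  obtain ⟨v, hv, v', hv', hvy, hv'y, hvv'⟩ := hs y hy hyne hy0
  have h1 := hsg y hy v hv hy0 hvy z hz
  have h2 := hsg y hy v' hv' hy0 hv'y z hz
  have h3 := hsg y hy (v + v') (A.add_mem hv hv') hy0
    (by rw [map_add, LinearMap.add_apply, hvy, hv'y, add_zero]) z hz
  rw [siegL_apply] at h1 h2 h3
  have h4 := B.add_mem (B.sub_mem (B.sub_mem h3 h1) h2) hz
  have e1 : z + (P z (v + v') - Q (v + v') * P z y) • y + -P z y • (v + v') -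
      (z + (P z v - Q v * P z y) • y + -P z y • v) -
      (z + (P z v' - Q v' * P z y) • y + -P z y • v') + z = (-(P v v' * P z y)) • y := by
    rw [wq_add, map_add]
    module
  rw [e1] at h4
  have h5 := B.smul_mem (-(P v v' * P z y))⁻¹ h4
  rwa [smul_smul, inv_mul_cancel₀ (neg_ne_zero.2 (mul_ne_zero hvv' hp)), one_smul] at h5

theorem exists_notMem_of_card_lt [Fintype F] (s : Finset F) (hs : s.card < Fintype.card F) :
    ∃ b, b ∉ s := by
  by_contra h
  push Not at h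
  have : s = Finset.univ := Finset.eq_univ_iff_forall.2 h
  rw [this, Finset.card_univ] at hs
  exact lt_irrefl _ hs

theorem irr_hyp_plane [Fintype F] (hq : 4 ≤ Fintype.card F) {A : Submodule F V} (e f : V)
    (he : e ∈ A) (hf : f ∈ A) (hp : HPair Q e f) (hA : A ≤ Submodule.span F {e, f}) :
    IrrCond Q A := by
  classical
  intro B hBA hB0 hr _
  obtain ⟨c₂, hc₂⟩ := exists_notMem_of_card_lt ({0, 1} : Finset F)
    (lt_of_le_of_lt Finset.card_le_two (by omega))
  obtain ⟨c₃, hc₃⟩ := exists_notMem_of_card_lt ({0, 1, c₂} : Finset F)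
    (lt_of_le_of_lt Finset.card_le_three (by omega))
  simp only [Finset.mem_insert, Finset.mem_singleton, not_or] at hc₂ hc₃
  have hy : ∀ c : F, c ≠ 0 → (e + c • f ∈ B ∨ ∀ z ∈ B, P z (e + c • f) = 0) := by
    intro c hc
    exact cover_nonsing hr _ (A.add_mem he (A.smul_mem _ hf)) (by rw [hp_Q_add hp]; exact hc)
  -- two vectors in `B`
  have hin : ∀ c c' : F, c ≠ c' → e + c • f ∈ B → e + c' • f ∈ B → B = A := by
    intro c c' hcc h1 h2
    have h3 := B.sub_mem h1 h2
    have e1 : e + c • f - (e + c' • f) = (c - c') • f := by module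
    rw [e1] at h3
    have h4 := B.smul_mem (c - c')⁻¹ h3
    rw [smul_smul, inv_mul_cancel₀ (sub_ne_zero.2 hcc), one_smul] at h4
    have h5 : e ∈ B := by simpa using B.sub_mem h1 (B.smul_mem c h4)
    apply le_antisymm hBA
    refine hA.trans ?_
    rw [Submodule.span_le]
    rintro x (rfl | rfl)
    · exact h5
    · exact h4
  have hout : ∀ c c' : F, c ≠ c' → (∀ z ∈ B, P z (e + c • f) = 0) →
      (∀ z ∈ B, P z (e + c' • f) = 0) → B = A := by
    intro c c' hcc h1 h2
    exfalso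
    apply hB0
    rw [eq_bot_iff]
    intro z hz
    rw [Submodule.mem_bot]
    have h3 := h1 z hz
    have h4 := h2 z hz
    rw [map_add, map_smul, smul_eq_mul] at h3 h4
    have h5 : (c - c') * P z f = 0 := by linear_combination h3 - h4
    have h6 : P z f = 0 := (mul_eq_zero.1 h5).resolve_left (sub_ne_zero.2 hcc)
    have h7 : P z e = 0 := by rw [h6] at h3; simpa using h3
    obtain ⟨a, b, hab⟩ := Submodule.mem_span_pair.1 (hA (hBA hz))
    have h8 : P z f = a := by
      rw [← hab, map_add, map_smul, map_smul, LinearMap.add_apply, LinearMap.smul_apply,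
        LinearMap.smul_apply, hp.hef, wq_self, hp.hf]
      simp
    have h9 : P z e = b := by
      rw [← hab, map_add, map_smul, map_smul, LinearMap.add_apply, LinearMap.smul_apply,
        LinearMap.smul_apply, wq_symm Q f e, hp.hef, wq_self, hp.he]
      simp
    rw [← hab, ← h8, ← h9, h6, h7]
    simp
  rcases hy 1 one_ne_zero with a1 | a1 <;> rcases hy c₂ hc₂.1 with a2 | a2 <;>
    rcases hy c₃ hc₃.1 with a3 | a3
  · exact hin _ _ (Ne.symm hc₂.2) a1 a2
  · exact hin _ _ (Ne.symm hc₂.2) a1 a2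
  · exact hin _ _ (Ne.symm hc₃.2.1) a1 a3
  · exact hout _ _ (Ne.symm hc₃.2.2) a2 a3
  · exact hin _ _ (Ne.symm hc₃.2.2) a2 a3
  · exact hout _ _ (Ne.symm hc₃.2.1) a1 a3
  · exact hout _ _ (Ne.symm hc₂.2) a1 a2
  · exact hout _ _ (Ne.symm hc₂.2) a1 a2

theorem exists_vv [FiniteDimensional F V] {A : Submodule F V}
    (hnd : ∀ a ∈ A, (∀ y ∈ A, P a y = 0) → a = 0) (h3 : 3 ≤ finrank F A) (y : V) (hy : y ∈ A)
    (hy0 : y ≠ 0) : ∃ v ∈ A, ∃ v' ∈ A, P v y = 0 ∧ P v' y = 0 ∧ P v v' ≠ 0 := by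
  have h1 : ∃ t ∈ A, P y t ≠ 0 := by
    by_contra hc
    push Not at hc
    exact hy0 (hnd y hy hc)
  obtain ⟨t, ht, hyt⟩ := h1
  have h2 := finrank_inf_ker_ge A (P y)
  have h4 := finrank_inf_ker_ge (A ⊓ LinearMap.ker (P y)) (P t)
  have h5 : A ⊓ LinearMap.ker (P y) ⊓ LinearMap.ker (P t) ≠ ⊥ := by
    intro hc
    rw [hc, finrank_bot] at h4
    omega
  obtain ⟨v, hv, hv0⟩ := Submodule.exists_mem_ne_zero_of_ne_bot h5
  obtain ⟨⟨hvA, hvy⟩, hvt⟩ := hv
  rw [SetLike.mem_coe, LinearMap.mem_ker] at hvy hvt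
  have h6 : ∃ v'' ∈ A, P v v'' ≠ 0 := by
    by_contra hc
    push Not at hc
    exact hv0 (hnd v hvA hc)
  obtain ⟨v'', hv'', hvv''⟩ := h6
  refine ⟨v, hvA, v'' - (P y v'' / P y t) • t, A.sub_mem hv'' (A.smul_mem _ ht), ?_, ?_, ?_⟩
  · rw [wq_symm]; exact hvy
  · rw [wq_symm, map_sub, map_smul, smul_eq_mul]
    field_simp
    ring
  · rw [map_sub, map_smul, wq_symm Q v t, hvt]
    simpa using hvv''

theorem irr_of_cases [Fintype F] [FiniteDimensional F V] {A : Submodule F V}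
    (hnd : ∀ a ∈ A, (∀ y ∈ A, P a y = 0) → a = 0)
    (hex : finrank F A = 2 → (∃ y ∈ A, y ≠ 0 ∧ Q y = 0) → 4 ≤ Fintype.card F) : IrrCond Q A := by
  by_cases h3 : 3 ≤ finrank F A
  · exact irr_of_cover hnd (fun y hy hy0 _ => exists_vv hnd h3 y hy hy0)
  by_cases hs : ∃ y ∈ A, y ≠ 0 ∧ Q y = 0
  swap
  · push Not at hs
    exact irr_of_cover hnd (fun y hy hy0 hQy => absurd hQy (hs y hy hy0))
  obtain ⟨y, hy, hy0, hQy⟩ := hs
  have h1 : ∃ t ∈ A, P y t ≠ 0 := by
    by_contra hc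
    push Not at hc
    exact hy0 (hnd y hy hc)
  obtain ⟨t, ht, hyt⟩ := h1
  set f := (P y t)⁻¹ • t - (Q t / (P y t) ^ 2) • y with hf
  have hfA : f ∈ A := A.sub_mem (A.smul_mem _ ht) (A.smul_mem _ hy)
  have hp : HPair Q y f := by
    refine ⟨hQy, ?_, ?_⟩
    · rw [hf, wq_sub, wq_smul, wq_smul, hQy, map_smul, map_smul, LinearMap.smul_apply,
        wq_symm Q t y, smul_eq_mul, smul_eq_mul]
      field_simp
      ring
    · rw [hf, map_sub, map_smul, map_smul, wq_self, hQy, smul_eq_mul, smul_eq_mul]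
      field_simp
      ring
  have hli : LinearIndependent F ![y, f] := by
    rw [LinearIndependent.pair_iff]
    intro a b hab
    have h4 : P (a • y + b • f) f = a := by
      rw [map_add, map_smul, map_smul, LinearMap.add_apply, LinearMap.smul_apply,
        LinearMap.smul_apply, hp.hef, wq_self, hp.hf]
      simp
    have h5 : P (a • y + b • f) y = b := by
      rw [map_add, map_smul, map_smul, LinearMap.add_apply, LinearMap.smul_apply,
        LinearMap.smul_apply, wq_symm Q f y, hp.hef, wq_self, hp.he]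
      simp
    rw [hab] at h4 h5
    simp only [map_zero, LinearMap.zero_apply] at h4 h5
    exact ⟨h4.symm, h5.symm⟩
  have hsp : finrank F (Submodule.span F ({y, f} : Set V)) = 2 := by
    have h := finrank_span_eq_card hli
    have hr : Set.range ![y, f] = ({y, f} : Set V) := by
      ext x
      simp only [Set.mem_range, Fin.exists_fin_two, Matrix.cons_val_zero, Matrix.cons_val_one,
        Set.mem_insert_iff, Set.mem_singleton_iff]
      constructor
      · rintro (h | h)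
        · exact Or.inl h.symm
        · exact Or.inr h.symm
      · rintro (h | h)
        · exact Or.inl h.symm
        · exact Or.inr h.symm
    rw [hr] at h
    rw [h]; simp
  have hle : Submodule.span F ({y, f} : Set V) ≤ A := by
    rw [Submodule.span_le]
    rintro x (rfl | rfl)
    · exact hy
    · exact hfA
  have h6 := Submodule.finrank_mono hle
  have h7 : finrank F A = 2 := by omega
  have h8 : Submodule.span F ({y, f} : Set V) = A :=
    Submodule.eq_of_le_of_finrank_eq hle (by omega)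
  exact irr_hyp_plane (hex h7 ⟨y, hy, hy0, hQy⟩) y f hy hfA hp (le_of_eq h8.symm)

theorem nondeg_stab_ne [Fintype F] [FiniteDimensional F V] (hQ : (P).Nondegenerate)
    {A X : Submodule F V} (S : OSplit Q A X) (h7 : 7 ≤ finrank F X) (hA0 : A ≠ ⊥) :
    ∃ g ∈ commutator ↥(OG Q), g ∉ stabO Q A := by
  have hn : 7 ≤ finrank F V := h7.trans (Submodule.finrank_le X)
  obtain ⟨u, huX, f, -, hp, -⟩ := S.hpair_in hQ h7 0 0
  obtain ⟨z, hz, hz0⟩ := Submodule.exists_mem_ne_zero_of_ne_bot hA0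
  have h1 : ∃ a ∈ A, P z a ≠ 0 := by
    by_contra hc
    push Not at hc
    exact hz0 (S.eq_zero_of_orth_left hQ hz hc)
  obtain ⟨a, ha, hza⟩ := h1
  refine ⟨siegO Q u z hp.he (S.orth z hz u huX), siegO_mem_comm Q hQ (Or.inr (by omega)) _ _ _ _, ?_⟩
  rw [mem_stabO_iff]
  intro hc
  have h2 := hc a ha
  rw [siegO_apply, siegL_apply, S.orth a ha u huX] at h2
  simp only [mul_zero, sub_zero, neg_zero, zero_smul, add_zero] at h2
  have h3 : P a z • u ∈ A := by simpa using A.sub_mem h2 ha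
  have h4 := S.eq_zero_of_mem hQ h3 (X.smul_mem _ huX)
  rcases smul_eq_zero.1 h4 with h5 | h5
  · rw [wq_symm] at h5; exact hza h5
  · exact hp.ne_zero h5

/-- the core statement for nondegenerate subspaces -/
theorem nondeg_max_core [Fintype F] [FiniteDimensional F V] (hQ : (P).Nondegenerate)
    {A X : Submodule F V} (S : OSplit Q A X) (hle : finrank F A ≤ finrank F X)
    (hn : 13 ≤ finrank F V) (hA0 : A ≠ ⊥)
    (hex : finrank F A = 2 → (∃ y ∈ A, y ≠ 0 ∧ Q y = 0) → 4 ≤ Fintype.card F)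
    (hns : finrank F A = finrank F X → ¬ ∃ g : ↥(OG Q), ∀ x ∈ X, g.1 x ∈ A) :
    (∃ g ∈ commutator ↥(OG Q), g ∉ stabO Q A) ∧
    ∀ M : Subgroup ↥(OG Q), stabO Q A ⊓ commutator ↥(OG Q) ≤ M → ∀ h ∈ M, h ∉ stabO Q A →
      commutator ↥(OG Q) ≤ M := by
  have hadd := S.finrank_add hQ
  have h7 : 7 ≤ finrank F X := by omega
  refine ⟨nondeg_stab_ne hQ S h7 hA0, ?_⟩
  intro M hM h hhM hh
  refine nondeg_stab_max hQ S h7
    (irr_of_cases (fun a ha h => S.eq_zero_of_orth_left hQ ha h) hex) M hM h hhM ?_ ?_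
  · intro hc
    apply hh
    rw [S.stab_eq hQ, mem_stabO_iff]
    exact hc
  · intro hc
    have h1 : X.map h.1.toLinearMap ≤ A := by
      rintro _ ⟨x, hx, rfl⟩
      exact hc x hx
    have h2 := Submodule.finrank_mono h1
    rw [LinearEquiv.finrank_map_eq h.1 X] at h2
    exact hns (by omega) ⟨h, hc⟩

end Cfsg.Agent.Lib.Helper16
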