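import Mathlib
import Cfsg.Agent.Lib.Helper16.Orth39

set_option autoImplicit false

namespace Cfsg.Agent.Lib.Helper16

open Cfsg Cfsg.Agent.Lib.Helper6 Module Matrix

variable {F : Type*} [Field F] {ι : Type} [Fintype ι] [DecidableEq ι]
variable (Q : QuadraticForm F (ι → F))

local notation "P" => QuadraticMap.polarBilin Q

theorem geo_nondegOn_left (hQ : (P).Nondegenerate) {A X : Submodule F (ι → F)} (S : OSplit Q A X) :
    Geo.IsNondegenerateOn (QuadraticMap.polar ⇑Q) A := by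
  intro w hw hw0
  have h1 : ∃ x ∈ A, P w x ≠ 0 := by
    by_contra hc
    push Not at hc
    exact hw0 (S.eq_zero_of_orth_left hQ hw hc)
  obtain ⟨x, hx, hwx⟩ := h1
  exact ⟨⟨x, hx, by rw [QuadraticMap.polar_comm]; exact hwx⟩, ⟨x, hx, hwx⟩⟩

theorem geo_plusType_of_sing {A : Submodule F (ι → F)} (h2 : finrank F A = 2) (y : ι → F)
    (hy : y ∈ A) (hy0 : y ≠ 0) (hQy : Q y = 0) : Geo.IsPlusTypeOn ⇑Q A := by
  refine ⟨Submodule.span F {y}, ?_, ?_, ?_⟩
  · rw [Submodule.span_singleton_le_iff_mem]; exact hy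
  · intro w hw
    obtain ⟨c, rfl⟩ := Submodule.mem_span_singleton.1 hw
    rw [wq_smul, hQy, mul_zero]
  · rw [finrank_span_singleton hy0, h2]

/-- maximality of the stabiliser of one term of an orthogonal splitting, in `GL` form -/
theorem split_isMaximalIn [Fintype F] (hQ : (P).Nondegenerate) (hn : 13 ≤ Fintype.card ι)
    {A X : Submodule F (ι → F)} (S : OSplit Q A X) (hle : finrank F A ≤ finrank F X) (hA0 : A ≠ ⊥)
    (hex : finrank F A = 2 → Geo.IsPlusTypeOn ⇑Q A → 4 ≤ Fintype.card F)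
    (hns : finrank F A = finrank F X → ¬ ∃ g : ↥(OG Q), ∀ x ∈ X, g.1 x ∈ A) :
    Geo.IsMaximalIn (Geo.omegaGL ⇑Q) (Geo.subspaceStabilizer A ⊓ Geo.omegaGL ⇑Q) ∧
    Geo.IsMaximalIn (Geo.omegaGL ⇑Q) (Geo.subspaceStabilizer X ⊓ Geo.omegaGL ⇑Q) := by
  have hfr : finrank F (ι → F) = Fintype.card ι := Module.finrank_fintype_fun_eq_card F
  obtain ⟨h1, h2⟩ := nondeg_max_core hQ S hle (by omega) hA0
    (fun h2 ⟨y, hy, hy0, hQy⟩ => hex h2 (geo_plusType_of_sing Q h2 y hy hy0 hQy)) hns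
  constructor
  · exact isMaximalIn_omegaGL Q _ (stabO Q A) (toGL_mem_subspaceStabilizer Q A) h1
      (fun M hM _ h hhM hh => h2 M hM h hhM hh)
  · refine isMaximalIn_omegaGL Q _ (stabO Q A) ?_ h1 (fun M hM _ h hhM hh => h2 M hM h hhM hh)
    intro g
    rw [toGL_mem_subspaceStabilizer, S.stab_eq hQ]

theorem nondeg_isMaximalIn [Fintype F] (hQ : (P).Nondegenerate) (hn : 13 ≤ Fintype.card ι)
    (W : Submodule F (ι → F)) (hW0 : W ≠ ⊥) (hW1 : W ≠ ⊤)
    (hW : Geo.IsNondegenerateOn (QuadraticMap.polar ⇑Q) W)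
    (hex : ∀ U : Submodule F (ι → F), (U = W ∨ (Geo.AreOrthogonalFor (QuadraticMap.polar ⇑Q) U W ∧
      finrank F U + finrank F W = Fintype.card ι)) → finrank F U = 2 →
      Geo.IsNondegenerateOn (QuadraticMap.polar ⇑Q) U → Geo.IsPlusTypeOn ⇑Q U →
      4 ≤ Fintype.card F)
    (hns : 2 * finrank F W = Fintype.card ι →
      ¬ ∃ g : ↥(OG Q), ∀ x ∈ LinearMap.BilinForm.orthogonal (P) W, g.1 x ∈ W) :
    Geo.IsMaximalIn (Geo.omegaGL ⇑Q) (Geo.subspaceStabilizer W ⊓ Geo.omegaGL ⇑Q) := by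
  have hfr : finrank F (ι → F) = Fintype.card ι := Module.finrank_fintype_fun_eq_card F
  have hnd : ∀ w ∈ W, (∀ y ∈ W, P w y = 0) → w = 0 := by
    intro w hw h
    by_contra hw0
    obtain ⟨-, x, hx, hwx⟩ := hW w hw hw0
    exact hwx (h x hx)
  have S := OSplit.of_nondeg hQ W hnd
  have hadd := S.finrank_add hQ
  by_cases hle : finrank F W ≤ finrank F (LinearMap.BilinForm.orthogonal (P) W)
  · exact (split_isMaximalIn Q hQ hn S hle hW0
      (fun h2 hpl => hex W (Or.inl rfl) h2 hW hpl) (fun he => hns (by omega))).1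
  · refine (split_isMaximalIn Q hQ hn S.symm (by omega) ?_ ?_ (fun he => by omega)).2
    · intro hc
      rw [hc, finrank_bot] at hadd
      apply hW1
      apply Submodule.eq_top_of_finrank_eq
      omega
    · intro h2 hpl
      refine hex _ (Or.inr ⟨?_, by omega⟩) h2 (geo_nondegOn_left Q hQ S.symm) hpl
      intro u hu v hv
      exact S.symm.orth u hu v hv

end Cfsg.Agent.Lib.Helper16
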