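import Mathlib
import Cfsg.Agent.Lib.Helper16.Orth40

set_option autoImplicit false

namespace Cfsg.Agent.Lib.Helper16

open Cfsg Cfsg.Agent.Lib.Helper6 Module Matrix

variable {F : Type*} [Field F] {ι : Type} [Fintype ι] [DecidableEq ι]
variable (Q : QuadraticForm F (ι → F))

local notation "P" => QuadraticMap.polarBilin Q

theorem toLin'_toGL (g : ↥(OG Q)) :
    Matrix.toLin' ((toGL Q g : GL ι F) : Matrix ι ι F) = g.1.toLinearMap := by
  apply LinearMap.ext
  intro x
  rw [Matrix.toLin'_apply, toGL_mulVec]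
  rfl

theorem isometric_of_map {A B : Submodule F (ι → F)} (g : ↥(OG Q))
    (h : A.map g.1.toLinearMap = B) : Geo.AreIsometricFor ⇑Q A B := by
  subst h
  exact ⟨g.1.submoduleMap A, fun w => g.2 w⟩

theorem isometric_symm {A B : Submodule F (ι → F)} (h : Geo.AreIsometricFor ⇑Q A B) :
    Geo.AreIsometricFor ⇑Q B A := by
  obtain ⟨e, he⟩ := h
  refine ⟨e.symm, fun w => ?_⟩
  have := he (e.symm w)
  rw [LinearEquiv.apply_symm_apply] at this
  exact this.symm

theorem mem_decompStab_two (D : Fin 2 → Submodule F (ι → F)) (g : ↥(OG Q)) :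
    toGL Q g ∈ Geo.decompositionStabilizer D ↔
      ((D 0).map g.1.toLinearMap = D 0 ∧ (D 1).map g.1.toLinearMap = D 1) ∨
      ((D 0).map g.1.toLinearMap = D 1 ∧ (D 1).map g.1.toLinearMap = D 0) := by
  constructor
  · rintro ⟨σ, hσ⟩
    have h0 := hσ 0
    have h1 := hσ 1
    rw [toLin'_toGL] at h0 h1
    have hinj : σ 0 ≠ σ 1 := fun h => by simpa using σ.injective h
    have hc : ∀ i : Fin 2, i = 0 ∨ i = 1 := by decide
    rcases hc (σ 0) with h | h <;> rcases hc (σ 1) with h' | h'
    · exact absurd (h.trans h'.symm) hinj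
    · left; rw [h] at h0; rw [h'] at h1; exact ⟨h0, h1⟩
    · right; rw [h] at h0; rw [h'] at h1; exact ⟨h0, h1⟩
    · exact absurd (h.trans h'.symm) hinj
  · rintro (⟨h0, h1⟩ | ⟨h0, h1⟩)
    · refine ⟨1, fun i => ?_⟩
      rw [toLin'_toGL]
      fin_cases i
      · exact h0
      · exact h1
    · refine ⟨Equiv.swap 0 1, fun i => ?_⟩
      rw [toLin'_toGL]
      fin_cases i
      · simpa using h0
      · simpa using h1

theorem iSup_fin_two' (D : Fin 2 → Submodule F (ι → F)) : iSup D = D 0 ⊔ D 1 := by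
  apply le_antisymm
  · apply iSup_le
    intro i
    fin_cases i
    · exact le_sup_left
    · exact le_sup_right
  · exact sup_le (le_iSup D 0) (le_iSup D 1)

end Cfsg.Agent.Lib.Helper16
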