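import Mathlib
import Cfsg.Agent.Lib.Helper16.Orth41

set_option autoImplicit false

namespace Cfsg.Agent.Lib.Helper16

open Cfsg Cfsg.Agent.Lib.Helper6 Module Matrix

variable {F : Type*} [Field F] {ι : Type} [Fintype ι] [DecidableEq ι]
variable (Q : QuadraticForm F (ι → F))

local notation "P" => QuadraticMap.polarBilin Q

/-- a plus-type nondegenerate plane is spanned by a hyperbolic pair -/
theorem exists_hpair_of_plus_plane (W : Submodule F (ι → F)) (hdim : finrank F W = 2)
    (hW : Geo.IsNondegenerateOn (QuadraticMap.polar ⇑Q) W) (hWp : Geo.IsPlusTypeOn ⇑Q W) :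
    ∃ e f, HPair Q e f ∧ e ∈ W ∧ f ∈ W ∧ ∀ w ∈ W, w = P f w • e + P e w • f := by
  obtain ⟨U, hUW, hU, hUd⟩ := hWp
  have hU1 : finrank F U = 1 := by omega
  have hUne : U ≠ ⊥ := by
    rintro rfl
    simp at hU1
  obtain ⟨e, heU, he0⟩ := Submodule.exists_mem_ne_zero_of_ne_bot hUne
  have heW := hUW heU
  obtain ⟨⟨x, hxW, hx⟩, -⟩ := hW e heW he0
  have hx' : P x e ≠ 0 := hx
  have hQe : Q e = 0 := hU e heU
  have hee : P e e = 0 := by rw [wq_self, hQe, mul_zero]
  obtain ⟨t, htW, ht1⟩ : ∃ t ∈ W, P t e = 1 :=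
    ⟨(P x e)⁻¹ • x, W.smul_mem _ hxW, by
      rw [map_smul, LinearMap.smul_apply, smul_eq_mul, inv_mul_cancel₀ hx']⟩
  have hp : HPair Q e (t - Q t • e) := by
    refine ⟨hQe, ?_, ?_⟩
    · rw [wq_sub, wq_smul, hQe, map_smul, ht1]; simp
    · rw [map_sub, map_smul, hee, wq_symm, ht1]; simp
  refine ⟨e, t - Q t • e, hp, heW, W.sub_mem htW (W.smul_mem _ heW), ?_⟩
  set f := t - Q t • e with hf
  have hfW : f ∈ W := W.sub_mem htW (W.smul_mem _ heW)
  have hli : LinearIndependent F ![e, f] := by
    rw [LinearIndependent.pair_iff]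
    intro a b hab
    have h1 : P e (a • e + b • f) = 0 := by rw [hab]; simp
    have h2 : P f (a • e + b • f) = 0 := by rw [hab]; simp
    simp only [map_add, map_smul, smul_eq_mul, hp.ee, hp.hef, hp.fe, hp.ff] at h1 h2
    constructor
    · simpa using h2
    · simpa using h1
  have hsp : Submodule.span F {e, f} = W := by
    apply Submodule.eq_of_le_of_finrank_eq
    · rw [Submodule.span_le]
      rintro y (rfl | rfl)
      · exact heW
      · exact hfW
    · have := finrank_span_eq_card hli
      rw [hdim]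
      have h0 : ({e, f} : Set (ι → F)) = Set.range ![e, f] := by
        ext y
        simp [Fin.exists_fin_two, eq_comm]
        tauto
      rw [h0, this]
      simp
  intro w hw
  rw [← hsp] at hw
  obtain ⟨a, b, rfl⟩ := Submodule.mem_span_pair.1 hw
  simp only [map_add, map_smul, smul_eq_mul, hp.ee, hp.hef, hp.fe, hp.ff]
  simp

theorem mul_eq_one_imp_eq [Fintype F] (hq : Fintype.card F ≤ 3) (a b : F) (hab : a * b = 1) :
    a = b := by
  have ha : a ≠ 0 := by rintro rfl; simp at hab
  have h1 : a ^ (Fintype.card F - 1) = 1 := FiniteField.pow_card_sub_one_eq_one a ha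
  have h2 : 1 < Fintype.card F := Fintype.one_lt_card
  have h3 : a * a = 1 := by
    have : Fintype.card F = 2 ∨ Fintype.card F = 3 := by omega
    rcases this with h | h
    · rw [h] at h1
      have : a = 1 := by simpa using h1
      rw [this]; simp
    · rw [h] at h1
      have : a ^ 2 = 1 := by simpa using h1
      rw [← sq]; exact this
  exact (mul_left_cancel₀ ha (h3.trans hab.symm))

theorem plus_plane_between [Fintype F] (hQ : (P).Nondegenerate) (hn : 7 ≤ Fintype.card ι)
    (hq : Fintype.card F ≤ 3) (W : Submodule F (ι → F)) (hdim : finrank F W = 2)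
    (hW : Geo.IsNondegenerateOn (QuadraticMap.polar ⇑Q) W) (hWp : Geo.IsPlusTypeOn ⇑Q W) :
    ∃ K : Subgroup (GL ι F), Geo.subspaceStabilizer W ⊓ Geo.omegaGL ⇑Q < K ∧
      K < Geo.omegaGL ⇑Q := by
  have hfr : finrank F (ι → F) = Fintype.card ι := Module.finrank_fintype_fun_eq_card F
  obtain ⟨e, f, hp, heW, hfW, hsp⟩ := exists_hpair_of_plus_plane Q W hdim hW hWp
  have hv : Q (e + f) = 1 := by
    have := hp_Q_add hp 1
    rwa [one_smul] at this
  have hv' : Q (e + f) ≠ 0 := by rw [hv]; exact one_ne_zero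
  apply exists_between_omegaGL Q _ (stabO Q W)
    (stabO Q (Submodule.span F {e + f}) ⊓ commutator ↥(OG Q)) (toGL_mem_subspaceStabilizer Q W)
  · intro g hg
    obtain ⟨hg1, hg2⟩ := Subgroup.mem_inf.1 hg
    refine Subgroup.mem_inf.2 ⟨?_, hg2⟩
    rw [mem_stabO_iff] at hg1 ⊢
    intro w hw
    obtain ⟨c, rfl⟩ := Submodule.mem_span_singleton.1 hw
    rw [map_smul]
    apply Submodule.smul_mem
    have h1 := hg1 (e + f) (W.add_mem heW hfW)
    have h2 := hsp _ h1
    have h3 : Q (g.1 (e + f)) = 1 := by rw [g.2, hv]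
    set a := P f (g.1 (e + f))
    set b := P e (g.1 (e + f))
    have h4 : a * b = 1 := by
      rw [h2] at h3
      have := hp.Q_comb a b 0 (Submodule.zero_mem _)
      rw [add_zero, map_zero, add_zero] at this
      rw [← this]; exact h3
    have h5 := mul_eq_one_imp_eq hq a b h4
    rw [h2, ← h5, ← smul_add]
    exact Submodule.smul_mem _ _ (Submodule.mem_span_singleton_self _)
  · exact inf_le_right
  · obtain ⟨e2, f2, hp2, he2, -⟩ := exists_hpair_orth hQ W (by omega)
    have h1 : P (e - f) e2 = 0 := he2 _ (W.sub_mem heW hfW)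
    refine ⟨siegO Q e2 (e - f) hp2.he h1, Subgroup.mem_inf.2 ⟨?_,
      siegO_mem_comm Q hQ (Or.inr (by omega)) _ _ _ _⟩, ?_⟩
    · rw [mem_stabO_iff]
      intro w hw
      obtain ⟨c, rfl⟩ := Submodule.mem_span_singleton.1 hw
      rw [map_smul]
      apply Submodule.smul_mem
      rw [siegO_fix_of_orth]
      · exact Submodule.mem_span_singleton_self _
      · exact he2 _ (W.add_mem heW hfW)
      · simp only [map_add, map_sub, LinearMap.add_apply, LinearMap.sub_apply, hp.ee, hp.ff,
          hp.hef, hp.fe]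
        ring
    · rw [mem_stabO_iff]
      intro hc
      have h2 := hc e heW
      rw [siegO_apply, siegL_apply, he2 e heW] at h2
      simp only [map_sub, hp.ee, hp.hef, mul_zero, sub_zero, neg_zero, zero_smul, add_zero,
        zero_sub] at h2
      have h3 : e2 ∈ W := by
        have := W.sub_mem heW h2
        simpa using this
      have h4 := he2 e2 h3
      have h5 : P f2 e2 = 0 := by
        have := hsp e2 h3
        have h6 : P f e2 = 0 := he2 f hfW
        have h7 : P e e2 = 0 := he2 e heW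
        rw [h6, h7] at this
        simp at this
        exact absurd this hp2.ne_zero
      rw [hp2.fe] at h5
      exact one_ne_zero h5
  · obtain ⟨g, hg, hg'⟩ := ns_point_ne hQ (by omega) (e + f) hv'
    exact ⟨g, hg, fun hc => hg' (Subgroup.mem_inf.1 hc).1⟩

end Cfsg.Agent.Lib.Helper16
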