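import Mathlib
import Cfsg.Agent.Lib.Helper16.Orth42

set_option autoImplicit false

namespace Cfsg.Agent.Lib.Helper16

open Cfsg Cfsg.Agent.Lib.Helper6 Module Matrix

section Abstract

variable {F V : Type*} [Field F] [AddCommGroup V] [Module F V] {Q : QuadraticForm F V}

local notation "P" => QuadraticMap.polarBilin Q

/-- elements of `Ω` preserve the two classes of maximal totally singular subspaces -/
theorem comm_parity [Fintype F] [FiniteDimensional F V] (hQ : (P).Nondegenerate)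
    (H : Fintype.card F ≠ 2 ∨ finrank F V ≠ 4) {U W : Submodule F V} (hU : IsMTS Q U)
    (hW : IsMTS Q W) (g : ↥(OG Q)) (hg : g ∈ commutator ↥(OG Q)) :
    finrank F ↥(U ⊓ W.map g.1.toLinearMap) % 2 = finrank F ↥(U ⊓ W) % 2 := by
  obtain ⟨vs, hvs, rfl⟩ := exists_list_refl Q hQ H g
  have he : Even vs.length := by
    by_cases h2 : (2 : F) = 0
    · exact (prod_mem_comm_iff_even Q h2 hQ H vs hvs).1 hg
    · exact ((prod_mem_comm_iff_odd Q h2 hQ vs hvs).1 hg).1
  have h1 := IsMTS.parity hQ hU hW vs hvs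
  rw [← coe_prod_rO] at h1
  obtain ⟨k, hk⟩ := he
  omega

theorem submax_ts_le [Fintype F] [FiniteDimensional F V] (hQ : (P).Nondegenerate)
    (hn : 5 ≤ finrank F V) {M0 : Submodule F V} (hM0 : IsMTS Q M0) (W : Submodule F V)
    (hW : ∀ w ∈ W, Q w = 0) (hdim : finrank F W + 1 = finrank F M0) :
    ∃ W₁, IsMTS Q W₁ ∧ W ≤ W₁ ∧ stabO Q W ⊓ commutator ↥(OG Q) ≤ stabO Q W₁ := by
  obtain ⟨W₁, W₂, hne, ⟨h1, hW1⟩, ⟨h2, hW2⟩, hall⟩ := hM0.exactly_two hQ W hW hdim
  refine ⟨W₁, h1, hW1, ?_⟩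
  intro g hg
  obtain ⟨hg1, hg2⟩ := Subgroup.mem_inf.1 hg
  have hgW : W.map g.1.toLinearMap = W := hg1
  have h3 : IsMTS Q (W₁.map g.1.toLinearMap) := h1.map g.2
  have h4 : W ≤ W₁.map g.1.toLinearMap := by
    rw [← hgW]
    exact Submodule.map_mono hW1
  rcases hall _ h3 h4 with h5 | h5
  · exact h5
  · exfalso
    have h6 := comm_parity hQ (Or.inr (by omega)) h1 h1 g hg2
    rw [h5, inf_idem] at h6
    have h7 : finrank F W ≤ finrank F ↥(W₁ ⊓ W₂) := Submodule.finrank_mono (le_inf hW1 hW2)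
    have h8 : finrank F ↥(W₁ ⊓ W₂) ≤ finrank F W₁ := Submodule.finrank_mono inf_le_left
    have h9 : finrank F ↥(W₁ ⊓ W₂) ≠ finrank F W₁ := fun h => hne (h1.eq_of_finrank_inf h2 h)
    have h10 := hM0.finrank_eq h1
    omega

theorem submax_ts_strict [Fintype F] [FiniteDimensional F V] (hQ : (P).Nondegenerate)
    (hn : 5 ≤ finrank F V) (W W₁ : Submodule F V) (hW₁ : ∀ w ∈ W₁, Q w = 0) (hlt : W < W₁)
    (hW0 : W ≠ ⊥) :
    ∃ g ∈ stabO Q W₁ ⊓ commutator ↥(OG Q), g ∉ stabO Q W := by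
  obtain ⟨v, hv1, hvW⟩ := SetLike.exists_of_lt hlt
  obtain ⟨w, hwW, hw0⟩ := Submodule.exists_mem_ne_zero_of_ne_bot hW0
  have hnot : w ∉ Submodule.span F {v} := by
    intro hc
    obtain ⟨c, rfl⟩ := Submodule.mem_span_singleton.1 hc
    have hc0 : c ≠ 0 := by rintro rfl; simp at hw0
    apply hvW
    have := W.smul_mem c⁻¹ hwW
    rwa [smul_smul, inv_mul_cancel₀ hc0, one_smul] at this
  obtain ⟨s, hs1, hs2⟩ := wq_exists_orth Q hQ (Submodule.span F {v}) w hnot
  have hsv : P s v = 0 := by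
    rw [wq_symm]; exact hs1 v (Submodule.mem_span_singleton_self v)
  refine ⟨siegO Q v s (hW₁ v hv1) hsv, Subgroup.mem_inf.2 ⟨?_,
    siegO_mem_comm Q hQ (Or.inr (by omega)) _ _ _ _⟩, ?_⟩
  · rw [mem_stabO_iff]
    intro x hx
    rw [siegO_apply, siegL_apply, ts_polar Q hW₁ hx hv1]
    simp only [mul_zero, sub_zero, neg_zero, zero_smul, add_zero]
    exact W₁.add_mem hx (W₁.smul_mem _ hv1)
  · rw [mem_stabO_iff]
    intro hc
    have h1 := hc w hwW
    rw [siegO_apply, siegL_apply, ts_polar Q hW₁ (hlt.le hwW) hv1] at h1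
    simp only [mul_zero, sub_zero, neg_zero, zero_smul, add_zero] at h1
    have h2 : P w s • v ∈ W := by
      have := W.sub_mem h1 hwW
      simpa using this
    have h3 : P w s ≠ 0 := by rw [wq_symm]; exact hs2
    apply hvW
    have := W.smul_mem (P w s)⁻¹ h2
    rwa [smul_smul, inv_mul_cancel₀ h3, one_smul] at this

end Abstract

variable {F : Type*} [Field F] {ι : Type} [Fintype ι] [DecidableEq ι]
variable (Q : QuadraticForm F (ι → F))

local notation "P" => QuadraticMap.polarBilin Q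

theorem isMTS_of_plus (hplus : Geo.IsPlusTypeOn ⇑Q ⊤) : ∃ M0, IsMTS Q M0 := by
  obtain ⟨U, -, hU, hd⟩ := hplus
  exact ⟨U, hU, by rw [hd, finrank_top]⟩

theorem submax_ts_between [Fintype F] (hQ : (P).Nondegenerate) (hn : 5 ≤ Fintype.card ι)
    (hplus : Geo.IsPlusTypeOn ⇑Q ⊤) (W : Submodule F (ι → F))
    (hW : Geo.IsTotallySingularQuad ⇑Q W) (hdim : 2 * (finrank F W + 1) = Fintype.card ι) :
    ∃ K : Subgroup (GL ι F), Geo.subspaceStabilizer W ⊓ Geo.omegaGL ⇑Q < K ∧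
      K < Geo.omegaGL ⇑Q := by
  have hfr : finrank F (ι → F) = Fintype.card ι := Module.finrank_fintype_fun_eq_card F
  obtain ⟨M0, hM0⟩ := isMTS_of_plus Q hplus
  have hM0d := hM0.2
  obtain ⟨W₁, h1, hW1, hle⟩ := submax_ts_le hQ (by omega) hM0 W hW (by omega)
  have h1d := h1.2
  have hlt : W < W₁ := by
    refine lt_of_le_of_ne hW1 ?_
    rintro rfl
    omega
  have hW0 : W ≠ ⊥ := by
    rintro rfl
    simp at hdim
    omega
  have hW10 : W₁ ≠ ⊥ := by
    rintro rfl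
    simp at h1d
    omega
  apply exists_between_omegaGL Q _ (stabO Q W) (stabO Q W₁ ⊓ commutator ↥(OG Q))
    (toGL_mem_subspaceStabilizer Q W)
  · exact le_inf hle inf_le_right
  · exact inf_le_right
  · exact submax_ts_strict hQ (by omega) W W₁ h1.1 hlt hW0
  · obtain ⟨g, hg, hg'⟩ := ts_stab_ne hQ (by omega) W₁ h1.1 hW10
    exact ⟨g, hg, fun hc => hg' (Subgroup.mem_inf.1 hc).1⟩

end Cfsg.Agent.Lib.Helper16
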