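import Mathlib
import Cfsg.Agent.Lib.Helper16.Orth43

set_option autoImplicit false

namespace Cfsg.Agent.Lib.Helper16

open Cfsg Cfsg.Agent.Lib.Helper6 Module Matrix

variable {F : Type*} [Field F] {ι : Type} [Fintype ι] [DecidableEq ι]
variable (Q : QuadraticForm F (ι → F))

local notation "P" => QuadraticMap.polarBilin Q

theorem ts_pair_between [Fintype F] (hQ : (P).Nondegenerate) (hn : 5 ≤ Fintype.card ι)
    (k : ℕ) (hk : 2 * k = Fintype.card ι) (hko : Odd k) (D : Fin 2 → Submodule F (ι → F))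
    (hD : Geo.IsMDecomposition k D) (hts : ∀ i, Geo.IsTotallySingularQuad ⇑Q (D i)) :
    ∃ K : Subgroup (GL ι F), Geo.decompositionStabilizer D ⊓ Geo.omegaGL ⇑Q < K ∧
      K < Geo.omegaGL ⇑Q := by
  have hfr : finrank F (ι → F) = Fintype.card ι := Module.finrank_fintype_fun_eq_card F
  have hdisj : D 0 ⊓ D 1 = ⊥ := by
    have := hD.indep.pairwiseDisjoint (show (0 : Fin 2) ≠ 1 by decide)
    exact disjoint_iff.1 this
  have hsup : D 0 ⊔ D 1 = ⊤ := by rw [← iSup_fin_two', hD.iSup_eq_top]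
  have hm0 : IsMTS Q (D 0) := ⟨hts 0, by rw [hD.finrank_eq, hfr, hk]⟩
  have hd0 := hD.finrank_eq 0
  have hD00 : D 0 ≠ ⊥ := by
    intro h
    rw [h] at hd0
    simp at hd0
    omega
  apply exists_between_omegaGL Q _ ((Geo.decompositionStabilizer D).comap (toGL Q))
    (stabO Q (D 0) ⊓ commutator ↥(OG Q)) (fun g => Iff.rfl)
  · intro g hg
    obtain ⟨hg1, hg2⟩ := Subgroup.mem_inf.1 hg
    refine Subgroup.mem_inf.2 ⟨?_, hg2⟩
    rcases (mem_decompStab_two Q D g).1 hg1 with ⟨h0, -⟩ | ⟨h0, -⟩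
    · exact h0
    · exfalso
      have h6 := comm_parity hQ (Or.inr (by omega)) hm0 hm0 g hg2
      rw [h0, hdisj, inf_idem, hd0] at h6
      simp at h6
      obtain ⟨j, hj⟩ := hko
      omega
  · exact inf_le_right
  · obtain ⟨u, hu, hu0⟩ := Submodule.exists_mem_ne_zero_of_ne_bot hD00
    have hlt : Submodule.span F {u} < D 0 := by
      refine lt_of_le_of_ne ((Submodule.span_singleton_le_iff_mem _ _).2 hu) ?_
      intro h
      rw [← h, finrank_span_singleton hu0] at hd0
      omega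
    obtain ⟨c, hc, hcu⟩ := SetLike.exists_of_lt hlt
    obtain ⟨y, hy⟩ : ∃ y, P y u ≠ 0 := by
      by_contra hcon
      push Not at hcon
      apply hu0
      apply hQ.1
      intro y
      rw [wq_symm]; exact hcon y
    have hyt : y ∈ D 0 ⊔ D 1 := by rw [hsup]; trivial
    obtain ⟨y0, hy0, x, hx, rfl⟩ := Submodule.mem_sup.1 hyt
    have hxu : P x u ≠ 0 := by
      rw [map_add, LinearMap.add_apply, ts_polar Q (hts 0) hy0 hu, zero_add] at hy
      exact hy
    have hfix : ∀ z ∈ D 0, (siegO Q c u (hts 0 c hc) (ts_polar Q (hts 0) hu hc)).1 z = z := by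
      intro z hz
      exact siegO_fix_of_orth _ _ _ _ _ (ts_polar Q (hts 0) hz hc) (ts_polar Q (hts 0) hz hu)
    have hst : siegO Q c u (hts 0 c hc) (ts_polar Q (hts 0) hu hc) ∈ stabO Q (D 0) := by
      rw [mem_stabO_iff]
      intro z hz
      rw [hfix z hz]; exact hz
    refine ⟨siegO Q c u (hts 0 c hc) (ts_polar Q (hts 0) hu hc), Subgroup.mem_inf.2 ⟨hst,
      siegO_mem_comm Q hQ (Or.inr (by omega)) _ _ _ _⟩, ?_⟩
    intro hcon
    rcases (mem_decompStab_two Q D _).1 hcon with ⟨-, h1⟩ | ⟨h0, -⟩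
    · have h2 : (siegO Q c u (hts 0 c hc) (ts_polar Q (hts 0) hu hc)).1 x ∈ D 1 := by
        rw [← h1]; exact Submodule.mem_map_of_mem hx
      rw [siegO_apply, siegL_apply, hts 0 u hu] at h2
      have h3 : P x u • c + (- P x c) • u ∈ D 1 := by
        have := (D 1).sub_mem h2 hx
        have e : x + (P x u - 0 * P x c) • c + (- P x c) • u - x = P x u • c + (- P x c) • u := by
          rw [zero_mul, sub_zero]; abel
        rwa [e] at this
      have h4 : P x u • c + (- P x c) • u ∈ D 0 ⊓ D 1 :=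
        ⟨(D 0).add_mem ((D 0).smul_mem _ hc) ((D 0).smul_mem _ hu), h3⟩
      rw [hdisj, Submodule.mem_bot] at h4
      apply hcu
      rw [Submodule.mem_span_singleton]
      refine ⟨(P x u)⁻¹ * P x c, ?_⟩
      have h5 : P x u • c = P x c • u := by
        rw [neg_smul] at h4
        exact add_neg_eq_zero.1 h4
      rw [mul_smul, ← h5, smul_smul, inv_mul_cancel₀ hxu, one_smul]
    · have h1 : (D 0).map (siegO Q c u (hts 0 c hc) (ts_polar Q (hts 0) hu hc)).1.toLinearMap = D 0 :=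
        hst
      rw [h1] at h0
      rw [← h0, inf_idem] at hdisj
      exact hD00 hdisj
  · obtain ⟨g, hg, hg'⟩ := ts_stab_ne hQ (by omega) (D 0) (hts 0) hD00
    exact ⟨g, hg, fun hc => hg' (Subgroup.mem_inf.1 hc).1⟩

end Cfsg.Agent.Lib.Helper16
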