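import Mathlib
import Cfsg.Agent.S0756

set_option autoImplicit false

namespace Cfsg.Agent.Lib.Helper16

open Module

universe u v

variable {F : Type u} [Field F] [Finite F] {V : Type v} [AddCommGroup V] [Module F V]

/-- the determinant of the Gram matrix in a normal-form basis -/
theorem sd_det_normal {n : ℕ} (B : LinearMap.BilinForm F V) (e : Basis (Fin (n + 1)) F V) (ε : F)
    (h1 : ∀ i j, i ≠ j → B (e i) (e j) = 0) (h2 : ∀ i, i ≠ Fin.last n → B (e i) (e i) = 1)
    (h3 : B (e (Fin.last n)) (e (Fin.last n)) = ε) :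
    (LinearMap.BilinForm.toMatrix e B).det = ε := by
  have : LinearMap.BilinForm.toMatrix e B =
      Matrix.diagonal (fun i => if i = Fin.last n then ε else 1) := by
    ext i j
    rw [LinearMap.BilinForm.toMatrix_apply]
    by_cases hij : i = j
    · subst hij
      rw [Matrix.diagonal_apply_eq]
      by_cases hi : i = Fin.last n
      · rw [if_pos hi, hi, h3]
      · rw [if_neg hi, h2 i hi]
    · rw [Matrix.diagonal_apply_ne _ hij, h1 i j hij]
  rw [this, Matrix.det_diagonal, Finset.prod_ite_eq' Finset.univ (Fin.last n) (fun _ => ε)]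
  simp

theorem sd_det_change {m : ℕ} (B : LinearMap.BilinForm F V) (b e : Basis (Fin m) F V) :
    (LinearMap.BilinForm.toMatrix e B).det =
      (b.toMatrix e).det ^ 2 * (LinearMap.BilinForm.toMatrix b B).det := by
  rw [← LinearMap.BilinForm.toMatrix_mul_basis_toMatrix b e B, Matrix.det_mul, Matrix.det_mul,
    Matrix.det_transpose]
  ring

/-- Two nondegenerate symmetric forms over a finite field of odd order whose discriminants
agree up to a square are isometric. -/
theorem sd_isometric (h2 : (2 : F) ≠ 0) {m : ℕ} (B B' : LinearMap.BilinForm F V)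
    (hS : B.IsSymm) (hB : B.Nondegenerate) (hS' : B'.IsSymm) (hB' : B'.Nondegenerate)
    (b b' : Basis (Fin m) F V) (s : F) (hs : s ≠ 0)
    (hd : (LinearMap.BilinForm.toMatrix b' B').det = s ^ 2 * (LinearMap.BilinForm.toMatrix b B).det) :
    ∃ g : V ≃ₗ[F] V, ∀ x y, B' (g x) (g y) = B x y := by
  have : FiniteDimensional F V := Module.Finite.of_basis b
  have hfr : finrank F V = m := by rw [finrank_eq_card_basis b, Fintype.card_fin]
  rcases Nat.eq_zero_or_pos m with rfl | hm
  · have : Subsingleton V := finrank_zero_iff.1 hfr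
    refine ⟨LinearEquiv.refl F V, fun x y => ?_⟩
    rw [Subsingleton.elim x 0]; simp
  obtain ⟨n, rfl⟩ : ∃ n, m = n + 1 := ⟨m - 1, by omega⟩
  have : Fintype F := Fintype.ofFinite F
  obtain ⟨α, hα⟩ : ∃ α : F, ¬ IsSquare α := by
    apply FiniteField.exists_nonsquare
    intro h
    apply h2
    have := ringChar.Nat.cast_ringChar (R := F)
    rw [h] at this
    exact_mod_cast this
  have hα0 : α ≠ 0 := by rintro rfl; exact hα IsSquare.zero
  obtain ⟨e, e1, e2, e3⟩ := Cfsg.Agent.S0756.result h2 B hS hB hfr α hα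
  obtain ⟨e', e1', e2', e3'⟩ := Cfsg.Agent.S0756.result h2 B' hS' hB' hfr α hα
  have hE := sd_det_normal B e _ e1 e2 rfl
  have hE' := sd_det_normal B' e' _ e1' e2' rfl
  rw [sd_det_change B b e] at hE
  rw [sd_det_change B' b' e', hd] at hE'
  have heq : B (e (Fin.last n)) (e (Fin.last n)) = B' (e' (Fin.last n)) (e' (Fin.last n)) := by
    rcases e3 with h | h <;> rcases e3' with h' | h'
    · rw [h, h']
    · exfalso
      rw [h] at hE
      rw [h'] at hE'
      apply hα
      refine ⟨(b'.toMatrix e').det * s / (b.toMatrix e).det, ?_⟩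
      have hp : (b.toMatrix e).det ≠ 0 := by
        intro h0; rw [h0] at hE; simp at hE
      field_simp
      linear_combination (-(b.toMatrix e).det ^ 2) * hE' + ((b'.toMatrix e').det ^ 2 * s ^ 2) * hE
    · exfalso
      rw [h] at hE
      rw [h'] at hE'
      apply hα
      have hp : (b'.toMatrix e').det ≠ 0 := by
        intro h0; rw [h0] at hE'; simp at hE'
      refine ⟨(b.toMatrix e).det / ((b'.toMatrix e').det * s), ?_⟩
      field_simp
      linear_combination (-(b'.toMatrix e').det ^ 2 * s ^ 2) * hE + ((b.toMatrix e).det ^ 2) * hE'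
    · rw [h, h']
  refine ⟨e.equiv e' (Equiv.refl _), ?_⟩
  have key : (B'.comp (e.equiv e' (Equiv.refl _)).toLinearMap
      (e.equiv e' (Equiv.refl _)).toLinearMap) = B := by
    apply LinearMap.BilinForm.ext_basis e
    intro i j
    simp only [LinearMap.BilinForm.comp_apply, LinearEquiv.coe_coe, Basis.equiv_apply,
      Equiv.refl_apply]
    by_cases hij : i = j
    · subst hij
      by_cases hi : i = Fin.last n
      · rw [hi, heq]
      · rw [e2 i hi, e2' i hi]
    · rw [e1 i j hij, e1' i j hij]
  intro x y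
  rw [← key]
  rfl

end Cfsg.Agent.Lib.Helper16
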