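import Mathlib
import Cfsg.Agent.Lib.Helper16.Orth40
import Cfsg.Agent.Lib.Helper16.SymmDisc

set_option autoImplicit false

namespace Cfsg.Agent.Lib.Helper16

open Cfsg Cfsg.Agent.Lib.Helper6 Module Matrix

/-- on an even-dimensional nondegenerate quadratic space over a finite field there is a
similitude of multiplier `-1` -/
theorem exists_neg_similitude {F V : Type*} [Field F] [Finite F] [AddCommGroup V] [Module F V]
    [FiniteDimensional F V] (q : QuadraticForm F V)
    (hq : (QuadraticMap.polarBilin q).Nondegenerate) (hev : Even (finrank F V)) :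
    ∃ J : V ≃ₗ[F] V, ∀ x, q (J x) = - q x := by
  by_cases h2 : (2 : F) = 0
  · exact ⟨LinearEquiv.refl F V, fun x => by
      rw [LinearEquiv.refl_apply]; linear_combination (q x) * h2⟩
  obtain ⟨B, hB⟩ : ∃ B : LinearMap.BilinForm F V, B = QuadraticMap.polarBilin q := ⟨_, rfl⟩
  have hS : B.IsSymm := ⟨fun x y => by rw [hB]; simp [QuadraticMap.polar_comm q x y]⟩
  have hS' : (-B).IsSymm := ⟨fun x y => by rw [hB]; simp [QuadraticMap.polar_comm q x y]⟩
  have hN : B.Nondegenerate := hB ▸ hq
  have hdet : (LinearMap.BilinForm.toMatrix (finBasis F V) (-B)).det =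
      (LinearMap.BilinForm.toMatrix (finBasis F V) B).det := by
    have : LinearMap.BilinForm.toMatrix (finBasis F V) (-B) =
        -(LinearMap.BilinForm.toMatrix (finBasis F V) B) := by
      ext i j
      simp [LinearMap.BilinForm.toMatrix_apply]
    rw [this, Matrix.det_neg, Fintype.card_fin, hev.neg_one_pow, one_mul]
  have hN' : (-B).Nondegenerate := by
    rw [LinearMap.BilinForm.nondegenerate_iff_det_ne_zero (finBasis F V), hdet]
    exact (LinearMap.BilinForm.nondegenerate_iff_det_ne_zero (finBasis F V)).1 hN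
  obtain ⟨g, hg⟩ := sd_isometric h2 B (-B) hS hN hS' hN' (finBasis F V) (finBasis F V) 1
    one_ne_zero (by rw [hdet]; ring)
  refine ⟨g, fun x => ?_⟩
  have h := hg x x
  rw [hB] at h
  simp only [LinearMap.neg_apply, QuadraticMap.polarBilin_apply_apply, QuadraticMap.polar_self,
    smul_eq_mul] at h
  apply mul_left_cancel₀ h2
  linear_combination -h

variable {F : Type*} [Field F] {ι : Type} [Fintype ι] [DecidableEq ι]
variable (Q : QuadraticForm F (ι → F))

local notation "P" => QuadraticMap.polarBilin Q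

/-- if an isometry swaps the two even-dimensional halves of an orthogonal splitting, the form
is of plus type -/
theorem plus_of_swap [Fintype F] (hQ : (P).Nondegenerate) {A X : Submodule F (ι → F)}
    (S : OSplit Q A X) (he : finrank F A = finrank F X) (hev : Even (finrank F X))
    (g : ↥(OG Q)) (hg : ∀ x ∈ X, g.1 x ∈ A) : Geo.IsPlusTypeOn ⇑Q ⊤ := by
  obtain ⟨J, hJ⟩ := exists_neg_similitude (qRes Q X) (S.qRes_nondeg hQ) hev
  obtain ⟨T, hT⟩ : ∃ T : X →ₗ[F] (ι → F), ∀ x : X, T x = ((J x : X) : ι → F) + g.1 (x : ι → F) :=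
    ⟨X.subtype ∘ₗ J.toLinearMap + g.1.toLinearMap ∘ₗ X.subtype, fun x => rfl⟩
  have hinj : Function.Injective T := by
    rw [← LinearMap.ker_eq_bot, LinearMap.ker_eq_bot']
    intro x hx
    rw [hT] at hx
    have h1 : g.1 (x : ι → F) = 0 := by
      apply S.eq_zero_of_mem hQ (hg _ x.2)
      have : g.1 (x : ι → F) = -((J x : X) : ι → F) := by
        rw [eq_neg_iff_add_eq_zero, add_comm]; exact hx
      rw [this]
      exact X.neg_mem (J x).2
    apply Subtype.ext
    exact (LinearEquiv.map_eq_zero_iff g.1).1 h1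
  refine ⟨LinearMap.range T, le_top, ?_, ?_⟩
  · rintro _ ⟨x, rfl⟩
    rw [hT, wq_add, g.2 (x : ι → F), wq_symm, S.orth _ (hg _ x.2) _ (J x).2]
    have := hJ x
    rw [qRes_apply, qRes_apply] at this
    rw [this]; ring
  · rw [LinearMap.finrank_range_of_inj hinj, finrank_top]
    have := S.finrank_add hQ
    omega

end Cfsg.Agent.Lib.Helper16
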