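import Cfsg.Agent.Lib.Helper16.POAut4
import Cfsg.Agent.S0790
import Cfsg.Agent.S0791

set_option autoImplicit false

namespace Cfsg.Agent.Lib.Helper16.POAut

open Cfsg.Agent.Lib.Helper16 Cfsg.Agent.Lib.Helper6 Module Cfsg Matrix

theorem three_pow_mod4 (k : ℕ) : 3 ^ (2 * k) % 4 = 1 := by
  rw [pow_mul, Nat.pow_mod]
  norm_num

theorem pow_mod4_three_iff {q m : ℕ} (hq : Odd q) : q ^ m % 4 = 3 ↔ (Odd m ∧ q % 4 = 3) := by
  have h : q % 4 = 1 ∨ q % 4 = 3 := by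
    obtain ⟨t, ht⟩ := hq
    omega
  rw [Nat.pow_mod]
  rcases h with h | h
  · rw [h, one_pow]
    norm_num
  · rw [h]
    rcases Nat.even_or_odd' m with ⟨k, rfl | rfl⟩
    · rw [three_pow_mod4]
      simp
    · rw [pow_succ, Nat.mul_mod, three_pow_mod4]
      simp

theorem pow_mod4_one_iff {q m : ℕ} (hq : Odd q) : q ^ m % 4 = 1 ↔ ¬ (Odd m ∧ q % 4 = 3) := by
  rw [← pow_mod4_three_iff hq]
  obtain ⟨t, ht⟩ := hq.pow (n := m)
  omega

variable {F : Type*} [Field F] [Fintype F]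

theorem negO_plus_iff (hodd : Odd (Fintype.card F)) (m : ℕ) (hm : 1 ≤ m) :
    negO (qPlus m F) ∈ commutator ↥(OG (qPlus m F)) ↔ ¬ (Odd m ∧ Fintype.card F % 4 = 3) := by
  have hiff := Cfsg.Agent.S0790.result (F := F) rfl hodd m hm
  rw [← qPlus_coe, ← negO_mem_iff] at hiff
  rw [hiff, pow_mod4_one_iff hodd]

theorem negO_minus_iff (hodd : Odd (Fintype.card F)) (m : ℕ) (a b : F)
    (hab : ∀ z₁ z₂ : F, z₁ ^ 2 + a * z₁ * z₂ + b * z₂ ^ 2 = 0 → z₁ = 0 ∧ z₂ = 0) :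
    negO (qMinus m F a b) ∈ commutator ↥(OG (qMinus m F a b)) ↔
      (Even m ∧ Fintype.card F % 4 = 3) := by
  have hiff := Cfsg.Agent.S0791.result (F := F) rfl hodd (m + 1) (by omega) a b hab
  rw [Nat.add_sub_cancel, ← qMinus_coe, ← negO_mem_iff] at hiff
  rw [hiff, pow_mod4_three_iff hodd, Nat.odd_add_one, Nat.not_odd_iff_even]

end Cfsg.Agent.Lib.Helper16.POAut
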