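import Cfsg.Agent.Lib.Helper16.POAut13
import Cfsg.Agent.Lib.Helper16.POAut5

set_option autoImplicit false

namespace Cfsg.Agent.Lib.Helper16.POAut

open Cfsg.Agent.Lib.Helper16 Cfsg.Agent.Lib.Helper6 Module Cfsg Matrix

section Plus

variable {F : Type*} [Field F] [Fintype F] {m : ℕ}

/-- the standard maximal totally singular subspace -/
noncomputable def stdU (m : ℕ) (F : Type*) [Field F] : Submodule F (Fin m ⊕ Fin m → F) :=
  LinearMap.ker (LinearMap.funLeft F F (Sum.inr : Fin m → Fin m ⊕ Fin m))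

theorem mem_stdU (v : Fin m ⊕ Fin m → F) : v ∈ stdU m F ↔ ∀ i, v (Sum.inr i) = 0 := by
  rw [stdU, LinearMap.mem_ker]
  constructor
  · intro h i
    exact congrFun h i
  · intro h
    funext i
    exact h i

theorem exists_diag_plus (hm : 1 ≤ m) (l : F) (hl : l ≠ 0) :
    ∃ D : ↥(SimG (qPlus m F)), (mu (qPlus m F) D : F) = l ∧
      ((D : GL (Fin m ⊕ Fin m) F) : Matrix (Fin m ⊕ Fin m) (Fin m ⊕ Fin m) F).det = l ^ m ∧
      (stdU m F).map (glEquiv F _ D.1).toLinearMap = stdU m F := by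
  have hQ : (QuadraticMap.polarBilin (qPlus m F)).Nondegenerate := qPlus_nondeg
  have hfr : Module.finrank F (Fin m ⊕ Fin m → F) = 2 * m := finrank_plus'
  obtain ⟨v0, hv0⟩ := represents_all (qPlus m F) hQ (by omega) 1 one_ne_zero
  have h0 : qPlus m F v0 ≠ 0 := by rw [hv0]; exact one_ne_zero
  let T : (Fin m ⊕ Fin m → F) →ₗ[F] (Fin m ⊕ Fin m → F) :=
    { toFun := fun v => Sum.elim (fun i => l * v (Sum.inl i)) (fun i => v (Sum.inr i))
      map_add' := by
        intro x y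
        ext k
        rcases k with i | i
        · simp [mul_add]
        · simp
      map_smul' := by
        intro c x
        ext k
        rcases k with i | i
        · simp; ring
        · simp }
  obtain ⟨d, hd, hdT⟩ := exists_sim_of_linear hQ h0 T l hl (by
    intro v
    rw [qPlus_apply, qPlus_apply, quadFormPlus, quadFormPlus, Finset.mul_sum]
    apply Finset.sum_congr rfl
    intro i _
    change l * v (Sum.inl i) * v (Sum.inr i) = _
    ring)
  refine ⟨d, hd, ?_, ?_⟩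
  · have : ((d : GL (Fin m ⊕ Fin m) F) : Matrix (Fin m ⊕ Fin m) (Fin m ⊕ Fin m) F) =
        Matrix.diagonal (Sum.elim (fun _ => l) (fun _ => 1)) := by
      apply matrix_ext_mulVec
      intro x
      rw [hdT]
      ext k
      rw [Matrix.mulVec_diagonal]
      rcases k with i | i
      · rfl
      · change x (Sum.inr i) = 1 * x (Sum.inr i)
        rw [one_mul]
    rw [this, Matrix.det_diagonal, Fintype.prod_sum_type]
    simp
  · apply le_antisymm
    · rintro _ ⟨v, hv, rfl⟩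
      rw [SetLike.mem_coe, mem_stdU] at hv
      rw [mem_stdU]
      intro i
      change (glEquiv F _ d.1 v) (Sum.inr i) = 0
      rw [glEquiv_apply, hdT]
      exact hv i
    · intro v hv
      rw [mem_stdU] at hv
      refine ⟨Sum.elim (fun i => l⁻¹ * v (Sum.inl i)) (fun i => v (Sum.inr i)), ?_, ?_⟩
      · rw [SetLike.mem_coe, mem_stdU]
        intro i
        exact hv i
      · change glEquiv F _ d.1 _ = v
        rw [glEquiv_apply, hdT]
        ext k
        rcases k with i | i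
        · change l * (l⁻¹ * v (Sum.inl i)) = _
          rw [mul_inv_cancel_left₀ hl]
        · rfl

theorem stdU_isMTS : IsMTS (qPlus m F) (stdU m F) := stdU_mts

theorem psc_plus_iff (h2 : (2 : F) ≠ 0) (hm : 1 ≤ m) {v0 : Fin m ⊕ Fin m → F}
    (h0 : qPlus m F v0 ≠ 0) (g : ↥(SimG (qPlus m F))) :
    PreservesSingularClasses ⇑(qPlus m F)
      ((g : GL (Fin m ⊕ Fin m) F) : Matrix (Fin m ⊕ Fin m) (Fin m ⊕ Fin m) F) ↔
      g ∈ (delta h0 m).ker := by
  have hQ : (QuadraticMap.polarBilin (qPlus m F)).Nondegenerate := qPlus_nondeg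
  obtain ⟨D, hD1, hD2, hD3⟩ := exists_diag_plus (F := F) hm (mu (qPlus m F) g : F)
    (mu (qPlus m F) g).ne_zero
  have hD1' : mu (qPlus m F) D = mu (qPlus m F) g := Units.ext hD1
  have hiso : ((D⁻¹ * g : ↥(SimG (qPlus m F))) : GL (Fin m ⊕ Fin m) F) ∈
      isometryGroup F ⇑(qPlus m F) := by
    apply mem_iso_of_mu
    rw [mu_mul h0, ← muHom_apply h0 D⁻¹, map_inv, muHom_apply, hD1', inv_mul_cancel]
  have hg : g = D * incl (qPlus m F) ⟨_, hiso⟩ := by
    apply Subtype.ext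
    change (g : GL (Fin m ⊕ Fin m) F) = (D : GL _ F) * ((D : GL _ F)⁻¹ * (g : GL _ F))
    rw [mul_inv_cancel_left]
  have key := psc_iff_det h2 hQ stdU_isMTS D hD3 ⟨_, hiso⟩
  rw [← hg] at key
  rw [key, mem_ker_delta, Units.ext_iff, Matrix.GeneralLinearGroup.val_det_apply,
    Units.val_pow_eq_pow_val]
  change (Units.val ((D : GL (Fin m ⊕ Fin m) F)⁻¹ * (g : GL (Fin m ⊕ Fin m) F))).det = 1 ↔ _
  have hdet : (Units.val ((D : GL (Fin m ⊕ Fin m) F)⁻¹ * (g : GL (Fin m ⊕ Fin m) F))).det *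
      (mu (qPlus m F) g : F) ^ m = (Units.val (g : GL (Fin m ⊕ Fin m) F)).det := by
    rw [← hD2, mul_comm, ← Matrix.det_mul, ← Units.val_mul, mul_inv_cancel_left]
  have hne : (mu (qPlus m F) g : F) ^ m ≠ 0 := pow_ne_zero _ (mu (qPlus m F) g).ne_zero
  constructor
  · intro h
    rw [← hdet, h, one_mul]
  · intro h
    rw [h] at hdet
    exact mul_right_cancel₀ hne (by rw [hdet, one_mul])

theorem inndiag_plus_eq (h2 : (2 : F) ≠ 0) (hm : 1 ≤ m) {v0 : Fin m ⊕ Fin m → F}
    (h0 : qPlus m F v0 ≠ 0) :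
    autSubgroupOf (fun β : POmega F ⇑(qPlus m F) ≃* POmega F ⇑(qPlus m F) =>
      ∃ g : GL (Fin m ⊕ Fin m) F, g ∈ Geo.quadSimilarityGroup (F := F) ⇑(qPlus m F) ∧
        PreservesSingularClasses ⇑(qPlus m F) (g : Matrix (Fin m ⊕ Fin m) (Fin m ⊕ Fin m) F) ∧
        IsInducedBySemilinearPOmega ⇑(qPlus m F) g (RingEquiv.refl F) β) = IDaut h0 m := by
  rw [IDaut, ← aut_eq_C]
  congr 1
  funext β
  apply propext
  constructor
  · rintro ⟨g, hg, hp, hi⟩
    exact ⟨g, ⟨⟨g, hg⟩, (psc_plus_iff h2 hm h0 ⟨g, hg⟩).1 hp, rfl⟩, hi⟩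
  · rintro ⟨_, ⟨g, hg, rfl⟩, hi⟩
    exact ⟨g.1, g.2, (psc_plus_iff h2 hm h0 g).2 hg, hi⟩

/-- the similarity swapping the two standard subspaces -/
theorem exists_swap_plus (h2 : (2 : F) ≠ 0) (hm : 1 ≤ m) {v0 : Fin m ⊕ Fin m → F}
    (h0 : qPlus m F v0 ≠ 0) (l : F) (hl : l ≠ 0) :
    ∃ g₀ : ↥(SimG (qPlus m F)), (mu (qPlus m F) g₀ : F) = l ∧
      (∀ x, (((g₀ * g₀ : ↥(SimG (qPlus m F))) : GL (Fin m ⊕ Fin m) F) :
        Matrix (Fin m ⊕ Fin m) (Fin m ⊕ Fin m) F) *ᵥ x = l • x) ∧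
      (g₀ ∈ (delta h0 m).ker ↔ Even m) ∧
      (∀ x, ((g₀ : GL (Fin m ⊕ Fin m) F) : Matrix (Fin m ⊕ Fin m) (Fin m ⊕ Fin m) F) *ᵥ x =
        Sum.elim (fun i => l * x (Sum.inr i)) (fun i => x (Sum.inl i))) := by
  have hQ : (QuadraticMap.polarBilin (qPlus m F)).Nondegenerate := qPlus_nondeg
  let T : (Fin m ⊕ Fin m → F) →ₗ[F] (Fin m ⊕ Fin m → F) :=
    { toFun := fun v => Sum.elim (fun i => l * v (Sum.inr i)) (fun i => v (Sum.inl i))
      map_add' := by
        intro x y
        ext k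
        rcases k with i | i
        · simp [mul_add]
        · simp
      map_smul' := by
        intro c x
        ext k
        rcases k with i | i
        · simp; ring
        · simp }
  obtain ⟨d, hd, hdT⟩ := exists_sim_of_linear hQ h0 T l hl (by
    intro v
    rw [qPlus_apply, qPlus_apply, quadFormPlus, quadFormPlus, Finset.mul_sum]
    apply Finset.sum_congr rfl
    intro i _
    change l * v (Sum.inr i) * v (Sum.inl i) = _
    ring)
  refine ⟨d, hd, ?_, ?_, hdT⟩
  · intro x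
    rw [Subgroup.coe_mul, Units.val_mul, ← Matrix.mulVec_mulVec, hdT, hdT]
    ext k
    rcases k with i | i <;> rfl
  · rw [← psc_plus_iff h2 hm h0, psc_iff_one hQ stdU_isMTS]
    have hbot : stdU m F ⊓ (stdU m F).map (glEquiv F _ d.1).toLinearMap = ⊥ := by
      rw [eq_bot_iff]
      rintro w ⟨hw1, v, hv, rfl⟩
      rw [SetLike.mem_coe, mem_stdU] at hv hw1
      rw [Submodule.mem_bot]
      have hE : ∀ x, (glEquiv F _ d.1).toLinearMap x = T x := fun x => by
        change glEquiv F _ d.1 x = _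
        rw [glEquiv_apply, hdT]
      rw [hE] at hw1 ⊢
      ext k
      rcases k with i | i
      · change l * v (Sum.inr i) = 0
        rw [hv i, mul_zero]
      · exact hw1 i
    rw [hbot, finrank_bot, Nat.sub_zero]
    have : finrank F ↥(stdU m F) = m := stdU_finrank
    rw [this]

end Plus

end Cfsg.Agent.Lib.Helper16.POAut
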