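import Cfsg.Agent.Lib.Helper16.POAut14

set_option autoImplicit false

namespace Cfsg.Agent.Lib.Helper16.POAut

open Cfsg.Agent.Lib.Helper16 Cfsg.Agent.Lib.Helper6 Module Cfsg Matrix QuadraticMap

section Gen

variable {F : Type*} [Field F] {ι : Type} [Fintype ι] [DecidableEq ι] {Q : QuadraticForm F (ι → F)}

/-- general criterion: `g` preserves the classes iff `det g = μ^M` -/
theorem psc_iff_ker [Fintype F] (h2 : (2 : F) ≠ 0) (hQ : (polarBilin Q).Nondegenerate)
    {U₀ : Submodule F (ι → F)} (hU₀ : IsMTS Q U₀) {v0 : ι → F} (h0 : Q v0 ≠ 0) (M : ℕ)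
    (g D : ↥(SimG Q)) (hD1 : mu Q D = mu Q g)
    (hD2 : ((D : GL ι F) : Matrix ι ι F).det = (mu Q g : F) ^ M)
    (hD3 : U₀.map (glEquiv F ι D.1).toLinearMap = U₀) :
    PreservesSingularClasses ⇑Q ((g : GL ι F) : Matrix ι ι F) ↔ g ∈ (delta h0 M).ker := by
  have hiso : ((D⁻¹ * g : ↥(SimG Q)) : GL ι F) ∈ isometryGroup F ⇑Q := by
    apply mem_iso_of_mu
    rw [mu_mul h0, ← muHom_apply h0 D⁻¹, map_inv, muHom_apply, hD1, inv_mul_cancel]
  have hg : g = D * incl Q ⟨_, hiso⟩ := by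
    apply Subtype.ext
    change (g : GL ι F) = (D : GL ι F) * ((D : GL ι F)⁻¹ * (g : GL ι F))
    rw [mul_inv_cancel_left]
  have key := psc_iff_det h2 hQ hU₀ D hD3 ⟨_, hiso⟩
  rw [← hg] at key
  rw [key, mem_ker_delta, Units.ext_iff, Matrix.GeneralLinearGroup.val_det_apply,
    Units.val_pow_eq_pow_val]
  change (Units.val ((D : GL ι F)⁻¹ * (g : GL ι F))).det = 1 ↔ _
  have hdet : (Units.val ((D : GL ι F)⁻¹ * (g : GL ι F))).det *
      (mu Q g : F) ^ M = (Units.val (g : GL ι F)).det := by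
    rw [← hD2, mul_comm, ← Matrix.det_mul, ← Units.val_mul, mul_inv_cancel_left]
  have hne : (mu Q g : F) ^ M ≠ 0 := pow_ne_zero _ (mu Q g).ne_zero
  constructor
  · intro h
    rw [← hdet, h, one_mul]
  · intro h
    rw [h] at hdet
    exact mul_right_cancel₀ hne (by rw [hdet, one_mul])

theorem scalar_map_eq (z : ↥(SimG Q)) (y : Fˣ)
    (hz : ∀ x, ((z : GL ι F) : Matrix ι ι F) *ᵥ x = (y : F) • x) (U : Submodule F (ι → F)) :
    U.map (glEquiv F ι z.1).toLinearMap = U := by
  apply le_antisymm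
  · rintro _ ⟨v, hv, rfl⟩
    change glEquiv F ι z.1 v ∈ U
    rw [glEquiv_apply, hz]
    exact U.smul_mem _ hv
  · intro v hv
    refine ⟨(y⁻¹ : Fˣ).1 • v, U.smul_mem _ hv, ?_⟩
    change glEquiv F ι z.1 _ = v
    rw [glEquiv_apply, hz, smul_smul, ← Units.val_mul, mul_inv_cancel, Units.val_one, one_smul]

/-- similarities with square multiplier -/
theorem psc_iff_ker_sq [Fintype F] (h2 : (2 : F) ≠ 0) (hQ : (polarBilin Q).Nondegenerate)
    {U₀ : Submodule F (ι → F)} (hU₀ : IsMTS Q U₀) {v0 : ι → F} (h0 : Q v0 ≠ 0) (M : ℕ)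
    (hcard : Fintype.card ι = 2 * M) (g : ↥(SimG Q)) (hsq : IsSquare (mu Q g : F)) :
    PreservesSingularClasses ⇑Q ((g : GL ι F) : Matrix ι ι F) ↔ g ∈ (delta h0 M).ker := by
  obtain ⟨y, hy⟩ := (isSquare_units_iff _).2 hsq
  obtain ⟨z, hz⟩ := exists_scalar (Q := Q) y
  obtain ⟨hz1, hz2⟩ := scalar_data h0 z y hz
  apply psc_iff_ker h2 hQ hU₀ h0 M g z (by rw [hz1, hy, _root_.sq]) _ (scalar_map_eq z y hz U₀)
  have := congrArg Units.val hz2
  rw [Matrix.GeneralLinearGroup.val_det_apply] at this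
  rw [this, hy, hcard, Units.val_pow_eq_pow_val, Units.val_mul, ← _root_.sq, ← pow_mul]

end Gen

section Nondeg

theorem qMinus_nondeg' {F : Type*} [Field F] {m : ℕ} (a b : F) (hd : a ^ 2 - 4 * b ≠ 0) :
    (polarBilin (qMinus m F a b)).Nondegenerate := by
  classical
  apply nondeg_of_left
  intro u hu
  rw [qMinus_coe] at hu
  have h0 := hu (Pi.single (Sum.inr 0) 1)
  have h1 := hu (Pi.single (Sum.inr 1) 1)
  rw [polar_minus] at h0 h1
  simp at h0 h1
  have hz : u (Sum.inr 0) = 0 ∧ u (Sum.inr 1) = 0 := by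
    constructor
    · have : (a ^ 2 - 4 * b) * u (Sum.inr 0) = 0 := by linear_combination a * h1 - 2 * b * h0
      exact (mul_eq_zero.1 this).resolve_left hd
    · have : (a ^ 2 - 4 * b) * u (Sum.inr 1) = 0 := by linear_combination a * h0 - 2 * h1
      exact (mul_eq_zero.1 this).resolve_left hd
  ext x
  rcases x with (j | j) | j
  · have := hu (Pi.single (Sum.inl (Sum.inr j)) 1)
    rw [polar_minus] at this
    simpa [Pi.single_apply] using this
  · have := hu (Pi.single (Sum.inl (Sum.inl j)) 1)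
    rw [polar_minus] at this
    simpa [Pi.single_apply] using this
  · fin_cases j
    · exact hz.1
    · exact hz.2

theorem disc_ne_zero {F : Type*} [Field F] (h2 : (2 : F) ≠ 0) (a b : F)
    (hab : ∀ z₁ z₂ : F, z₁ ^ 2 + a * z₁ * z₂ + b * z₂ ^ 2 = 0 → z₁ = 0 ∧ z₂ = 0) :
    a ^ 2 - 4 * b ≠ 0 := by
  intro h
  exact h2 (hab (-a) 2 (by linear_combination -h)).2

/-- a maximal totally singular subspace when the binary part is isotropic -/
theorem exists_mts_minus {K : Type*} [Field K] (m : ℕ) (a b t : K) (ht : t ^ 2 + a * t + b = 0) :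
    ∃ U : Submodule K ((Fin m ⊕ Fin m) ⊕ Fin 2 → K), IsMTS (qMinus m K a b) U := by
  classical
  let L : ((Fin m ⊕ Fin m) ⊕ Fin 2 → K) →ₗ[K] (Fin m ⊕ Unit → K) :=
    { toFun := fun v => Sum.elim (fun i => v (Sum.inl (Sum.inr i)))
        (fun _ => v (Sum.inr 0) - t * v (Sum.inr 1))
      map_add' := by
        intro x y
        ext k
        rcases k with i | i
        · simp
        · simp; ring
      map_smul' := by
        intro c x
        ext k
        rcases k with i | i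
        · simp
        · simp; ring }
  have hsurj : Function.Surjective L := by
    intro w
    refine ⟨Sum.elim (Sum.elim (fun _ => 0) (fun i => w (Sum.inl i))) ![w (Sum.inr ()), 0], ?_⟩
    ext k
    rcases k with i | i
    · rfl
    · change w (Sum.inr ()) - t * 0 = _
      simp
  refine ⟨LinearMap.ker L, ?_, ?_⟩
  · intro u hu
    rw [LinearMap.mem_ker] at hu
    have h1 : ∀ i, u (Sum.inl (Sum.inr i)) = 0 := fun i => congrFun hu (Sum.inl i)
    have h2 : u (Sum.inr 0) - t * u (Sum.inr 1) = 0 := congrFun hu (Sum.inr ())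
    have h3 : u (Sum.inr 0) = t * u (Sum.inr 1) := sub_eq_zero.1 h2
    rw [qMinus_apply, quadFormMinus, h3]
    have : ∑ i : Fin m, u (Sum.inl (Sum.inl i)) * u (Sum.inl (Sum.inr i)) = 0 :=
      Finset.sum_eq_zero (fun i _ => by rw [h1 i, mul_zero])
    rw [this]
    linear_combination (u (Sum.inr 1)) ^ 2 * ht
  · have h1 := LinearMap.finrank_range_add_finrank_ker L
    rw [LinearMap.range_eq_top.2 hsurj, finrank_top, finrank_minus',
      Module.finrank_fintype_fun_eq_card] at h1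
    rw [finrank_minus']
    simp at h1
    omega

end Nondeg

end Cfsg.Agent.Lib.Helper16.POAut
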