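import Cfsg.Agent.Lib.Helper16.POAut15

set_option autoImplicit false

namespace Cfsg.Agent.Lib.Helper16.POAut

open Cfsg.Agent.Lib.Helper16 Cfsg.Agent.Lib.Helper6 Module Cfsg Matrix QuadraticMap

universe u v

section Ext

variable {F : Type u} [Field F] {K : Type v} [Field K] [Algebra F K]

theorem quad_ext_points {ι : Type} [Fintype ι] [DecidableEq ι] (h2K : (2 : K) ≠ 0)
    (Q₁ Q₂ : QuadraticForm K (ι → K))
    (h : ∀ w : ι → F, Q₁ (fun i => algebraMap F K (w i)) = Q₂ (fun i => algebraMap F K (w i))) :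
    Q₁ = Q₂ := by
  have e : ∀ i, (Pi.single i (1 : K) : ι → K) =
      fun k => algebraMap F K ((Pi.single i (1 : F) : ι → F) k) := by
    intro i
    funext k
    by_cases hk : k = i
    · subst hk; simp
    · simp [hk]
  have hb : polarBilin Q₁ = polarBilin Q₂ := by
    apply LinearMap.BilinForm.ext_basis (Pi.basisFun K ι)
    intro i j
    rw [polarBilin_apply_apply, polarBilin_apply_apply, polar, polar, Pi.basisFun_apply,
      Pi.basisFun_apply]
    have e2 : (Pi.single i (1 : K) : ι → K) + Pi.single j (1 : K) =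
        fun k => algebraMap F K (((Pi.single i (1 : F) : ι → F) + (Pi.single j (1 : F) : ι → F)) k) := by
      rw [e i, e j]
      funext k
      simp
    rw [e2, h, e i, e j, h, h]
  ext v
  have h1 : polarBilin Q₁ v v = polarBilin Q₂ v v := by rw [hb]
  rw [polarBilin_apply_apply, polarBilin_apply_apply, polar_self, polar_self, two_smul, two_smul,
    ← two_mul, ← two_mul] at h1
  exact mul_left_cancel₀ h2K h1

variable {m : ℕ} (a b : F)

theorem qMinus_map (w : (Fin m ⊕ Fin m) ⊕ Fin 2 → F) :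
    qMinus m K (algebraMap F K a) (algebraMap F K b) (fun i => algebraMap F K (w i)) =
      algebraMap F K (qMinus m F a b w) := by
  rw [qMinus_apply, qMinus_apply, quadFormMinus, quadFormMinus]
  simp only [map_add, map_mul, map_sum, map_pow]

theorem sim_ext (h2K : (2 : K) ≠ 0) (g : ↥(SimG (qMinus m F a b)))
    (v : (Fin m ⊕ Fin m) ⊕ Fin 2 → K) :
    qMinus m K (algebraMap F K a) (algebraMap F K b)
      (Matrix.toLin' (((g : GL ((Fin m ⊕ Fin m) ⊕ Fin 2) F) : Matrix ((Fin m ⊕ Fin m) ⊕ Fin 2) ((Fin m ⊕ Fin m) ⊕ Fin 2) F).map (algebraMap F K)) v) =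
      algebraMap F K (mu (qMinus m F a b) g : F) *
        qMinus m K (algebraMap F K a) (algebraMap F K b) v := by
  have key := quad_ext_points (F := F) h2K
    ((qMinus m K (algebraMap F K a) (algebraMap F K b)).comp
      (Matrix.toLin' (((g : GL ((Fin m ⊕ Fin m) ⊕ Fin 2) F) : Matrix ((Fin m ⊕ Fin m) ⊕ Fin 2) ((Fin m ⊕ Fin m) ⊕ Fin 2) F).map (algebraMap F K))))
    (algebraMap F K (mu (qMinus m F a b) g : F) • qMinus m K (algebraMap F K a) (algebraMap F K b))
    (by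
      intro w
      rw [QuadraticMap.comp_apply, QuadraticMap.smul_apply, Matrix.toLin'_apply, smul_eq_mul,
        qMinus_map]
      have h1 : ((g : GL ((Fin m ⊕ Fin m) ⊕ Fin 2) F) : Matrix ((Fin m ⊕ Fin m) ⊕ Fin 2) ((Fin m ⊕ Fin m) ⊕ Fin 2) F).map (algebraMap F K) *ᵥ
          (fun i => algebraMap F K (w i)) =
          fun i => algebraMap F K ((((g : GL ((Fin m ⊕ Fin m) ⊕ Fin 2) F) : Matrix ((Fin m ⊕ Fin m) ⊕ Fin 2) ((Fin m ⊕ Fin m) ⊕ Fin 2) F) *ᵥ w) i) := by
        funext i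
        exact (RingHom.map_mulVec (algebraMap F K) _ w i).symm
      rw [h1, qMinus_map, mu_spec, map_mul])
  have := congrArg (fun Q' : QuadraticForm K _ => Q' v) key
  exact this

end Ext

section Sq

variable {F : Type u} [Field F] [Fintype F] {K : Type v} [Field K] [Fintype K] [Algebra F K]

theorem isSquare_algebraMap (hodd : Odd (Fintype.card F)) (hfin : finrank F K = 2) (x : F) :
    IsSquare (algebraMap F K x) := by
  by_cases hx : x = 0
  · rw [hx, map_zero]; exact IsSquare.zero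
  have h2F := two_ne_zero_of_odd_card hodd
  have h2K : (2 : K) ≠ 0 := by
    intro h
    apply h2F
    apply (algebraMap F K).injective
    rw [map_ofNat, h, map_zero]
  have hch : ringChar K ≠ 2 := by
    intro h
    apply h2K
    have := ringChar.Nat.cast_ringChar (R := K)
    rw [h] at this
    exact_mod_cast this
  have hx' : algebraMap F K x ≠ 0 := by
    intro h
    exact hx ((algebraMap F K).injective (by rw [h, map_zero]))
  rw [FiniteField.isSquare_iff hch hx', Module.card_eq_pow_finrank (K := F) (V := K), hfin]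
  obtain ⟨k, hk⟩ := hodd
  have h3 : Fintype.card F ^ 2 / 2 = (Fintype.card F - 1) * (k + 1) := by
    rw [hk]
    have : (2 * k + 1) ^ 2 = 2 * (2 * k * (k + 1)) + 1 := by ring
    rw [this]
    have h4 : 2 * k + 1 - 1 = 2 * k := by omega
    rw [h4]
    omega
  rw [h3, pow_mul, ← map_pow, FiniteField.pow_card_sub_one_eq_one x hx, map_one, one_pow]

end Sq

section Main

variable {F : Type u} [Field F] [Fintype F] {m : ℕ} (a b : F)

theorem psc_minus_K (hodd : Odd (Fintype.card F))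
    (hab : ∀ z₁ z₂ : F, z₁ ^ 2 + a * z₁ * z₂ + b * z₂ ^ 2 = 0 → z₁ = 0 ∧ z₂ = 0)
    (K : Type v) [Field K] [Algebra F K] (hfin : finrank F K = 2)
    {v0 : (Fin m ⊕ Fin m) ⊕ Fin 2 → F} (h0 : qMinus m F a b v0 ≠ 0)
    (g : ↥(SimG (qMinus m F a b))) :
    PreservesSingularClasses (quadFormMinus m K (algebraMap F K a) (algebraMap F K b))
      (((g : GL ((Fin m ⊕ Fin m) ⊕ Fin 2) F) : Matrix ((Fin m ⊕ Fin m) ⊕ Fin 2) ((Fin m ⊕ Fin m) ⊕ Fin 2) F).map (algebraMap F K)) ↔ g ∈ (delta h0 (m + 1)).ker := by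
  have : Module.Finite F K := Module.finite_of_finrank_pos (by rw [hfin]; norm_num)
  have : Finite K := Module.finite_of_finite F
  letI : Fintype K := Fintype.ofFinite K
  have hinj := (algebraMap F K).injective
  have h2F := two_ne_zero_of_odd_card hodd
  have h2K : (2 : K) ≠ 0 := by
    intro h
    apply h2F
    apply hinj
    rw [map_ofNat, h, map_zero]
  have hdK : (algebraMap F K a) ^ 2 - 4 * algebraMap F K b ≠ 0 := by
    intro h
    apply disc_ne_zero h2F a b hab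
    apply hinj
    rw [map_sub, map_pow, map_mul, map_ofNat, h, map_zero]
  have hQK := qMinus_nondeg' (m := m) (algebraMap F K a) (algebraMap F K b) hdK
  obtain ⟨s, hs⟩ := isSquare_algebraMap (K := K) hodd hfin (a ^ 2 - 4 * b)
  rw [map_sub, map_pow, map_mul, map_ofNat] at hs
  obtain ⟨U₀, hU₀⟩ := exists_mts_minus m (algebraMap F K a) (algebraMap F K b)
    ((-algebraMap F K a + s) / 2) (by
      field_simp
      linear_combination -hs)
  have h0K : qMinus m K (algebraMap F K a) (algebraMap F K b) (fun i => algebraMap F K (v0 i)) ≠ 0 := by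
    rw [qMinus_map]
    intro h
    exact h0 (hinj (by rw [h, map_zero]))
  have hμ : algebraMap F K (mu (qMinus m F a b) g : F) ≠ 0 := by
    intro h
    exact (mu (qMinus m F a b) g).ne_zero (hinj (by rw [h, map_zero]))
  obtain ⟨d, hd, hdT⟩ := exists_sim_of_linear hQK h0K
    (Matrix.toLin' (((g : GL ((Fin m ⊕ Fin m) ⊕ Fin 2) F) : Matrix ((Fin m ⊕ Fin m) ⊕ Fin 2) ((Fin m ⊕ Fin m) ⊕ Fin 2) F).map (algebraMap F K))) _ hμ (sim_ext a b h2K g)
  have hmat : ((d : GL ((Fin m ⊕ Fin m) ⊕ Fin 2) K) : Matrix ((Fin m ⊕ Fin m) ⊕ Fin 2) ((Fin m ⊕ Fin m) ⊕ Fin 2) K) = ((g : GL ((Fin m ⊕ Fin m) ⊕ Fin 2) F) : Matrix ((Fin m ⊕ Fin m) ⊕ Fin 2) ((Fin m ⊕ Fin m) ⊕ Fin 2) F).map (algebraMap F K) := by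
    apply matrix_ext_mulVec
    intro x
    rw [hdT, Matrix.toLin'_apply]
  have hcard : Fintype.card ((Fin m ⊕ Fin m) ⊕ Fin 2) = 2 * (m + 1) := by
    rw [Fintype.card_sum, Fintype.card_sum, Fintype.card_fin, Fintype.card_fin]; ring
  rw [← qMinus_coe, ← hmat, psc_iff_ker_sq h2K hQK hU₀ h0K (m + 1) hcard d
    (by rw [hd]; exact isSquare_algebraMap hodd hfin _), mem_ker_delta, mem_ker_delta,
    Units.ext_iff, Units.ext_iff, Matrix.GeneralLinearGroup.val_det_apply,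
    Matrix.GeneralLinearGroup.val_det_apply, Units.val_pow_eq_pow_val, Units.val_pow_eq_pow_val,
    hd, hmat, ← map_pow]
  have hdet : (((g : GL ((Fin m ⊕ Fin m) ⊕ Fin 2) F) : Matrix ((Fin m ⊕ Fin m) ⊕ Fin 2) ((Fin m ⊕ Fin m) ⊕ Fin 2) F).map (algebraMap F K)).det =
      algebraMap F K (((g : GL ((Fin m ⊕ Fin m) ⊕ Fin 2) F) : Matrix ((Fin m ⊕ Fin m) ⊕ Fin 2) ((Fin m ⊕ Fin m) ⊕ Fin 2) F).det) :=
    (RingHom.map_det (algebraMap F K) _).symm
  rw [hdet]
  exact hinj.eq_iff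

open Polynomial in
theorem exists_quadratic_ext
    (hab : ∀ z₁ z₂ : F, z₁ ^ 2 + a * z₁ * z₂ + b * z₂ ^ 2 = 0 → z₁ = 0 ∧ z₂ = 0) :
    ∃ (K : Type u) (_ : Field K) (_ : Algebra F K), finrank F K = 2 := by
  classical
  set f : F[X] := X ^ 2 + C a * X + C b with hf
  have hdeg : f.natDegree = 2 := by rw [hf]; compute_degree!
  have hmonic : f.Monic := by rw [hf]; monicity!
  have hirr : Irreducible f := by
    rw [hmonic.irreducible_iff_roots_eq_zero_of_degree_le_three (by omega) (by omega)]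
    rw [Multiset.eq_zero_iff_forall_notMem]
    intro t ht
    rw [mem_roots hmonic.ne_zero, IsRoot.def] at ht
    simp only [hf, eval_add, eval_pow, eval_X, eval_mul, eval_C] at ht
    have := hab t 1 (by linear_combination ht)
    exact one_ne_zero this.2
  have : Fact (Irreducible f) := ⟨hirr⟩
  have hfin : Module.finrank F (AdjoinRoot f) = 2 := by
    rw [(AdjoinRoot.powerBasis hirr.ne_zero).finrank, AdjoinRoot.powerBasis_dim, hdeg]
  exact ⟨AdjoinRoot f, inferInstance, inferInstance, hfin⟩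

theorem psc_minus_iff (hodd : Odd (Fintype.card F))
    (hab : ∀ z₁ z₂ : F, z₁ ^ 2 + a * z₁ * z₂ + b * z₂ ^ 2 = 0 → z₁ = 0 ∧ z₂ = 0)
    {v0 : (Fin m ⊕ Fin m) ⊕ Fin 2 → F} (h0 : qMinus m F a b v0 ≠ 0)
    (g : ↥(SimG (qMinus m F a b))) :
    PreservesSingularClassesMinus m a b ((g : GL ((Fin m ⊕ Fin m) ⊕ Fin 2) F) : Matrix ((Fin m ⊕ Fin m) ⊕ Fin 2) ((Fin m ⊕ Fin m) ⊕ Fin 2) F) ↔
      g ∈ (delta h0 (m + 1)).ker := by
  constructor
  · rintro ⟨K, _, _, hfin, h⟩
    exact (psc_minus_K a b hodd hab K hfin h0 g).1 h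
  · intro h
    obtain ⟨K, _, _, hfin⟩ := exists_quadratic_ext a b hab
    exact ⟨K, _, _, hfin, (psc_minus_K a b hodd hab K hfin h0 g).2 h⟩

theorem inndiag_minus_eq (hodd : Odd (Fintype.card F))
    (hab : ∀ z₁ z₂ : F, z₁ ^ 2 + a * z₁ * z₂ + b * z₂ ^ 2 = 0 → z₁ = 0 ∧ z₂ = 0)
    {v0 : (Fin m ⊕ Fin m) ⊕ Fin 2 → F} (h0 : qMinus m F a b v0 ≠ 0) :
    autSubgroupOf (fun β : POmega F ⇑(qMinus m F a b) ≃* POmega F ⇑(qMinus m F a b) =>
      ∃ g : GL ((Fin m ⊕ Fin m) ⊕ Fin 2) F, g ∈ Geo.quadSimilarityGroup (F := F) ⇑(qMinus m F a b) ∧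
        PreservesSingularClassesMinus m a b (g : Matrix ((Fin m ⊕ Fin m) ⊕ Fin 2) ((Fin m ⊕ Fin m) ⊕ Fin 2) F) ∧
        IsInducedBySemilinearPOmega ⇑(qMinus m F a b) g (RingEquiv.refl F) β) =
      IDaut h0 (m + 1) := by
  rw [IDaut, ← aut_eq_C]
  congr 1
  funext β
  apply propext
  constructor
  · rintro ⟨g, hg, hp, hi⟩
    exact ⟨g, ⟨⟨g, hg⟩, (psc_minus_iff a b hodd hab h0 ⟨g, hg⟩).1 hp, rfl⟩, hi⟩
  · rintro ⟨_, ⟨g, hg, rfl⟩, hi⟩
    exact ⟨g.1, g.2, (psc_minus_iff a b hodd hab h0 g).2 hg, hi⟩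

end Main

end Cfsg.Agent.Lib.Helper16.POAut
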