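import Cfsg.Agent.Lib.Helper16.POAut16

set_option autoImplicit false

namespace Cfsg.Agent.Lib.Helper16.POAut

open Cfsg.Agent.Lib.Helper16 Cfsg.Agent.Lib.Helper6 Module Cfsg Matrix

section Minus

variable {F : Type*} [Field F] [Fintype F] {m : ℕ}

theorem exists_swap_minus (h2 : (2 : F) ≠ 0) (hm : 1 ≤ m) (a b : F)
    (hab : ∀ z₁ z₂ : F, z₁ ^ 2 + a * z₁ * z₂ + b * z₂ ^ 2 = 0 → z₁ = 0 ∧ z₂ = 0)
    {v0 : (Fin m ⊕ Fin m) ⊕ Fin 2 → F} (h0 : qMinus m F a b v0 ≠ 0) (l : F) (hl : l ≠ 0) :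
    ∃ g₀ : ↥(SimG (qMinus m F a b)), (mu (qMinus m F a b) g₀ : F) = l ∧
      (∀ x, (((g₀ * g₀ : ↥(SimG (qMinus m F a b))) : GL ((Fin m ⊕ Fin m) ⊕ Fin 2) F) :
        Matrix ((Fin m ⊕ Fin m) ⊕ Fin 2) ((Fin m ⊕ Fin m) ⊕ Fin 2) F) *ᵥ x = l • x) ∧
      (Even m → g₀ ∉ (delta h0 (m + 1)).ker) := by
  have hQ : (QuadraticMap.polarBilin (qMinus m F a b)).Nondegenerate := qMinus_nondeg a b hab
  obtain ⟨c, hc⟩ := represents_all (qMinus 0 F a b) (qMinus_nondeg a b hab)
    (by rw [finrank_minus']) l hl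
  rw [qMinus_apply, quadFormMinus] at hc
  simp only [Finset.univ_eq_empty, Finset.sum_empty, zero_add] at hc
  set c1 := c (Sum.inr 0) with hc1
  set c2 := c (Sum.inr 1) with hc2
  let T : ((Fin m ⊕ Fin m) ⊕ Fin 2 → F) →ₗ[F] ((Fin m ⊕ Fin m) ⊕ Fin 2 → F) :=
    { toFun := fun v => Sum.elim
        (Sum.elim (fun i => l * v (Sum.inl (Sum.inr i))) (fun i => v (Sum.inl (Sum.inl i))))
        ![c1 * v (Sum.inr 0) + (a * c1 + b * c2) * v (Sum.inr 1),
          c2 * v (Sum.inr 0) - c1 * v (Sum.inr 1)]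
      map_add' := by
        intro x y
        ext k
        rcases k with (i | i) | i
        · simp [mul_add]
        · simp
        · fin_cases i
          · simp; ring
          · simp; ring
      map_smul' := by
        intro r x
        ext k
        rcases k with (i | i) | i
        · simp; ring
        · simp
        · fin_cases i
          · simp; ring
          · simp; ring }
  obtain ⟨d, hd, hdT⟩ := exists_sim_of_linear hQ h0 T l hl (by
    intro v
    rw [qMinus_apply, qMinus_apply, quadFormMinus, quadFormMinus, mul_add, Finset.mul_sum]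
    congr 1
    · apply Finset.sum_congr rfl
      intro i _
      change l * v (Sum.inl (Sum.inr i)) * v (Sum.inl (Sum.inl i)) = _
      ring
    · change (c1 * v (Sum.inr 0) + (a * c1 + b * c2) * v (Sum.inr 1)) ^ 2 +
        a * (c1 * v (Sum.inr 0) + (a * c1 + b * c2) * v (Sum.inr 1)) *
          (c2 * v (Sum.inr 0) - c1 * v (Sum.inr 1)) +
        b * (c2 * v (Sum.inr 0) - c1 * v (Sum.inr 1)) ^ 2 = _
      rw [← hc]
      ring)
  refine ⟨d, hd, ?_, ?_⟩
  · intro x
    rw [Subgroup.coe_mul, Units.val_mul, ← Matrix.mulVec_mulVec, hdT, hdT]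
    ext k
    rcases k with (i | i) | i
    · rfl
    · rfl
    · fin_cases i
      · change c1 * (c1 * x (Sum.inr 0) + (a * c1 + b * c2) * x (Sum.inr 1)) +
          (a * c1 + b * c2) * (c2 * x (Sum.inr 0) - c1 * x (Sum.inr 1)) = l * x (Sum.inr 0)
        rw [← hc]; ring
      · change c2 * (c1 * x (Sum.inr 0) + (a * c1 + b * c2) * x (Sum.inr 1)) -
          c1 * (c2 * x (Sum.inr 0) - c1 * x (Sum.inr 1)) = l * x (Sum.inr 1)
        rw [← hc]; ring
  · intro hev hmem
    have hQp : (QuadraticMap.polarBilin (qPlus m F)).Nondegenerate := qPlus_nondeg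
    have hfr : Module.finrank F (Fin m ⊕ Fin m → F) = 2 * m := finrank_plus'
    obtain ⟨vp, hvp⟩ := represents_all (qPlus m F) hQp (by omega) 1 one_ne_zero
    have h0p : qPlus m F vp ≠ 0 := by rw [hvp]; exact one_ne_zero
    obtain ⟨gp, hgp1, -, hgp3, hgp4⟩ := exists_swap_plus h2 hm h0p l hl
    have hdp := (mem_ker_delta h0p m gp).1 (hgp3.2 hev)
    rw [Units.ext_iff, Matrix.GeneralLinearGroup.val_det_apply, Units.val_pow_eq_pow_val, hgp1] at hdp
    have hmat : ((d : GL ((Fin m ⊕ Fin m) ⊕ Fin 2) F) :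
        Matrix ((Fin m ⊕ Fin m) ⊕ Fin 2) ((Fin m ⊕ Fin m) ⊕ Fin 2) F) =
        Matrix.fromBlocks ((gp : GL (Fin m ⊕ Fin m) F) : Matrix (Fin m ⊕ Fin m) (Fin m ⊕ Fin m) F) 0 0
          !![c1, a * c1 + b * c2; c2, -c1] := by
      apply matrix_ext_mulVec
      intro x
      rw [hdT, Matrix.fromBlocks_mulVec]
      ext k
      rcases k with k | k
      · rw [Sum.elim_inl, Matrix.zero_mulVec, add_zero, hgp4]
        rcases k with i | i <;> rfl
      · rw [Sum.elim_inr, Matrix.zero_mulVec, zero_add]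
        fin_cases k
        · change c1 * x (Sum.inr 0) + (a * c1 + b * c2) * x (Sum.inr 1) = _
          simp [Matrix.mulVec, dotProduct, Fin.sum_univ_two]
        · change c2 * x (Sum.inr 0) - c1 * x (Sum.inr 1) = _
          simp [Matrix.mulVec, dotProduct, Fin.sum_univ_two]
          ring
    rw [mem_ker_delta, Units.ext_iff, Matrix.GeneralLinearGroup.val_det_apply,
      Units.val_pow_eq_pow_val, hd, hmat, Matrix.det_fromBlocks_zero₂₁, hdp,
      Matrix.det_fin_two_of] at hmem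
    have h3 : l ^ m * (2 * l) = 0 := by
      have : c1 * -c1 - (a * c1 + b * c2) * c2 = -l := by rw [← hc]; ring
      rw [this] at hmem
      linear_combination -hmem
    rcases mul_eq_zero.1 h3 with h | h
    · exact pow_ne_zero _ hl h
    · exact (mul_ne_zero h2 hl) h

end Minus

end Cfsg.Agent.Lib.Helper16.POAut
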