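import Mathlib

set_option autoImplicit false
set_option linter.unusedSectionVars false

namespace Cfsg.Agent.Lib.Helper16.Polar

open Module

variable {F V : Type*} [Field F] [AddCommGroup V] [Module F V] [FiniteDimensional F V]

/-- a partial polar pair compatible with `X` -/
structure Good (B : LinearMap.BilinForm F V) (X : V →ₗ[F] V) (sw : Bool)
    (U W : Submodule F V) : Prop where
  isoU : ∀ u ∈ U, ∀ u' ∈ U, B u u' = 0
  isoW : ∀ w ∈ W, ∀ w' ∈ W, B w w' = 0
  ndU : ∀ u ∈ U, u ≠ 0 → ∃ w ∈ W, B u w ≠ 0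
  ndW : ∀ w ∈ W, w ≠ 0 → ∃ u ∈ U, B u w ≠ 0
  mapU : ∀ u ∈ U, X u ∈ (if sw then W else U)
  mapW : ∀ w ∈ W, X w ∈ (if sw then U else W)

variable {B : LinearMap.BilinForm F V} {X : V →ₗ[F] V}

theorem swapB (hA : B.IsAlt) {a b : V} (h : B a b = 0) : B b a = 0 := by
  exact hA.isRefl a b h

theorem Good.disj (hA : B.IsAlt) {sw : Bool} {U W : Submodule F V} (h : Good B X sw U W)
    (y : V) (hy : y ∈ U ⊔ W) (hperp : ∀ k ∈ U ⊔ W, B y k = 0) : y = 0 := by
  obtain ⟨u, hu, w, hw, rfl⟩ := Submodule.mem_sup.1 hy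
  have hu0 : u = 0 := by
    by_contra hne
    obtain ⟨w', hw', hb⟩ := h.ndU u hu hne
    apply hb
    have := hperp w' (Submodule.mem_sup_right hw')
    rw [map_add, LinearMap.add_apply, h.isoW w hw w' hw', add_zero] at this
    exact this
  have hw0 : w = 0 := by
    by_contra hne
    obtain ⟨u', hu', hb⟩ := h.ndW w hw hne
    apply hb
    have := hperp u' (Submodule.mem_sup_left hu')
    rw [map_add, LinearMap.add_apply, h.isoU u hu u' hu', zero_add] at this
    exact swapB hA this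
  rw [hu0, hw0, add_zero]

theorem Good.decomp (hA : B.IsAlt) {sw : Bool} {U W : Submodule F V} (h : Good B X sw U W)
    (y : V) : ∃ y', (∀ k ∈ U ⊔ W, B y' k = 0) ∧ y - y' ∈ U ⊔ W := by
  have hd : Disjoint (U ⊔ W) (B.orthogonal (U ⊔ W)) := by
    rw [Submodule.disjoint_def]
    intro x hx hx'
    apply h.disj hA x hx
    intro k hk
    exact swapB hA (LinearMap.BilinForm.mem_orthogonal_iff.1 hx' k hk)
  have hc := LinearMap.BilinForm.isCompl_orthogonal_of_restrict_nondegenerate hA.isRefl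
    (B.nondegenerate_restrict_of_disjoint_orthogonal hA.isRefl hd)
  have hy : y ∈ (U ⊔ W) ⊔ B.orthogonal (U ⊔ W) := by rw [hc.sup_eq_top]; trivial
  obtain ⟨a, ha, y', hy', rfl⟩ := Submodule.mem_sup.1 hy
  refine ⟨y', fun k hk => swapB hA (LinearMap.BilinForm.mem_orthogonal_iff.1 hy' k hk), ?_⟩
  rw [add_sub_cancel_right]; exact ha

theorem Good.ext (hA : B.IsAlt) {sw : Bool} {U W : Submodule F V} (h : Good B X sw U W)
    {u v : V} (hu : ∀ k ∈ U ⊔ W, B u k = 0) (hv : ∀ k ∈ U ⊔ W, B v k = 0) (huv : B u v ≠ 0)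
    (hXu : X u ∈ Submodule.span F {if sw then v else u})
    (hXv : X v ∈ Submodule.span F {if sw then u else v}) :
    Good B X sw (U ⊔ Submodule.span F {u}) (W ⊔ Submodule.span F {v}) := by
  have memU : ∀ x, x ∈ U ⊔ Submodule.span F {u} ↔ ∃ a ∈ U, ∃ c : F, x = a + c • u := by
    intro x
    rw [Submodule.mem_sup]
    constructor
    · rintro ⟨a, ha, b, hb, rfl⟩
      obtain ⟨c, rfl⟩ := Submodule.mem_span_singleton.1 hb
      exact ⟨a, ha, c, rfl⟩
    · rintro ⟨a, ha, c, rfl⟩
      exact ⟨a, ha, _, Submodule.smul_mem _ _ (Submodule.mem_span_singleton_self u), rfl⟩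
  have memW : ∀ x, x ∈ W ⊔ Submodule.span F {v} ↔ ∃ a ∈ W, ∃ c : F, x = a + c • v := by
    intro x
    rw [Submodule.mem_sup]
    constructor
    · rintro ⟨a, ha, b, hb, rfl⟩
      obtain ⟨c, rfl⟩ := Submodule.mem_span_singleton.1 hb
      exact ⟨a, ha, c, rfl⟩
    · rintro ⟨a, ha, c, rfl⟩
      exact ⟨a, ha, _, Submodule.smul_mem _ _ (Submodule.mem_span_singleton_self v), rfl⟩
  have huU : ∀ a ∈ U, B u a = 0 := fun a ha => hu a (Submodule.mem_sup_left ha)
  have huW : ∀ a ∈ W, B u a = 0 := fun a ha => hu a (Submodule.mem_sup_right ha)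
  have hvU : ∀ a ∈ U, B v a = 0 := fun a ha => hv a (Submodule.mem_sup_left ha)
  have hvW : ∀ a ∈ W, B v a = 0 := fun a ha => hv a (Submodule.mem_sup_right ha)
  refine ⟨?_, ?_, ?_, ?_, ?_, ?_⟩
  · intro x hx y hy
    obtain ⟨a, ha, c, rfl⟩ := (memU x).1 hx
    obtain ⟨b, hb, e, rfl⟩ := (memU y).1 hy
    simp only [map_add, map_smul, LinearMap.add_apply, LinearMap.smul_apply, h.isoU a ha b hb,
      huU b hb, swapB hA (huU a ha), hA u, smul_zero, add_zero]
  · intro x hx y hy
    obtain ⟨a, ha, c, rfl⟩ := (memW x).1 hx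
    obtain ⟨b, hb, e, rfl⟩ := (memW y).1 hy
    simp only [map_add, map_smul, LinearMap.add_apply, LinearMap.smul_apply, h.isoW a ha b hb,
      hvW b hb, swapB hA (hvW a ha), hA v, smul_zero, add_zero]
  · intro x hx hx0
    obtain ⟨a, ha, c, rfl⟩ := (memU x).1 hx
    by_cases hc : c = 0
    · subst hc
      rw [zero_smul, add_zero] at hx0 ⊢
      obtain ⟨w, hw, hb⟩ := h.ndU a ha hx0
      exact ⟨w, Submodule.mem_sup_left hw, hb⟩
    · refine ⟨v, Submodule.mem_sup_right (Submodule.mem_span_singleton_self v), ?_⟩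
      rw [map_add, map_smul, LinearMap.add_apply, LinearMap.smul_apply, swapB hA (hvU a ha),
        zero_add, smul_eq_mul]
      exact mul_ne_zero hc huv
  · intro x hx hx0
    obtain ⟨a, ha, c, rfl⟩ := (memW x).1 hx
    by_cases hc : c = 0
    · subst hc
      rw [zero_smul, add_zero] at hx0 ⊢
      obtain ⟨w, hw, hb⟩ := h.ndW a ha hx0
      exact ⟨w, Submodule.mem_sup_left hw, hb⟩
    · refine ⟨u, Submodule.mem_sup_right (Submodule.mem_span_singleton_self u), ?_⟩
      rw [map_add, map_smul, huW a ha, zero_add, smul_eq_mul]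
      exact mul_ne_zero hc huv
  · intro x hx
    obtain ⟨a, ha, c, rfl⟩ := (memU x).1 hx
    rw [map_add, map_smul]
    have h1 := h.mapU a ha
    cases sw
    · simp only [Bool.false_eq_true, if_false] at h1 hXu ⊢
      exact Submodule.add_mem _ (Submodule.mem_sup_left h1)
        (Submodule.smul_mem _ _ (Submodule.mem_sup_right hXu))
    · simp only [if_true] at h1 hXu ⊢
      exact Submodule.add_mem _ (Submodule.mem_sup_left h1)
        (Submodule.smul_mem _ _ (Submodule.mem_sup_right hXu))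
  · intro x hx
    obtain ⟨a, ha, c, rfl⟩ := (memW x).1 hx
    rw [map_add, map_smul]
    have h1 := h.mapW a ha
    cases sw
    · simp only [Bool.false_eq_true, if_false] at h1 hXv ⊢
      exact Submodule.add_mem _ (Submodule.mem_sup_left h1)
        (Submodule.smul_mem _ _ (Submodule.mem_sup_right hXv))
    · simp only [if_true] at h1 hXv ⊢
      exact Submodule.add_mem _ (Submodule.mem_sup_left h1)
        (Submodule.smul_mem _ _ (Submodule.mem_sup_right hXv))

end Cfsg.Agent.Lib.Helper16.Polar
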