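import Mathlib
import Cfsg.Agent.Lib.Helper16.Polar1

set_option autoImplicit false
set_option linter.unusedSectionVars false

namespace Cfsg.Agent.Lib.Helper16.Polar

open Module

variable {F V : Type*} [Field F] [AddCommGroup V] [Module F V] [FiniteDimensional F V]
  {B : LinearMap.BilinForm F V} {X : V →ₗ[F] V}

theorem exists_full (hA : B.IsAlt) (hB : B.Nondegenerate) (sw : Bool)
    (hXB : ∀ a b, B (X a) (X b) = B a b) (z : F) (hz : z * z = 1) (hXX : ∀ a, X (X a) = z • a)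
    (step : ∀ K : Submodule F V, K ≠ ⊥ → (∀ a ∈ K, X a ∈ K) →
      (∀ a ∈ K, a ≠ 0 → ∃ b ∈ K, B a b ≠ 0) →
      ∃ u ∈ K, ∃ v ∈ K, B u v ≠ 0 ∧ X u ∈ Submodule.span F {if sw then v else u} ∧
        X v ∈ Submodule.span F {if sw then u else v}) :
    ∀ n, ∀ U W : Submodule F V, Good B X sw U W →
      finrank F V - finrank F (U ⊔ W : Submodule F V) = n →
      ∃ U' W', Good B X sw U' W' ∧ U' ⊔ W' = ⊤ := by
  intro n
  induction n using Nat.strong_induction_on with
  | _ n ih =>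
    intro U W h hn
    by_cases htop : U ⊔ W = ⊤
    · exact ⟨U, W, h, htop⟩
    set K := B.orthogonal (U ⊔ W) with hK
    have memK : ∀ y, y ∈ K ↔ ∀ k ∈ U ⊔ W, B y k = 0 := by
      intro y
      rw [hK, LinearMap.BilinForm.mem_orthogonal_iff]
      exact ⟨fun hy k hk => swapB hA (hy k hk), fun hy k hk => swapB hA (hy k hk)⟩
    have hXH : ∀ k ∈ U ⊔ W, X k ∈ U ⊔ W := by
      intro k hk
      obtain ⟨u, hu, w, hw, rfl⟩ := Submodule.mem_sup.1 hk
      rw [map_add]
      have h1 := h.mapU u hu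
      have h2 := h.mapW w hw
      cases sw
      · simp only [Bool.false_eq_true, if_false] at h1 h2
        exact Submodule.add_mem _ (Submodule.mem_sup_left h1) (Submodule.mem_sup_right h2)
      · simp only [if_true] at h1 h2
        exact Submodule.add_mem _ (Submodule.mem_sup_right h1) (Submodule.mem_sup_left h2)
    have hK0 : K ≠ ⊥ := by
      intro hbot
      apply htop
      rw [eq_top_iff]
      intro y _
      obtain ⟨y', hy', hyy⟩ := h.decomp hA y
      have : y' = 0 := by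
        have : y' ∈ K := (memK y').2 hy'
        rw [hbot] at this
        exact (Submodule.mem_bot F).1 this
      rw [this, sub_zero] at hyy
      exact hyy
    have hKX : ∀ a ∈ K, X a ∈ K := by
      intro a ha
      rw [memK] at ha ⊢
      intro k hk
      have hk' : k = z • X (X k) := by rw [hXX, smul_smul, hz, one_smul]
      rw [hk', map_smul, hXB, ha _ (hXH k hk), smul_zero]
    have hKnd : ∀ a ∈ K, a ≠ 0 → ∃ b ∈ K, B a b ≠ 0 := by
      intro a ha ha0
      have : ∃ b, B a b ≠ 0 := by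
        by_contra hcon
        push Not at hcon
        exact ha0 (hB.1 a hcon)
      obtain ⟨b, hb⟩ := this
      obtain ⟨b', hb', hbb⟩ := h.decomp hA b
      refine ⟨b', (memK b').2 hb', ?_⟩
      have h1 := (memK a).1 ha _ hbb
      rw [map_sub, sub_eq_zero] at h1
      rw [← h1]; exact hb
    obtain ⟨u, hu, v, hv, huv, hXu, hXv⟩ := step K hK0 hKX hKnd
    have hg := h.ext hA ((memK u).1 hu) ((memK v).1 hv) huv hXu hXv
    have hlt : U ⊔ W < (U ⊔ Submodule.span F {u}) ⊔ (W ⊔ Submodule.span F {v}) := by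
      refine lt_of_le_of_ne (sup_le_sup le_sup_left le_sup_left) ?_
      intro heq
      have hu' : u ∈ U ⊔ W := by
        rw [heq]
        exact Submodule.mem_sup_left (Submodule.mem_sup_right (Submodule.mem_span_singleton_self u))
      have := h.disj hA u hu' ((memK u).1 hu)
      apply huv
      rw [this]; simp
    have h1 := Submodule.finrank_lt_finrank_of_lt hlt
    have h2 := Submodule.finrank_le ((U ⊔ Submodule.span F {u}) ⊔ (W ⊔ Submodule.span F {v}))
    exact ih _ (by omega) _ _ hg rfl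

theorem good_bot (sw : Bool) : Good B X sw ⊥ ⊥ := by
  refine ⟨?_, ?_, ?_, ?_, ?_, ?_⟩
  · intro u hu; rw [(Submodule.mem_bot F).1 hu]; simp
  · intro u hu; rw [(Submodule.mem_bot F).1 hu]; simp
  · intro u hu h0; exact absurd ((Submodule.mem_bot F).1 hu) h0
  · intro u hu h0; exact absurd ((Submodule.mem_bot F).1 hu) h0
  · intro u hu; rw [(Submodule.mem_bot F).1 hu]; simp
  · intro u hu; rw [(Submodule.mem_bot F).1 hu]; simp

theorem step_one (hA : B.IsAlt) (h2 : (2 : F) ≠ 0)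
    (hXB : ∀ a b, B (X a) (X b) = B a b) (hXX : ∀ a, X (X a) = a)
    (K : Submodule F V) (hK0 : K ≠ ⊥) (hKX : ∀ a ∈ K, X a ∈ K)
    (hKnd : ∀ a ∈ K, a ≠ 0 → ∃ b ∈ K, B a b ≠ 0) :
    ∃ u ∈ K, ∃ v ∈ K, B u v ≠ 0 ∧ X u ∈ Submodule.span F {u} ∧ X v ∈ Submodule.span F {v} := by
  obtain ⟨w, hw, hw0⟩ := Submodule.exists_mem_ne_zero_of_ne_bot hK0
  have hex : ∃ u ∈ K, u ≠ 0 ∧ ∃ ε : F, ε * ε = 1 ∧ X u = ε • u := by
    by_cases h : w + X w = 0
    · refine ⟨w, hw, hw0, -1, by ring, ?_⟩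
      rw [neg_one_smul]; exact (eq_neg_of_add_eq_zero_right h)
    · refine ⟨w + X w, K.add_mem hw (hKX w hw), h, 1, by ring, ?_⟩
      rw [map_add, hXX, one_smul, add_comm]
  obtain ⟨u, hu, hu0, ε, hε, hXu⟩ := hex
  obtain ⟨y, hy, hb⟩ := hKnd u hu hu0
  refine ⟨u, hu, y + ε • X y, K.add_mem hy (K.smul_mem _ (hKX y hy)), ?_, ?_, ?_⟩
  · have h1 : B u (X y) = ε * B u y := by
      have : u = ε • X u := by rw [hXu, smul_smul, hε, one_smul]
      conv_lhs => rw [this]
      rw [map_smul, LinearMap.smul_apply, hXB, smul_eq_mul]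
    rw [map_add, map_smul, h1, smul_eq_mul, ← mul_assoc, hε, one_mul, ← two_mul]
    exact mul_ne_zero h2 hb
  · rw [hXu]; exact Submodule.smul_mem _ _ (Submodule.mem_span_singleton_self u)
  · have : X (y + ε • X y) = ε • (y + ε • X y) := by
      rw [map_add, map_smul, hXX, smul_add, smul_smul, hε, one_smul, add_comm]
    rw [this]; exact Submodule.smul_mem _ _ (Submodule.mem_span_singleton_self _)

theorem step_neg (hA : B.IsAlt) (h2 : (2 : F) ≠ 0)
    (hXB : ∀ a b, B (X a) (X b) = B a b) (hXX : ∀ a, X (X a) = (-1 : F) • a)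
    (K : Submodule F V) (hK0 : K ≠ ⊥) (hKX : ∀ a ∈ K, X a ∈ K)
    (hKnd : ∀ a ∈ K, a ≠ 0 → ∃ b ∈ K, B a b ≠ 0) :
    ∃ u ∈ K, ∃ v ∈ K, B u v ≠ 0 ∧ X u ∈ Submodule.span F {v} ∧ X v ∈ Submodule.span F {u} := by
  have hex : ∃ u ∈ K, B u (X u) ≠ 0 := by
    by_contra hcon
    push Not at hcon
    obtain ⟨w, hw, hw0⟩ := Submodule.exists_mem_ne_zero_of_ne_bot hK0
    obtain ⟨b, hb, hwb⟩ := hKnd w hw hw0
    set y := -X b with hy
    have hyK : y ∈ K := K.neg_mem (hKX b hb)
    have hXy : X y = b := by rw [hy, map_neg, hXX, neg_one_smul, neg_neg]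
    have h1 := hcon (w + y) (K.add_mem hw hyK)
    rw [map_add, map_add, map_add, LinearMap.add_apply, LinearMap.add_apply, hcon w hw,
      hcon y hyK, hXy] at h1
    have h3 : B y (X w) = B w b := by
      rw [← hXB y (X w), hXX, hXy, map_smul, neg_one_smul]
      exact hA.neg_eq b w
    rw [h3] at h1
    apply hwb
    have : (2 : F) * B w b = 0 := by linear_combination h1
    exact (mul_eq_zero.1 this).resolve_left h2
  obtain ⟨u, hu, hb⟩ := hex
  refine ⟨u, hu, X u, hKX u hu, hb, Submodule.mem_span_singleton_self _, ?_⟩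
  rw [hXX]; exact Submodule.smul_mem _ _ (Submodule.mem_span_singleton_self u)

theorem map_eq {U W : Submodule F V} (hUW : ∀ u ∈ U, X u ∈ W) (hWU : ∀ w ∈ W, X w ∈ U)
    (z : F) (hz : z * z = 1) (hXX : ∀ a, X (X a) = z • a) : U.map X = W := by
  apply le_antisymm
  · rintro _ ⟨u, hu, rfl⟩; exact hUW u hu
  · intro w hw
    exact ⟨z • X w, U.smul_mem _ (hWU w hw), by rw [map_smul, hXX, smul_smul, hz, one_smul]⟩

/-- polar pairs fixed or swapped by an isometry whose square is `±1` -/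
theorem exists_polar_pair (hA : B.IsAlt) (hB : B.Nondegenerate) (h2 : (2 : F) ≠ 0)
    (hXB : ∀ a b, B (X a) (X b) = B a b) (z : F) (hz : z = 1 ∨ z = -1)
    (hXX : ∀ a, X (X a) = z • a) :
    ∃ U W : Submodule F V, IsCompl U W ∧ (∀ u ∈ U, ∀ v ∈ U, B u v = 0) ∧
      (∀ u ∈ W, ∀ v ∈ W, B u v = 0) ∧
      ((U.map X = U ∧ W.map X = W) ∨ (U.map X = W ∧ W.map X = U)) := by
  have hzz : z * z = 1 := by rcases hz with rfl | rfl <;> ring
  have key : ∀ sw : Bool, (∃ U' W', Good B X sw U' W' ∧ U' ⊔ W' = ⊤) →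
      ∃ U W : Submodule F V, IsCompl U W ∧ (∀ u ∈ U, ∀ v ∈ U, B u v = 0) ∧
      (∀ u ∈ W, ∀ v ∈ W, B u v = 0) ∧
      ((U.map X = U ∧ W.map X = W) ∨ (U.map X = W ∧ W.map X = U)) := by
    rintro sw ⟨U, W, h, htop⟩
    refine ⟨U, W, ⟨?_, codisjoint_iff.2 htop⟩, h.isoU, h.isoW, ?_⟩
    · rw [Submodule.disjoint_def]
      intro x hxU hxW
      by_contra hx0
      obtain ⟨w, hw, hb⟩ := h.ndU x hxU hx0
      exact hb (h.isoW x hxW w hw)
    · have h1 := h.mapU
      have h3 := h.mapW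
      cases sw
      · simp only [Bool.false_eq_true, if_false] at h1 h3
        exact Or.inl ⟨map_eq h1 h1 z hzz hXX, map_eq h3 h3 z hzz hXX⟩
      · simp only [if_true] at h1 h3
        exact Or.inr ⟨map_eq h1 h3 z hzz hXX, map_eq h3 h1 z hzz hXX⟩
  rcases hz with rfl | rfl
  · apply key false
    exact exists_full hA hB false hXB 1 hzz hXX (fun K a b c => by
      simpa using step_one hA h2 hXB (by simpa using hXX) K a b c) _ ⊥ ⊥ (good_bot false) rfl
  · apply key true
    exact exists_full hA hB true hXB (-1) hzz hXX (fun K a b c => by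
      simpa using step_neg hA h2 hXB hXX K a b c) _ ⊥ ⊥ (good_bot true) rfl

end Cfsg.Agent.Lib.Helper16.Polar
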