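import Mathlib
import Cfsg.Agent.Lib.Helper16.FrobCore

set_option autoImplicit false
set_option linter.unusedSectionVars false

namespace Cfsg.Agent.Lib.Helper16

open Matrix

variable {F : Type*} [Field F]

/-- upper unitriangular matrices -/
def xU (t : F) : Matrix.SpecialLinearGroup (Fin 2) F := ⟨!![1, t; 0, 1], by simp [det_fin_two]⟩

theorem sl2_val_mul (a b : Matrix.SpecialLinearGroup (Fin 2) F) : (a * b).1 = a.1 * b.1 := rfl

theorem sl2_val_inv (a : Matrix.SpecialLinearGroup (Fin 2) F) : (a⁻¹).1 = adjugate a.1 := rfl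

theorem sl2_val_one : (1 : Matrix.SpecialLinearGroup (Fin 2) F).1 = 1 := rfl

theorem xU_mul (a b : F) : xU a * xU b = xU (a + b) := by
  apply Subtype.ext
  rw [sl2_val_mul]
  simp only [xU]
  ext i j
  fin_cases i <;> fin_cases j <;> simp [Matrix.mul_apply, Fin.sum_univ_two, add_comm]

theorem xU_zero : xU (0 : F) = 1 := by
  apply Subtype.ext
  simp only [xU]
  ext i j
  fin_cases i <;> fin_cases j <;> simp

theorem xU_pow (a : F) (k : ℕ) : xU a ^ k = xU (k * a) := by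
  induction k with
  | zero => simp [xU_zero]
  | succ n ih => rw [pow_succ, ih, xU_mul]; congr 1; push_cast; ring

theorem eq_xU {m : Matrix.SpecialLinearGroup (Fin 2) F} (h10 : m.1 1 0 = 0) (h00 : m.1 0 0 = 1) :
    m = xU (m.1 0 1) := by
  have hdet := m.2
  rw [det_fin_two, h10, h00] at hdet
  have h11 : m.1 1 1 = 1 := by simpa using hdet
  apply Subtype.ext
  simp only [xU]
  ext i j
  fin_cases i <;> fin_cases j <;> simp [h10, h00, h11]

theorem sl2_mul_10 (a b : Matrix.SpecialLinearGroup (Fin 2) F) :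
    (a * b).1 1 0 = a.1 1 0 * b.1 0 0 + a.1 1 1 * b.1 1 0 := by
  rw [sl2_val_mul, Matrix.mul_apply, Fin.sum_univ_two]

theorem sl2_inv_10 (a : Matrix.SpecialLinearGroup (Fin 2) F) : (a⁻¹).1 1 0 = - a.1 1 0 := by
  rw [sl2_val_inv, adjugate_fin_two]
  simp

/-- a subgroup of `SL₂` whose upper triangular elements are unipotent, containing two distinct
nontrivial upper unitriangular elements, is upper triangular -/
theorem sl2_frob [Fintype F] (H : Subgroup (Matrix.SpecialLinearGroup (Fin 2) F))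
    (hB : ∀ m ∈ H, m.1 1 0 = 0 → m.1 0 0 = 1) (t₁ t₂ : F) (h1 : t₁ ≠ 0) (h2 : t₂ ≠ 0)
    (h12 : t₁ ≠ t₂) (hx1 : xU t₁ ∈ H) (hx2 : xU t₂ ∈ H) : ∀ m ∈ H, m.1 1 0 = 0 := by
  classical
  obtain ⟨p, hp⟩ := CharP.exists F
  have : Fact p.Prime := ⟨CharP.char_is_prime F p⟩
  let E : Subgroup (Matrix.SpecialLinearGroup (Fin 2) F) :=
    { carrier := {m | m ∈ H ∧ m.1 1 0 = 0}
      one_mem' := ⟨H.one_mem, by simp⟩
      mul_mem' := by
        rintro a b ⟨ha, ha'⟩ ⟨hb, hb'⟩
        exact ⟨H.mul_mem ha hb, by rw [sl2_mul_10, ha', hb']; ring⟩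
      inv_mem' := by
        rintro a ⟨ha, ha'⟩
        exact ⟨H.inv_mem ha, by rw [sl2_inv_10, ha', neg_zero]⟩ }
  have hEx : ∀ x ∈ E, x = xU (x.1 0 1) := fun x hx => eq_xU hx.2 (hB x hx.1 hx.2)
  have hne : ∀ t : F, t ≠ 0 → xU t ≠ 1 := by
    intro t ht h
    have := congrArg (fun m : Matrix.SpecialLinearGroup (Fin 2) F => m.1 0 1) h
    simp [xU] at this
    exact ht this
  have hx1E : xU t₁ ∈ E := ⟨hx1, by simp [xU]⟩
  have hx2E : xU t₂ ∈ E := ⟨hx2, by simp [xU]⟩
  obtain ⟨K, hKH, hK1, hK2, hK3⟩ := frob_core' H E (fun x hx => hx.1) p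
    (by
      intro h
      have : xU t₁ ∈ (⊥ : Subgroup (Matrix.SpecialLinearGroup (Fin 2) F)) := h ▸ hx1E
      exact hne t₁ h1 (Subgroup.mem_bot.1 this))
    (by
      intro x hx
      rw [hEx x hx, xU_pow, CharP.cast_eq_zero F p, zero_mul, xU_zero])
    (by
      intro x hx y hy
      rw [hEx x hx, hEx y hy, xU_mul, xU_mul, add_comm])
    (by
      intro g hg x hx hx1 hgx
      refine ⟨hg, ?_⟩
      have hb : x.1 0 1 ≠ 0 := by
        intro h0
        apply hx1
        rw [hEx x hx, h0, xU_zero]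
      have h3 := hgx.2
      rw [hEx x hx, sl2_mul_10, sl2_val_inv, adjugate_fin_two,
        sl2_val_mul] at h3
      simp only [xU, Matrix.mul_apply, Fin.sum_univ_two, of_apply, cons_val', cons_val_zero,
        cons_val_one, cons_val_fin_one] at h3
      have h4 : x.1 0 1 * (g.1 1 0 * g.1 1 0) = 0 := by linear_combination -h3
      have h5 := (mul_eq_zero.1 h4).resolve_left hb
      exact mul_self_eq_zero.1 h5)
  have htr : ∀ k ∈ K, ∀ t : F, t ≠ 0 → xU t ∈ E → k.1 0 0 + k.1 1 0 * t + k.1 1 1 = 2 := by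
    intro k hk t ht htE
    obtain ⟨l, -, hl⟩ := hK3 k hk (xU t) htE (hne t ht)
    have h3 := congrArg (fun m : Matrix.SpecialLinearGroup (Fin 2) F => m.1.trace) hl
    simp only [sl2_val_mul] at h3
    have h4 : (l⁻¹).1 * l.1 = 1 := by rw [← sl2_val_mul, inv_mul_cancel, sl2_val_one]
    rw [Matrix.trace_mul_cycle, h4, Matrix.one_mul] at h3
    simp only [xU, Matrix.trace_fin_two, Matrix.mul_apply, Fin.sum_univ_two, of_apply, cons_val',
      cons_val_zero, cons_val_one, cons_val_fin_one] at h3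
    linear_combination h3
  intro m hm
  obtain ⟨k, hk, x, hx, rfl⟩ := hK1 m hm
  have a1 := htr k hk t₁ h1 hx1E
  have a2 := htr k hk t₂ h2 hx2E
  have a3 : k.1 1 0 * (t₁ - t₂) = 0 := by linear_combination a1 - a2
  have a4 : k.1 1 0 = 0 := (mul_eq_zero.1 a3).resolve_right (sub_ne_zero.2 h12)
  have a5 := hK2 k hk ⟨hKH hk, a4⟩
  rw [a5, one_mul]
  exact hx.2

end Cfsg.Agent.Lib.Helper16
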