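import Cfsg.Agent.Lib.Helper16.POAut4

set_option autoImplicit false

namespace Cfsg.Agent.Lib.Helper16.SOIdx

open Cfsg.Agent.Lib.Helper16 Cfsg.Agent.Lib.Helper6 Module Cfsg Matrix

section Abs

variable {G : Type*} [Group G]

/-- squares of products of two generators -/
def sqSet (R : Set G) : Set G := {x | ∃ a ∈ R, ∃ b ∈ R, x = (a * b) * (a * b)}

theorem sq_normal (R : Set G) (hc : ∀ g : G, ∀ a ∈ R, g * a * g⁻¹ ∈ R) :
    (Subgroup.closure (sqSet R)).Normal := by
  constructor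
  intro n hn g
  have h1 : (Subgroup.closure (sqSet R)).map (MulAut.conj g).toMonoidHom ≤
      Subgroup.closure (sqSet R) := by
    rw [MonoidHom.map_closure, Subgroup.closure_le]
    rintro _ ⟨x, ⟨a, ha, b, hb, rfl⟩, rfl⟩
    apply Subgroup.subset_closure
    refine ⟨g * a * g⁻¹, hc g a ha, g * b * g⁻¹, hc g b hb, ?_⟩
    change g * (a * b * (a * b)) * g⁻¹ = _
    group
  exact h1 ⟨n, hn, rfl⟩

theorem comm_le_sq (R : Set G) (hR : Subgroup.closure R = ⊤) (h2 : ∀ a ∈ R, a * a = 1)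
    (hc : ∀ g : G, ∀ a ∈ R, g * a * g⁻¹ ∈ R) :
    commutator G ≤ Subgroup.closure (sqSet R) := by
  set N := Subgroup.closure (sqSet R) with hN
  haveI : N.Normal := sq_normal R hc
  have hinv : ∀ a ∈ R, a⁻¹ = a := fun a ha => inv_eq_of_mul_eq_one_left (h2 a ha)
  -- the centraliser modulo N
  have key : ∀ x y : G, x * y * x⁻¹ * y⁻¹ ∈ N := by
    have step1 : ∀ a ∈ R, ∀ y : G, a * y * a⁻¹ * y⁻¹ ∈ N := by
      intro a ha y
      have hy : y ∈ Subgroup.closure R := by rw [hR]; trivial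
      induction hy using Subgroup.closure_induction with
      | mem b hb =>
        apply Subgroup.subset_closure
        refine ⟨a, ha, b, hb, ?_⟩
        rw [hinv a ha, hinv b hb]
        group
      | one => simp [N.one_mem]
      | mul y z _ _ ihy ihz =>
        have : a * (y * z) * a⁻¹ * (y * z)⁻¹ =
            (a * y * a⁻¹ * y⁻¹) * (y * (a * z * a⁻¹ * z⁻¹) * y⁻¹) := by group
        rw [this]
        exact N.mul_mem ihy (Subgroup.Normal.conj_mem inferInstance _ ihz y)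
      | inv y _ ihy =>
        have : a * y⁻¹ * a⁻¹ * y⁻¹⁻¹ = y⁻¹ * (a * y * a⁻¹ * y⁻¹)⁻¹ * y⁻¹⁻¹ := by group
        rw [this]
        exact Subgroup.Normal.conj_mem inferInstance _ (N.inv_mem ihy) y⁻¹
    intro x y
    have hx : x ∈ Subgroup.closure R := by rw [hR]; trivial
    induction hx using Subgroup.closure_induction generalizing y with
    | mem a ha => exact step1 a ha y
    | one => simp [N.one_mem]
    | mul x z _ _ ihx ihz =>
      have : x * z * y * (x * z)⁻¹ * y⁻¹ =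
          (x * (z * y * z⁻¹ * y⁻¹) * x⁻¹) * (x * y * x⁻¹ * y⁻¹) := by group
      rw [this]
      exact N.mul_mem (Subgroup.Normal.conj_mem inferInstance _ (ihz y) x) (ihx y)
    | inv x _ ihx =>
      have : x⁻¹ * y * x⁻¹⁻¹ * y⁻¹ = x⁻¹ * (x * y * x⁻¹ * y⁻¹)⁻¹ * x⁻¹⁻¹ := by group
      rw [this]
      exact Subgroup.Normal.conj_mem inferInstance _ (N.inv_mem (ihx y)) x⁻¹
  rw [commutator_eq_closure, Subgroup.closure_le]
  rintro _ ⟨x, y, rfl⟩
  exact key x y

theorem comm_le_of_index_two (R : Set G) (hR : Subgroup.closure R = ⊤) (h2 : ∀ a ∈ R, a * a = 1)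
    (hc : ∀ g : G, ∀ a ∈ R, g * a * g⁻¹ ∈ R) (S : Subgroup G)
    (hS : ∀ a ∈ R, ∀ b ∈ R, a * b ∈ S) (H : Subgroup ↥S) (hH : H.index = 2) :
    (commutator G).subgroupOf S ≤ H := by
  have h1 : Subgroup.closure (sqSet R) ≤ H.map S.subtype := by
    rw [Subgroup.closure_le]
    rintro _ ⟨a, ha, b, hb, rfl⟩
    exact ⟨⟨a * b, hS a ha b hb⟩ * ⟨a * b, hS a ha b hb⟩,
      Subgroup.mul_self_mem_of_index_two hH _, rfl⟩
  intro x hx
  obtain ⟨y, hy, hyx⟩ := h1 (comm_le_sq R hR h2 hc hx)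
  have : y = x := Subtype.ext hyx
  rwa [← this]

theorem unique_index_two [Finite G] (R : Set G) (hR : Subgroup.closure R = ⊤)
    (h2 : ∀ a ∈ R, a * a = 1)
    (hc : ∀ g : G, ∀ a ∈ R, g * a * g⁻¹ ∈ R) (S : Subgroup G)
    (hS : ∀ a ∈ R, ∀ b ∈ R, a * b ∈ S) (hidx : (commutator G).relIndex S = 2) :
    ∃! H : Subgroup ↥S, H.index = 2 := by
  refine ⟨(commutator G).subgroupOf S, hidx, ?_⟩
  intro H hH
  have hle := comm_le_of_index_two R hR h2 hc S hS H hH
  symm
  apply Subgroup.eq_of_le_of_card_ge hle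
  have h3 := Subgroup.card_mul_index H
  have h4 := Subgroup.card_mul_index ((commutator G).subgroupOf S)
  have h5 : ((commutator G).subgroupOf S).index = 2 := hidx
  rw [hH] at h3
  rw [h5] at h4
  omega

end Abs

end Cfsg.Agent.Lib.Helper16.SOIdx
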