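import Mathlib

set_option autoImplicit false

namespace Cfsg.Agent.Lib.Helper16

theorem mem_fix {X : Type*} [Group X] (τ : MulAut X) (x : X) :
    x ∈ (MulEquiv.toMonoidHom τ).eqLocus (MonoidHom.id X) ↔ τ x = x := Iff.rfl

theorem pow_fix {X : Type*} [Group X] (σ : MulAut X) (h : X) (hh : σ h = h) (n : ℕ) :
    (σ ^ n) h = h := by
  induction n with
  | zero => simp
  | succ n ih => rw [pow_succ, MulAut.mul_apply, hh, ih]

theorem norm_telescope {X : Type*} [Group X] (σ : MulAut X) (a : X) (d : ℕ) :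
    ((List.range d).map (fun i => (σ ^ i) (a * (σ a)⁻¹))).prod = a * ((σ ^ d) a)⁻¹ := by
  induction d with
  | zero => simp
  | succ d ih =>
    rw [List.range_succ, List.map_append, List.prod_append, ih]
    simp only [List.map_cons, List.map_nil, List.prod_cons, List.prod_nil, mul_one, map_mul, map_inv]
    rw [pow_succ, MulAut.mul_apply]
    group

/-- if `g = a σ(a)⁻¹` is fixed by `σ^e` then `x = σ^e(a)⁻¹ a` is fixed by `σ`. -/
theorem shintani_fix {X : Type*} [Group X] (σ : MulAut X) (e : ℕ) (a : X)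
    (hg : (σ ^ e) (a * (σ a)⁻¹) = a * (σ a)⁻¹) : σ (((σ ^ e) a)⁻¹ * a) = ((σ ^ e) a)⁻¹ * a := by
  have hc : σ ((σ ^ e) a) = (σ ^ e) (σ a) := by
    rw [← MulAut.mul_apply, ← MulAut.mul_apply, ← pow_succ, ← pow_succ']
  simp only [map_mul, map_inv] at hg ⊢
  rw [hc]
  calc ((σ ^ e) (σ a))⁻¹ * σ a = ((σ ^ e) a)⁻¹ * ((σ ^ e) a * ((σ ^ e) (σ a))⁻¹) * σ a := by group
    _ = _ := by rw [hg]; group

theorem shintani_fix_conv {X : Type*} [Group X] (σ : MulAut X) (e : ℕ) (a : X)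
    (hx : σ (((σ ^ e) a)⁻¹ * a) = ((σ ^ e) a)⁻¹ * a) : (σ ^ e) (a * (σ a)⁻¹) = a * (σ a)⁻¹ := by
  have hc : σ ((σ ^ e) a) = (σ ^ e) (σ a) := by
    rw [← MulAut.mul_apply, ← MulAut.mul_apply, ← pow_succ, ← pow_succ']
  simp only [map_mul, map_inv] at hx ⊢
  rw [hc] at hx
  calc (σ ^ e) a * ((σ ^ e) (σ a))⁻¹ = (σ ^ e) a * (((σ ^ e) (σ a))⁻¹ * σ a) * (σ a)⁻¹ := by group
    _ = _ := by rw [hx]; group

end Cfsg.Agent.Lib.Helper16
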