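import Mathlib

set_option autoImplicit false

namespace Cfsg.Agent.Lib.Helper16.SpRank

open Module

section CaseB

variable {R : Type*} [Ring R]

theorem comm_cases (G : Subgroup Rˣ)
    (sq : ∀ g ∈ G, g * g = 1 ∨ g * g = -1)
    (hB : ∀ g ∈ G, g * g = 1 → g = 1 ∨ g = -1)
    (u w : Rˣ) (hu : u ∈ G) (hw : w ∈ G) (hu1 : u ≠ 1) (hu2 : u ≠ -1) (hw1 : w ≠ 1) (hw2 : w ≠ -1)
    (hc : u * w = w * u) : w = u ∨ w = -u := by
  have hsu : u * u = -1 := by
    rcases sq u hu with h | h
    · rcases hB u hu h with h | h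
      · exact absurd h hu1
      · exact absurd h hu2
    · exact h
  have hsw : w * w = -1 := by
    rcases sq w hw with h | h
    · rcases hB w hw h with h | h
      · exact absurd h hw1
      · exact absurd h hw2
    · exact h
  have h1 : (u * w) * (u * w) = 1 := by
    calc (u * w) * (u * w) = u * (w * u) * w := by group
      _ = u * (u * w) * w := by rw [hc]
      _ = (u * u) * (w * w) := by group
      _ = 1 := by rw [hsu, hsw]; simp
  rcases hB _ (G.mul_mem hu hw) h1 with h | h
  · right
    have : u * w = u * (-u) := by rw [h, mul_neg, hsu, neg_neg]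
    exact mul_left_cancel this
  · left
    have : u * w = u * u := by rw [h, hsu]
    exact mul_left_cancel this

theorem caseB (G : Subgroup Rˣ)
    (sq : ∀ g ∈ G, g * g = 1 ∨ g * g = -1)
    (comm : ∀ g ∈ G, ∀ h ∈ G, g * h = h * g ∨ g * h = -(h * g))
    (hB : ∀ g ∈ G, g * g = 1 → g = 1 ∨ g = -1) : Nat.card G ≤ 8 := by
  classical
  have key : ∃ x y : Rˣ, ∀ g ∈ G, g ∈ ([1, -1, x, -x, y, -y, x * y, -(x * y)] : List Rˣ) := by
    by_cases h1 : ∀ g ∈ G, g = 1 ∨ g = -1
    · refine ⟨1, 1, fun g hg => ?_⟩
      rcases h1 g hg with h | h <;> simp [h]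
    · push Not at h1
      obtain ⟨x, hx, hx1, hx2⟩ := h1
      by_cases h2 : ∀ g ∈ G, g = 1 ∨ g = -1 ∨ g = x ∨ g = -x
      · refine ⟨x, 1, fun g hg => ?_⟩
        rcases h2 g hg with h | h | h | h <;> simp [h]
      · push Not at h2
        obtain ⟨y, hy, hy1, hy2, hy3, hy4⟩ := h2
        refine ⟨x, y, fun z hz => ?_⟩
        by_cases hz1 : z = 1
        · simp [hz1]
        by_cases hz2 : z = -1
        · simp [hz2]
        have hsx : x * x = -1 := by
          rcases sq x hx with h | h
          · rcases hB x hx h with h | h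
            · exact absurd h hx1
            · exact absurd h hx2
          · exact h
        rcases comm z hz x hx with hzx | hzx
        · rcases comm_cases G sq hB x z hx hz hx1 hx2 hz1 hz2 hzx.symm with h | h <;> simp [h]
        rcases comm z hz y hy with hzy | hzy
        · rcases comm_cases G sq hB y z hy hz hy1 hy2 hz1 hz2 hzy.symm with h | h <;> simp [h]
        have hxy1 : x * y ≠ 1 := by
          intro h
          apply hy4
          have : x * y = x * (-x) := by rw [h, mul_neg, hsx, neg_neg]
          exact mul_left_cancel this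
        have hxy2 : x * y ≠ -1 := by
          intro h
          apply hy3
          have : x * y = x * x := by rw [h, hsx]
          exact mul_left_cancel this
        have hc : (x * y) * z = z * (x * y) := by
          calc (x * y) * z = x * (y * z) := by group
            _ = x * (-(z * y)) := by rw [hzy, neg_neg]
            _ = -((x * z) * y) := by rw [mul_neg, mul_assoc]
            _ = -((-(z * x)) * y) := by rw [hzx, neg_neg]
            _ = z * (x * y) := by rw [neg_mul, neg_neg, mul_assoc]
        rcases comm_cases G sq hB (x * y) z (G.mul_mem hx hy) hz hxy1 hxy2 hz1 hz2 hc with h | h <;>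
          simp [h]
  obtain ⟨x, y, hxy⟩ := key
  have hsub : (G : Set Rˣ) ⊆ (([1, -1, x, -x, y, -y, x * y, -(x * y)] : List Rˣ).toFinset : Set Rˣ) := by
    intro g hg
    rw [Finset.mem_coe, List.mem_toFinset]
    exact hxy g hg
  calc Nat.card G = (G : Set Rˣ).ncard := (Nat.card_coe_set_eq _)
    _ ≤ ((([1, -1, x, -x, y, -y, x * y, -(x * y)] : List Rˣ).toFinset : Set Rˣ)).ncard :=
        Set.ncard_le_ncard hsub (Finset.finite_toSet _)
    _ = ([1, -1, x, -x, y, -y, x * y, -(x * y)] : List Rˣ).toFinset.card := Set.ncard_coe_finset _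
    _ ≤ 8 := List.toFinset_card_le _

theorem card_le_two (G : Subgroup Rˣ) (h : ∀ g ∈ G, g = 1 ∨ g = -1) : Nat.card G ≤ 2 := by
  classical
  have hsub : (G : Set Rˣ) ⊆ (([1, -1] : List Rˣ).toFinset : Set Rˣ) := by
    intro g hg
    rw [Finset.mem_coe, List.mem_toFinset]
    rcases h g hg with h | h <;> simp [h]
  calc Nat.card G = (G : Set Rˣ).ncard := (Nat.card_coe_set_eq _)
    _ ≤ ((([1, -1] : List Rˣ).toFinset : Set Rˣ)).ncard :=
        Set.ncard_le_ncard hsub (Finset.finite_toSet _)
    _ = ([1, -1] : List Rˣ).toFinset.card := Set.ncard_coe_finset _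
    _ ≤ 2 := List.toFinset_card_le _

theorem comm_of_sq {Γ : Type*} [Group Γ] (g h : Γ) (hg : g * g = 1) (hh : h * h = 1)
    (hgh : (g * h) * (g * h) = 1) : g * h = h * g := by
  have h1 : g⁻¹ = g := inv_eq_of_mul_eq_one_left hg
  have h2 : h⁻¹ = h := inv_eq_of_mul_eq_one_left hh
  have h3 : (g * h)⁻¹ = g * h := inv_eq_of_mul_eq_one_left hgh
  rw [← h3, mul_inv_rev, h1, h2]

end CaseB

end Cfsg.Agent.Lib.Helper16.SpRank
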