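import Cfsg.Agent.Lib.Helper16.SpRank1

set_option autoImplicit false

namespace Cfsg.Agent.Lib.Helper16.SpRank

open Module

variable {F : Type*} [Field F] {V : Type*} [AddCommGroup V] [Module F V]

theorem u_mul_apply (g h : (Module.End F V)ˣ) (v : V) :
    ((g * h : (Module.End F V)ˣ) : Module.End F V) v = (g : Module.End F V) ((h : Module.End F V) v) := rfl

theorem u_neg_apply (g : (Module.End F V)ˣ) (v : V) :
    ((-g : (Module.End F V)ˣ) : Module.End F V) v = - (g : Module.End F V) v := rfl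

theorem u_one_apply (v : V) : ((1 : (Module.End F V)ˣ) : Module.End F V) v = v := rfl

theorem u_ext {g h : (Module.End F V)ˣ} (H : ∀ v, (g : Module.End F V) v = (h : Module.End F V) v) :
    g = h := Units.ext (LinearMap.ext H)

theorem u_inv_apply (g : (Module.End F V)ˣ) (v : V) :
    (g : Module.End F V) (((g⁻¹ : (Module.End F V)ˣ) : Module.End F V) v) = v := by
  rw [← u_mul_apply, mul_inv_cancel, u_one_apply]

theorem u_inv_apply' (g : (Module.End F V)ˣ) (v : V) :
    ((g⁻¹ : (Module.End F V)ˣ) : Module.End F V) ((g : Module.End F V) v) = v := by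
  rw [← u_mul_apply, inv_mul_cancel, u_one_apply]

theorem u_injective (g : (Module.End F V)ˣ) : Function.Injective (g : Module.End F V) := by
  intro a b hab
  have := congrArg ((g⁻¹ : (Module.End F V)ˣ) : Module.End F V) hab
  rwa [u_inv_apply', u_inv_apply'] at this

/-- the `+1` eigenspace -/
def EP (t : (Module.End F V)ˣ) : Submodule F V := LinearMap.ker ((t : Module.End F V) - 1)

/-- the `-1` eigenspace -/
def EM (t : (Module.End F V)ˣ) : Submodule F V := LinearMap.ker ((t : Module.End F V) + 1)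

theorem mem_EP {t : (Module.End F V)ˣ} {v : V} : v ∈ EP t ↔ (t : Module.End F V) v = v := by
  rw [EP, LinearMap.mem_ker, LinearMap.sub_apply, Module.End.one_apply, sub_eq_zero]

theorem mem_EM {t : (Module.End F V)ˣ} {v : V} : v ∈ EM t ↔ (t : Module.End F V) v = -v := by
  rw [EM, LinearMap.mem_ker, LinearMap.add_apply, Module.End.one_apply, add_eq_zero_iff_eq_neg]

theorem EP_neg (t : (Module.End F V)ˣ) : EP (-t) = EM t := by
  ext v
  rw [mem_EP, mem_EM, u_neg_apply, neg_eq_iff_eq_neg]

theorem EM_neg (t : (Module.End F V)ˣ) : EM (-t) = EP t := by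
  ext v
  rw [mem_EP, mem_EM, u_neg_apply, neg_inj]

theorem eq_zero_of_eq_neg (h2 : (2 : F) ≠ 0) {v : V} (h : v = -v) : v = 0 := by
  have h3 : (2 : F) • v = 0 := by
    rw [two_smul]
    nth_rewrite 1 [h]
    simp
  rcases smul_eq_zero.1 h3 with h | h
  · exact absurd h h2
  · exact h

theorem add_mem_EP {t : (Module.End F V)ˣ} (ht : t * t = 1) (v : V) :
    v + (t : Module.End F V) v ∈ EP t := by
  rw [mem_EP, map_add, ← u_mul_apply, ht, u_one_apply, add_comm]

theorem sub_mem_EM {t : (Module.End F V)ˣ} (ht : t * t = 1) (v : V) :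
    v - (t : Module.End F V) v ∈ EM t := by
  rw [mem_EM, map_sub, ← u_mul_apply, ht, u_one_apply, neg_sub]

theorem decomp (h2 : (2 : F) ≠ 0) (t : (Module.End F V)ˣ) (v : V) :
    v = (2 : F)⁻¹ • (v + (t : Module.End F V) v) + (2 : F)⁻¹ • (v - (t : Module.End F V) v) := by
  rw [← smul_add, add_add_sub_cancel, ← two_smul F v, smul_smul, inv_mul_cancel₀ h2, one_smul]

theorem isCompl_E (h2 : (2 : F) ≠ 0) {t : (Module.End F V)ˣ} (ht : t * t = 1) :
    IsCompl (EP t) (EM t) := by
  constructor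
  · rw [Submodule.disjoint_def]
    intro v hp hm
    rw [mem_EP] at hp
    rw [mem_EM] at hm
    exact eq_zero_of_eq_neg h2 (hp.symm.trans hm)
  · rw [codisjoint_iff, eq_top_iff]
    intro v _
    rw [decomp h2 t v]
    exact Submodule.add_mem_sup ((EP t).smul_mem _ (add_mem_EP ht v))
      ((EM t).smul_mem _ (sub_mem_EM ht v))

theorem finrank_E [FiniteDimensional F V] (h2 : (2 : F) ≠ 0) {t : (Module.End F V)ˣ}
    (ht : t * t = 1) : finrank F (EP t) + finrank F (EM t) = finrank F V :=
  Submodule.finrank_add_eq_of_isCompl (isCompl_E h2 ht)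

theorem exists_EP_ne {t : (Module.End F V)ˣ} (ht : t * t = 1) (hne : t ≠ -1) :
    ∃ v ∈ EP t, v ≠ 0 := by
  by_contra hcon
  push Not at hcon
  apply hne
  apply u_ext
  intro v
  have := hcon _ (add_mem_EP ht v)
  rw [u_neg_apply, u_one_apply]
  exact (neg_eq_of_add_eq_zero_right this).symm

theorem exists_EM_ne {t : (Module.End F V)ˣ} (ht : t * t = 1) (hne : t ≠ 1) :
    ∃ v ∈ EM t, v ≠ 0 := by
  by_contra hcon
  push Not at hcon
  apply hne
  apply u_ext
  intro v
  have := hcon _ (sub_mem_EM ht v)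
  rw [u_one_apply]
  exact (sub_eq_zero.1 this).symm

theorem finrank_pos_of_exists [FiniteDimensional F V] {p : Submodule F V} (h : ∃ v ∈ p, v ≠ 0) :
    1 ≤ finrank F p := by
  obtain ⟨v, hv, hv0⟩ := h
  have : Nontrivial p := ⟨⟨⟨v, hv⟩, 0, fun h => hv0 (congrArg Subtype.val h)⟩⟩
  exact Module.finrank_pos

/-- restriction relation -/
def IsRes (p : Submodule F V) (c : (Module.End F p)ˣ) (g : (Module.End F V)ˣ) : Prop :=
  ∀ v : p, ((c : Module.End F p) v : V) = (g : Module.End F V) v

/-- restriction homomorphism -/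
def resHom (p : Submodule F V) (C : Subgroup (Module.End F V)ˣ)
    (hC : ∀ g ∈ C, ∀ v ∈ p, (g : Module.End F V) v ∈ p) : C →* (Module.End F p)ˣ :=
  MonoidHom.toHomUnits
    { toFun := fun g => LinearMap.restrict (g.1 : Module.End F V) (hC g.1 g.2)
      map_one' := by
        ext v
        rfl
      map_mul' := by
        intro a b
        ext v
        rfl }

theorem resHom_isRes (p : Submodule F V) (C : Subgroup (Module.End F V)ˣ)
    (hC : ∀ g ∈ C, ∀ v ∈ p, (g : Module.End F V) v ∈ p) (g : C) : IsRes p (resHom p C hC g) g.1 :=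
  fun _ => rfl

theorem pres_EP {t g : (Module.End F V)ˣ} (h : g * t = t * g) (v : V) (hv : v ∈ EP t) :
    (g : Module.End F V) v ∈ EP t := by
  rw [mem_EP] at hv ⊢
  rw [← u_mul_apply, ← h, u_mul_apply, hv]

theorem pres_EM {t g : (Module.End F V)ˣ} (h : g * t = t * g) (v : V) (hv : v ∈ EM t) :
    (g : Module.End F V) v ∈ EM t := by
  rw [mem_EM] at hv ⊢
  rw [← u_mul_apply, ← h, u_mul_apply, hv, map_neg]

theorem core [Finite F] [FiniteDimensional F V] (h2 : (2 : F) ≠ 0) (C : Subgroup (Module.End F V)ˣ)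
    (t : (Module.End F V)ˣ) (ht : t * t = 1) (hC : ∀ g ∈ C, g * t = t * g) :
    ∃ (C₁ : Subgroup (Module.End F (EP t))ˣ) (K₂ : Subgroup (Module.End F (EM t))ˣ),
      (∀ c ∈ C₁, ∃ g ∈ C, IsRes (EP t) c g) ∧
      (∀ k ∈ K₂, ∃ g ∈ C, IsRes (EM t) k g ∧ ∀ v ∈ EP t, (g : Module.End F V) v = v) ∧
      Nat.card C ≤ Nat.card C₁ * Nat.card K₂ := by
  set ρP := resHom (EP t) C (fun g hg => pres_EP (hC g hg)) with hρP
  set ρM := resHom (EM t) C (fun g hg => pres_EM (hC g hg)) with hρM
  refine ⟨ρP.range, ρP.ker.map ρM, ?_, ?_, ?_⟩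
  · rintro c ⟨g, rfl⟩
    exact ⟨g.1, g.2, resHom_isRes _ _ _ g⟩
  · rintro k ⟨g, hg, rfl⟩
    refine ⟨g.1, g.2, resHom_isRes _ _ _ g, ?_⟩
    intro v hv
    have h1 : ρP g = 1 := hg
    have h3 := resHom_isRes (EP t) C (fun g hg => pres_EP (hC g hg)) g ⟨v, hv⟩
    rw [← hρP, h1] at h3
    exact h3.symm
  · have h1 : Nat.card ρP.ker * Nat.card ρP.range = Nat.card C := by
      rw [← Subgroup.index_ker, Subgroup.card_mul_index]
    have h3 : Nat.card ρP.ker ≤ Nat.card (ρP.ker.map ρM) := by
      have : Finite V := Module.finite_of_finite F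
      have : Finite (EM t) := inferInstance
      have : Finite (Module.End F (EM t)) := Finite.of_injective _ DFunLike.coe_injective
      apply Nat.card_le_card_of_injective
        (fun k : ρP.ker => (⟨ρM k.1, Subgroup.mem_map_of_mem _ k.2⟩ : ρP.ker.map ρM))
      intro a b hab
      have hab' : ρM a.1 = ρM b.1 := congrArg Subtype.val hab
      apply Subtype.ext
      apply Subtype.ext
      apply u_ext
      intro v
      have hP : ∀ w ∈ EP t, (a.1.1 : Module.End F V) w = (b.1.1 : Module.End F V) w := by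
        intro w hw
        have ha := resHom_isRes (EP t) C (fun g hg => pres_EP (hC g hg)) a.1 ⟨w, hw⟩
        have hb := resHom_isRes (EP t) C (fun g hg => pres_EP (hC g hg)) b.1 ⟨w, hw⟩
        rw [← hρP] at ha hb
        have ha1 : ρP a.1 = 1 := a.2
        have hb1 : ρP b.1 = 1 := b.2
        rw [ha1] at ha
        rw [hb1] at hb
        exact ha.symm.trans hb
      have hM : ∀ w ∈ EM t, (a.1.1 : Module.End F V) w = (b.1.1 : Module.End F V) w := by
        intro w hw
        have ha := resHom_isRes (EM t) C (fun g hg => pres_EM (hC g hg)) a.1 ⟨w, hw⟩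
        have hb := resHom_isRes (EM t) C (fun g hg => pres_EM (hC g hg)) b.1 ⟨w, hw⟩
        rw [← hρM] at ha hb
        rw [hab'] at ha
        exact ha.symm.trans hb
      rw [decomp h2 t v, map_add, map_add, hP _ ((EP t).smul_mem _ (add_mem_EP ht v)),
        hM _ ((EM t).smul_mem _ (sub_mem_EM ht v))]
    calc Nat.card C = Nat.card ρP.range * Nat.card ρP.ker := by rw [← h1, mul_comm]
      _ ≤ _ := Nat.mul_le_mul_left _ h3

end Cfsg.Agent.Lib.Helper16.SpRank
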