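import Cfsg.Agent.Lib.Helper16.SpRank2

set_option autoImplicit false

namespace Cfsg.Agent.Lib.Helper16.SpRank

open Module

variable {F : Type*} [Field F] {V : Type*} [AddCommGroup V] [Module F V]

structure Symp (B : V →ₗ[F] V →ₗ[F] F) : Prop where
  alt : ∀ v, B v v = 0
  nd : ∀ v, (∀ w, B v w = 0) → v = 0

def IsIso (B : V →ₗ[F] V →ₗ[F] F) (g : (Module.End F V)ˣ) : Prop :=
  ∀ v w, B ((g : Module.End F V) v) ((g : Module.End F V) w) = B v w

structure Good (B : V →ₗ[F] V →ₗ[F] F) (G : Subgroup (Module.End F V)ˣ) : Prop where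
  iso : ∀ g ∈ G, IsIso B g
  sq : ∀ g ∈ G, g * g = 1 ∨ g * g = -1
  comm : ∀ g ∈ G, ∀ h ∈ G, g * h = h * g ∨ g * h = -(h * g)

structure EA (B : V →ₗ[F] V →ₗ[F] F) (G : Subgroup (Module.End F V)ˣ) : Prop where
  iso : ∀ g ∈ G, IsIso B g
  sq : ∀ g ∈ G, g * g = 1

/-- restricted form -/
def resB (B : V →ₗ[F] V →ₗ[F] F) (p : Submodule F V) : p →ₗ[F] p →ₗ[F] F := B.domRestrict₁₂ p p

theorem resB_apply (B : V →ₗ[F] V →ₗ[F] F) (p : Submodule F V) (v w : p) :
    resB B p v w = B v w := rfl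

theorem orth_PM (h2 : (2 : F) ≠ 0) {B : V →ₗ[F] V →ₗ[F] F} {t : (Module.End F V)ˣ} (hi : IsIso B t)
    {v w : V} (hv : v ∈ EP t) (hw : w ∈ EM t) : B v w = 0 := by
  have h := hi v w
  rw [mem_EP.1 hv, mem_EM.1 hw, map_neg] at h
  have h3 : (2 : F) * B v w = 0 := by linear_combination -h
  rcases mul_eq_zero.1 h3 with h | h
  · exact absurd h h2
  · exact h

theorem orth_MP (h2 : (2 : F) ≠ 0) {B : V →ₗ[F] V →ₗ[F] F} {t : (Module.End F V)ˣ} (hi : IsIso B t)
    {v w : V} (hv : v ∈ EP t) (hw : w ∈ EM t) : B w v = 0 := by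
  have h := hi w v
  rw [mem_EP.1 hv, mem_EM.1 hw, map_neg, LinearMap.neg_apply] at h
  have h3 : (2 : F) * B w v = 0 := by linear_combination -h
  rcases mul_eq_zero.1 h3 with h | h
  · exact absurd h h2
  · exact h

theorem symp_EP (h2 : (2 : F) ≠ 0) {B : V →ₗ[F] V →ₗ[F] F} (hB : Symp B) {t : (Module.End F V)ˣ}
    (hi : IsIso B t) (ht : t * t = 1) : Symp (resB B (EP t)) := by
  constructor
  · intro v
    exact hB.alt v
  · intro v hv
    apply Subtype.ext
    apply hB.nd
    intro w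
    rw [decomp h2 t w, map_add, map_smul, map_smul,
      orth_PM h2 hi v.2 (sub_mem_EM ht w)]
    have := hv ⟨_, add_mem_EP ht w⟩
    rw [resB_apply] at this
    rw [this]
    simp

theorem symp_EM (h2 : (2 : F) ≠ 0) {B : V →ₗ[F] V →ₗ[F] F} (hB : Symp B) {t : (Module.End F V)ˣ}
    (hi : IsIso B t) (ht : t * t = 1) : Symp (resB B (EM t)) := by
  constructor
  · intro v
    exact hB.alt v
  · intro v hv
    apply Subtype.ext
    apply hB.nd
    intro w
    rw [decomp h2 t w, map_add, map_smul, map_smul,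
      orth_MP h2 hi (add_mem_EP ht w) v.2]
    have := hv ⟨_, sub_mem_EM ht w⟩
    rw [resB_apply] at this
    rw [this]
    simp

theorem res_mul {p : Submodule F V} {c c' : (Module.End F p)ˣ} {g g' : (Module.End F V)ˣ}
    (h : IsRes p c g) (h' : IsRes p c' g') : IsRes p (c * c') (g * g') := by
  intro v
  rw [u_mul_apply, u_mul_apply, h, h']

theorem res_one (p : Submodule F V) : IsRes p 1 1 := fun _ => rfl

theorem res_neg {p : Submodule F V} {c : (Module.End F p)ˣ} {g : (Module.End F V)ˣ}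
    (h : IsRes p c g) : IsRes p (-c) (-g) := by
  intro v
  rw [u_neg_apply, u_neg_apply, ← h]
  rfl

theorem res_inj {p : Submodule F V} {c c' : (Module.End F p)ˣ} {g : (Module.End F V)ˣ}
    (h : IsRes p c g) (h' : IsRes p c' g) : c = c' := by
  apply u_ext
  intro v
  apply Subtype.ext
  rw [h, h']

theorem res_iso {B : V →ₗ[F] V →ₗ[F] F} {p : Submodule F V} {c : (Module.End F p)ˣ}
    {g : (Module.End F V)ˣ} (h : IsRes p c g) (hg : IsIso B g) : IsIso (resB B p) c := by
  intro v w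
  rw [resB_apply, resB_apply, h, h, hg]

theorem good_res {B : V →ₗ[F] V →ₗ[F] F} {C : Subgroup (Module.End F V)ˣ} (hC : Good B C)
    {p : Submodule F V} {C₁ : Subgroup (Module.End F p)ˣ}
    (h : ∀ c ∈ C₁, ∃ g ∈ C, IsRes p c g) : Good (resB B p) C₁ := by
  constructor
  · intro c hc
    obtain ⟨g, hg, hr⟩ := h c hc
    exact res_iso hr (hC.iso g hg)
  · intro c hc
    obtain ⟨g, hg, hr⟩ := h c hc
    rcases hC.sq g hg with h1 | h1
    · left
      have := res_mul hr hr
      rw [h1] at this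
      exact res_inj this (res_one p)
    · right
      have := res_mul hr hr
      rw [h1] at this
      exact res_inj this (res_neg (res_one p))
  · intro c hc c' hc'
    obtain ⟨g, hg, hr⟩ := h c hc
    obtain ⟨g', hg', hr'⟩ := h c' hc'
    rcases hC.comm g hg g' hg' with h1 | h1
    · left
      have := res_mul hr hr'
      rw [h1] at this
      exact res_inj this (res_mul hr' hr)
    · right
      have := res_mul hr hr'
      rw [h1] at this
      exact res_inj this (res_neg (res_mul hr' hr))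

theorem ea_res {B : V →ₗ[F] V →ₗ[F] F} {C : Subgroup (Module.End F V)ˣ} (hC : EA B C)
    {p : Submodule F V} {C₁ : Subgroup (Module.End F p)ˣ}
    (h : ∀ c ∈ C₁, ∃ g ∈ C, IsRes p c g) : EA (resB B p) C₁ := by
  constructor
  · intro c hc
    obtain ⟨g, hg, hr⟩ := h c hc
    exact res_iso hr (hC.iso g hg)
  · intro c hc
    obtain ⟨g, hg, hr⟩ := h c hc
    have := res_mul hr hr
    rw [hC.sq g hg] at this
    exact res_inj this (res_one p)

theorem ea_of_fix (h2 : (2 : F) ≠ 0) {B : V →ₗ[F] V →ₗ[F] F} {C : Subgroup (Module.End F V)ˣ}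
    (hC : Good B C) {p q : Submodule F V} {K₂ : Subgroup (Module.End F q)ˣ}
    (h : ∀ k ∈ K₂, ∃ g ∈ C, IsRes q k g ∧ ∀ v ∈ p, (g : Module.End F V) v = v)
    (hp : ∃ v ∈ p, v ≠ 0) : EA (resB B q) K₂ := by
  constructor
  · intro c hc
    obtain ⟨g, hg, hr, -⟩ := h c hc
    exact res_iso hr (hC.iso g hg)
  · intro c hc
    obtain ⟨g, hg, hr, hfix⟩ := h c hc
    have h1 : g * g = 1 := by
      rcases hC.sq g hg with h1 | h1
      · exact h1
      · exfalso
        obtain ⟨v, hv, hv0⟩ := hp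
        have h3 := congrArg (fun u : (Module.End F V)ˣ => (u : Module.End F V) v) h1
        simp only [u_mul_apply, u_neg_apply, u_one_apply, hfix v hv] at h3
        exact hv0 (eq_zero_of_eq_neg h2 h3)
    have := res_mul hr hr
    rw [h1] at this
    exact res_inj this (res_one q)

theorem EA.good {B : V →ₗ[F] V →ₗ[F] F} {K : Subgroup (Module.End F V)ˣ} (hK : EA B K) :
    Good B K :=
  ⟨hK.iso, fun g hg => Or.inl (hK.sq g hg), fun g hg h hh =>
    Or.inl (comm_of_sq g h (hK.sq g hg) (hK.sq h hh) (hK.sq _ (K.mul_mem hg hh)))⟩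

theorem two_le_finrank [FiniteDimensional F V] {B : V →ₗ[F] V →ₗ[F] F} (hB : Symp B)
    (hn : finrank F V ≠ 0) : 2 ≤ finrank F V := by
  by_contra hcon
  have h1 : finrank F V = 1 := by omega
  obtain ⟨v, hv0, hv⟩ := finrank_eq_one_iff'.1 h1
  apply hv0
  apply hB.nd
  intro w
  obtain ⟨c, rfl⟩ := hv w
  rw [map_smul, hB.alt, smul_zero]

theorem card_of_finrank_zero [FiniteDimensional F V] (hn : finrank F V = 0)
    (K : Subgroup (Module.End F V)ˣ) : Nat.card K = 1 := by
  have : Subsingleton V := finrank_zero_iff.1 hn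
  have : Subsingleton K := ⟨fun a b => Subtype.ext (u_ext (fun v => Subsingleton.elim _ _))⟩
  exact Nat.card_of_subsingleton 1

theorem ea_bound.{u} {F : Type*} [Field F] [Finite F] (h2 : (2 : F) ≠ 0) (n : ℕ) :
    ∀ (V : Type u) [AddCommGroup V] [Module F V] [FiniteDimensional F V]
      (B : V →ₗ[F] V →ₗ[F] F) (_ : Symp B) (K : Subgroup (Module.End F V)ˣ) (_ : EA B K),
      finrank F V = n → Nat.card K ≤ 2 ^ (n / 2) := by
  induction n using Nat.strong_induction_on with
  | _ n ih =>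
    intro V _ _ _ B hB K hK hn
    by_cases h : ∀ g ∈ K, g = 1 ∨ g = -1
    · rcases Nat.eq_zero_or_pos n with h0 | h0
      · rw [card_of_finrank_zero (hn.trans h0)]
        exact Nat.one_le_two_pow
      · have h3 := two_le_finrank hB (by omega)
        calc Nat.card K ≤ 2 ^ 1 := card_le_two K h
          _ ≤ 2 ^ (n / 2) := Nat.pow_le_pow_right (by norm_num) (by omega)
    · push Not at h
      obtain ⟨t, htK, ht1, ht2⟩ := h
      have ht := hK.sq t htK
      obtain ⟨C₁, K₂, hC₁, hK₂, hcard⟩ := core h2 K t ht (fun g hg =>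
        comm_of_sq g t (hK.sq g hg) ht (hK.sq _ (K.mul_mem hg htK)))
      have hsum := finrank_E h2 ht
      have ha := finrank_pos_of_exists (exists_EP_ne ht ht2)
      have hb := finrank_pos_of_exists (exists_EM_ne ht ht1)
      have i1 := ih (finrank F (EP t)) (by omega) (EP t) (resB B (EP t))
        (symp_EP h2 hB (hK.iso t htK) ht) C₁ (ea_res hK hC₁) rfl
      have i2 := ih (finrank F (EM t)) (by omega) (EM t) (resB B (EM t))
        (symp_EM h2 hB (hK.iso t htK) ht) K₂
        (ea_res hK (fun k hk => by obtain ⟨g, hg, hr, -⟩ := hK₂ k hk; exact ⟨g, hg, hr⟩)) rfl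
      calc Nat.card K ≤ Nat.card C₁ * Nat.card K₂ := hcard
        _ ≤ 2 ^ (finrank F (EP t) / 2) * 2 ^ (finrank F (EM t) / 2) := Nat.mul_le_mul i1 i2
        _ = 2 ^ (finrank F (EP t) / 2 + finrank F (EM t) / 2) := (pow_add _ _ _).symm
        _ ≤ 2 ^ (n / 2) := Nat.pow_le_pow_right (by norm_num) (by omega)

end Cfsg.Agent.Lib.Helper16.SpRank
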