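import Cfsg.Agent.Lib.Helper16.SpRank3

set_option autoImplicit false

namespace Cfsg.Agent.Lib.Helper16.SpRank

open Module

section

variable {F : Type*} [Field F] {V : Type*} [AddCommGroup V] [Module F V]

theorem swap_PM {t x : (Module.End F V)ˣ} (h : x * t = -(t * x)) (v : V) (hv : v ∈ EP t) :
    (x : Module.End F V) v ∈ EM t := by
  rw [mem_EP] at hv
  rw [mem_EM]
  have h' : t * x = -(x * t) := by rw [h, neg_neg]
  rw [← u_mul_apply, h', u_neg_apply, u_mul_apply, hv]

theorem swap_MP {t x : (Module.End F V)ˣ} (h : x * t = -(t * x)) (v : V) (hv : v ∈ EM t) :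
    (x : Module.End F V) v ∈ EP t := by
  rw [mem_EM] at hv
  rw [mem_EP]
  have h' : t * x = -(x * t) := by rw [h, neg_neg]
  rw [← u_mul_apply, h', u_neg_apply, u_mul_apply, hv, map_neg, neg_neg]

theorem finrank_eq_of_swap [FiniteDimensional F V] {t x : (Module.End F V)ˣ}
    (h : x * t = -(t * x)) : finrank F (EP t) = finrank F (EM t) := by
  apply le_antisymm
  · exact LinearMap.finrank_le_finrank_of_injective
      (f := LinearMap.restrict (x : Module.End F V) (swap_PM h)) (by
        intro a b hab
        apply Subtype.ext
        exact u_injective x (congrArg Subtype.val hab))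
  · exact LinearMap.finrank_le_finrank_of_injective
      (f := LinearMap.restrict (x : Module.End F V) (swap_MP h)) (by
        intro a b hab
        apply Subtype.ext
        exact u_injective x (congrArg Subtype.val hab))

theorem card_le_two_mul {Γ : Type*} [Group Γ] [Finite Γ] (G C : Subgroup Γ) (x : Γ)
    (h : ∀ g ∈ G, g ∈ C ∨ x⁻¹ * g ∈ C) : Nat.card G ≤ 2 * Nat.card C := by
  have hsub : (G : Set Γ) ⊆ (C : Set Γ) ∪ (fun c => x * c) '' (C : Set Γ) := by
    intro g hg
    rcases h g hg with h | h
    · exact Or.inl h
    · exact Or.inr ⟨x⁻¹ * g, h, by simp⟩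
  calc Nat.card G = (G : Set Γ).ncard := Nat.card_coe_set_eq _
    _ ≤ ((C : Set Γ) ∪ (fun c => x * c) '' (C : Set Γ)).ncard :=
        Set.ncard_le_ncard hsub (Set.toFinite _)
    _ ≤ (C : Set Γ).ncard + ((fun c => x * c) '' (C : Set Γ)).ncard := Set.ncard_union_le _ _
    _ ≤ (C : Set Γ).ncard + (C : Set Γ).ncard :=
        Nat.add_le_add_left (Set.ncard_image_le (Set.toFinite _)) _
    _ = 2 * Nat.card C := by
        have : Nat.card C = (C : Set Γ).ncard := Nat.card_coe_set_eq _
        rw [this]; ring

theorem Good.mono {B : V →ₗ[F] V →ₗ[F] F} {G C : Subgroup (Module.End F V)ˣ} (hG : Good B G)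
    (h : C ≤ G) : Good B C :=
  ⟨fun g hg => hG.iso g (h hg), fun g hg => hG.sq g (h hg),
    fun g hg g' hg' => hG.comm g (h hg) g' (h hg')⟩

theorem isIso_neg {B : V →ₗ[F] V →ₗ[F] F} {t : (Module.End F V)ˣ} (h : IsIso B t) :
    IsIso B (-t) := by
  intro v w
  rw [u_neg_apply, u_neg_apply, map_neg, map_neg, LinearMap.neg_apply, neg_neg, h]

instance finite_units [Finite F] [FiniteDimensional F V] : Finite (Module.End F V)ˣ := by
  have : Finite V := Module.finite_of_finite F
  have : Finite (Module.End F V) := Finite.of_injective _ DFunLike.coe_injective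
  infer_instance

end

theorem main_bound.{u} {F : Type*} [Field F] [Finite F] (h2 : (2 : F) ≠ 0) (n : ℕ) :
    ∀ (V : Type u) [AddCommGroup V] [Module F V] [FiniteDimensional F V]
      (B : V →ₗ[F] V →ₗ[F] F) (_ : Symp B) (G : Subgroup (Module.End F V)ˣ) (_ : Good B G),
      finrank F V = n →
        Nat.card G ≤ 2 ^ (2 * (n / 2) + 1) ∧ (6 ≤ n → Nat.card G ≤ 2 ^ (n - 1)) := by
  induction n using Nat.strong_induction_on with
  | _ n ih =>
    intro V _ _ _ B hB G hG hn
    by_cases hcB : ∀ g ∈ G, g * g = 1 → g = 1 ∨ g = -1
    · have h8 := caseB G hG.sq hG.comm hcB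
      rcases Nat.eq_zero_or_pos n with h0 | h0
      · rw [card_of_finrank_zero (hn.trans h0)]
        exact ⟨Nat.one_le_two_pow, fun h => by omega⟩
      · have h3 := two_le_finrank hB (by omega)
        constructor
        · calc Nat.card G ≤ 2 ^ 3 := h8
            _ ≤ _ := Nat.pow_le_pow_right (by norm_num) (by omega)
        · intro h6
          calc Nat.card G ≤ 2 ^ 3 := h8
            _ ≤ _ := Nat.pow_le_pow_right (by norm_num) (by omega)
    · push Not at hcB
      obtain ⟨t, htG, ht, ht1, ht2⟩ := hcB
      have hti := hG.iso t htG
      have hsum := finrank_E h2 ht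
      have ha := finrank_pos_of_exists (exists_EP_ne ht ht2)
      have hb := finrank_pos_of_exists (exists_EM_ne ht ht1)
      have aux : ∀ (s : (Module.End F V)ˣ), s * s = 1 → IsIso B s → s ≠ 1 → s ≠ -1 →
          (∀ g ∈ G, g * s = s * g) →
          Nat.card G ≤ 2 ^ (2 * (finrank F (EP s) / 2) + 1) * 2 ^ (finrank F (EM s) / 2) := by
        intro s hs hsi hs1 hs2 hC
        obtain ⟨C₁, K₂, hC₁, hK₂, hcard⟩ := core h2 G s hs hC
        have hsum' := finrank_E h2 hs
        have ha' := finrank_pos_of_exists (exists_EP_ne hs hs2)
        have hb' := finrank_pos_of_exists (exists_EM_ne hs hs1)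
        have i1 := (ih (finrank F (EP s)) (by omega) (EP s) (resB B (EP s))
          (symp_EP h2 hB hsi hs) C₁ (good_res hG hC₁) rfl).1
        have i2 := ea_bound h2 (finrank F (EM s)) (EM s) (resB B (EM s))
          (symp_EM h2 hB hsi hs) K₂ (ea_of_fix h2 hG hK₂ (exists_EP_ne hs hs2)) rfl
        exact hcard.trans (Nat.mul_le_mul i1 i2)
      by_cases hc : ∀ g ∈ G, g * t = t * g
      · have b1 := aux t ht hti ht1 ht2 hc
        have b2 := aux (-t) (by rw [neg_mul_neg, ht]) (isIso_neg hti)
          (by intro h; apply ht2; rw [← h, neg_neg]) (by intro h; exact ht1 (neg_injective h))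
          (by intro g hg; rw [mul_neg, neg_mul, hc g hg])
        rw [EP_neg, EM_neg] at b2
        rw [← pow_add] at b1 b2
        constructor
        · exact b1.trans (Nat.pow_le_pow_right (by norm_num) (by omega))
        · intro h6
          by_cases h3 : 3 ≤ finrank F (EM t)
          · exact b1.trans (Nat.pow_le_pow_right (by norm_num) (by omega))
          · exact b2.trans (Nat.pow_le_pow_right (by norm_num) (by omega))
      · push Not at hc
        obtain ⟨x, hxG, hx⟩ := hc
        have hxt : x * t = -(t * x) := by
          rcases hG.comm x hxG t htG with h | h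
          · exact absurd h hx
          · exact h
        have heq := finrank_eq_of_swap hxt
        obtain ⟨C, hCdef⟩ : ∃ C : Subgroup (Module.End F V)ˣ, C = G ⊓ Subgroup.centralizer {t} :=
          ⟨_, rfl⟩
        have hCG : C ≤ G := by rw [hCdef]; exact inf_le_left
        have hCt : ∀ g ∈ C, g * t = t * g := by
          intro g hg
          rw [hCdef] at hg
          exact Subgroup.mem_centralizer_singleton_iff.1 hg.2
        have hidx : Nat.card G ≤ 2 * Nat.card C := by
          apply card_le_two_mul G C x
          intro g hg
          rcases hG.comm g hg t htG with h | h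
          · left
            rw [hCdef]
            exact ⟨hg, Subgroup.mem_centralizer_singleton_iff.2 h⟩
          · right
            rw [hCdef]
            refine ⟨G.mul_mem (G.inv_mem hxG) hg, Subgroup.mem_centralizer_singleton_iff.2 ?_⟩
            have h5 : t * x⁻¹ = -(x⁻¹ * t) := by
              have : x * (t * x⁻¹) = x * (-(x⁻¹ * t)) := by
                rw [← mul_assoc, hxt, mul_neg, ← mul_assoc, mul_inv_cancel, one_mul, neg_mul,
                  mul_assoc, mul_inv_cancel, mul_one]
              exact mul_left_cancel this
            rw [← mul_assoc, h5, neg_mul, mul_assoc, mul_assoc, h, mul_neg]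
        obtain ⟨C₁, K₂, hC₁, hK₂, hcard⟩ := core h2 C t ht hCt
        have i1 := (ih (finrank F (EP t)) (by omega) (EP t) (resB B (EP t))
          (symp_EP h2 hB hti ht) C₁ (good_res (hG.mono hCG) hC₁) rfl).1
        have i2 : Nat.card K₂ ≤ 2 := by
          apply card_le_two
          intro k hk
          obtain ⟨g, hg, hr, hfix⟩ := hK₂ k hk
          have hxx : ∀ w : V, (x : Module.End F V) ((x : Module.End F V) w) = w ∨
              (x : Module.End F V) ((x : Module.End F V) w) = -w := by
            intro w
            rcases hG.sq x hxG with h | h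
            · left; rw [← u_mul_apply, h, u_one_apply]
            · right; rw [← u_mul_apply, h, u_neg_apply, u_one_apply]
          rcases hG.comm g (hCG hg) x hxG with h | h
          · left
            apply u_ext
            intro w
            apply Subtype.ext
            rw [hr, u_one_apply]
            have h6 : (g : Module.End F V) ((x : Module.End F V) ((x : Module.End F V) w)) =
                (x : Module.End F V) ((x : Module.End F V) w) := by
              rw [← u_mul_apply g x, h, u_mul_apply, hfix _ (swap_MP hxt _ w.2)]
            rcases hxx w with h7 | h7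
            · rwa [h7] at h6
            · rw [h7, map_neg] at h6
              exact neg_injective h6
          · right
            apply u_ext
            intro w
            apply Subtype.ext
            rw [hr, u_neg_apply, u_one_apply]
            have h6 : (g : Module.End F V) ((x : Module.End F V) ((x : Module.End F V) w)) =
                -(x : Module.End F V) ((x : Module.End F V) w) := by
              rw [← u_mul_apply g x, h, u_neg_apply, u_mul_apply, hfix _ (swap_MP hxt _ w.2)]
            rcases hxx w with h7 | h7
            · rw [h7] at h6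
              exact h6
            · rw [h7, map_neg] at h6
              exact neg_injective h6
        have htot : Nat.card G ≤ 2 ^ (2 * (finrank F (EP t) / 2) + 3) := by
          calc Nat.card G ≤ 2 * Nat.card C := hidx
            _ ≤ 2 * (Nat.card C₁ * Nat.card K₂) := Nat.mul_le_mul_left _ hcard
            _ ≤ 2 * (2 ^ (2 * (finrank F (EP t) / 2) + 1) * 2) :=
                Nat.mul_le_mul_left _ (Nat.mul_le_mul i1 i2)
            _ = 2 ^ (2 * (finrank F (EP t) / 2) + 3) := by ring
        constructor
        · exact htot.trans (Nat.pow_le_pow_right (by norm_num) (by omega))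
        · intro h6
          exact htot.trans (Nat.pow_le_pow_right (by norm_num) (by omega))

end Cfsg.Agent.Lib.Helper16.SpRank
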