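import Cfsg.Agent.Lib.Helper16.SpRank4
import Cfsg.Agent.S0246

set_option autoImplicit false

namespace Cfsg.Agent.Lib.Helper16.SpRank

open Matrix Cfsg Cfsg.Agent.Lib.Helper6 Cfsg.Agent.Lib.Helper12 Module

variable {F : Type*} [Field F] {m : ℕ}

/-- the symplectic form as a bilinear map -/
def spB (m : ℕ) (F : Type*) [Field F] :
    (Fin m ⊕ Fin m → F) →ₗ[F] (Fin m ⊕ Fin m → F) →ₗ[F] F :=
  LinearMap.mk₂ F (sympForm m F) sympForm_add_left sympForm_smul_left
    sympForm_add_right sympForm_smul_right

theorem spB_apply (u v : Fin m ⊕ Fin m → F) : spB m F u v = sympForm m F u v := rfl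

theorem spB_symp : Symp (spB m F) :=
  ⟨fun v => sympForm_self v, fun v h => sympForm_nondeg_left _ v h⟩

/-- the natural action -/
def tau : symplecticGroup (Fin m) F →* (Module.End F (Fin m ⊕ Fin m → F))ˣ :=
  MonoidHom.toHomUnits
    { toFun := fun A => Matrix.toLin' A.1
      map_one' := Matrix.toLin'_one
      map_mul' := fun A B => Matrix.toLin'_mul A.1 B.1 }

theorem tau_apply (A : symplecticGroup (Fin m) F) (v : Fin m ⊕ Fin m → F) :
    ((tau A : (Module.End F (Fin m ⊕ Fin m → F))ˣ) : Module.End F (Fin m ⊕ Fin m → F)) v =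
      (A : Matrix (Fin m ⊕ Fin m) (Fin m ⊕ Fin m) F) *ᵥ v := rfl

theorem tau_injective : Function.Injective (tau (F := F) (m := m)) := by
  intro A B h
  apply sp_ext
  intro x
  have := congrArg (fun u : (Module.End F (Fin m ⊕ Fin m → F))ˣ =>
    (u : Module.End F (Fin m ⊕ Fin m → F)) x) h
  exact this

theorem tau_center (hm : 1 ≤ m) (z : symplecticGroup (Fin m) F)
    (hz : z ∈ Subgroup.center (symplecticGroup (Fin m) F)) : tau z = 1 ∨ tau z = -1 := by
  rcases Cfsg.Agent.S0246.scalar_cases hm z hz with h | h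
  · left
    apply u_ext
    intro v
    rw [tau_apply, h, u_one_apply]
  · right
    apply u_ext
    intro v
    rw [tau_apply, h, u_neg_apply, u_one_apply]

theorem sp_side [Fintype F] (hodd : Odd (Fintype.card F)) (hm : 3 ≤ m)
    (E : Subgroup (PSp m F)) (hE : ∀ e ∈ E, e * e = 1) : Nat.card E ≤ 2 ^ (2 * m - 2) := by
  have h2 : (2 : F) ≠ 0 := by
    intro h
    have hc : ringChar F = 2 := CharP.ringChar_of_prime_eq_zero Nat.prime_two (by exact_mod_cast h)
    have hev := FiniteField.even_card_of_char_two hc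
    rcases hodd with ⟨k, hk⟩
    omega
  set Z := Subgroup.center (symplecticGroup (Fin m) F) with hZ
  set π := QuotientGroup.mk' Z with hπ
  have hπs : Function.Surjective π := QuotientGroup.mk'_surjective Z
  have hZ2 : Nat.card Z = 2 := by
    rw [Cfsg.Agent.S0246.result rfl m (by omega)]
    apply Nat.gcd_eq_left
    rcases hodd with ⟨k, hk⟩
    rw [hk]
    exact ⟨k, by omega⟩
  obtain ⟨E', hE'⟩ : ∃ E' : Subgroup (symplecticGroup (Fin m) F), E' = E.comap π := ⟨_, rfl⟩
  have hmem : ∀ A, A ∈ E' ↔ π A ∈ E := by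
    intro A; rw [hE']; exact Subgroup.mem_comap
  have hcard : Nat.card E' = Nat.card E * 2 := by
    have h1 : E'.index = E.index := by rw [hE']; exact Subgroup.index_comap_of_surjective E hπs
    have h3 := Subgroup.card_mul_index E'
    have h4 := Subgroup.card_mul_index E
    have h5 := Subgroup.card_eq_card_quotient_mul_card_subgroup Z
    rw [hZ2] at h5
    have h6 : E.index ≠ 0 := Subgroup.index_ne_zero_of_finite
    rw [h1, h5, ← h4] at h3
    have h7 : Nat.card E' * E.index = (Nat.card E * 2) * E.index := by rw [h3]; ring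
    exact Nat.eq_of_mul_eq_mul_right (Nat.pos_of_ne_zero h6) h7
  have hker : ∀ A, π A = 1 → A ∈ Z := by
    intro A hA
    exact (QuotientGroup.eq_one_iff A).1 hA
  have hgood : Good (spB m F) (E'.map tau) := by
    constructor
    · rintro _ ⟨A, -, rfl⟩ v w
      rw [tau_apply, tau_apply, spB_apply, spB_apply, sympForm_mulVec]
    · rintro _ ⟨A, hA, rfl⟩
      rw [← map_mul]
      apply tau_center (by omega)
      apply hker
      rw [map_mul]
      exact hE _ ((hmem A).1 hA)
    · rintro _ ⟨A, hA, rfl⟩ _ ⟨A', hA', rfl⟩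
      have hA1 := (hmem A).1 hA
      have hA2 := (hmem A').1 hA'
      have hc : π A * π A' = π A' * π A :=
        comm_of_sq _ _ (hE _ hA1) (hE _ hA2) (hE _ (E.mul_mem hA1 hA2))
      have hz : (A' * A)⁻¹ * (A * A') ∈ Z := by
        apply hker
        rw [map_mul, map_inv, map_mul, map_mul, hc, inv_mul_cancel]
      have h8 : tau A * tau A' = (tau A' * tau A) * tau ((A' * A)⁻¹ * (A * A')) := by
        rw [← map_mul, ← map_mul, ← map_mul, mul_inv_cancel_left]
      rcases tau_center (by omega) _ hz with h | h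
      · left
        rw [h8, h, mul_one]
      · right
        rw [h8, h]
        apply u_ext
        intro v
        rw [u_mul_apply, u_neg_apply, u_neg_apply, u_one_apply, map_neg]
  have hfr : finrank F (Fin m ⊕ Fin m → F) = 2 * m := by
    rw [Module.finrank_fintype_fun_eq_card, Fintype.card_sum, Fintype.card_fin]
    ring
  have hb := (main_bound h2 (2 * m) (Fin m ⊕ Fin m → F) (spB m F) spB_symp _ hgood hfr).2 (by omega)
  rw [Subgroup.card_map_of_injective tau_injective, hcard] at hb
  have h9 : 2 ^ (2 * m - 1) = 2 ^ (2 * m - 2) * 2 := by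
    rw [← pow_succ]
    congr 1
    omega
  rw [h9] at hb
  exact Nat.le_of_mul_le_mul_right hb (by norm_num)

end Cfsg.Agent.Lib.Helper16.SpRank
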