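import Cfsg.Agent.Lib.Helper16.Orth3

set_option autoImplicit false

namespace Cfsg.Agent.Lib.Helper16.SpRank

open Module Cfsg.Agent.Lib.Helper16 Cfsg.Agent.Lib.Helper6

section Grp

variable {Γ : Type*} [Group Γ]

theorem two_mul_card_le_of_lt [Finite Γ] {H H' : Subgroup Γ} (h : H < H') :
    2 * Nat.card H ≤ Nat.card H' := by
  obtain ⟨c, hc⟩ := Subgroup.card_dvd_of_le h.le
  have hpos : 0 < Nat.card H' := Nat.card_pos
  have hpos' : 0 < Nat.card H := Nat.card_pos
  have hc1 : c ≠ 1 := by
    rintro rfl
    rw [mul_one] at hc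
    exact h.ne (Subgroup.eq_of_le_of_card_ge h.le hc.le)
  have hc0 : c ≠ 0 := by
    rintro rfl
    omega
  have : 2 ≤ c := by omega
  rw [hc, mul_comm]
  exact Nat.mul_le_mul_left _ this

theorem chain_card [Finite Γ] (H₀ : Subgroup Γ) (k : ℕ) (x : Fin k → Γ) (K : Fin k → Subgroup Γ)
    (h0 : ∀ j, H₀ ≤ K j) (h1 : ∀ i j : Fin k, i < j → x i ∈ K j) (h2 : ∀ j, x j ∉ K j) :
    2 ^ k * Nat.card H₀ ≤ Nat.card (H₀ ⊔ Subgroup.closure (Set.range x) : Subgroup Γ) := by
  have key : ∀ j : ℕ, j ≤ k → 2 ^ j * Nat.card H₀ ≤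
      Nat.card (H₀ ⊔ Subgroup.closure (x '' {i : Fin k | i.val < j}) : Subgroup Γ) := by
    intro j
    induction j with
    | zero =>
      intro _
      rw [pow_zero, one_mul]
      exact Subgroup.card_le_of_le le_sup_left
    | succ j ih =>
      intro hj
      have ih' := ih (by omega)
      have hlt : (H₀ ⊔ Subgroup.closure (x '' {i : Fin k | i.val < j}) : Subgroup Γ) <
          H₀ ⊔ Subgroup.closure (x '' {i : Fin k | i.val < j + 1}) := by
        apply lt_of_le_of_ne
        · apply sup_le_sup_left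
          apply Subgroup.closure_mono
          apply Set.image_mono
          intro i hi
          exact Nat.lt_succ_of_lt hi
        · intro heq
          have hx : x ⟨j, hj⟩ ∈ (H₀ ⊔ Subgroup.closure (x '' {i : Fin k | i.val < j + 1}) :
              Subgroup Γ) := by
            apply Subgroup.mem_sup_right
            apply Subgroup.subset_closure
            exact ⟨⟨j, hj⟩, Nat.lt_succ_self j, rfl⟩
          rw [← heq] at hx
          have hle : (H₀ ⊔ Subgroup.closure (x '' {i : Fin k | i.val < j}) : Subgroup Γ) ≤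
              K ⟨j, hj⟩ := by
            apply sup_le (h0 _)
            rw [Subgroup.closure_le]
            rintro _ ⟨i, hi, rfl⟩
            exact h1 i ⟨j, hj⟩ hi
          exact h2 _ (hle hx)
      have := two_mul_card_le_of_lt hlt
      calc 2 ^ (j + 1) * Nat.card H₀ = 2 * (2 ^ j * Nat.card H₀) := by ring
        _ ≤ 2 * _ := Nat.mul_le_mul_left _ ih'
        _ ≤ _ := this
  refine (key k le_rfl).trans (Subgroup.card_le_of_le ?_)
  apply sup_le_sup_left
  apply Subgroup.closure_mono
  exact Set.image_subset_range _ _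

theorem closure_sq (S : Set Γ) (hc : ∀ a ∈ S, ∀ b ∈ S, a * b = b * a) (hs : ∀ a ∈ S, a * a = 1) :
    ∀ g ∈ Subgroup.closure S, g * g = 1 := by
  have s1 : ∀ s ∈ S, Subgroup.closure S ≤ Subgroup.centralizer {s} := by
    intro s hs'
    rw [Subgroup.closure_le]
    intro a ha
    exact Subgroup.mem_centralizer_singleton_iff.2 (hc a ha s hs')
  have s2 : ∀ g ∈ Subgroup.closure S, Subgroup.closure S ≤ Subgroup.centralizer {g} := by
    intro g hg
    rw [Subgroup.closure_le]
    intro a ha
    exact Subgroup.mem_centralizer_singleton_iff.2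
      (Subgroup.mem_centralizer_singleton_iff.1 (s1 a ha hg)).symm
  intro g hg
  induction hg using Subgroup.closure_induction with
  | mem x hx => exact hs x hx
  | one => simp
  | mul x y hx hy ihx ihy =>
    have hxy : y * x = x * y := Subgroup.mem_centralizer_singleton_iff.1 (s2 x hx hy)
    calc x * y * (x * y) = x * (y * x) * y := by group
      _ = x * (x * y) * y := by rw [hxy]
      _ = (x * x) * (y * y) := by group
      _ = 1 := by rw [ihx, ihy, one_mul]
  | inv x hx ih =>
    have : x⁻¹ = x := inv_eq_of_mul_eq_one_left ih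
    rw [this, ih]

end Grp

end Cfsg.Agent.Lib.Helper16.SpRank
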