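import Cfsg.Agent.Lib.Helper16.SpRank6

set_option autoImplicit false

namespace Cfsg.Agent.Lib.Helper16.SpRank

open Module Cfsg.Agent.Lib.Helper16 Cfsg.Agent.Lib.Helper6

variable {F V : Type*} [Field F] [AddCommGroup V] [Module F V] (Q : QuadraticForm F V)

local notation "P" => QuadraticMap.polarBilin Q

/-- stabiliser of a vector in the commutator subgroup -/
def fixG (u : V) : Subgroup ↥(commutator ↥(OG Q)) where
  carrier := {g | g.1.1 u = u}
  mul_mem' := by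
    intro a b ha hb
    have ha' : a.1.1 u = u := ha
    have hb' : b.1.1 u = u := hb
    show a.1.1 (b.1.1 u) = u
    rw [hb', ha']
  one_mem' := rfl
  inv_mem' := by
    intro a ha
    have ha' : a.1.1 u = u := ha
    show (a.1.1)⁻¹ u = u
    have : (a.1.1)⁻¹ (a.1.1 u) = u := by rw [← LinearEquiv.mul_apply, inv_mul_cancel]; rfl
    rwa [ha'] at this

theorem mem_fixG {u : V} {g : ↥(commutator ↥(OG Q))} : g ∈ fixG Q u ↔ g.1.1 u = u := Iff.rfl

structure OFam {J : Type*} (w : J → V) : Prop where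
  orth : ∀ j k, j ≠ k → P (w j) (w k) = 0
  ns : ∀ j, Q (w j) ≠ 0

variable {Q} {J : Type*} {w : J → V}

theorem OFam.fix (hw : OFam Q w) {j k : J} (h : j ≠ k) : (rO Q (w j)).1 (w k) = w k :=
  reflE_of_orth Q (w j) (w k) (hw.orth k j h.symm)

theorem OFam.neg (hw : OFam Q w) (j : J) : (rO Q (w j)).1 (w j) = - w j :=
  reflE_self Q (w j) (hw.ns j)

theorem OFam.comm (hw : OFam Q w) (j k : J) :
    rO Q (w j) * rO Q (w k) = rO Q (w k) * rO Q (w j) := by
  by_cases h : j = k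
  · rw [h]
  · have := rO_conj Q (rO Q (w j)) (w k)
    rw [hw.fix h, mul_inv_eq_iff_eq_mul] at this
    exact this

/-- product of two reflections as an element of the commutator subgroup -/
noncomputable def gen [FiniteDimensional F V] (hQ : (P).Nondegenerate) (hw : OFam Q w) (j k : J)
    (h : Q (w j) = Q (w k)) : ↥(commutator ↥(OG Q)) :=
  ⟨rO Q (w j) * rO Q (w k), rO_mul_mem_of_eq Q hQ _ _ (hw.ns j) h⟩

theorem gen_fix [FiniteDimensional F V] (hQ : (P).Nondegenerate) (hw : OFam Q w) (j k l : J)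
    (h : Q (w j) = Q (w k)) (hj : j ≠ l) (hk : k ≠ l) : gen hQ hw j k h ∈ fixG Q (w l) := by
  rw [mem_fixG]
  show (rO Q (w j)).1 ((rO Q (w k)).1 (w l)) = w l
  rw [hw.fix hk, hw.fix hj]

theorem gen_move [FiniteDimensional F V] (h2 : (2 : F) ≠ 0) (hQ : (P).Nondegenerate)
    (hw : OFam Q w) (j k : J)
    (h : Q (w j) = Q (w k)) (hjk : j ≠ k) : gen hQ hw j k h ∉ fixG Q (w j) := by
  rw [mem_fixG]
  show ¬ (rO Q (w j)).1 ((rO Q (w k)).1 (w j)) = w j
  rw [hw.fix hjk.symm, hw.neg]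
  intro h3
  have h4 : (2 : F) • w j = 0 := by
    rw [two_smul]
    nth_rewrite 1 [← h3]
    simp
  rcases smul_eq_zero.1 h4 with h5 | h5
  · exact h2 h5
  · apply hw.ns j
    rw [h5, map_zero]

theorem block [Finite F] [FiniteDimensional F V] (h2 : (2 : F) ≠ 0) (hQ : (P).Nondegenerate)
    (hw : OFam Q w) (H₀ : Subgroup ↥(commutator ↥(OG Q))) (k : ℕ) (α : Fin k → J) (α₀ : J)
    (hinj : Function.Injective α) (hα₀ : ∀ i, α i ≠ α₀) (hq : ∀ i, Q (w (α i)) = Q (w α₀))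
    (hH : ∀ i, H₀ ≤ fixG Q (w (α i))) :
    2 ^ k * Nat.card H₀ ≤
      Nat.card (H₀ ⊔ Subgroup.closure (Set.range fun i => gen hQ hw (α i) α₀ (hq i)) :
        Subgroup ↥(commutator ↥(OG Q))) := by
  have : Finite V := Module.finite_of_finite F
  have : Finite (V ≃ₗ[F] V) := Finite.of_injective _ DFunLike.coe_injective
  apply chain_card H₀ k _ (fun j => fixG Q (w (α j))) hH
  · intro i j hij
    exact gen_fix hQ hw _ _ _ _ (fun h => hij.ne (hinj h)) (hα₀ j).symm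
  · intro j
    exact gen_move h2 hQ hw _ _ _ (hα₀ j)

theorem gen_mem_D [FiniteDimensional F V] (hQ : (P).Nondegenerate) (hw : OFam Q w) (j k : J)
    (h : Q (w j) = Q (w k)) :
    gen hQ hw j k h ∈ (Subgroup.closure (Set.range fun j => rO Q (w j))).comap
      (commutator ↥(OG Q)).subtype := by
  rw [Subgroup.mem_comap]
  exact Subgroup.mul_mem _ (Subgroup.subset_closure ⟨j, rfl⟩) (Subgroup.subset_closure ⟨k, rfl⟩)

theorem o_abstract [Finite F] [FiniteDimensional F V] (h2 : (2 : F) ≠ 0) (hQ : (P).Nondegenerate)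
    (hw : OFam Q w) (k l : ℕ) (α : Fin k → J) (α₀ : J) (β : Fin l → J) (β₀ : J)
    (hα : Function.Injective α) (hα₀ : ∀ i, α i ≠ α₀) (hqα : ∀ i, Q (w (α i)) = Q (w α₀))
    (hβ : Function.Injective β) (hβ₀ : ∀ i, β i ≠ β₀) (hqβ : ∀ i, Q (w (β i)) = Q (w β₀))
    (hαβ : ∀ i j, α i ≠ β j) (hαβ₀ : ∀ j, α₀ ≠ β j) :
    ∃ E : Subgroup ↥(commutator ↥(OG Q)), (∀ e ∈ E, e * e = 1) ∧ 2 ^ (k + l) ≤ Nat.card E := by
  set H₁ : Subgroup ↥(commutator ↥(OG Q)) :=
    ⊥ ⊔ Subgroup.closure (Set.range fun i => gen hQ hw (α i) α₀ (hqα i)) with hH₁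
  have b1 := block h2 hQ hw ⊥ k α α₀ hα hα₀ hqα (fun i => bot_le)
  rw [Subgroup.card_bot, mul_one, ← hH₁] at b1
  have hfix : ∀ j, H₁ ≤ fixG Q (w (β j)) := by
    intro j
    apply sup_le bot_le
    rw [Subgroup.closure_le]
    rintro _ ⟨i, rfl⟩
    exact gen_fix hQ hw _ _ _ _ (hαβ i j) (hαβ₀ j)
  have b2 := block h2 hQ hw H₁ l β β₀ hβ hβ₀ hqβ hfix
  refine ⟨H₁ ⊔ Subgroup.closure (Set.range fun i => gen hQ hw (β i) β₀ (hqβ i)), ?_, ?_⟩
  rotate_left
  · calc 2 ^ (k + l) = 2 ^ l * 2 ^ k := by rw [pow_add, mul_comm]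
      _ ≤ 2 ^ l * Nat.card H₁ := Nat.mul_le_mul_left _ b1
      _ ≤ _ := b2
  · have hD : (H₁ ⊔ Subgroup.closure (Set.range fun i => gen hQ hw (β i) β₀ (hqβ i)) :
        Subgroup ↥(commutator ↥(OG Q))) ≤
        (Subgroup.closure (Set.range fun j => rO Q (w j))).comap
          (commutator ↥(OG Q)).subtype := by
      apply sup_le
      · apply sup_le bot_le
        rw [Subgroup.closure_le]
        rintro _ ⟨i, rfl⟩
        exact gen_mem_D hQ hw _ _ _
      · rw [Subgroup.closure_le]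
        rintro _ ⟨i, rfl⟩
        exact gen_mem_D hQ hw _ _ _
    intro e he
    have h1 := hD he
    rw [Subgroup.mem_comap] at h1
    have h3 := closure_sq (Set.range fun j => rO Q (w j))
      (by rintro _ ⟨j, rfl⟩ _ ⟨k, rfl⟩; exact hw.comm j k)
      (by rintro _ ⟨j, rfl⟩; exact rO_mul_self Q _) _ h1
    exact Subtype.ext h3

end Cfsg.Agent.Lib.Helper16.SpRank
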