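import Cfsg.Agent.Lib.Helper16.SpRank7
import Cfsg.Agent.Lib.Helper16.Orth27

set_option autoImplicit false

namespace Cfsg.Agent.Lib.Helper16.SpRank

open Module Cfsg Cfsg.Agent.Lib.Helper16 Cfsg.Agent.Lib.Helper6 QuadraticMap

variable {m : ℕ} {F : Type*} [Field F]

/-- an orthogonal basis of the standard odd-dimensional form -/
def wOdd (m : ℕ) (F : Type*) [Field F] :
    Unit ⊕ (Fin m ⊕ Fin m) → (Unit ⊕ (Fin m ⊕ Fin m) → F)
  | Sum.inl _ => Pi.single (Sum.inl ()) 1
  | Sum.inr (Sum.inl i) => Pi.single (Sum.inr (Sum.inl i)) 1 + Pi.single (Sum.inr (Sum.inr i)) 1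
  | Sum.inr (Sum.inr i) => Pi.single (Sum.inr (Sum.inl i)) 1 - Pi.single (Sum.inr (Sum.inr i)) 1

theorem Q_wOdd_0 : qOdd m F (wOdd m F (Sum.inl ())) = 1 := by
  classical
  rw [qOdd_apply]; simp [quadFormOdd, wOdd, Pi.single_apply]

theorem Q_wOdd_1 (i : Fin m) : qOdd m F (wOdd m F (Sum.inr (Sum.inl i))) = 1 := by
  classical
  rw [qOdd_apply]; simp [quadFormOdd, wOdd, Pi.single_apply]

theorem Q_wOdd_2 (i : Fin m) : qOdd m F (wOdd m F (Sum.inr (Sum.inr i))) = -1 := by
  classical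
  rw [qOdd_apply]; simp [quadFormOdd, wOdd, Pi.single_apply]

theorem wOdd_ofam : OFam (qOdd m F) (wOdd m F) := by
  classical
  constructor
  · intro j k hjk
    rw [polarBilin_apply_apply, qOdd_coe, polar_odd]
    rcases j with j | j | j <;> rcases k with k | k | k
    · exact absurd rfl hjk
    · simp [wOdd, Pi.single_apply]
    · simp [wOdd, Pi.single_apply]
    · simp [wOdd, Pi.single_apply]
    · have : j ≠ k := fun h => hjk (by rw [h])
      simp [wOdd, Pi.single_apply, this, this.symm, Finset.sum_add_distrib]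
    · simp [wOdd, Pi.single_apply, Finset.sum_add_distrib]
      by_cases h : j = k
      · simp [h]
      · simp [h, Ne.symm h]
    · simp [wOdd, Pi.single_apply]
    · simp [wOdd, Pi.single_apply, Finset.sum_add_distrib]
      by_cases h : j = k
      · simp [h]
      · simp [h, Ne.symm h]
    · have : j ≠ k := fun h => hjk (by rw [h])
      simp [wOdd, Pi.single_apply, this, this.symm, Finset.sum_add_distrib]
  · intro j
    rcases j with j | j | j
    · rw [Q_wOdd_0]; exact one_ne_zero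
    · rw [Q_wOdd_1]; exact one_ne_zero
    · rw [Q_wOdd_2]; exact neg_ne_zero.2 one_ne_zero

theorem o_side [Fintype F] (h2 : (2 : F) ≠ 0) (hm : 3 ≤ m) :
    ∃ E : Subgroup ↥(commutator ↥(OG (qOdd m F))), (∀ e ∈ E, e * e = 1) ∧
      2 ^ (2 * m - 1) ≤ Nat.card E := by
  obtain ⟨E, h1, h3⟩ := o_abstract h2 (qOdd_nondeg h2) (wOdd_ofam (m := m) (F := F)) m (m - 1)
    (fun i => Sum.inr (Sum.inl i)) (Sum.inl ())
    (fun i => Sum.inr (Sum.inr ⟨i.val, by have := i.2; omega⟩))
    (Sum.inr (Sum.inr ⟨m - 1, by omega⟩))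
    (by intro a b hab; simpa using hab)
    (by intro i; simp)
    (by intro i; rw [Q_wOdd_0, Q_wOdd_1])
    (by intro a b hab; simpa [Fin.ext_iff] using hab)
    (by intro i h
        have h4 : i.val = m - 1 := by simpa [Fin.ext_iff] using h
        have := i.2
        omega)
    (by intro i; rw [Q_wOdd_2, Q_wOdd_2])
    (by intro i j; simp)
    (by intro j; simp)
  refine ⟨E, h1, ?_⟩
  have : 2 * m - 1 = m + (m - 1) := by omega
  rw [this]
  exact h3

theorem center_bot [Fintype F] (h2 : (2 : F) ≠ 0) (hm : 3 ≤ m) :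
    Subgroup.center ↥(commutator ↥(OG (qOdd m F))) = ⊥ := by
  have hp : HPair (qOdd m F)
      (Pi.single (Sum.inr (Sum.inl ⟨0, by omega⟩)) 1 : Unit ⊕ (Fin m ⊕ Fin m) → F)
      (Pi.single (Sum.inr (Sum.inr ⟨0, by omega⟩)) 1) :=
    ⟨qOdd_hyp.1 _, qOdd_hyp.2.1 _, by rw [polarBilin_apply_apply, qOdd_hyp.2.2.1]; simp⟩
  have := card_center_one (qOdd_nondeg h2) (by rw [finrank_odd']; omega) hp
    (Or.inr (negO_not_mem_of_odd _ h2 (qOdd_nondeg h2) (by rw [finrank_odd']; exact ⟨m, rfl⟩)))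
  exact Subgroup.card_eq_one.1 this

end Cfsg.Agent.Lib.Helper16.SpRank
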