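import Mathlib
import Cfsg.Agent.Lib.Helper16.Orth44

set_option autoImplicit false
set_option linter.unusedSectionVars false

namespace Cfsg.Agent.Lib.Helper16

open Cfsg Cfsg.Agent.Lib.Helper6 Module

variable {F V : Type*} [Field F] [AddCommGroup V] [Module F V] {Q : QuadraticForm F V}

local notation "P" => QuadraticMap.polarBilin Q

/-- the Siegel transformation with centre `w` and direction `u` lies in `M` -/
def SHas (M : Subgroup ↥(OG Q)) (w u : V) : Prop :=
  ∃ (hw : Q w = 0) (huw : P u w = 0), siegO Q w u hw huw ∈ M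

variable {M : Subgroup ↥(OG Q)}

theorem SHas.sing {w u : V} (h : SHas M w u) : Q w = 0 := h.1

theorem SHas.orth {w u : V} (h : SHas M w u) : P u w = 0 := h.2.1

theorem SHas.add {w u u' : V} (h : SHas M w u) (h' : SHas M w u') : SHas M w (u + u') := by
  obtain ⟨hw, hu, h1⟩ := h
  obtain ⟨_, hu', h2⟩ := h'
  refine ⟨hw, by rw [map_add, LinearMap.add_apply, hu, hu', add_zero], ?_⟩
  have := M.mul_mem h1 h2
  rwa [siegO_mul] at this

theorem SHas.neg {w u : V} (h : SHas M w u) : SHas M w (-u) := by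
  obtain ⟨hw, hu, h1⟩ := h
  refine ⟨hw, by rw [map_neg, LinearMap.neg_apply, hu, neg_zero], ?_⟩
  have := M.inv_mem h1
  rwa [siegO_inv] at this

theorem SHas.sub {w u u' : V} (h : SHas M w u) (h' : SHas M w u') : SHas M w (u - u') := by
  rw [sub_eq_add_neg]; exact h.add h'.neg

theorem SHas.map {w u : V} (h : SHas M w u) {g : ↥(OG Q)} (hg : g ∈ M) :
    SHas M (g.1 w) (g.1 u) := by
  obtain ⟨hw, hu, h1⟩ := h
  refine ⟨by rw [g.2 w, hw], by rw [OG_polar Q g.2, hu], ?_⟩
  have := M.mul_mem (M.mul_mem hg h1) (M.inv_mem hg)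
  rwa [siegO_conj] at this

theorem SHas.swap {w u : V} (h : SHas M w u) (hu0 : Q u = 0) : SHas M u w := by
  obtain ⟨hw, hu, h1⟩ := h.neg
  have hu' : P u w = 0 := h.orth
  refine ⟨hu0, by rw [wq_symm]; exact hu', ?_⟩
  have : siegO Q u w hu0 (by rw [wq_symm]; exact hu') = siegO Q w (-u) hw hu := by
    apply Subtype.ext
    ext1 z
    rw [siegO_apply, siegO_apply, siegL_apply, siegL_apply, hw]
    have : Q (-u) = 0 := by rw [QuadraticMap.map_neg, hu0]
    rw [this]
    simp only [map_neg]
    module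
  rw [this]; exact h1

theorem SHas.smul_right_of_left {w u : V} {c : F} (h : SHas M (c • w) u) (hc : c ≠ 0) :
    SHas M w (c • u) := by
  obtain ⟨hw, hu, h1⟩ := h
  have hw' : Q w = 0 := by
    rw [wq_smul] at hw
    exact (mul_eq_zero.1 hw).resolve_left (mul_ne_zero hc hc)
  have hu' : P u w = 0 := by
    rw [map_smul, smul_eq_mul] at hu
    exact (mul_eq_zero.1 hu).resolve_left hc
  refine ⟨hw', by rw [map_smul, LinearMap.smul_apply, hu', smul_zero], ?_⟩
  rw [← siegO_smul_left c w u hw' hu']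
  exact h1

theorem SHas.smul_left_of_right {w u : V} {c : F} (h : SHas M w (c • u)) (hc : c ≠ 0) :
    SHas M (c • w) u := by
  obtain ⟨hw, hu, h1⟩ := h
  have hu' : P u w = 0 := by
    rw [map_smul, LinearMap.smul_apply, smul_eq_mul] at hu
    exact (mul_eq_zero.1 hu).resolve_left hc
  refine ⟨by rw [wq_smul, hw, mul_zero], by rw [map_smul, hu', smul_zero], ?_⟩
  rw [siegO_smul_left c w u hw hu']
  exact h1

theorem SHas_self {w : V} (hw : Q w = 0) (c : F) : SHas M w (c • w) := by
  refine ⟨hw, by rw [map_smul, LinearMap.smul_apply, wq_self, hw]; simp, ?_⟩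
  have : siegO Q w (c • w) hw (by rw [map_smul, LinearMap.smul_apply, wq_self, hw]; simp) = 1 := by
    apply Subtype.ext
    ext1 z
    rw [siegO_apply, siegL_smul_self Q w c hw]; rfl
  rw [this]; exact M.one_mem

theorem SHas_zero {w : V} (hw : Q w = 0) : SHas M w 0 := by
  have := SHas_self (M := M) hw 0
  rwa [zero_smul] at this

/-- the basic move: conjugating by a Siegel transformation fixing the centre -/
theorem SHas.move {x y a b : V} (h : SHas M x y) (h' : SHas M a b) (hax : P a x = 0)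
    (hbx : P b x = 0) (hya : P y a = 0) : SHas M x ((P y b) • a) := by
  obtain ⟨ha, hb, h1⟩ := h'
  have h2 := h.map h1
  rw [siegO_fix_of_orth a b x ha hb (by rw [wq_symm]; exact hax) (by rw [wq_symm]; exact hbx),
    siegO_apply, siegL_apply, hya] at h2
  have h3 := h2.sub h
  have e : y + (P y b - Q b * 0) • a + (-(0 : F)) • b - y = (P y b) • a := by
    simp
  rwa [e] at h3

/-- every vector is a sum of three singular vectors -/
theorem exists_three_sing {e f : V} (hp : HPair Q e f) (x : V) :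
    ∃ s₁ s₂ s₃ : V, Q s₁ = 0 ∧ Q s₂ = 0 ∧ Q s₃ = 0 ∧ x = s₁ + s₂ + s₃ ∧
      ∀ t, P e t = 0 → P f t = 0 → P x t = 0 → P s₁ t = 0 ∧ P s₂ t = 0 ∧ P s₃ t = 0 := by
  set t : V := (hp.π x : V) with ht
  refine ⟨(P f x + Q t) • e, (P e x - 1) • f, (-Q t) • e + (1 : F) • f + t,
    by rw [wq_smul, hp.he, mul_zero], by rw [wq_smul, hp.hf, mul_zero],
    by rw [hp.Q_comb _ _ _ (hp.π x).2]; ring, ?_, ?_⟩
  · conv_lhs => rw [hp.eq_comb x]
    rw [← ht]
    module
  · intro s h1 h2 h3
    have h4 : P t s = 0 := by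
      rw [ht, hp.π_coe, map_sub, map_sub, map_smul, map_smul, LinearMap.sub_apply,
        LinearMap.sub_apply, LinearMap.smul_apply, LinearMap.smul_apply, h1, h2, h3]
      simp
    refine ⟨by rw [map_smul, LinearMap.smul_apply, h1, smul_zero],
      by rw [map_smul, LinearMap.smul_apply, h2, smul_zero], ?_⟩
    rw [map_add, map_add, map_smul, map_smul, LinearMap.add_apply, LinearMap.add_apply,
      LinearMap.smul_apply, LinearMap.smul_apply, h1, h2, h4]
    simp

end Cfsg.Agent.Lib.Helper16
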