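import Mathlib
import Cfsg.Agent.Lib.Helper6.SubfieldGL
import Cfsg.Agent.Lib.Helper16.FrobCore

set_option autoImplicit false
set_option linter.unusedSectionVars false

namespace Cfsg.Agent.Lib.Helper16

open Matrix Cfsg Cfsg.Agent.Lib.Helper6

variable {F : Type*} [Field F] {ι : Type} [Fintype ι] [DecidableEq ι]
variable (F₀ : Subfield F) (P : Matrix.GeneralLinearGroup ι F)

/-- coordinatewise inclusion -/
def up (x : ι → F₀) : ι → F := fun i => (x i : F)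

/-- rational vectors -/
def rv (x : ι → F₀) : ι → F := (P : Matrix ι ι F) *ᵥ up F₀ x

/-- rational covectors -/
def rc (y : ι → F₀) : ι → F := up F₀ y ᵥ* ((P⁻¹ : Matrix.GeneralLinearGroup ι F) : Matrix ι ι F)

theorem up_add (x y : ι → F₀) : up F₀ (x + y) = up F₀ x + up F₀ y := by
  ext i; simp [up]

theorem up_sub (x y : ι → F₀) : up F₀ (x - y) = up F₀ x - up F₀ y := by
  ext i; simp [up]

theorem up_smul (c : F₀) (x : ι → F₀) : up F₀ (c • x) = (c : F) • up F₀ x := by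
  ext i; simp [up]

theorem up_zero : up F₀ (0 : ι → F₀) = 0 := by
  ext i; simp [up]

theorem up_dot (y x : ι → F₀) : up F₀ y ⬝ᵥ up F₀ x = ((y ⬝ᵥ x : F₀) : F) := by
  simp [up, dotProduct]

theorem up_single (i : ι) : up F₀ (Pi.single i 1) = Pi.single i 1 := by
  ext j
  by_cases h : j = i
  · subst h; simp [up]
  · simp [up, Pi.single_apply, h]

theorem up_injective : Function.Injective (up F₀ (ι := ι)) := by
  intro x y h
  ext i
  exact congrFun h i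

theorem rv_add (x y : ι → F₀) : rv F₀ P (x + y) = rv F₀ P x + rv F₀ P y := by
  rw [rv, up_add, mulVec_add]; rfl

theorem rv_sub (x y : ι → F₀) : rv F₀ P (x - y) = rv F₀ P x - rv F₀ P y := by
  rw [rv, up_sub, mulVec_sub]; rfl

theorem rv_smul (c : F₀) (x : ι → F₀) : rv F₀ P (c • x) = (c : F) • rv F₀ P x := by
  rw [rv, up_smul, mulVec_smul]; rfl

theorem rv_zero : rv F₀ P 0 = 0 := by
  rw [rv, up_zero, mulVec_zero]

theorem rc_add (x y : ι → F₀) : rc F₀ P (x + y) = rc F₀ P x + rc F₀ P y := by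
  rw [rc, up_add, add_vecMul]; rfl

theorem rc_sub (x y : ι → F₀) : rc F₀ P (x - y) = rc F₀ P x - rc F₀ P y := by
  rw [rc, up_sub, sub_vecMul]; rfl

theorem rc_smul (c : F₀) (x : ι → F₀) : rc F₀ P (c • x) = (c : F) • rc F₀ P x := by
  rw [rc, up_smul, smul_vecMul]; rfl

theorem rc_zero : rc F₀ P 0 = 0 := by
  rw [rc, up_zero, zero_vecMul]

theorem rc_dot (y : ι → F₀) (v : ι → F) :
    rc F₀ P y ⬝ᵥ v = up F₀ y ⬝ᵥ (((P⁻¹ : Matrix.GeneralLinearGroup ι F) : Matrix ι ι F) *ᵥ v) := by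
  rw [rc, Matrix.dotProduct_mulVec]

theorem rc_dot_rv (y x : ι → F₀) : rc F₀ P y ⬝ᵥ rv F₀ P x = ((y ⬝ᵥ x : F₀) : F) := by
  rw [rc_dot, rv, gl_inv_mulVec, up_dot]

theorem rc_single_dot (i : ι) (v : ι → F) :
    rc F₀ P (Pi.single i 1) ⬝ᵥ v = (((P⁻¹ : Matrix.GeneralLinearGroup ι F) : Matrix ι ι F) *ᵥ v) i := by
  rw [rc_dot, up_single, single_one_dotProduct]

theorem rv_injective : Function.Injective (rv F₀ P) := by
  intro x y h
  apply up_injective F₀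
  have := congrArg (fun v => ((P⁻¹ : Matrix.GeneralLinearGroup ι F) : Matrix ι ι F) *ᵥ v) h
  simpa [rv, gl_inv_mulVec] using this

theorem rv_ne_zero {x : ι → F₀} (hx : x ≠ 0) : rv F₀ P x ≠ 0 := by
  intro h
  apply hx
  apply rv_injective F₀ P
  rw [h, rv_zero]

theorem rat_rv (x : ι → F₀) : Rat F₀ P (rv F₀ P x) :=
  rat_mulVec F₀ P _ (fun i => (x i).2)

theorem exists_of_rat {v : ι → F} (hv : Rat F₀ P v) : ∃ x, v = rv F₀ P x := by
  refine ⟨fun i => ⟨_, hv i⟩, ?_⟩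
  have : up F₀ (fun i => (⟨_, hv i⟩ : F₀)) =
      ((P⁻¹ : Matrix.GeneralLinearGroup ι F) : Matrix ι ι F) *ᵥ v := rfl
  rw [rv, this, gl_mulVec_inv]

/-- a vector all of whose rational coordinates lie in `F₀` is rational -/
theorem exists_of_forall_rc {v : ι → F} (hv : ∀ y, rc F₀ P y ⬝ᵥ v ∈ F₀) : ∃ x, v = rv F₀ P x := by
  apply exists_of_rat
  intro i
  rw [← rc_single_dot F₀ P]
  exact hv _

/-- expansion of a vector in the rational basis -/
theorem eq_sum_rv (v : ι → F) :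
    v = ∑ i, (rc F₀ P (Pi.single i 1) ⬝ᵥ v) • rv F₀ P (Pi.single i 1) := by
  have h1 : ∀ i, rv F₀ P (Pi.single i 1) = (P : Matrix ι ι F) *ᵥ Pi.single i 1 := by
    intro i; rw [rv, up_single]
  simp only [h1, rc_single_dot]
  simp only [← mulVec_smul]
  rw [← Matrix.mulVec_sum]
  have h2 : ∑ i, (((P⁻¹ : Matrix.GeneralLinearGroup ι F) : Matrix ι ι F) *ᵥ v) i • (Pi.single i 1 : ι → F) =
      ((P⁻¹ : Matrix.GeneralLinearGroup ι F) : Matrix ι ι F) *ᵥ v := by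
    ext j
    simp [Finset.sum_apply, Pi.single_apply]
  rw [h2, gl_mulVec_inv]

/-- expansion of a covector in the rational dual basis -/
theorem eq_sum_rc (a : ι → F) :
    a = ∑ i, (a ⬝ᵥ rv F₀ P (Pi.single i 1)) • rc F₀ P (Pi.single i 1) := by
  have h1 : ∀ i, a ⬝ᵥ rv F₀ P (Pi.single i 1) = (a ᵥ* (P : Matrix ι ι F)) i := by
    intro i
    rw [rv, up_single, Matrix.dotProduct_mulVec, dotProduct_single_one]
  have h2 : ∀ i, rc F₀ P (Pi.single i 1) =
      Pi.single i 1 ᵥ* ((P⁻¹ : Matrix.GeneralLinearGroup ι F) : Matrix ι ι F) := by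
    intro i; rw [rc, up_single]
  simp only [h1, h2, ← smul_vecMul]
  rw [← Matrix.sum_vecMul]
  have h3 : ∑ i, (a ᵥ* (P : Matrix ι ι F)) i • (Pi.single i 1 : ι → F) = a ᵥ* (P : Matrix ι ι F) := by
    ext j
    simp [Finset.sum_apply, Pi.single_apply]
  rw [h3, vecMul_vecMul, ← Units.val_mul, mul_inv_cancel, Units.val_one, vecMul_one]

variable {F₀ P}
variable {H : Subgroup (Matrix.GeneralLinearGroup ι F)}

/-- commutator of two transvections -/
theorem THas_comm {v a u b : ι → F} (h1 : THas H v a) (h2 : THas H u b) (hav : a ⬝ᵥ v = 0)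
    (hbu : b ⬝ᵥ u = 0) (hbv : b ⬝ᵥ v = 0) : THas H v ((a ⬝ᵥ u) • b) := by
  obtain ⟨g₃, hg₃, e₃⟩ := h1.neg hav
  obtain ⟨g₄, hg₄, e₄⟩ := h2.neg hbu
  obtain ⟨g₁, hg₁, e₁⟩ := h1
  obtain ⟨g₂, hg₂, e₂⟩ := h2
  refine ⟨g₁ * g₂ * g₃ * g₄, H.mul_mem (H.mul_mem (H.mul_mem hg₁ hg₂) hg₃) hg₄, ?_⟩
  rw [Units.val_mul, Units.val_mul, Units.val_mul, e₁, e₂, e₃, e₄, Matrix.ext_iff_mulVec]
  intro x
  rw [← Matrix.mulVec_mulVec, ← Matrix.mulVec_mulVec, ← Matrix.mulVec_mulVec]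
  simp only [rk1_mulVec, dotProduct_add, dotProduct_smul, neg_dotProduct, smul_dotProduct, hav, hbu,
    hbv, smul_eq_mul]
  ext i
  simp only [Pi.add_apply, Pi.smul_apply, smul_eq_mul]
  ring

end Cfsg.Agent.Lib.Helper16
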