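import Mathlib
import Cfsg.Agent.Lib.Helper16.SubSL1

set_option autoImplicit false
set_option linter.unusedSectionVars false

namespace Cfsg.Agent.Lib.Helper16

open Matrix Cfsg Cfsg.Agent.Lib.Helper6 Module

/-- no ring strictly between `F₀` and `F` when the degree is prime -/
theorem subring_dichotomy {F : Type*} [Field F] [Fintype F] (F₀ : Subfield F) (r : ℕ)
    (hr : r.Prime) (hcard : Fintype.card F = Nat.card F₀ ^ r) (B : F → Prop)
    (hcoe : ∀ c : F₀, B c) (hadd : ∀ a b, B a → B b → B (a + b))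
    (hmul : ∀ a b, B a → B b → B (a * b)) (l : F) (hl : B l) (hl0 : l ∉ F₀) : ∀ μ, B μ := by
  classical
  let A : Subalgebra F₀ F :=
    { carrier := {x | B x}
      mul_mem' := fun {a b} ha hb => hmul a b ha hb
      add_mem' := fun {a b} ha hb => hadd a b ha hb
      algebraMap_mem' := fun c => hcoe c }
  have hfr : finrank F₀ F = r := by
    have h1 := Module.card_eq_pow_finrank (K := F₀) (V := F)
    rw [hcard, Nat.card_eq_fintype_card] at h1
    exact (Nat.pow_right_injective (Fintype.one_lt_card (α := F₀)) h1).symm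
  haveI := Subalgebra.isSimpleOrder_of_finrank_prime F₀ F (by rw [hfr]; exact hr)
  rcases eq_bot_or_eq_top A with h | h
  · exfalso
    have h1 : l ∈ A := hl
    rw [h, Algebra.mem_bot] at h1
    obtain ⟨c, rfl⟩ := h1
    exact hl0 c.2
  · intro μ
    have : μ ∈ A := by rw [h]; trivial
    exact this

/-- existence of a vector orthogonal to `k` given ones outside a small subspace -/
theorem exists_dot_zero_notMem {K : Type*} [Field K] {ι : Type} [Fintype ι] [DecidableEq ι] {k : ℕ}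
    (xs : Fin k → ι → K) (Y : Submodule K (ι → K)) (h : finrank K Y + k < Fintype.card ι) :
    ∃ y, (∀ j, y ⬝ᵥ xs j = 0) ∧ y ∉ Y := by
  set Φ := Matrix.mulVecLin (Matrix.of xs) with hΦ
  have h1 := LinearMap.finrank_range_add_finrank_ker Φ
  have h2 : finrank K (LinearMap.range Φ) ≤ k := by
    have := Submodule.finrank_le (LinearMap.range Φ)
    simpa using this
  rw [Module.finrank_fintype_fun_eq_card] at h1
  have h3 : ¬ LinearMap.ker Φ ≤ Y := by
    intro hle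
    have := Submodule.finrank_mono hle
    omega
  obtain ⟨y, hy, hyY⟩ := SetLike.not_le_iff_exists.1 h3
  refine ⟨y, fun j => ?_, hyY⟩
  have h4 : Matrix.of xs *ᵥ y = 0 := hy
  have := congrFun h4 j
  rw [dotProduct_comm]
  exact this

theorem exists_dot_one {K : Type*} [Field K] {ι : Type} [Fintype ι] [DecidableEq ι]
    (x₀ x₁ : ι → K) (hx₀ : x₀ ≠ 0) (h : x₁ ∉ Submodule.span K {x₀}) :
    ∃ b, b ⬝ᵥ x₀ = 1 ∧ b ⬝ᵥ x₁ = 1 := by
  have h1 : x₀ ∉ Submodule.span K {x₁ - x₀} := by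
    intro hc
    obtain ⟨c, hc⟩ := Submodule.mem_span_singleton.1 hc
    have hc0 : c ≠ 0 := by
      rintro rfl
      rw [zero_smul] at hc
      exact hx₀ hc.symm
    apply h
    rw [Submodule.mem_span_singleton]
    refine ⟨1 + c⁻¹, ?_⟩
    have : x₁ - x₀ = c⁻¹ • x₀ := by
      conv_rhs => rw [← hc, smul_smul, inv_mul_cancel₀ hc0, one_smul]
    rw [add_smul, one_smul, ← this]; abel
  obtain ⟨b, hb1, hb2⟩ := exists_row _ _ h1
  refine ⟨b, hb2, ?_⟩
  have := hb1 _ (Submodule.mem_span_singleton_self _)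
  rw [dotProduct_sub, hb2] at this
  exact sub_eq_zero.1 this

variable {F : Type*} [Field F] {ι : Type} [Fintype ι] [DecidableEq ι]
variable {F₀ : Subfield F} {P : Matrix.GeneralLinearGroup ι F}
variable {M : Subgroup (Matrix.GeneralLinearGroup ι F)}

theorem glT_rat_mem (x y : ι → F₀) (h : rc F₀ P y ⬝ᵥ rv F₀ P x = 0) :
    glT (rv F₀ P x) (rc F₀ P y) h ∈ Geo.subfieldSubgroup F₀ P ⊓ Geo.specialLinear ι F := by
  refine Subgroup.mem_inf.2 ⟨?_, glT_mem_SL _ _ _⟩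
  apply mem_subfieldSubgroup_of F₀ P _ 1 one_ne_zero
  intro v hv
  obtain ⟨x', rfl⟩ := exists_of_rat F₀ P hv
  rw [inv_one, one_smul, glT_mulVec, rc_dot_rv, ← rv_smul, ← rv_add]
  exact rat_rv F₀ P _

theorem THas_rat (hS : Geo.subfieldSubgroup F₀ P ⊓ Geo.specialLinear ι F ≤ M) (x y : ι → F₀)
    (h : y ⬝ᵥ x = 0) : THas M (rv F₀ P x) (rc F₀ P y) :=
  THas_of_mem (by rw [rc_dot_rv, h]; rfl) (hS (glT_rat_mem x y (by rw [rc_dot_rv, h]; rfl)))

theorem glT_inv (u w : ι → F) (h : w ⬝ᵥ u = 0) :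
    (glT u w h)⁻¹ = glT u (-w) (by rw [neg_dotProduct, h, neg_zero]) := by
  rw [inv_eq_iff_mul_eq_one]
  apply gl_ext_mulVec
  intro x
  rw [Units.val_mul, ← Matrix.mulVec_mulVec, glT_mulVec, glT_mulVec, dotProduct_add,
    dotProduct_smul, h, neg_dotProduct]
  ext i
  simp

/-- conjugation by a rational transvection -/
theorem THas_conj_rat (hS : Geo.subfieldSubgroup F₀ P ⊓ Geo.specialLinear ι F ≤ M) {v w : ι → F}
    (h : THas M v w) (a b : ι → F₀) (hab : b ⬝ᵥ a = 0) :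
    THas M (v + (rc F₀ P b ⬝ᵥ v) • rv F₀ P a) (w - (w ⬝ᵥ rv F₀ P a) • rc F₀ P b) := by
  have h0 : rc F₀ P b ⬝ᵥ rv F₀ P a = 0 := by rw [rc_dot_rv, hab]; rfl
  have h1 := h.conj (hS (glT_rat_mem a b h0))
  rw [glT_mulVec, glT_inv, glT_coe, Matrix.vecMul_add, vecMul_one, vecMul_vecMulVec, smul_neg,
    ← sub_eq_add_neg] at h1
  exact h1

variable (F₀ P M) in
/-- the parameters `l` such that all `l`-multiples of rational transvections lie in `M` -/
def Bm (l : F) : Prop := ∀ x y : ι → F₀, y ⬝ᵥ x = 0 → THas M (rv F₀ P x) (l • rc F₀ P y)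

theorem Bm_of_one (hS : Geo.subfieldSubgroup F₀ P ⊓ Geo.specialLinear ι F ≤ M) (l : F)
    (x₀ : ι → F₀) (hx₀ : x₀ ≠ 0)
    (h : ∀ y : ι → F₀, y ⬝ᵥ x₀ = 0 → THas M (rv F₀ P x₀) (l • rc F₀ P y)) : Bm F₀ P M l := by
  intro x₁ y₁ hy₁
  by_cases hx : x₁ ∈ Submodule.span F₀ {x₀}
  · obtain ⟨c, rfl⟩ := Submodule.mem_span_singleton.1 hx
    rw [rv_smul, THas_smul_iff, smul_comm, ← rc_smul]
    apply h
    rw [smul_dotProduct, ← dotProduct_smul, hy₁]
  · obtain ⟨b, hb0, hb1⟩ := exists_dot_one x₀ x₁ hx₀ hx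
    have hab : b ⬝ᵥ (x₁ - x₀) = 0 := by rw [dotProduct_sub, hb0, hb1, sub_self]
    have h1 := h (y₁ + (y₁ ⬝ᵥ (x₁ - x₀)) • b) (by
      rw [add_dotProduct, smul_dotProduct, hb0, dotProduct_sub, hy₁]
      simp)
    have h2 := THas_conj_rat hS h1 (x₁ - x₀) b hab
    rw [rc_dot_rv, hb0, smul_dotProduct, rc_dot_rv] at h2
    have e1 : rv F₀ P x₀ + ((1 : F₀) : F) • rv F₀ P (x₁ - x₀) = rv F₀ P x₁ := by
      rw [← rv_smul, ← rv_add]; congr 1; simp
    have e2 : l • rc F₀ P (y₁ + (y₁ ⬝ᵥ (x₁ - x₀)) • b) -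
        (l • (((y₁ + (y₁ ⬝ᵥ (x₁ - x₀)) • b) ⬝ᵥ (x₁ - x₀) : F₀) : F)) • rc F₀ P b = l • rc F₀ P y₁ := by
      rw [add_dotProduct, smul_dotProduct, hab, smul_zero, add_zero, smul_assoc, ← rc_smul,
        ← smul_sub, ← rc_sub]
      congr 2
      simp
    rw [e1, e2] at h2
    exact h2

theorem Bm_of_pair (hS : Geo.subfieldSubgroup F₀ P ⊓ Geo.specialLinear ι F ≤ M)
    (hn : 3 ≤ Fintype.card ι) (l : F) (x₀ y₀ : ι → F₀) (hx₀ : x₀ ≠ 0) (hy₀ : y₀ ≠ 0)
    (hxy : y₀ ⬝ᵥ x₀ = 0) (h : THas M (rv F₀ P x₀) (l • rc F₀ P y₀)) : Bm F₀ P M l := by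
  have step : ∀ y y' : ι → F₀, y ≠ 0 → y ⬝ᵥ x₀ = 0 → y' ⬝ᵥ x₀ = 0 → y' ∉ Submodule.span F₀ {y} →
      THas M (rv F₀ P x₀) (l • rc F₀ P y) → THas M (rv F₀ P x₀) (l • rc F₀ P y') := by
    intro y y' hy hyx hyx' hnot hT
    obtain ⟨a, ha0, ha1⟩ := exists_dot_one y y' hy hnot
    have hab : (y - y') ⬝ᵥ a = 0 := by
      rw [sub_dotProduct, dotProduct_comm, ha0, dotProduct_comm, ha1, sub_self]
    have h2 := THas_conj_rat hS hT a (y - y') hab
    rw [rc_dot_rv, sub_dotProduct, hyx, hyx', smul_dotProduct, rc_dot_rv, dotProduct_comm, ha0] at h2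
    have e1 : rv F₀ P x₀ + (((0 : F₀) - 0 : F₀) : F) • rv F₀ P a = rv F₀ P x₀ := by simp
    have e2 : l • rc F₀ P y - (l • ((1 : F₀) : F)) • rc F₀ P (y - y') = l • rc F₀ P y' := by
      rw [smul_assoc, ← rc_smul, ← smul_sub, ← rc_sub]
      congr 2
      simp
    rw [e1, e2] at h2
    exact h2
  apply Bm_of_one hS l x₀ hx₀
  intro y₁ hy₁
  by_cases hy : y₁ ∈ Submodule.span F₀ {y₀}
  · obtain ⟨y₂, hy2, hy2'⟩ := exists_dot_zero_notMem (fun _ : Fin 1 => x₀) (Submodule.span F₀ {y₀})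
      (by
        have := finrank_span_singleton hy₀ (K := F₀)
        omega)
    have hy20 : y₂ ≠ 0 := by
      rintro rfl
      exact hy2' (Submodule.zero_mem _)
    have h1 := step y₀ y₂ hy₀ hxy (hy2 0) hy2' h
    by_cases hy10 : y₁ = 0
    · rw [hy10, rc_zero, smul_zero]; exact THas_zero_right _
    apply step y₂ y₁ hy20 (hy2 0) hy₁ _ h1
    intro hc
    obtain ⟨c, rfl⟩ := Submodule.mem_span_singleton.1 hy
    obtain ⟨d, hd⟩ := Submodule.mem_span_singleton.1 hc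
    have hd0 : d ≠ 0 := by
      rintro rfl
      rw [zero_smul] at hd
      exact hy10 hd.symm
    apply hy2'
    rw [Submodule.mem_span_singleton]
    refine ⟨d⁻¹ * c, ?_⟩
    rw [mul_smul, ← hd, smul_smul, inv_mul_cancel₀ hd0, one_smul]
  · exact step y₀ y₁ hy₀ hxy hy₁ hy h

theorem Bm_coe (hS : Geo.subfieldSubgroup F₀ P ⊓ Geo.specialLinear ι F ≤ M) (c : F₀) :
    Bm F₀ P M (c : F) := by
  intro x y hxy
  rw [← rc_smul]
  apply THas_rat hS
  rw [smul_dotProduct, hxy, smul_zero]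

theorem Bm_add {a b : F} (ha : Bm F₀ P M a) (hb : Bm F₀ P M b) : Bm F₀ P M (a + b) := by
  intro x y hxy
  rw [add_smul]
  apply (ha x y hxy).add (hb x y hxy)
  rw [smul_dotProduct, rc_dot_rv, hxy]
  simp

theorem Bm_mul (hS : Geo.subfieldSubgroup F₀ P ⊓ Geo.specialLinear ι F ≤ M)
    (hn : 3 ≤ Fintype.card ι) {a b : F} (ha : Bm F₀ P M a) (hb : Bm F₀ P M b) :
    Bm F₀ P M (a * b) := by
  obtain ⟨i, j, k, hij, hik, hjk⟩ := Fintype.two_lt_card_iff.1 (by omega : 2 < Fintype.card ι)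
  have d : ∀ s t : ι, s ≠ t → (Pi.single s (1 : F₀) : ι → F₀) ⬝ᵥ Pi.single t 1 = 0 := by
    intro s t hst
    simp [hst.symm]
  have d1 : ∀ s : ι, (Pi.single s (1 : F₀) : ι → F₀) ⬝ᵥ Pi.single s 1 = 1 := by
    intro s
    simp
  have hne : ∀ s : ι, (Pi.single s (1 : F₀) : ι → F₀) ≠ 0 := by
    intro s h
    have := congrFun h s
    simp at this
  apply Bm_of_pair hS hn _ (Pi.single i 1) (Pi.single j 1) (hne i) (hne j) (d j i hij.symm)
  have h1 := ha (Pi.single i 1) (Pi.single k 1) (d k i hik.symm)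
  have h2 := hb (Pi.single k 1) (Pi.single j 1) (d j k hjk)
  have h3 := THas_comm h1 h2 (by rw [smul_dotProduct, rc_dot_rv, d k i hik.symm]; simp)
    (by rw [smul_dotProduct, rc_dot_rv, d j k hjk]; simp)
    (by rw [smul_dotProduct, rc_dot_rv, d j i hij.symm]; simp)
  rw [smul_dotProduct, rc_dot_rv, d1 k, smul_smul] at h3
  simpa using h3

end Cfsg.Agent.Lib.Helper16
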