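import Mathlib
import Cfsg.Agent.Lib.Helper16.SubSL2

set_option autoImplicit false
set_option linter.unusedSectionVars false

namespace Cfsg.Agent.Lib.Helper16

open Matrix Cfsg Cfsg.Agent.Lib.Helper6 Module

variable {F : Type*} [Field F] {ι : Type} [Fintype ι] [DecidableEq ι]
variable {F₀ : Subfield F} {P : Matrix.GeneralLinearGroup ι F}
variable {M : Subgroup (Matrix.GeneralLinearGroup ι F)}

theorem single_dot_ne (s t : ι) (hst : s ≠ t) :
    (Pi.single s (1 : F₀) : ι → F₀) ⬝ᵥ Pi.single t 1 = 0 := by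
  simp [hst.symm]

theorem single_dot_self (s : ι) : (Pi.single s (1 : F₀) : ι → F₀) ⬝ᵥ Pi.single s 1 = 1 := by
  simp

theorem single_ne_zero' (s : ι) : (Pi.single s (1 : F₀) : ι → F₀) ≠ 0 := by
  intro h
  have := congrFun h s
  simp at this

theorem THas_sum {v : ι → F} {κ : Type*} (s : Finset κ) (f : κ → ι → F)
    (h : ∀ j ∈ s, THas M v (f j)) (h0 : ∀ j ∈ s, f j ⬝ᵥ v = 0) : THas M v (∑ j ∈ s, f j) := by
  classical
  induction s using Finset.induction_on with
  | empty => simpa using THas_zero_right v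
  | insert a s ha ih =>
    rw [Finset.sum_insert ha]
    exact (h a (Finset.mem_insert_self a s)).add
      (ih (fun j hj => h j (Finset.mem_insert_of_mem hj)) (fun j hj => h0 j (Finset.mem_insert_of_mem hj)))
      (h0 a (Finset.mem_insert_self a s))

theorem SL_le_of_Bm [Nontrivial ι] (h : ∀ l, Bm F₀ P M l) : Geo.specialLinear ι F ≤ M := by
  apply specialLinear_le_of_centreSet
  have h1 : ∀ i, rv F₀ P (Pi.single i 1) ∈ centreSet M := by
    intro i w hw
    rw [eq_sum_rc F₀ P w]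
    apply THas_sum
    · intro j _
      by_cases hij : j = i
      · subst hij
        rw [hw, zero_smul]; exact THas_zero_right _
      · exact h _ _ _ (single_dot_ne j i hij)
    · intro j _
      by_cases hij : j = i
      · subst hij
        rw [hw, zero_smul, zero_dotProduct]
      · rw [smul_dotProduct, rc_dot_rv, single_dot_ne j i hij]; simp
  intro v
  rw [eq_sum_rv F₀ P v]
  have : ∀ s : Finset ι, ∑ i ∈ s, (rc F₀ P (Pi.single i 1) ⬝ᵥ v) • rv F₀ P (Pi.single i 1) ∈ centreSet M := by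
    intro s
    induction s using Finset.induction_on with
    | empty => simpa using centreSet_zero
    | insert a s ha ih =>
      rw [Finset.sum_insert ha]
      exact centreSet_add (centreSet_smul (h1 a) _) ih
  exact this _

theorem exists_rc_of_forall {a : ι → F} (h : ∀ u, a ⬝ᵥ rv F₀ P u ∈ F₀) : ∃ y, a = rc F₀ P y := by
  refine ⟨fun i => ⟨_, h (Pi.single i 1)⟩, ?_⟩
  have h1 : up F₀ (fun i => (⟨_, h (Pi.single i 1)⟩ : F₀)) = a ᵥ* (P : Matrix ι ι F) := by
    ext i
    change a ⬝ᵥ rv F₀ P (Pi.single i 1) = _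
    rw [rv, up_single, Matrix.dotProduct_mulVec, dotProduct_single_one]
  rw [rc, h1, vecMul_vecMul, ← Units.val_mul, mul_inv_cancel, Units.val_one, vecMul_one]

/-- transvections of `M` with rational centre are rational -/
theorem rat_of_centre (hS : Geo.subfieldSubgroup F₀ P ⊓ Geo.specialLinear ι F ≤ M)
    (hn : 3 ≤ Fintype.card ι) (hB : ∀ l, Bm F₀ P M l → l ∈ F₀) (x₀ : ι → F₀) (hx₀ : x₀ ≠ 0)
    (a : ι → F) (h : THas M (rv F₀ P x₀) a) (ha : a ⬝ᵥ rv F₀ P x₀ = 0) : ∃ y, a = rc F₀ P y := by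
  apply exists_rc_of_forall
  intro u
  obtain ⟨b, hb, hb0⟩ := exists_dot_zero_notMem ![x₀, u] ⊥ (by simp; omega)
  have hb0' : b ≠ 0 := fun h => hb0 (by rw [h]; exact Submodule.zero_mem _)
  have h0 : b ⬝ᵥ x₀ = 0 := hb 0
  have h1 : b ⬝ᵥ u = 0 := hb 1
  have h2 := THas_comm h (THas_rat hS u b h1) ha (by rw [rc_dot_rv, h1]; rfl)
    (by rw [rc_dot_rv, h0]; rfl)
  exact hB _ (Bm_of_pair hS hn _ x₀ b hx₀ hb0' h0 h2)

/-- transvections of `M` with rational axis are rational -/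
theorem rat_of_axis (hS : Geo.subfieldSubgroup F₀ P ⊓ Geo.specialLinear ι F ≤ M)
    (hn : 3 ≤ Fintype.card ι) (hB : ∀ l, Bm F₀ P M l → l ∈ F₀) (y₀ : ι → F₀) (hy₀ : y₀ ≠ 0)
    (v : ι → F) (h : THas M v (rc F₀ P y₀)) (hv : rc F₀ P y₀ ⬝ᵥ v = 0) : ∃ x, v = rv F₀ P x := by
  apply exists_of_forall_rc
  intro ψ
  obtain ⟨b, hb, hb0⟩ := exists_dot_zero_notMem ![ψ, y₀] ⊥ (by simp; omega)
  have hb0' : b ≠ 0 := fun h => hb0 (by rw [h]; exact Submodule.zero_mem _)
  have h0 : ψ ⬝ᵥ b = 0 := by rw [dotProduct_comm]; exact hb 0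
  have h1 : y₀ ⬝ᵥ b = 0 := by rw [dotProduct_comm]; exact hb 1
  have h2 := THas_comm (THas_rat hS b ψ h0) h (by rw [rc_dot_rv, h0]; rfl) hv
    (by rw [rc_dot_rv, h1]; rfl)
  exact hB _ (Bm_of_pair hS hn _ b y₀ hb0' hy₀ h1 h2)

theorem gl_mulVec_ne_zero (h : Matrix.GeneralLinearGroup ι F) {v : ι → F} (hv : v ≠ 0) :
    (h : Matrix ι ι F) *ᵥ v ≠ 0 := by
  intro hc
  apply hv
  have := gl_inv_mulVec h v
  rw [hc, mulVec_zero] at this
  exact this.symm

/-- an `F`-multiple of a rational vector which is rational is an `F₀`-multiple -/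
theorem smul_rv_eq_rv {t : F} {x x' : ι → F₀} (hx : x ≠ 0) (h : t • rv F₀ P x = rv F₀ P x') :
    t ∈ F₀ := by
  obtain ⟨b, -, hb⟩ := exists_row (⊥ : Submodule F₀ (ι → F₀)) x (by simpa using hx)
  have := congrArg (fun v => rc F₀ P b ⬝ᵥ v) h
  simp only [dotProduct_smul, rc_dot_rv, hb] at this
  have h2 : t = ((b ⬝ᵥ x' : F₀) : F) := by simpa using this
  rw [h2]
  exact (b ⬝ᵥ x').2

/-- an element mapping rational points to rational points lies in the subfield subgroup -/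
theorem mem_subfield_of_points [Nonempty ι] (h : Matrix.GeneralLinearGroup ι F)
    (hall : ∀ x : ι → F₀, ∃ (c : F) (x' : ι → F₀), (h : Matrix ι ι F) *ᵥ rv F₀ P x = c • rv F₀ P x') :
    h ∈ Geo.subfieldSubgroup F₀ P := by
  obtain ⟨i₀⟩ := ‹Nonempty ι›
  set e : ι → F₀ := Pi.single i₀ 1 with he
  have he0 : e ≠ 0 := single_ne_zero' i₀
  obtain ⟨l, r₀, hl⟩ := hall e
  have hne := gl_mulVec_ne_zero h (rv_ne_zero F₀ P he0)
  have hl0 : l ≠ 0 := by
    rintro rfl
    rw [zero_smul] at hl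
    exact hne hl
  have hr0 : r₀ ≠ 0 := by
    rintro rfl
    rw [rv_zero, smul_zero] at hl
    exact hne hl
  apply mem_subfieldSubgroup_of F₀ P h l hl0
  intro v hv
  obtain ⟨x, rfl⟩ := exists_of_rat F₀ P hv
  by_cases hx : x ∈ Submodule.span F₀ {e}
  · obtain ⟨c, rfl⟩ := Submodule.mem_span_singleton.1 hx
    rw [rv_smul, mulVec_smul, hl, smul_smul, smul_smul]
    have : l⁻¹ * (c : F) * l = c := by field_simp
    rw [this, ← rv_smul]
    exact rat_rv F₀ P _
  · have hx0 : x ≠ 0 := by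
      rintro rfl
      exact hx (Submodule.zero_mem _)
    obtain ⟨lam, r, hlam⟩ := hall x
    obtain ⟨μ, r', hμ⟩ := hall (x + e)
    have hnx := gl_mulVec_ne_zero h (rv_ne_zero F₀ P hx0)
    have hr : r ≠ 0 := by
      rintro rfl
      rw [rv_zero, smul_zero] at hlam
      exact hnx hlam
    have hrel : μ • rv F₀ P r' = lam • rv F₀ P r + l • rv F₀ P r₀ := by
      rw [← hμ, rv_add, mulVec_add, hlam, hl]
    have hnot : r ∉ Submodule.span F₀ {r₀} := by
      intro hc
      obtain ⟨c, rfl⟩ := Submodule.mem_span_singleton.1 hc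
      apply hx
      have h1 : (h : Matrix ι ι F) *ᵥ rv F₀ P x = (h : Matrix ι ι F) *ᵥ ((lam * c * l⁻¹) • rv F₀ P e) := by
        rw [mulVec_smul, hl, hlam, rv_smul, smul_smul, smul_smul]
        congr 1
        field_simp
      have h2 : rv F₀ P x = (lam * c * l⁻¹) • rv F₀ P e := by
        have := congrArg (fun v => ((h⁻¹ : Matrix.GeneralLinearGroup ι F) : Matrix ι ι F) *ᵥ v) h1
        simpa only [gl_inv_mulVec] using this
      have h3 := smul_rv_eq_rv he0 h2.symm
      rw [Submodule.mem_span_singleton]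
      refine ⟨⟨_, h3⟩, ?_⟩
      apply rv_injective F₀ P
      rw [rv_smul, h2]
    have hnot' : r₀ ∉ Submodule.span F₀ {r} := by
      intro hc
      obtain ⟨c, hc⟩ := Submodule.mem_span_singleton.1 hc
      have hc0 : c ≠ 0 := by
        rintro rfl
        rw [zero_smul] at hc
        exact hr0 hc.symm
      apply hnot
      rw [Submodule.mem_span_singleton]
      exact ⟨c⁻¹, by rw [← hc, smul_smul, inv_mul_cancel₀ hc0, one_smul]⟩
    obtain ⟨φ, hφ0, hφ1⟩ := exists_row _ _ hnot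
    obtain ⟨φ', hφ0', hφ1'⟩ := exists_row _ _ hnot'
    have a1 := congrArg (fun v => rc F₀ P φ ⬝ᵥ v) hrel
    have a2 := congrArg (fun v => rc F₀ P φ' ⬝ᵥ v) hrel
    simp only [dotProduct_add, dotProduct_smul, rc_dot_rv, hφ1, hφ1',
      hφ0 r₀ (Submodule.mem_span_singleton_self _), hφ0' r (Submodule.mem_span_singleton_self _)] at a1 a2
    simp only [smul_eq_mul, ZeroMemClass.coe_zero, OneMemClass.coe_one, mul_zero, mul_one, add_zero,
      zero_add] at a1 a2
    have hd : ((φ' ⬝ᵥ r' : F₀) : F) ≠ 0 := by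
      intro h0
      rw [h0, mul_zero] at a2
      exact hl0 a2.symm
    have hd' : (φ' ⬝ᵥ r' : F₀) ≠ 0 := fun h0 => hd (by rw [h0]; rfl)
    have key : l⁻¹ * lam = (((φ ⬝ᵥ r') * (φ' ⬝ᵥ r')⁻¹ : F₀) : F) := by
      rw [← a1, ← a2]
      push_cast
      have hμ0 : μ ≠ 0 := by
        rintro rfl
        rw [zero_mul] at a2
        exact hl0 a2.symm
      field_simp
    rw [hlam, smul_smul, key, ← rv_smul]
    exact rat_rv F₀ P _

end Cfsg.Agent.Lib.Helper16
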