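import Mathlib
import Cfsg.Agent.Lib.Helper16.SubO1
import Cfsg.Agent.Lib.Helper16.SubSL3

set_option autoImplicit false
set_option linter.unusedSectionVars false

namespace Cfsg.Agent.Lib.Helper16

open Cfsg Cfsg.Agent.Lib.Helper6 Module Matrix

variable {F : Type*} [Field F] {ι : Type} [Fintype ι] [DecidableEq ι]
variable {F₀ : Subfield F} {Pm : Matrix.GeneralLinearGroup ι F} {Q : QuadraticForm F (ι → F)}

local notation "P" => QuadraticMap.polarBilin Q
local notation "R" => rv F₀ Pm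

theorem polar_rat_mem (hrat : ∀ x : ι → F₀, Q (R x) ∈ F₀) (x y : ι → F₀) : P (R x) (R y) ∈ F₀ := by
  have h := wq_add Q (R x) (R y)
  rw [← rv_add] at h
  have : P (R x) (R y) = Q (R (x + y)) - Q (R x) - Q (R y) := by rw [h]; ring
  rw [this]
  exact F₀.sub_mem (F₀.sub_mem (hrat _) (hrat _)) (hrat _)

/-- the quadratic form induced on the rational structure -/
noncomputable def ratQ (hrat : ∀ x : ι → F₀, Q (R x) ∈ F₀) : QuadraticForm F₀ (ι → F₀) where
  toFun x := ⟨Q (R x), hrat x⟩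
  toFun_smul a x := by
    apply Subtype.ext
    change Q (R (a • x)) = ((a * a : F₀) : F) * Q (R x)
    rw [rv_smul, wq_smul]; rfl
  exists_companion' := ⟨LinearMap.mk₂ F₀ (fun x y => ⟨P (R x) (R y), polar_rat_mem hrat x y⟩)
    (fun x x' y => Subtype.ext (by
      change P (R (x + x')) (R y) = P (R x) (R y) + P (R x') (R y)
      rw [rv_add, map_add, LinearMap.add_apply]))
    (fun c x y => Subtype.ext (by
      change P (R (c • x)) (R y) = (c : F) * P (R x) (R y)
      rw [rv_smul, map_smul, LinearMap.smul_apply, smul_eq_mul]))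
    (fun x y y' => Subtype.ext (by
      change P (R x) (R (y + y')) = P (R x) (R y) + P (R x) (R y')
      rw [rv_add, map_add]))
    (fun c x y => Subtype.ext (by
      change P (R x) (R (c • y)) = (c : F) * P (R x) (R y)
      rw [rv_smul, map_smul, smul_eq_mul])),
    fun x y => Subtype.ext (by
      change Q (R (x + y)) = Q (R x) + Q (R y) + P (R x) (R y)
      rw [rv_add, wq_add])⟩

theorem ratQ_coe (hrat : ∀ x : ι → F₀, Q (R x) ∈ F₀) (x : ι → F₀) : ((ratQ hrat x : F₀) : F) = Q (R x) := rfl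

theorem ratQ_eq_zero_iff (hrat : ∀ x : ι → F₀, Q (R x) ∈ F₀) (x : ι → F₀) : ratQ hrat x = 0 ↔ Q (R x) = 0 := by
  rw [← ratQ_coe hrat]
  exact ⟨fun h => by rw [h]; rfl, fun h => Subtype.ext h⟩

theorem ratP_coe (hrat : ∀ x : ι → F₀, Q (R x) ∈ F₀) (x y : ι → F₀) :
    ((QuadraticMap.polarBilin (ratQ hrat) x y : F₀) : F) = P (R x) (R y) := by
  have h1 := wq_add (ratQ hrat) x y
  have h2 := wq_add Q (R x) (R y)
  rw [← rv_add, ← ratQ_coe hrat, ← ratQ_coe hrat, ← ratQ_coe hrat, h1] at h2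
  push_cast at h2
  linear_combination h2

theorem ratP_eq_zero_iff (hrat : ∀ x : ι → F₀, Q (R x) ∈ F₀) (x y : ι → F₀) :
    QuadraticMap.polarBilin (ratQ hrat) x y = 0 ↔ P (R x) (R y) = 0 := by
  rw [← ratP_coe hrat]
  exact ⟨fun h => by rw [h]; rfl, fun h => Subtype.ext h⟩

/-- a vector orthogonal to all rational vectors vanishes -/
theorem eq_zero_of_polar_rat (hQ : (P).Nondegenerate) (v : ι → F) (h : ∀ y, P v (R y) = 0) :
    v = 0 := by
  apply hQ.1 v
  intro w
  rw [eq_sum_rv F₀ Pm w, map_sum]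
  apply Finset.sum_eq_zero
  intro i _
  rw [map_smul, h, smul_zero]

theorem ratQ_nondeg (hrat : ∀ x : ι → F₀, Q (R x) ∈ F₀) (hQ : (P).Nondegenerate) :
    (QuadraticMap.polarBilin (ratQ hrat)).Nondegenerate := by
  apply nondeg_of_left
  intro u hu
  apply rv_injective F₀ Pm
  rw [rv_zero]
  apply eq_zero_of_polar_rat hQ
  intro y
  rw [← ratP_coe hrat, QuadraticMap.polarBilin_apply_apply, hu y]; rfl

/-- a vector whose products with all rational vectors are rational is rational -/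
theorem rat_of_polar [Finite F] (hrat : ∀ x : ι → F₀, Q (R x) ∈ F₀) (hQ : (P).Nondegenerate) (v : ι → F) (h : ∀ y, P v (R y) ∈ F₀) :
    ∃ x, v = R x := by
  let φ : Module.Dual F₀ (ι → F₀) :=
    { toFun := fun y => ⟨P v (R y), h y⟩
      map_add' := fun y y' => Subtype.ext (by
        change P v (R (y + y')) = P v (R y) + P v (R y')
        rw [rv_add, map_add])
      map_smul' := fun c y => Subtype.ext (by
        change P v (R (c • y)) = (c : F) * P v (R y)
        rw [rv_smul, map_smul, smul_eq_mul]) }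
  set x := (LinearMap.BilinForm.toDual _ (ratQ_nondeg hrat hQ)).symm φ with hx
  refine ⟨x, ?_⟩
  rw [← sub_eq_zero]
  apply eq_zero_of_polar_rat hQ
  intro y
  have h1 : QuadraticMap.polarBilin (ratQ hrat) x y = φ y := by
    rw [← LinearMap.BilinForm.toDual_def (ratQ_nondeg hrat hQ), hx, LinearEquiv.apply_symm_apply]
  have h2 := congrArg (Subtype.val) h1
  rw [ratP_coe] at h2
  rw [map_sub, LinearMap.sub_apply, h2]
  exact sub_self _

theorem hpair_rat (hrat : ∀ x : ι → F₀, Q (R x) ∈ F₀) {e f : ι → F₀} (hp : HPair (ratQ hrat) e f) : HPair Q (R e) (R f) :=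
  ⟨(ratQ_eq_zero_iff hrat e).1 hp.he, (ratQ_eq_zero_iff hrat f).1 hp.hf, by
    rw [← ratP_coe hrat, hp.hef]; rfl⟩

variable (F₀ Pm Q) in
/-- the subfield subgroup inside `OG Q` -/
noncomputable def SF : Subgroup ↥(OG Q) := (Geo.subfieldSubgroup F₀ Pm).comap (toGL Q)

theorem mem_SF_of (g : ↥(OG Q)) (l : F) (hl : l ≠ 0) (h : ∀ x, ∃ x', l • g.1 (R x) = R x') :
    g ∈ SF F₀ Pm Q := by
  apply mem_subfieldSubgroup_of F₀ Pm _ l⁻¹ (inv_ne_zero hl)
  intro v hv
  obtain ⟨x, rfl⟩ := exists_of_rat F₀ Pm hv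
  obtain ⟨x', hx'⟩ := h x
  rw [inv_inv, toGL_mulVec, hx']
  exact rat_rv F₀ Pm _

theorem exists_of_mem_SF (g : ↥(OG Q)) (hg : g ∈ SF F₀ Pm Q) :
    ∃ l : F, l ≠ 0 ∧ ∀ x, ∃ x', l • g.1 (R x) = R x' := by
  obtain ⟨l, hl, h⟩ := exists_of_mem_subfieldSubgroup F₀ Pm _ hg
  refine ⟨l⁻¹, inv_ne_zero hl, fun x => ?_⟩
  have := h _ (rat_rv F₀ Pm x)
  rw [toGL_mulVec] at this
  exact exists_of_rat F₀ Pm this

theorem siegO_rat_apply (hrat : ∀ x : ι → F₀, Q (R x) ∈ F₀) (x y t : ι → F₀) (hx : Q (R x) = 0) (hxy : P (R y) (R x) = 0) :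
    (siegO Q (R x) (R y) hx hxy).1 (R t) = R (siegL (ratQ hrat) x y t) := by
  rw [siegO_apply, siegL_apply, siegL_apply, rv_add, rv_add, rv_smul, rv_smul]
  push_cast
  rw [ratP_coe, ratP_coe, ratQ_coe]

theorem siegO_rat_mem_SF (hrat : ∀ x : ι → F₀, Q (R x) ∈ F₀) (x y : ι → F₀) (hx : Q (R x) = 0) (hxy : P (R y) (R x) = 0) :
    siegO Q (R x) (R y) hx hxy ∈ SF F₀ Pm Q := by
  apply mem_SF_of _ 1 one_ne_zero
  intro t
  exact ⟨_, by rw [one_smul, siegO_rat_apply hrat]⟩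

end Cfsg.Agent.Lib.Helper16
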