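import Mathlib
import Cfsg.Agent.Lib.Helper16.SubO2

set_option autoImplicit false
set_option linter.unusedSectionVars false

namespace Cfsg.Agent.Lib.Helper16

open Cfsg Cfsg.Agent.Lib.Helper6 Module Matrix

/-- a hyperbolic pair orthogonal to finitely many vectors -/
theorem exists_hpair_orth_fin {K V : Type*} [Field K] [Finite K] [AddCommGroup V] [Module K V]
    [FiniteDimensional K V] {Q : QuadraticForm K V}
    (hQ : (QuadraticMap.polarBilin Q).Nondegenerate) {k : ℕ} (v : Fin k → V)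
    (h : 2 * k + 3 ≤ finrank K V) :
    ∃ e f, HPair Q e f ∧ (∀ i, QuadraticMap.polarBilin Q (v i) e = 0) ∧
      (∀ i, QuadraticMap.polarBilin Q (v i) f = 0) := by
  have h1 : finrank K (Submodule.span K (Set.range v)) ≤ k := by
    have := finrank_range_le_card (R := K) v
    simpa [Set.finrank] using this
  obtain ⟨e, f, hp, he, hf⟩ := exists_hpair_orth hQ (Submodule.span K (Set.range v)) (by omega)
  exact ⟨e, f, hp, fun i => he _ (Submodule.subset_span ⟨i, rfl⟩),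
    fun i => hf _ (Submodule.subset_span ⟨i, rfl⟩)⟩

theorem HPair.notMem_span {K V : Type*} [Field K] [AddCommGroup V] [Module K V]
    {Q : QuadraticForm K V} {e f x : V} (hp : HPair Q e f)
    (hx : QuadraticMap.polarBilin Q x f = 0) : e ∉ Submodule.span K {x} := by
  intro h
  obtain ⟨c, rfl⟩ := Submodule.mem_span_singleton.1 h
  have := hp.hef
  rw [map_smul, LinearMap.smul_apply, hx, smul_zero] at this
  exact zero_ne_one this

variable {F : Type*} [Field F] [Fintype F] {ι : Type} [Fintype ι] [DecidableEq ι]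
variable {F₀ : Subfield F} {Pm : Matrix.GeneralLinearGroup ι F} {Q : QuadraticForm F (ι → F)}
variable {M : Subgroup ↥(OG Q)}

local notation "P" => QuadraticMap.polarBilin Q
local notation "R" => rv F₀ Pm

variable (F₀ Pm Q M) in
/-- the standing hypotheses -/
structure OCtx : Prop where
  hrat : ∀ x : ι → F₀, Q (R x) ∈ F₀
  hQ : (P).Nondegenerate
  hn : 13 ≤ Fintype.card ι
  hS : SF F₀ Pm Q ⊓ commutator ↥(OG Q) ≤ M

namespace OCtx

variable (C : OCtx F₀ Pm Q M)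

/-- the rational form -/
noncomputable abbrev Q₀ (C : OCtx F₀ Pm Q M) : QuadraticForm F₀ (ι → F₀) := ratQ C.hrat

/-- the rational polar form -/
noncomputable abbrev P₀ (C : OCtx F₀ Pm Q M) : LinearMap.BilinForm F₀ (ι → F₀) :=
  QuadraticMap.polarBilin (ratQ C.hrat)

theorem nd (C : OCtx F₀ Pm Q M) : (C.P₀).Nondegenerate := ratQ_nondeg C.hrat C.hQ

theorem fr (C : OCtx F₀ Pm Q M) : 13 ≤ finrank F₀ (ι → F₀) := by
  rw [Module.finrank_fintype_fun_eq_card]; exact C.hn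

theorem frF (C : OCtx F₀ Pm Q M) : 13 ≤ finrank F (ι → F) := by
  rw [Module.finrank_fintype_fun_eq_card]; exact C.hn

theorem Pc (C : OCtx F₀ Pm Q M) (x y : ι → F₀) : P (R x) (R y) = ((C.P₀ x y : F₀) : F) :=
  (ratP_coe C.hrat x y).symm

theorem Qc (C : OCtx F₀ Pm Q M) (x : ι → F₀) : Q (R x) = ((C.Q₀ x : F₀) : F) := rfl

theorem rat (C : OCtx F₀ Pm Q M) {x y : ι → F₀} (hx : C.Q₀ x = 0) (hxy : C.P₀ y x = 0) :
    SHas M (R x) (R y) := by
  refine ⟨(ratQ_eq_zero_iff C.hrat x).1 hx, (ratP_eq_zero_iff C.hrat y x).1 hxy,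
    C.hS ⟨siegO_rat_mem_SF C.hrat _ _ _ _, siegO_mem_comm Q C.hQ (Or.inr ?_) _ _ _ _⟩⟩
  have := C.frF
  omega

theorem move (C : OCtx F₀ Pm Q M) {l μ : F} {x y a b : ι → F₀} (h : SHas M (R x) (l • R y))
    (h' : SHas M (R a) (μ • R b)) (hax : C.P₀ a x = 0) (hbx : C.P₀ b x = 0) (hya : C.P₀ y a = 0)
    (hyb : C.P₀ y b = 1) : SHas M (R x) ((l * μ) • R a) := by
  have := h.move h' (by rw [C.Pc, hax]; rfl)
    (by rw [map_smul, LinearMap.smul_apply, C.Pc, hbx]; simp)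
    (by rw [map_smul, LinearMap.smul_apply, C.Pc, hya]; simp)
  rw [map_smul, map_smul, LinearMap.smul_apply, C.Pc, hyb] at this
  simpa [mul_comm] using this

theorem move1 (C : OCtx F₀ Pm Q M) {l : F} {x y a b : ι → F₀} (h : SHas M (R x) (l • R y))
    (ha : C.Q₀ a = 0) (hba : C.P₀ b a = 0) (hax : C.P₀ a x = 0) (hbx : C.P₀ b x = 0)
    (hya : C.P₀ y a = 0) (hyb : C.P₀ y b = 1) : SHas M (R x) (l • R a) := by
  have := C.move (μ := 1) h (by rw [one_smul]; exact C.rat ha hba) hax hbx hya hyb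
  rwa [mul_one] at this

theorem swap (C : OCtx F₀ Pm Q M) {l : F} {x a : ι → F₀} (h : SHas M (R x) (l • R a))
    (ha : C.Q₀ a = 0) : SHas M (R a) (l • R x) := by
  have ha' : Q (R a) = 0 := (ratQ_eq_zero_iff C.hrat a).1 ha
  by_cases hl : l = 0
  · rw [hl, zero_smul]; exact SHas_zero ha'
  · exact (h.swap (by rw [wq_smul, ha', mul_zero])).smul_right_of_left hl

/-- the parameters all of whose rational long root elements lie in `M` -/
def Bo (C : OCtx F₀ Pm Q M) (l : F) : Prop :=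
  ∀ x a : ι → F₀, C.Q₀ x = 0 → C.Q₀ a = 0 → C.P₀ a x = 0 → SHas M (R x) (l • R a)

theorem sym (C : OCtx F₀ Pm Q M) (x y : ι → F₀) : C.P₀ x y = C.P₀ y x := wq_symm _ x y

theorem Bo_of_one (C : OCtx F₀ Pm Q M) {l : F} {x₀ y₀ : ι → F₀} (hx₀ : x₀ ≠ 0)
    (hy₀ : y₀ ∉ Submodule.span F₀ {x₀}) (h : SHas M (R x₀) (l • R y₀)) : C.Bo l := by
  intro x' a' hx' ha' hax'
  have hx0 : C.Q₀ x₀ = 0 := (ratQ_eq_zero_iff C.hrat x₀).2 h.sing
  have hfr := C.fr
  obtain ⟨t, ht1, ht2⟩ := wq_exists_orth C.Q₀ C.nd _ y₀ hy₀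
  obtain ⟨b₀, hb1, hb2⟩ : ∃ b₀, C.P₀ b₀ x₀ = 0 ∧ C.P₀ y₀ b₀ = 1 := by
    have ht1' : C.P₀ x₀ t = 0 := ht1 _ (Submodule.mem_span_singleton_self _)
    have ht2' : C.P₀ t y₀ ≠ 0 := ht2
    refine ⟨(C.P₀ t y₀)⁻¹ • t, ?_, ?_⟩
    · rw [map_smul, LinearMap.smul_apply, C.sym t x₀, ht1', smul_zero]
    · rw [map_smul, C.sym y₀ t, smul_eq_mul, inv_mul_cancel₀ ht2']
  obtain ⟨a₁, f₁, hp₁, he₁, hf₁⟩ := exists_hpair_orth_fin C.nd ![x₀, y₀, b₀, x', a'] (by omega)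
  have s1 : SHas M (R x₀) (l • R a₁) := C.move1 h hp₁.he (he₁ 2) (by rw [C.sym]; exact he₁ 0) hb1
    (he₁ 1) hb2
  have s2 := C.swap s1 hp₁.he
  obtain ⟨b₁, hpb, hb₁⟩ := exists_partner_sub C.nd (Submodule.span F₀ {a₁}) x₀ hx0 (by
      intro y hy
      obtain ⟨c, rfl⟩ := Submodule.mem_span_singleton.1 hy
      have h0 : C.P₀ x₀ a₁ = 0 := he₁ 0
      rw [map_smul, LinearMap.smul_apply, C.sym a₁ x₀, h0, smul_zero]) (by
      intro hc
      obtain ⟨c, hc⟩ := Submodule.mem_span_singleton.1 hc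
      have h1 := hf₁ 0
      change C.P₀ x₀ f₁ = 0 at h1
      rw [← hc, map_smul, LinearMap.smul_apply, hp₁.hef, smul_eq_mul, mul_one] at h1
      rw [h1, zero_smul] at hc
      exact hx₀ hc.symm)
  have hb₁' : C.P₀ a₁ b₁ = 0 := hb₁ _ (Submodule.mem_span_singleton_self _)
  obtain ⟨a₂, f₂, hp₂, he₂, hf₂⟩ := exists_hpair_orth_fin C.nd ![a₁, x₀, x', b₁] (by omega)
  have s3 : SHas M (R a₁) (l • R a₂) := C.move1 s2 hp₂.he (he₂ 3) (by rw [C.sym]; exact he₂ 0)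
    (by rw [C.sym]; exact hb₁') (he₂ 1) hpb.hef
  have s4 : SHas M (R a₁) (l • R x') := C.move1 s3 hx' (by rw [C.sym]; exact hf₂ 2) (he₁ 3)
    (by rw [C.sym]; exact hf₂ 0) (by rw [C.sym]; exact he₂ 2) hp₂.hef
  have s5 := C.swap s4 hx'
  exact C.move1 s5 ha' (by rw [C.sym]; exact hf₁ 4) hax' (by rw [C.sym]; exact hf₁ 3)
    (by rw [C.sym]; exact he₁ 4) hp₁.hef

theorem Bo_coe (C : OCtx F₀ Pm Q M) (c : F₀) : C.Bo (c : F) := by
  intro x a hx _ hax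
  rw [← rv_smul]
  exact C.rat hx (by rw [map_smul, LinearMap.smul_apply, hax, smul_zero])

theorem Bo_add (C : OCtx F₀ Pm Q M) {a b : F} (ha : C.Bo a) (hb : C.Bo b) : C.Bo (a + b) := by
  intro x y hx hy hxy
  rw [add_smul]
  exact (ha x y hx hy hxy).add (hb x y hx hy hxy)

theorem Bo_mul (C : OCtx F₀ Pm Q M) {a b : F} (ha : C.Bo a) (hb : C.Bo b) : C.Bo (a * b) := by
  have hfr := C.fr
  obtain ⟨e₁, f₁, hp₁, -, -⟩ := exists_hpair_orth_fin C.nd ![] (by omega)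
  obtain ⟨e₂, f₂, hp₂, he₂, hf₂⟩ := exists_hpair_orth_fin C.nd ![e₁, f₁] (by omega)
  obtain ⟨e₃, f₃, hp₃, he₃, hf₃⟩ := exists_hpair_orth_fin C.nd ![e₁, f₁, e₂, f₂] (by omega)
  have h1 := ha e₁ f₂ hp₁.he hp₂.hf (by rw [C.sym]; exact hf₂ 0)
  have h2 := hb e₃ e₂ hp₃.he hp₂.he (he₃ 2)
  have h3 := C.move h1 h2 (by rw [C.sym]; exact he₃ 0) (by rw [C.sym]; exact he₂ 0) (he₃ 3) hp₂.fe
  exact C.Bo_of_one hp₁.ne_zero (hp₃.notMem_span (hf₃ 0)) h3

end OCtx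

end Cfsg.Agent.Lib.Helper16
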