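import Mathlib
import Cfsg.Agent.Lib.Helper16.SubO3

set_option autoImplicit false
set_option linter.unusedSectionVars false

namespace Cfsg.Agent.Lib.Helper16

open Cfsg Cfsg.Agent.Lib.Helper6 Module Matrix

theorem SHas_sum {F V : Type*} [Field F] [AddCommGroup V] [Module F V] {Q : QuadraticForm F V}
    {M : Subgroup ↥(OG Q)} {w : V} (hw : Q w = 0) {κ : Type*} (s : Finset κ) (f : κ → V)
    (h : ∀ j ∈ s, SHas M w (f j)) : SHas M w (∑ j ∈ s, f j) := by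
  classical
  induction s using Finset.induction_on with
  | empty => simpa using SHas_zero hw
  | insert a s ha ih =>
    rw [Finset.sum_insert ha]
    exact (h a (Finset.mem_insert_self a s)).add (ih (fun j hj => h j (Finset.mem_insert_of_mem hj)))

variable {F : Type*} [Field F] [Fintype F] {ι : Type} [Fintype ι] [DecidableEq ι]
variable {F₀ : Subfield F} {Pm : Matrix.GeneralLinearGroup ι F} {Q : QuadraticForm F (ι → F)}
variable {M : Subgroup ↥(OG Q)}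

local notation "P" => QuadraticMap.polarBilin Q
local notation "R" => rv F₀ Pm

namespace OCtx

theorem Bo_dir (C : OCtx F₀ Pm Q M) {l : F} (hB : C.Bo l) {x y : ι → F₀} (hx : C.Q₀ x = 0)
    (hy : C.P₀ y x = 0) : SHas M (R x) (l • R y) := by
  have hfr := C.fr
  obtain ⟨e, f, hp, he, hf⟩ := exists_hpair_orth_fin C.nd ![x] (by omega)
  obtain ⟨s₁, s₂, s₃, h1, h2, h3, hs, ho⟩ := exists_three_sing hp y
  obtain ⟨o1, o2, o3⟩ := ho x (by rw [wq_symm]; exact he 0) (by rw [wq_symm]; exact hf 0) hy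
  rw [hs, rv_add, rv_add, smul_add, smul_add]
  exact ((hB x s₁ hx h1 o1).add (hB x s₂ hx h2 o2)).add (hB x s₃ hx h3 o3)

/-- expansion of a vector orthogonal to a rational singular vector -/
theorem expand_orth (C : OCtx F₀ Pm Q M) {x f : ι → F₀} (hp : HPair C.Q₀ x f) (u : ι → F)
    (hu : P u (R x) = 0) :
    u = ∑ i, (rc F₀ Pm (Pi.single i 1) ⬝ᵥ u) •
      R ((Pi.single i 1 : ι → F₀) - (C.P₀ (Pi.single i 1) x) • f) := by
  have h1 := eq_sum_rv F₀ Pm u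
  have h2 : ∑ i, (rc F₀ Pm (Pi.single i 1) ⬝ᵥ u) * ((C.P₀ (Pi.single i 1) x : F₀) : F) = 0 := by
    rw [← hu]
    conv_rhs => rw [h1]
    rw [map_sum, LinearMap.sum_apply]
    apply Finset.sum_congr rfl
    intro i _
    rw [map_smul, LinearMap.smul_apply, C.Pc, smul_eq_mul]
  simp only [rv_sub, rv_smul, smul_sub, Finset.sum_sub_distrib, smul_smul]
  rw [← Finset.sum_smul, h2, zero_smul, sub_zero]
  exact h1

theorem all_dir (C : OCtx F₀ Pm Q M) (hB : ∀ l, C.Bo l) {x f : ι → F₀} (hp : HPair C.Q₀ x f)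
    (u : ι → F) (hu : P u (R x) = 0) : SHas M (R x) u := by
  rw [C.expand_orth hp u hu]
  apply SHas_sum ((ratQ_eq_zero_iff C.hrat x).1 hp.he)
  intro i _
  apply C.Bo_dir (hB _) hp.he
  rw [map_sub, LinearMap.sub_apply, map_smul, LinearMap.smul_apply, hp.fe]
  simp

theorem le_of_Bo (C : OCtx F₀ Pm Q M) (hB : ∀ l, C.Bo l) : commutator ↥(OG Q) ≤ M := by
  have hfr := C.fr
  have hfrF := C.frF
  obtain ⟨e, f, hp, -, -⟩ := exists_hpair_orth_fin C.nd ![] (by omega)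
  have hp' : HPair C.Q₀ f e := ⟨hp.hf, hp.he, hp.fe⟩
  have hpR := hpair_rat C.hrat hp
  refine comm_le_of_XS C.hQ (by omega) (w := R e) (x := R f) ?_ ?_ hpR.he hpR.hf
    (by rw [hpR.hef]; exact one_ne_zero)
  · intro hw u hu
    obtain ⟨_, _, h⟩ := C.all_dir hB hp u hu
    exact h
  · intro hw u hu
    obtain ⟨_, _, h⟩ := C.all_dir hB hp' u hu
    exact h

theorem exists_Bo (C : OCtx F₀ Pm Q M) {x₀ : ι → F₀} (hx₀ : x₀ ≠ 0) {y : ι → F}
    (h : SHas M (R x₀) y) (hy : ¬ ∃ (y₀ : ι → F₀) (s : F), y = R y₀ + s • R x₀) :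
    ∃ β, β ∉ F₀ ∧ C.Bo β := by
  have hfr := C.fr
  have hx0 : C.Q₀ x₀ = 0 := (ratQ_eq_zero_iff C.hrat x₀).2 h.sing
  obtain ⟨f₀, hf1, hf2⟩ := exists_hyp_pair C.Q₀ C.nd x₀ hx₀ hx0
  have hp₀ : HPair C.Q₀ x₀ f₀ := ⟨hx0, hf1, hf2⟩
  have hpR := hpair_rat C.hrat hp₀
  set yW := y - (P y (R f₀)) • R x₀ with hyW
  have h1 : SHas M (R x₀) yW := h.sub (SHas_self h.sing _)
  have hW1 : P yW (R x₀) = 0 := h1.orth
  have hW2 : P yW (R f₀) = 0 := by
    rw [hyW, map_sub, LinearMap.sub_apply, map_smul, LinearMap.smul_apply, hpR.hef]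
    simp
  have hnr : ¬ ∀ z, P yW (R z) ∈ F₀ := by
    intro hall
    obtain ⟨y₀, hy₀⟩ := rat_of_polar C.hrat C.hQ yW hall
    exact hy ⟨y₀, P y (R f₀), by rw [← hy₀, hyW]; abel⟩
  push Not at hnr
  obtain ⟨z, hz⟩ := hnr
  obtain ⟨e', f', hp', he', hf'⟩ := exists_hpair_orth_fin C.nd ![x₀, f₀] (by omega)
  set zW : ι → F₀ := (hp₀.π z : ι → F₀) with hzW
  have hzW' : P yW (R zW) = P yW (R z) := by
    rw [hzW, hp₀.π_coe, rv_sub, rv_sub, rv_smul, rv_smul, map_sub, map_sub, map_smul, map_smul,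
      hW1, hW2]
    simp
  obtain ⟨z1, z2⟩ := (mem_perp2 C.Q₀).1 (hp₀.π z).2
  obtain ⟨s₁, s₂, s₃, q1, q2, q3, hs, ho⟩ := exists_three_sing hp' zW
  obtain ⟨o1, o2, o3⟩ := ho x₀ (by rw [wq_symm]; exact he' 0) (by rw [wq_symm]; exact hf' 0)
    (by rw [wq_symm]; exact z1)
  obtain ⟨b, hb0, hbx, hbα⟩ : ∃ b, C.Q₀ b = 0 ∧ C.P₀ b x₀ = 0 ∧ P yW (R b) ∉ F₀ := by
    by_contra hcon
    push Not at hcon
    apply hz
    rw [← hzW', hs, rv_add, rv_add, map_add, map_add]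
    exact F₀.add_mem (F₀.add_mem (hcon s₁ q1 o1) (hcon s₂ q2 o2)) (hcon s₃ q3 o3)
  obtain ⟨a, fa, hpa, hea, hfa⟩ := exists_hpair_orth_fin C.nd ![x₀, b] (by omega)
  obtain ⟨a', fa', hpa', hea', hfa'⟩ := exists_hpair_orth_fin C.nd ![x₀, a, b, fa] (by omega)
  -- first step
  have hba : C.P₀ b a = 0 := hea 1
  have hfaa' : C.P₀ fa a' = 0 := hea' 3
  obtain ⟨ha0, hab, hg⟩ := C.rat hpa.he hba
  have h2 := h1.map hg
  rw [siegO_fix_of_orth _ _ _ ha0 hab (by rw [C.Pc]; exact congrArg Subtype.val (hea 0))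
    (by rw [C.Pc, C.sym, hbx]; rfl), siegO_apply, siegL_apply,
    (ratQ_eq_zero_iff C.hrat b).1 hb0] at h2
  have h3 := h2.sub h1
  have e3 : yW + (P yW (R b) - 0 * P yW (R a)) • R a + (-P yW (R a)) • R b - yW =
      (P yW (R b)) • R a + (-P yW (R a)) • R b := by
    rw [zero_mul, sub_zero]; abel
  rw [e3] at h3
  -- second step
  have h4 := h3.move (C.rat hpa'.he hfaa') (by rw [C.Pc, C.sym]; exact congrArg Subtype.val (hea' 0))
    (by rw [C.Pc, C.sym]; exact congrArg Subtype.val (hfa 0))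
    (by
      rw [map_add, LinearMap.add_apply, map_smul, map_smul, LinearMap.smul_apply,
        LinearMap.smul_apply, C.Pc, C.Pc]
      have a1 : C.P₀ a a' = 0 := hea' 1
      have a2 : C.P₀ b a' = 0 := hea' 2
      rw [a1, a2]; simp)
  have e4 : P ((P yW (R b)) • R a + (-P yW (R a)) • R b) (R fa) = P yW (R b) := by
    rw [map_add, LinearMap.add_apply, map_smul, map_smul, LinearMap.smul_apply,
      LinearMap.smul_apply, C.Pc, C.Pc]
    have a1 : C.P₀ a fa = 1 := hpa.hef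
    have a2 : C.P₀ b fa = 0 := hfa 1
    rw [a1, a2]; simp
  rw [e4] at h4
  exact ⟨_, hbα, C.Bo_of_one hx₀ (hpa'.notMem_span (hfa' 0)) h4⟩

/-- the dichotomy: either `M` is everything or Siegel elements of `M` with rational centre are
rational -/
theorem hyp_of_not_le (C : OCtx F₀ Pm Q M) (r : ℕ) (hr : r.Prime)
    (hcard : Fintype.card F = Nat.card F₀ ^ r) (hM : ¬ commutator ↥(OG Q) ≤ M) {x₀ : ι → F₀}
    (hx₀ : x₀ ≠ 0) {y : ι → F} (h : SHas M (R x₀) y) :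
    ∃ (y₀ : ι → F₀) (s : F), y = R y₀ + s • R x₀ := by
  by_contra hy
  obtain ⟨β, hβ, hB⟩ := C.exists_Bo hx₀ h hy
  exact hM (C.le_of_Bo (subring_dichotomy F₀ r hr hcard C.Bo C.Bo_coe (fun _ _ => C.Bo_add)
    (fun _ _ => C.Bo_mul) β hB hβ))

end OCtx

end Cfsg.Agent.Lib.Helper16
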