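import Mathlib
import Cfsg.Agent.Lib.Helper16.SubO4

set_option autoImplicit false
set_option linter.unusedSectionVars false

namespace Cfsg.Agent.Lib.Helper16

open Cfsg Cfsg.Agent.Lib.Helper6 Module Matrix

variable {F : Type*} [Field F] [Fintype F] {ι : Type} [Fintype ι] [DecidableEq ι]
variable {F₀ : Subfield F} {Pm : Matrix.GeneralLinearGroup ι F} {Q : QuadraticForm F (ι → F)}
variable {M : Subgroup ↥(OG Q)}

local notation "P" => QuadraticMap.polarBilin Q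
local notation "R" => rv F₀ Pm

namespace OCtx

/-- Siegel elements of `M` with rational centre are rational -/
def Hyp (_C : OCtx F₀ Pm Q M) : Prop :=
  ∀ x₀ : ι → F₀, x₀ ≠ 0 → ∀ y : ι → F, SHas M (R x₀) y →
    ∃ (y₀ : ι → F₀) (s : F), y = R y₀ + s • R x₀

/-- from `l • a₂ ∈ T(p)` to a decomposition of `l • p` -/
theorem hyp_swap (C : OCtx F₀ Pm Q M) (H : C.Hyp) {p : ι → F} {l : F} (hl : l ≠ 0) {a : ι → F₀}
    (ha : C.Q₀ a = 0) (ha0 : a ≠ 0) (h : SHas M p (l • R a)) :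
    ∃ (t : ι → F₀) (s : F), l • p = R t + s • R a := by
  have ha' : Q (R a) = 0 := (ratQ_eq_zero_iff C.hrat a).1 ha
  exact H a ha0 _ ((h.swap (by rw [wq_smul, ha', mul_zero])).smul_right_of_left hl)

theorem key_point (C : OCtx F₀ Pm Q M) (H : C.Hyp) {g : ↥(OG Q)} (hgM : g ∈ M) {x x' : ι → F₀}
    {c : F} (hc : c ≠ 0) (hx : C.Q₀ x = 0) (hx' : x' ≠ 0) (hg : g.1 (R x) = c • R x')
    {a fa : ι → F₀} (hpa : HPair C.Q₀ a fa) (hax : C.P₀ a x = 0) :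
    ∃ w, c⁻¹ • g.1 (R a) = R w := by
  have hfr := C.fr
  have step1 : ∀ y : ι → F₀, C.P₀ y x = 0 → ∃ (y' : ι → F₀) (l : F),
      c • g.1 (R y) = R y' + l • R x' := by
    intro y hy
    have h1 := (C.rat hx hy).map hgM
    rw [hg] at h1
    exact H x' hx' _ (h1.smul_right_of_left hc)
  obtain ⟨v', l, hv⟩ := step1 a hax
  obtain ⟨b, fb, hpb, heb, hfb⟩ := exists_hpair_orth_fin C.nd ![x, a] (by omega)
  have hxb : C.P₀ x b = 0 := heb 0
  have hab : C.P₀ a b = 0 := heb 1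
  have hxfb : C.P₀ x fb = 0 := hfb 0
  have hafb : C.P₀ a fb = 0 := hfb 1
  obtain ⟨b', lb, hb⟩ := step1 b (by rw [C.sym]; exact hxb)
  set p := R v' + l • R x' with hp
  set q := R b' + lb • R x' with hq
  have e1 : g.1 (R a) = c⁻¹ • p := by rw [← hv, smul_smul, inv_mul_cancel₀ hc, one_smul]
  have e2 : g.1 (R b) = c⁻¹ • q := by rw [← hb, smul_smul, inv_mul_cancel₀ hc, one_smul]
  have e3 : R x' = c⁻¹ • g.1 (R x) := by rw [hg, smul_smul, inv_mul_cancel₀ hc, one_smul]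
  have s3 := (C.rat hpa.he (by rw [C.sym]; exact hab)).map hgM
  rw [e1, e2] at s3
  have s4 := s3.smul_right_of_left (inv_ne_zero hc)
  rw [smul_smul] at s4
  -- independence of `b'`
  have hb' : b' ∉ Submodule.span F₀ {v', x'} := by
    intro hmem
    obtain ⟨μ₁, μ₂, hμ⟩ := Submodule.mem_span_pair.1 hmem
    have h1 : q = (μ₁ : F) • p + ((μ₂ : F) + lb - μ₁ * l) • R x' := by
      rw [hq, hp, ← hμ, rv_add, rv_smul, rv_smul]
      module
    have h2 : P q (g.1 (R fb)) = c := by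
      rw [← hb, map_smul, LinearMap.smul_apply, OG_polar Q g.2, C.Pc, hpb.hef]
      simp
    have h3 : P p (g.1 (R fb)) = 0 := by
      rw [← hv, map_smul, LinearMap.smul_apply, OG_polar Q g.2, C.Pc, hafb]
      simp
    have h4 : P (R x') (g.1 (R fb)) = 0 := by
      rw [e3, map_smul, LinearMap.smul_apply, OG_polar Q g.2, C.Pc, hxfb]
      simp
    rw [h1, map_add, LinearMap.add_apply, map_smul, map_smul, LinearMap.smul_apply,
      LinearMap.smul_apply, h3, h4] at h2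
    apply hc
    rw [← h2]; simp
  obtain ⟨t₀, ht1, ht2⟩ := wq_exists_orth C.Q₀ C.nd _ b' hb'
  have ht1v : C.P₀ v' t₀ = 0 := ht1 _ (Submodule.subset_span (by simp))
  have ht1x : C.P₀ x' t₀ = 0 := ht1 _ (Submodule.subset_span (by simp))
  have ht2' : C.P₀ t₀ b' ≠ 0 := ht2
  obtain ⟨f, hfv, hfx, hfb'⟩ : ∃ f, C.P₀ v' f = 0 ∧ C.P₀ x' f = 0 ∧ C.P₀ b' f = 1 :=
    ⟨(C.P₀ t₀ b')⁻¹ • t₀, by rw [map_smul, ht1v, smul_zero], by rw [map_smul, ht1x, smul_zero],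
      by rw [map_smul, C.sym b' t₀, smul_eq_mul, inv_mul_cancel₀ ht2']⟩
  obtain ⟨a₂, f₂, hp₂, he₂, hf₂⟩ := exists_hpair_orth_fin C.nd ![v', x', b', f] (by omega)
  have k1 : C.P₀ v' a₂ = 0 := he₂ 0
  have k2 : C.P₀ x' a₂ = 0 := he₂ 1
  have k3 : C.P₀ b' a₂ = 0 := he₂ 2
  have k4 : C.P₀ f a₂ = 0 := he₂ 3
  have k1' : C.P₀ v' f₂ = 0 := hf₂ 0
  have k2' : C.P₀ x' f₂ = 0 := hf₂ 1
  have k3' : C.P₀ b' f₂ = 0 := hf₂ 2
  have k4' : C.P₀ f f₂ = 0 := hf₂ 3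
  have hpz : ∀ z : ι → F₀, C.P₀ v' z = 0 → C.P₀ x' z = 0 → P (R z) p = 0 := by
    intro z h1 h2
    rw [hp, map_add, map_smul, C.Pc, C.Pc, C.sym z v', C.sym z x', h1, h2]
    simp
  have hqz : ∀ z : ι → F₀, C.P₀ x' z = 0 → P ((c⁻¹ * c⁻¹) • q) (R z) =
      (c⁻¹ * c⁻¹) * ((C.P₀ b' z : F₀) : F) := by
    intro z h2
    rw [hq, map_smul, LinearMap.smul_apply, map_add, LinearMap.add_apply, map_smul,
      LinearMap.smul_apply, C.Pc, C.Pc, h2]
    simp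
  have hcc : c⁻¹ * c⁻¹ ≠ 0 := mul_ne_zero (inv_ne_zero hc) (inv_ne_zero hc)
  have m1 := s4.move (C.rat hp₂.he k4) (hpz a₂ k1 k2) (hpz f hfv hfx) (by rw [hqz a₂ k2, k3]; simp)
  have m2 := s4.move (C.rat hp₂.hf k4') (hpz f₂ k1' k2') (hpz f hfv hfx)
    (by rw [hqz f₂ k2', k3']; simp)
  rw [hqz f hfx, hfb'] at m1 m2
  simp only [OneMemClass.coe_one, mul_one] at m1 m2
  have hp₂' : HPair C.Q₀ f₂ a₂ := ⟨hp₂.hf, hp₂.he, hp₂.fe⟩
  obtain ⟨t, s, hts⟩ := C.hyp_swap H hcc hp₂.he hp₂.ne_zero m1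
  obtain ⟨t', s', hts'⟩ := C.hyp_swap H hcc hp₂.hf hp₂'.ne_zero m2
  have hs' : s' = ((C.P₀ t a₂ - C.P₀ t' a₂ : F₀) : F) := by
    have h1 : P (R t + s • R a₂) (R a₂) = P (R t' + s' • R f₂) (R a₂) := by rw [← hts, ← hts']
    rw [map_add, map_add, LinearMap.add_apply, LinearMap.add_apply, map_smul, map_smul,
      LinearMap.smul_apply, LinearMap.smul_apply, C.Pc, C.Pc, C.Pc, C.Pc, hp₂.ee, hp₂.fe] at h1
    push_cast
    simp only [ZeroMemClass.coe_zero, OneMemClass.coe_one, smul_eq_mul, mul_zero, mul_one,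
      add_zero] at h1
    linear_combination -h1
  refine ⟨t' + (C.P₀ t a₂ - C.P₀ t' a₂) • f₂, ?_⟩
  rw [rv_add, rv_smul, ← hs', ← hts', e1, smul_smul]

/-- an element of `M` mapping a rational singular point to a rational point is in the subfield
group -/
theorem mem_SF_of_point (C : OCtx F₀ Pm Q M) (H : C.Hyp) {g : ↥(OG Q)} (hgM : g ∈ M)
    {x x' : ι → F₀} {c : F} (hx0 : x ≠ 0) (hx : C.Q₀ x = 0) (hg : g.1 (R x) = c • R x') :
    g ∈ SF F₀ Pm Q := by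
  have hfr := C.fr
  have hne : g.1 (R x) ≠ 0 := by
    intro h0
    exact rv_ne_zero F₀ Pm hx0 (g.1.injective (by rw [h0, map_zero]))
  have hc : c ≠ 0 := by
    rintro rfl
    rw [zero_smul] at hg
    exact hne hg
  have hx' : x' ≠ 0 := by
    rintro rfl
    rw [rv_zero, smul_zero] at hg
    exact hne hg
  have sing : ∀ b : ι → F₀, C.Q₀ b = 0 → ∃ w, c⁻¹ • g.1 (R b) = R w := by
    intro b hb
    by_cases hb0 : b = 0
    · exact ⟨0, by rw [hb0, rv_zero, map_zero, smul_zero]⟩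
    obtain ⟨fb, hf1, hf2⟩ := exists_hyp_pair C.Q₀ C.nd b hb0 hb
    have hpb : HPair C.Q₀ b fb := ⟨hb, hf1, hf2⟩
    obtain ⟨a, fa, hpa, hea, hfa⟩ := exists_hpair_orth_fin C.nd ![x, b] (by omega)
    have h1 : C.P₀ x a = 0 := hea 0
    have h2 : C.P₀ b a = 0 := hea 1
    obtain ⟨w, hw⟩ := C.key_point H hgM hc hx hx' hg hpa (by rw [C.sym]; exact h1)
    have hw' : g.1 (R a) = c • R w := by rw [← hw, smul_smul, mul_inv_cancel₀ hc, one_smul]
    have hw0 : w ≠ 0 := by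
      rintro rfl
      rw [rv_zero, smul_zero] at hw'
      exact rv_ne_zero F₀ Pm hpa.ne_zero (g.1.injective (by rw [hw', map_zero]))
    exact C.key_point H hgM hc hpa.he hw0 hw' hpb h2
  apply mem_SF_of g c⁻¹ (inv_ne_zero hc)
  intro y
  obtain ⟨e, f, hp, -, -⟩ := exists_hpair_orth_fin C.nd ![] (by omega)
  obtain ⟨s₁, s₂, s₃, h1, h2, h3, hs, -⟩ := exists_three_sing hp y
  obtain ⟨w₁, hw₁⟩ := sing s₁ h1
  obtain ⟨w₂, hw₂⟩ := sing s₂ h2
  obtain ⟨w₃, hw₃⟩ := sing s₃ h3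
  refine ⟨w₁ + w₂ + w₃, ?_⟩
  rw [hs, rv_add, rv_add, map_add, map_add, smul_add, smul_add, hw₁, hw₂, hw₃, rv_add, rv_add]

end OCtx

end Cfsg.Agent.Lib.Helper16
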