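import Mathlib
import Cfsg.Agent.Lib.Helper16.SubO5
import Cfsg.Agent.Lib.Helper16.SL2Frob

set_option autoImplicit false
set_option linter.unusedSectionVars false

namespace Cfsg.Agent.Lib.Helper16

open Cfsg Cfsg.Agent.Lib.Helper6 Module Matrix

variable {F : Type*} [Field F] [Fintype F] {ι : Type} [Fintype ι] [DecidableEq ι]
variable {F₀ : Subfield F} {Pm : Matrix.GeneralLinearGroup ι F} {Q : QuadraticForm F (ι → F)}
variable {M : Subgroup ↥(OG Q)}

local notation "P" => QuadraticMap.polarBilin Q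
local notation "R" => rv F₀ Pm

theorem eq_zero_of_mul_mem {a ζ : F} (ha : a ∈ F₀) (hζ : ζ ∉ F₀) (h : a * ζ ∈ F₀) : a = 0 := by
  by_contra h0
  apply hζ
  have : ζ = a⁻¹ * (a * ζ) := by field_simp
  rw [this]
  exact F₀.mul_mem (F₀.inv_mem ha) h

/-- the configuration: a rational totally singular 3-space and a totally singular line -/
structure Cfg (C : OCtx F₀ Pm Q M) (x d : Fin 3 → ι → F₀) (y fy : ι → F₀) (A B : ι → F) (s : F) :
    Prop where
  qx : ∀ i, C.Q₀ (x i) = 0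
  xx : ∀ i j, C.P₀ (x i) (x j) = 0
  xd : ∀ i j, C.P₀ (x i) (d j) = if i = j then 1 else 0
  hy : HPair C.Q₀ y fy
  yx : ∀ i, C.P₀ y (x i) = 0
  fx : ∀ i, C.P₀ fy (x i) = 0
  qA : Q A = 0
  qB : Q B = 0
  AB : P A B = 0
  A0 : P A (R (x 0)) = 1
  A1 : P A (R (x 1)) = 0
  B0 : P B (R (x 0)) = 0
  B1 : P B (R (x 1)) = 1
  hs : s ≠ 0
  hM : SHas M A (s • B)
  hz : P A (R (x 2)) ∉ F₀

namespace Cfg

variable {C : OCtx F₀ Pm Q M} {x d : Fin 3 → ι → F₀} {y fy : ι → F₀} {A B : ι → F} {s : F}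

theorem uu (c : Cfg C x d y fy A B s) (i j : Fin 3) : P (R (x i)) (R (x j)) = 0 := by
  rw [C.Pc, c.xx]; rfl

theorem ud (c : Cfg C x d y fy A B s) (i j : Fin 3) :
    P (R (x i)) (R (d j)) = if i = j then 1 else 0 := by
  rw [C.Pc, c.xd]; split_ifs <;> rfl

theorem qu (c : Cfg C x d y fy A B s) (i : Fin 3) : Q (R (x i)) = 0 :=
  (ratQ_eq_zero_iff C.hrat _).1 (c.qx i)

theorem yu (c : Cfg C x d y fy A B s) (i : Fin 3) : P (R y) (R (x i)) = 0 := by
  rw [C.Pc, c.yx]; rfl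

theorem fu (c : Cfg C x d y fy A B s) (i : Fin 3) : P (R fy) (R (x i)) = 0 := by
  rw [C.Pc, c.fx]; rfl

theorem x_ne (c : Cfg C x d y fy A B s) (i : Fin 3) : x i ≠ 0 := by
  intro h
  have := c.xd i i
  rw [h] at this
  simp at this

/-- an element of the rational 3-space whose Siegel group contains a suitable element is
rational -/
theorem lemR (c : Cfg C x d y fy A B s) (H : C.Hyp) {p w : ι → F} (p₀ p₁ p₂ w₀ w₁ w₂ : F)
    (hp : p = p₀ • R (x 0) + p₁ • R (x 1) + p₂ • R (x 2))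
    (hw : w = w₀ • R (x 0) + w₁ • R (x 1) + w₂ • R (x 2)) (h : SHas M p (R y + w)) :
    ∃ t, p = R t := by
  have hup : ∀ j, P (R (x j)) p = 0 := by
    intro j
    rw [hp]
    simp only [map_add, map_smul, c.uu, smul_zero, add_zero]
  have hfp : P (R fy) p = 0 := by
    rw [hp]
    simp only [map_add, map_smul, c.fu, smul_zero, add_zero]
  have hyu : ∀ j, P (R y + w) (R (x j)) = 0 := by
    intro j
    rw [hw]
    simp only [map_add, map_smul, LinearMap.add_apply, LinearMap.smul_apply, c.uu, c.yu, smul_zero,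
      add_zero]
  have hyf : P (R y + w) (R fy) = 1 := by
    rw [hw]
    simp only [map_add, map_smul, LinearMap.add_apply, LinearMap.smul_apply]
    rw [wq_symm Q (R (x 0)), wq_symm Q (R (x 1)), wq_symm Q (R (x 2)), c.fu, c.fu, c.fu, C.Pc,
      c.hy.hef]
    simp
  have mv : ∀ j, ∃ (t : ι → F₀) (s : F), p = R t + s • R (x j) := by
    intro j
    have h1 := h.move (C.rat (c.qx j) (c.fx j)) (hup j) hfp (hyu j)
    rw [hyf] at h1
    obtain ⟨t, s, hts⟩ := C.hyp_swap H one_ne_zero (c.qx j) (c.x_ne j) h1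
    exact ⟨t, s, by rw [← hts, one_smul]⟩
  obtain ⟨t, s₀, h0⟩ := mv 0
  obtain ⟨t', s₁, h1⟩ := mv 1
  have hs₁ : s₁ = ((C.P₀ t (d 1) - C.P₀ t' (d 1) : F₀) : F) := by
    have h2 : P (R t + s₀ • R (x 0)) (R (d 1)) = P (R t' + s₁ • R (x 1)) (R (d 1)) := by
      rw [← h0, ← h1]
    simp only [map_add, map_smul, LinearMap.add_apply, LinearMap.smul_apply, c.ud, C.Pc] at h2
    rw [if_neg (by decide), if_pos trivial, smul_zero, add_zero, smul_eq_mul, mul_one] at h2
    push_cast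
    linear_combination -h2
  exact ⟨t' + (C.P₀ t (d 1) - C.P₀ t' (d 1)) • x 1, by rw [rv_add, rv_smul, ← hs₁, ← h1]⟩

end Cfg

end Cfsg.Agent.Lib.Helper16
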