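import Mathlib
import Cfsg.Agent.Lib.Helper16.SubO6

set_option autoImplicit false
set_option linter.unusedSectionVars false

namespace Cfsg.Agent.Lib.Helper16

open Cfsg Cfsg.Agent.Lib.Helper6 Module Matrix

variable {F : Type*} [Field F] [Fintype F] {ι : Type} [Fintype ι] [DecidableEq ι]
variable {F₀ : Subfield F} {Pm : Matrix.GeneralLinearGroup ι F} {Q : QuadraticForm F (ι → F)}
variable {M : Subgroup ↥(OG Q)}

local notation "P" => QuadraticMap.polarBilin Q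
local notation "R" => rv F₀ Pm

variable (Q Pm) in
/-- the radical vector -/
noncomputable def zv (x : Fin 3 → ι → F₀) (A B : ι → F) : ι → F :=
  R (x 2) - P A (R (x 2)) • R (x 0) - P B (R (x 2)) • R (x 1)

variable (Pm) in
/-- membership in the five-dimensional space -/
def InX (x : Fin 3 → ι → F₀) (A B : ι → F) (v : ι → F) : Prop :=
  ∃ c₀ c₁ c₂ c₃ c₄ : F, v = c₀ • R (x 0) + c₁ • R (x 1) + c₂ • R (x 2) + c₃ • A + c₄ • B

theorem InX.add {x : Fin 3 → ι → F₀} {A B v w : ι → F} (h : InX Pm x A B v) (h' : InX Pm x A B w) :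
    InX Pm x A B (v + w) := by
  obtain ⟨c₀, c₁, c₂, c₃, c₄, rfl⟩ := h
  obtain ⟨e₀, e₁, e₂, e₃, e₄, rfl⟩ := h'
  exact ⟨c₀ + e₀, c₁ + e₁, c₂ + e₂, c₃ + e₃, c₄ + e₄, by module⟩

theorem InX.neg {x : Fin 3 → ι → F₀} {A B v : ι → F} (h : InX Pm x A B v) : InX Pm x A B (-v) := by
  obtain ⟨c₀, c₁, c₂, c₃, c₄, rfl⟩ := h
  exact ⟨-c₀, -c₁, -c₂, -c₃, -c₄, by module⟩

variable (Q Pm) in
/-- the relation between `SL₂` and the isometry group -/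
structure Rel (x : Fin 3 → ι → F₀) (A B : ι → F) (m : Matrix.SpecialLinearGroup (Fin 2) F)
    (g : ↥(OG Q)) : Prop where
  fz : g.1 (zv Pm Q x A B) = zv Pm Q x A B
  fX : ∀ v, InX Pm x A B (g.1 v - v)
  e1 : ∃ κ : F, g.1 (R (x 0)) = m.1 0 0 • R (x 0) + m.1 1 0 • B + κ • zv Pm Q x A B
  e2 : ∃ κ : F, g.1 B = m.1 0 1 • R (x 0) + m.1 1 1 • B + κ • zv Pm Q x A B
  e3 : ∃ κ : F, g.1 (R (x 1)) = m.1 0 0 • R (x 1) - m.1 1 0 • A + κ • zv Pm Q x A B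
  e4 : ∃ κ : F, g.1 A = - m.1 0 1 • R (x 1) + m.1 1 1 • A + κ • zv Pm Q x A B

theorem Rel.one (x : Fin 3 → ι → F₀) (A B : ι → F) : Rel Pm Q x A B 1 1 := by
  refine ⟨rfl, fun v => ⟨0, 0, 0, 0, 0, ?_⟩, ⟨0, ?_⟩, ⟨0, ?_⟩, ⟨0, ?_⟩, ⟨0, ?_⟩⟩
  · change v - v = _
    simp
  all_goals
    rw [sl2_val_one]
    change _ = _
    simp

theorem sl2_mul_entries (a b : Matrix.SpecialLinearGroup (Fin 2) F) (i j : Fin 2) :
    (a * b).1 i j = a.1 i 0 * b.1 0 j + a.1 i 1 * b.1 1 j := by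
  rw [sl2_val_mul, Matrix.mul_apply, Fin.sum_univ_two]

theorem Rel.mul {x : Fin 3 → ι → F₀} {A B : ι → F} {m m' : Matrix.SpecialLinearGroup (Fin 2) F}
    {g g' : ↥(OG Q)} (h : Rel Pm Q x A B m g) (h' : Rel Pm Q x A B m' g') :
    Rel Pm Q x A B (m * m') (g * g') := by
  obtain ⟨k1, a1⟩ := h.e1
  obtain ⟨k2, a2⟩ := h.e2
  obtain ⟨k3, a3⟩ := h.e3
  obtain ⟨k4, a4⟩ := h.e4
  obtain ⟨l1, b1⟩ := h'.e1
  obtain ⟨l2, b2⟩ := h'.e2
  obtain ⟨l3, b3⟩ := h'.e3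
  obtain ⟨l4, b4⟩ := h'.e4
  have hmul : ∀ v, (g * g').1 v = g.1 (g'.1 v) := fun v => rfl
  refine ⟨by rw [hmul, h'.fz, h.fz], fun v => ?_, ?_, ?_, ?_, ?_⟩
  · have := (h.fX (g'.1 v)).add (h'.fX v)
    rw [hmul]
    convert this using 1
    abel
  · refine ⟨m'.1 0 0 * k1 + m'.1 1 0 * k2 + l1, ?_⟩
    rw [hmul, b1, map_add, map_add, map_smul, map_smul, map_smul, a1, a2, h.fz, sl2_mul_entries,
      sl2_mul_entries]
    module
  · refine ⟨m'.1 0 1 * k1 + m'.1 1 1 * k2 + l2, ?_⟩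
    rw [hmul, b2, map_add, map_add, map_smul, map_smul, map_smul, a1, a2, h.fz, sl2_mul_entries,
      sl2_mul_entries]
    module
  · refine ⟨m'.1 0 0 * k3 - m'.1 1 0 * k4 + l3, ?_⟩
    rw [hmul, b3, map_add, map_sub, map_smul, map_smul, map_smul, a3, a4, h.fz, sl2_mul_entries,
      sl2_mul_entries]
    module
  · refine ⟨- m'.1 0 1 * k3 + m'.1 1 1 * k4 + l4, ?_⟩
    rw [hmul, b4, map_add, map_add, map_smul, map_smul, map_smul, a3, a4, h.fz, sl2_mul_entries,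
      sl2_mul_entries]
    module

theorem Rel.inv {x : Fin 3 → ι → F₀} {A B : ι → F} {m : Matrix.SpecialLinearGroup (Fin 2) F}
    {g : ↥(OG Q)} (h : Rel Pm Q x A B m g) : Rel Pm Q x A B m⁻¹ g⁻¹ := by
  obtain ⟨k1, a1⟩ := h.e1
  obtain ⟨k2, a2⟩ := h.e2
  obtain ⟨k3, a3⟩ := h.e3
  obtain ⟨k4, a4⟩ := h.e4
  have hinv : ∀ v, g⁻¹.1 (g.1 v) = v := by
    intro v
    change (g⁻¹ * g).1 v = v
    rw [inv_mul_cancel]; rfl
  have hz : g⁻¹.1 (zv Pm Q x A B) = zv Pm Q x A B := by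
    conv_lhs => rw [← h.fz]
    exact hinv _
  have hdet : m.1 0 0 * m.1 1 1 - m.1 0 1 * m.1 1 0 = 1 := by
    have := m.2
    rwa [det_fin_two] at this
  have c1 := congrArg g⁻¹.1 a1
  have c2 := congrArg g⁻¹.1 a2
  have c3 := congrArg g⁻¹.1 a3
  have c4 := congrArg g⁻¹.1 a4
  rw [hinv, map_add, map_add, map_smul, map_smul, map_smul, hz] at c1 c2 c4
  rw [hinv, map_add, map_sub, map_smul, map_smul, map_smul, hz] at c3
  have i00 : (m⁻¹).1 0 0 = m.1 1 1 := by rw [sl2_val_inv, adjugate_fin_two]; simp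
  have i01 : (m⁻¹).1 0 1 = - m.1 0 1 := by rw [sl2_val_inv, adjugate_fin_two]; simp
  have i10 : (m⁻¹).1 1 0 = - m.1 1 0 := by rw [sl2_val_inv, adjugate_fin_two]; simp
  have i11 : (m⁻¹).1 1 1 = m.1 0 0 := by rw [sl2_val_inv, adjugate_fin_two]; simp
  have one : ∀ v : ι → F, v = (m.1 0 0 * m.1 1 1 - m.1 0 1 * m.1 1 0) • v := by
    intro v; rw [hdet, one_smul]
  refine ⟨hz, fun v => ?_, ?_, ?_, ?_, ?_⟩
  · have := (h.fX (g⁻¹.1 v)).neg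
    rw [OG_inv_apply] at this
    convert this using 1
    abel
  · refine ⟨-(m.1 1 1 * k1 - m.1 1 0 * k2), ?_⟩
    rw [i00, i10, one (g⁻¹.1 (R (x 0)))]
    linear_combination (norm := module) (- m.1 1 1) • c1 + m.1 1 0 • c2
  · refine ⟨-(m.1 0 0 * k2 - m.1 0 1 * k1), ?_⟩
    rw [i01, i11, one (g⁻¹.1 B)]
    linear_combination (norm := module) (- m.1 0 0) • c2 + m.1 0 1 • c1
  · refine ⟨-(m.1 1 1 * k3 + m.1 1 0 * k4), ?_⟩
    rw [i00, i10, one (g⁻¹.1 (R (x 1)))]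
    linear_combination (norm := module) (- m.1 1 1) • c3 - m.1 1 0 • c4
  · refine ⟨-(m.1 0 0 * k4 + m.1 0 1 * k3), ?_⟩
    rw [i01, i11, one (g⁻¹.1 A)]
    linear_combination (norm := module) (- m.1 0 0) • c4 - m.1 0 1 • c3

variable (Q Pm M) in
/-- the image of `M` in `SL₂` -/
def HT (x : Fin 3 → ι → F₀) (A B : ι → F) : Subgroup (Matrix.SpecialLinearGroup (Fin 2) F) where
  carrier := {m | ∃ g ∈ M, Rel Pm Q x A B m g}
  one_mem' := ⟨1, M.one_mem, Rel.one x A B⟩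
  mul_mem' := by
    rintro a b ⟨g, hg, h⟩ ⟨g', hg', h'⟩
    exact ⟨g * g', M.mul_mem hg hg', h.mul h'⟩
  inv_mem' := by
    rintro a ⟨g, hg, h⟩
    exact ⟨g⁻¹, M.inv_mem hg, h.inv⟩

end Cfsg.Agent.Lib.Helper16
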