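import Mathlib
import Cfsg.Agent.Lib.Helper16.SubO7

set_option autoImplicit false
set_option linter.unusedSectionVars false

namespace Cfsg.Agent.Lib.Helper16

open Cfsg Cfsg.Agent.Lib.Helper6 Module Matrix

theorem siegO_ts_apply {F V : Type*} [Field F] [AddCommGroup V] [Module F V]
    {Q : QuadraticForm F V} (w u : V) (hw : Q w = 0)
    (huw : QuadraticMap.polarBilin Q u w = 0) (hu : Q u = 0) (t : V) :
    (siegO Q w u hw huw).1 t =
      t + QuadraticMap.polarBilin Q t u • w - QuadraticMap.polarBilin Q t w • u := by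
  rw [siegO_apply, siegL_apply, hu]
  module

variable {F : Type*} [Field F] [Fintype F] {ι : Type} [Fintype ι] [DecidableEq ι]
variable {F₀ : Subfield F} {Pm : Matrix.GeneralLinearGroup ι F} {Q : QuadraticForm F (ι → F)}
variable {M : Subgroup ↥(OG Q)}

local notation "P" => QuadraticMap.polarBilin Q
local notation "R" => rv F₀ Pm

/-- lower unitriangular matrices -/
def yL (t : F) : Matrix.SpecialLinearGroup (Fin 2) F := ⟨!![1, 0; t, 1], by simp [det_fin_two]⟩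

namespace Cfg

variable {C : OCtx F₀ Pm Q M} {x d : Fin 3 → ι → F₀} {y fy : ι → F₀} {A B : ι → F} {s : F}

theorem zu (c : Cfg C x d y fy A B s) (i : Fin 3) : P (zv Pm Q x A B) (R (x i)) = 0 := by
  rw [zv]
  simp only [map_sub, map_smul, LinearMap.sub_apply, LinearMap.smul_apply, c.uu, smul_zero, sub_zero]

theorem zA (c : Cfg C x d y fy A B s) : P (zv Pm Q x A B) A = 0 := by
  rw [zv]
  simp only [map_sub, map_smul, LinearMap.sub_apply, LinearMap.smul_apply]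
  rw [wq_symm Q (R (x 2)) A, wq_symm Q (R (x 0)) A, wq_symm Q (R (x 1)) A, c.A0, c.A1]
  simp

theorem zB (c : Cfg C x d y fy A B s) : P (zv Pm Q x A B) B = 0 := by
  rw [zv]
  simp only [map_sub, map_smul, LinearMap.sub_apply, LinearMap.smul_apply]
  rw [wq_symm Q (R (x 2)) B, wq_symm Q (R (x 0)) B, wq_symm Q (R (x 1)) B, c.B0, c.B1]
  simp

theorem relX1 (c : Cfg C x d y fy A B s) : xU (1 : F) ∈ HT Pm Q M x A B := by
  obtain ⟨hw, hu, hmem⟩ := C.rat (c.qx 0) (c.xx 1 0)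
  refine ⟨_, hmem, ?_, fun v => ?_, ⟨0, ?_⟩, ⟨0, ?_⟩, ⟨0, ?_⟩, ⟨0, ?_⟩⟩
  · exact siegO_fix_of_orth _ _ _ hw hu (c.zu 0) (c.zu 1)
  · rw [siegO_ts_apply _ _ hw hu (c.qu 1)]
    exact ⟨P v (R (x 1)), - P v (R (x 0)), 0, 0, 0, by module⟩
  · rw [siegO_ts_apply _ _ hw hu (c.qu 1), c.uu, c.uu]
    simp [xU]
  · rw [siegO_ts_apply _ _ hw hu (c.qu 1), c.B0, c.B1]
    simp [xU]
    abel
  · rw [siegO_ts_apply _ _ hw hu (c.qu 1), c.uu, c.uu]
    simp [xU]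
  · rw [siegO_ts_apply _ _ hw hu (c.qu 1), c.A0, c.A1]
    simp [xU]
    abel

theorem relX2 (c : Cfg C x d y fy A B s) : xU (- P A (R (x 2))) ∈ HT Pm Q M x A B := by
  obtain ⟨hw, hu, hmem⟩ := C.rat (c.qx 1) (c.xx 2 1)
  refine ⟨_, hmem, ?_, fun v => ?_, ⟨0, ?_⟩, ⟨-1, ?_⟩, ⟨0, ?_⟩, ⟨0, ?_⟩⟩
  · exact siegO_fix_of_orth _ _ _ hw hu (c.zu 1) (c.zu 2)
  · rw [siegO_ts_apply _ _ hw hu (c.qu 2)]
    exact ⟨0, P v (R (x 2)), - P v (R (x 1)), 0, 0, by module⟩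
  · rw [siegO_ts_apply _ _ hw hu (c.qu 2), c.uu, c.uu]
    simp [xU]
  · rw [siegO_ts_apply _ _ hw hu (c.qu 2), c.B1, zv]
    simp [xU]
    module
  · rw [siegO_ts_apply _ _ hw hu (c.qu 2), c.uu, c.uu]
    simp [xU]
  · rw [siegO_ts_apply _ _ hw hu (c.qu 2), c.A1]
    simp [xU]
    abel

theorem relY (c : Cfg C x d y fy A B s) : yL (-s) ∈ HT Pm Q M x A B := by
  obtain ⟨hw, hu, hmem⟩ := c.hM
  have hsB : Q (s • B) = 0 := by rw [wq_smul, c.qB, mul_zero]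
  have hAA : P A A = 0 := by rw [wq_self, c.qA, mul_zero]
  have hBB : P B B = 0 := by rw [wq_self, c.qB, mul_zero]
  have hBA : P B A = 0 := by rw [wq_symm, c.AB]
  refine ⟨_, hmem, ?_, fun v => ?_, ⟨0, ?_⟩, ⟨0, ?_⟩, ⟨0, ?_⟩, ⟨0, ?_⟩⟩
  · exact siegO_fix_of_orth _ _ _ hw hu c.zA (by rw [map_smul, c.zB, smul_zero])
  · rw [siegO_ts_apply _ _ hw hu hsB]
    exact ⟨0, 0, 0, P v (s • B), - P v A * s, by module⟩
  · rw [siegO_ts_apply _ _ hw hu hsB, map_smul, wq_symm Q _ B, wq_symm Q _ A, c.B0, c.A0]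
    simp [yL]
    abel
  · rw [siegO_ts_apply _ _ hw hu hsB, map_smul, hBB, hBA]
    simp [yL]
  · rw [siegO_ts_apply _ _ hw hu hsB, map_smul, wq_symm Q _ B, wq_symm Q _ A, c.B1, c.A1]
    simp [yL]
  · rw [siegO_ts_apply _ _ hw hu hsB, map_smul, c.AB, hAA]
    simp [yL]

end Cfg

end Cfsg.Agent.Lib.Helper16
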