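import Mathlib
import Cfsg.Agent.Lib.Helper16.SubO8

set_option autoImplicit false
set_option linter.unusedSectionVars false

namespace Cfsg.Agent.Lib.Helper16

open Cfsg Cfsg.Agent.Lib.Helper6 Module Matrix

variable {F : Type*} [Field F] [Fintype F] {ι : Type} [Fintype ι] [DecidableEq ι]
variable {F₀ : Subfield F} {Pm : Matrix.GeneralLinearGroup ι F} {Q : QuadraticForm F (ι → F)}
variable {M : Subgroup ↥(OG Q)}

local notation "P" => QuadraticMap.polarBilin Q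
local notation "R" => rv F₀ Pm

namespace Cfg

variable {C : OCtx F₀ Pm Q M} {x d : Fin 3 → ι → F₀} {y fy : ι → F₀} {A B : ι → F} {s : F}

theorem coords (c : Cfg C x d y fy A B s) {p₀ p₁ p₂ : F} {t : ι → F₀}
    (h : p₀ • R (x 0) + p₁ • R (x 1) + p₂ • R (x 2) = R t) : p₀ ∈ F₀ ∧ p₁ ∈ F₀ ∧ p₂ ∈ F₀ := by
  have key : ∀ j, P (p₀ • R (x 0) + p₁ • R (x 1) + p₂ • R (x 2)) (R (d j)) ∈ F₀ := by
    intro j
    rw [h, C.Pc]
    exact (C.P₀ t (d j)).2
  have k0 := key 0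
  have k1 := key 1
  have k2 := key 2
  simp only [map_add, map_smul, LinearMap.add_apply, LinearMap.smul_apply, c.ud] at k0 k1 k2
  simp at k0 k1 k2
  exact ⟨k0, k1, k2⟩

theorem borel (c : Cfg C x d y fy A B s) (H : C.Hyp) (m : Matrix.SpecialLinearGroup (Fin 2) F)
    (hm : m ∈ HT Pm Q M x A B) (h10 : m.1 1 0 = 0) : m.1 0 0 = 1 := by
  obtain ⟨g, hgM, hR⟩ := hm
  obtain ⟨κ₁, a1⟩ := hR.e1
  obtain ⟨κ₂, a3⟩ := hR.e3
  rw [h10, zero_smul, add_zero] at a1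
  rw [h10, zero_smul, sub_zero] at a3
  have hdet := m.2
  rw [det_fin_two, h10, mul_zero, sub_zero] at hdet
  obtain ⟨α, hα⟩ : ∃ α, α = m.1 0 0 := ⟨_, rfl⟩
  rw [← hα] at a1 a3 hdet ⊢
  have hα0 : α ≠ 0 := left_ne_zero_of_mul_eq_one hdet
  obtain ⟨ζ₁, hζ₁⟩ : ∃ ζ₁, ζ₁ = P A (R (x 2)) := ⟨_, rfl⟩
  obtain ⟨ζ₂, hζ₂⟩ : ∃ ζ₂, ζ₂ = P B (R (x 2)) := ⟨_, rfl⟩
  have hzv : zv Pm Q x A B = R (x 2) - ζ₁ • R (x 0) - ζ₂ • R (x 1) := by rw [zv, hζ₁, hζ₂]
  have hz1 : ζ₁ ∉ F₀ := by rw [hζ₁]; exact c.hz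
  have fz := hR.fz
  obtain ⟨c₀, c₁, c₂, c₃, c₄, hc⟩ := hR.fX (R y)
  have hyz : P (R y) (zv Pm Q x A B) = 0 := by
    rw [hzv]
    simp only [map_sub, map_smul, c.yu, smul_zero, sub_zero]
  have gyz : P (g.1 (R y)) (zv Pm Q x A B) = 0 := by
    have := OG_polar Q g.2 (R y) (zv Pm Q x A B)
    rw [fz, hyz] at this
    exact this
  have gy0 : P (g.1 (R y)) (R (x 0)) = 0 := by
    have := OG_polar Q g.2 (R y) (R (x 0))
    rw [a1, map_add, map_smul, map_smul, gyz, c.yu, smul_zero, add_zero, smul_eq_mul] at this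
    exact (mul_eq_zero.1 this).resolve_left hα0
  have gy1 : P (g.1 (R y)) (R (x 1)) = 0 := by
    have := OG_polar Q g.2 (R y) (R (x 1))
    rw [a3, map_add, map_smul, map_smul, gyz, c.yu, smul_zero, add_zero, smul_eq_mul] at this
    exact (mul_eq_zero.1 this).resolve_left hα0
  have hc3 : c₃ = 0 := by
    have := congrArg (fun v => P v (R (x 0))) hc
    simp only [map_add, map_sub, map_smul, LinearMap.add_apply, LinearMap.sub_apply,
      LinearMap.smul_apply, c.uu, c.yu, gy0, c.A0, c.B0, smul_eq_mul] at this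
    simpa using this.symm
  have hc4 : c₄ = 0 := by
    have := congrArg (fun v => P v (R (x 1))) hc
    simp only [map_add, map_sub, map_smul, LinearMap.add_apply, LinearMap.sub_apply,
      LinearMap.smul_apply, c.uu, c.yu, gy1, c.A1, c.B1, smul_eq_mul] at this
    simpa using this.symm
  have hgy : g.1 (R y) = R y + (c₀ • R (x 0) + c₁ • R (x 1) + c₂ • R (x 2)) := by
    rw [hc3, hc4, zero_smul, zero_smul, add_zero, add_zero] at hc
    rw [← hc]; abel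
  have hS : ∀ i, SHas M (g.1 (R (x i))) (R y + (c₀ • R (x 0) + c₁ • R (x 1) + c₂ • R (x 2))) := by
    intro i
    rw [← hgy]
    exact (C.rat (c.qx i) (c.yx i)).map hgM
  have e0 : g.1 (R (x 0)) = (α - κ₁ * ζ₁) • R (x 0) + (- κ₁ * ζ₂) • R (x 1) + κ₁ • R (x 2) := by
    rw [a1, hzv]; module
  have e1 : g.1 (R (x 1)) = (- κ₂ * ζ₁) • R (x 0) + (α - κ₂ * ζ₂) • R (x 1) + κ₂ • R (x 2) := by
    rw [a3, hzv]; module
  obtain ⟨t₀, ht₀⟩ := c.lemR H _ _ _ _ _ _ e0 rfl (hS 0)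
  obtain ⟨t₁, ht₁⟩ := c.lemR H _ _ _ _ _ _ e1 rfl (hS 1)
  obtain ⟨b0, -, b2⟩ := c.coords (e0.symm.trans ht₀)
  obtain ⟨d0, d1, d2⟩ := c.coords (e1.symm.trans ht₁)
  have hκ₂ : κ₂ = 0 := by
    apply eq_zero_of_mul_mem d2 hz1
    have := F₀.neg_mem d0
    convert this using 1
    ring
  rw [hκ₂] at d1
  have hαF : α ∈ F₀ := by simpa using d1
  have hκ₁ : κ₁ = 0 := by
    apply eq_zero_of_mul_mem b2 hz1
    have := F₀.sub_mem hαF b0
    convert this using 1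
    ring
  rw [hκ₁, zero_smul, add_zero] at a1
  rw [hκ₂, zero_smul, add_zero] at a3
  have e2 : g.1 (R (x 2)) = ((α - 1) * ζ₁) • R (x 0) + ((α - 1) * ζ₂) • R (x 1) +
      (1 : F) • R (x 2) := by
    have h2 : R (x 2) = zv Pm Q x A B + ζ₁ • R (x 0) + ζ₂ • R (x 1) := by rw [hzv]; abel
    conv_lhs => rw [h2]
    rw [map_add, map_add, map_smul, map_smul, fz, a1, a3, hzv]
    module
  obtain ⟨t₂, ht₂⟩ := c.lemR H _ _ _ _ _ _ e2 rfl (hS 2)
  obtain ⟨f0, -, -⟩ := c.coords (e2.symm.trans ht₂)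
  have := eq_zero_of_mul_mem (F₀.sub_mem hαF F₀.one_mem) hz1 f0
  exact sub_eq_zero.1 this

/-- the configuration is contradictory -/
theorem false (c : Cfg C x d y fy A B s) (H : C.Hyp) : False := by
  have hz : P A (R (x 2)) ∉ F₀ := c.hz
  have h := sl2_frob (HT Pm Q M x A B) (c.borel H) 1 (- P A (R (x 2))) one_ne_zero
    (by
      intro h0
      apply hz
      rw [neg_eq_zero.1 h0]
      exact F₀.zero_mem)
    (by
      intro h0
      apply hz
      have : P A (R (x 2)) = -1 := by rw [h0]; ring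
      rw [this]
      exact F₀.neg_mem F₀.one_mem)
    c.relX1 c.relX2 _ c.relY
  have h2 : (yL (-s)).1 1 0 = -s := by simp [yL]
  rw [h2] at h
  exact c.hs (neg_eq_zero.1 h)

end Cfg

end Cfsg.Agent.Lib.Helper16
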