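import Mathlib
import Cfsg.Agent.Lib.Helper16.SubO9

set_option autoImplicit false
set_option linter.unusedSectionVars false

namespace Cfsg.Agent.Lib.Helper16

open Cfsg Cfsg.Agent.Lib.Helper6 Module Matrix

theorem SHas.line {F V : Type*} [Field F] [AddCommGroup V] [Module F V] {Q : QuadraticForm F V}
    {M : Subgroup ↥(OG Q)} {p p₁ : V} (h : SHas M p p₁) (hp₁ : Q p₁ = 0) (a b c d : F)
    (hdet : a * d - b * c = 1) : SHas M (a • p + b • p₁) (c • p + d • p₁) := by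
  obtain ⟨hw, hu, hmem⟩ := h
  have hpp : QuadraticMap.polarBilin Q p p = 0 := by rw [wq_self, hw, mul_zero]
  have hp1 : QuadraticMap.polarBilin Q p₁ p₁ = 0 := by rw [wq_self, hp₁, mul_zero]
  have hu' : QuadraticMap.polarBilin Q p p₁ = 0 := by rw [wq_symm]; exact hu
  have q : ∀ s t : F, Q (s • p + t • p₁) = 0 := by
    intro s t
    rw [wq_add, wq_smul, wq_smul, hw, hp₁, map_smul, map_smul, LinearMap.smul_apply, hu']
    simp
  have o : QuadraticMap.polarBilin Q (c • p + d • p₁) (a • p + b • p₁) = 0 := by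
    simp only [map_add, map_smul, LinearMap.add_apply, LinearMap.smul_apply, hpp, hp1, hu, hu',
      smul_zero, add_zero]
  refine ⟨q a b, o, ?_⟩
  have : siegO Q (a • p + b • p₁) (c • p + d • p₁) (q a b) o = siegO Q p p₁ hw hu := by
    apply Subtype.ext
    ext1 t
    rw [siegO_ts_apply _ _ _ _ (q c d), siegO_ts_apply _ _ _ _ hp₁]
    simp only [map_add, map_smul, smul_eq_mul]
    obtain ⟨τ, hτ⟩ : ∃ τ, τ = QuadraticMap.polarBilin Q t p := ⟨_, rfl⟩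
    obtain ⟨τ₁, hτ₁⟩ : ∃ τ₁, τ₁ = QuadraticMap.polarBilin Q t p₁ := ⟨_, rfl⟩
    rw [← hτ, ← hτ₁]
    have key : t + (c * τ + d * τ₁) • (a • p + b • p₁) - (a * τ + b * τ₁) • (c • p + d • p₁) =
        t + (a * d - b * c) • (τ₁ • p - τ • p₁) := by module
    rw [key, hdet, one_smul]
    abel
  rw [this]; exact hmem

variable {F : Type*} [Field F] [Fintype F] {ι : Type} [Fintype ι] [DecidableEq ι]
variable {F₀ : Subfield F} {Pm : Matrix.GeneralLinearGroup ι F} {Q : QuadraticForm F (ι → F)}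
variable {M : Subgroup ↥(OG Q)}

local notation "P" => QuadraticMap.polarBilin Q
local notation "R" => rv F₀ Pm

namespace OCtx

theorem exists_sing_ne (C : OCtx F₀ Pm Q M) (v : ι → F) (hv : v ≠ 0) :
    ∃ x, C.Q₀ x = 0 ∧ P (R x) v ≠ 0 := by
  have hfr := C.fr
  by_contra hcon
  push Not at hcon
  apply hv
  apply eq_zero_of_polar_rat (F₀ := F₀) (Pm := Pm) C.hQ
  intro t
  obtain ⟨e, f, hp, -, -⟩ := exists_hpair_orth_fin C.nd ![] (by omega)
  obtain ⟨s₁, s₂, s₃, h1, h2, h3, hs, -⟩ := exists_three_sing hp t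
  rw [wq_symm, hs, rv_add, rv_add, map_add, map_add, LinearMap.add_apply, LinearMap.add_apply,
    hcon s₁ h1, hcon s₂ h2, hcon s₃ h3]
  simp

theorem exists_sing_orth_ne (C : OCtx F₀ Pm Q M) {x₀ : ι → F₀} (hx₀ : C.Q₀ x₀ = 0) (hx0 : x₀ ≠ 0)
    (v : ι → F) (hv : ∀ μ : F, v ≠ μ • R x₀) :
    ∃ x₁, C.Q₀ x₁ = 0 ∧ C.P₀ x₁ x₀ = 0 ∧ P (R x₁) v ≠ 0 := by
  have hfr := C.fr
  by_contra hcon
  push Not at hcon
  obtain ⟨f₀, hf1, hf2⟩ := exists_hyp_pair C.Q₀ C.nd x₀ hx0 hx₀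
  have hp₀ : HPair C.Q₀ x₀ f₀ := ⟨hx₀, hf1, hf2⟩
  obtain ⟨e, f, hp, he, hf⟩ := exists_hpair_orth_fin C.nd ![x₀] (by omega)
  have hex : C.P₀ e x₀ = 0 := by rw [C.sym]; exact he 0
  have hfx : C.P₀ f x₀ = 0 := by rw [C.sym]; exact hf 0
  have orth : ∀ t : ι → F₀, C.P₀ t x₀ = 0 → P (R t) v = 0 := by
    intro t ht
    obtain ⟨s₁, s₂, s₃, h1, h2, h3, hs, ho⟩ := exists_three_sing hp t
    obtain ⟨o1, o2, o3⟩ := ho x₀ hex hfx ht
    rw [hs, rv_add, rv_add, map_add, map_add, LinearMap.add_apply, LinearMap.add_apply,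
      hcon s₁ h1 o1, hcon s₂ h2 o2, hcon s₃ h3 o3]
    simp
  apply hv (P (R f₀) v)
  rw [← sub_eq_zero]
  apply eq_zero_of_polar_rat (F₀ := F₀) (Pm := Pm) C.hQ
  intro t
  have h1 := orth (t - (C.P₀ t x₀) • f₀) (by
    rw [map_sub, LinearMap.sub_apply, map_smul, LinearMap.smul_apply, hp₀.fe]
    simp)
  rw [rv_sub, rv_smul, map_sub, LinearMap.sub_apply, map_smul, LinearMap.smul_apply, ← C.Pc] at h1
  rw [map_sub, LinearMap.sub_apply, map_smul, LinearMap.smul_apply, wq_symm Q v, wq_symm Q (R x₀)]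
  rw [smul_eq_mul] at h1 ⊢
  linear_combination h1

end OCtx

theorem Cfg.swap {C : OCtx F₀ Pm Q M} {x d : Fin 3 → ι → F₀} {y fy : ι → F₀} {A B : ι → F} {s : F}
    (qx : ∀ i, C.Q₀ (x i) = 0) (xx : ∀ i j, C.P₀ (x i) (x j) = 0)
    (xd : ∀ i j, C.P₀ (x i) (d j) = if i = j then 1 else 0) (hy : HPair C.Q₀ y fy)
    (yx : ∀ i, C.P₀ y (x i) = 0) (fx : ∀ i, C.P₀ fy (x i) = 0) (qA : Q A = 0) (qB : Q B = 0)
    (AB : P A B = 0) (A0 : P A (R (x 0)) = 1) (A1 : P A (R (x 1)) = 0) (B0 : P B (R (x 0)) = 0)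
    (B1 : P B (R (x 1)) = 1) (hs : s ≠ 0) (hM : SHas M A (s • B)) (hz : P B (R (x 2)) ∉ F₀) :
    Cfg C ![x 1, x 0, x 2] ![d 1, d 0, d 2] y fy B A s where
  qx := by intro i; fin_cases i <;> exact qx _
  xx := by intro i j; fin_cases i <;> fin_cases j <;> exact xx _ _
  xd := by
    intro i j
    fin_cases i <;> fin_cases j <;> simp [xd]
  hy := hy
  yx := by intro i; fin_cases i <;> exact yx _
  fx := by intro i; fin_cases i <;> exact fx _
  qA := qB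
  qB := qA
  AB := by rw [wq_symm]; exact AB
  A0 := B1
  A1 := B0
  B0 := A1
  B1 := A0
  hs := hs
  hM := (hM.swap (by rw [wq_smul, qB, mul_zero])).smul_right_of_left hs
  hz := hz

end Cfsg.Agent.Lib.Helper16
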