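import Mathlib
import Cfsg.Agent.Lib.Helper16.SubO10

set_option autoImplicit false
set_option linter.unusedSectionVars false

namespace Cfsg.Agent.Lib.Helper16

open Cfsg Cfsg.Agent.Lib.Helper6 Module Matrix

variable {F : Type*} [Field F] [Fintype F] {ι : Type} [Fintype ι] [DecidableEq ι]
variable {F₀ : Subfield F} {Pm : Matrix.GeneralLinearGroup ι F} {Q : QuadraticForm F (ι → F)}
variable {M : Subgroup ↥(OG Q)}

local notation "P" => QuadraticMap.polarBilin Q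
local notation "R" => rv F₀ Pm

namespace OCtx

/-- long root elements of `M` are rational -/
theorem line_rat (C : OCtx F₀ Pm Q M) (H : C.Hyp) {p p₁ : ι → F} (h : SHas M p p₁)
    (hp₁ : Q p₁ = 0) (hp0 : p ≠ 0) (hind : ∀ μ : F, p₁ ≠ μ • p) :
    ∀ t : ι → F₀, ∃ t', P (R t) p₁ • p - P (R t) p • p₁ = R t' := by
  have hfr := C.fr
  have hpp : P p p = 0 := by rw [wq_self, h.sing, mul_zero]
  have hp1p : P p₁ p = 0 := h.orth
  have hpp1 : P p p₁ = 0 := by rw [wq_symm]; exact hp1p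
  have hp1p1 : P p₁ p₁ = 0 := by rw [wq_self, hp₁, mul_zero]
  obtain ⟨x₀, hx₀, hd₀⟩ := C.exists_sing_ne p hp0
  have hx00 : x₀ ≠ 0 := by
    rintro rfl
    rw [rv_zero] at hd₀
    simp at hd₀
  obtain ⟨d₀, hd₀'⟩ : ∃ d₀, d₀ = P (R x₀) p := ⟨_, rfl⟩
  obtain ⟨c₀, hc₀'⟩ : ∃ c₀, c₀ = P (R x₀) p₁ := ⟨_, rfl⟩
  rw [← hd₀'] at hd₀
  have hp' : ∀ μ : F, d₀ • p₁ - c₀ • p ≠ μ • R x₀ := by
    intro μ he
    have h1 := congrArg (fun v => P v p) he
    simp only [map_sub, map_smul, LinearMap.sub_apply, LinearMap.smul_apply, hp1p, hpp, ← hd₀',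
      smul_eq_mul, mul_zero, sub_zero] at h1
    have hμ : μ = 0 := (mul_eq_zero.1 h1.symm).resolve_right hd₀
    rw [hμ, zero_smul, sub_eq_zero] at he
    apply hind (d₀⁻¹ * c₀)
    rw [mul_smul, ← he, smul_smul, inv_mul_cancel₀ hd₀, one_smul]
  obtain ⟨x₁, hx₁, hx₁₀, hD⟩ := C.exists_sing_orth_ne hx₀ hx00 _ hp'
  obtain ⟨a₀, ha₀'⟩ : ∃ a₀, a₀ = P (R x₁) p₁ := ⟨_, rfl⟩
  obtain ⟨b₀, hb₀'⟩ : ∃ b₀, b₀ = P (R x₁) p := ⟨_, rfl⟩
  rw [map_sub, map_smul, map_smul, ← ha₀', ← hb₀', smul_eq_mul, smul_eq_mul] at hD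
  obtain ⟨D, hDdef⟩ : ∃ D, D = d₀ * a₀ - c₀ * b₀ := ⟨_, rfl⟩
  rw [← hDdef] at hD
  obtain ⟨x₂, f₂, hp₂, he₂, hf₂⟩ := exists_hpair_orth_fin C.nd ![x₀, x₁] (by omega)
  have h02 : C.P₀ x₀ x₂ = 0 := he₂ 0
  have h12 : C.P₀ x₁ x₂ = 0 := he₂ 1
  have h0f : C.P₀ x₀ f₂ = 0 := hf₂ 0
  have h1f : C.P₀ x₁ f₂ = 0 := hf₂ 1
  have h01 : C.P₀ x₀ x₁ = 0 := by rw [C.sym]; exact hx₁₀
  have n0 : x₀ ∉ Submodule.span F₀ {x₁, x₂} := by
    intro hmem
    obtain ⟨μ₁, μ₂, hμ⟩ := Submodule.mem_span_pair.1 hmem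
    have h1 := h0f
    rw [← hμ, map_add, LinearMap.add_apply, map_smul, map_smul, LinearMap.smul_apply,
      LinearMap.smul_apply, h1f, hp₂.hef] at h1
    have hμ₂ : μ₂ = 0 := by simpa using h1
    rw [hμ₂, zero_smul, add_zero] at hμ
    apply hD
    rw [hDdef, hd₀', hc₀', ← hμ, rv_smul, map_smul, LinearMap.smul_apply, LinearMap.smul_apply,
      ← ha₀', ← hb₀']
    simp only [smul_eq_mul]
    ring
  have n1 : x₁ ∉ Submodule.span F₀ {x₀, x₂} := by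
    intro hmem
    obtain ⟨μ₁, μ₂, hμ⟩ := Submodule.mem_span_pair.1 hmem
    have h1 := h1f
    rw [← hμ, map_add, LinearMap.add_apply, map_smul, map_smul, LinearMap.smul_apply,
      LinearMap.smul_apply, h0f, hp₂.hef] at h1
    have hμ₂ : μ₂ = 0 := by simpa using h1
    rw [hμ₂, zero_smul, add_zero] at hμ
    apply hD
    rw [hDdef, ha₀', hb₀', ← hμ, rv_smul, map_smul, LinearMap.smul_apply, LinearMap.smul_apply,
      ← hd₀', ← hc₀']
    simp only [smul_eq_mul]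
    ring
  obtain ⟨e₀, hpe₀, he₀⟩ := exists_partner_sub C.nd _ x₀ hx₀ (by
    intro y hy
    obtain ⟨μ₁, μ₂, rfl⟩ := Submodule.mem_span_pair.1 hy
    rw [map_add, LinearMap.add_apply, map_smul, map_smul, LinearMap.smul_apply,
      LinearMap.smul_apply, hx₁₀, C.sym x₂ x₀, h02]
    simp) n0
  obtain ⟨e₁, hpe₁, he₁⟩ := exists_partner_sub C.nd _ x₁ hx₁ (by
    intro y hy
    obtain ⟨μ₁, μ₂, rfl⟩ := Submodule.mem_span_pair.1 hy
    rw [map_add, LinearMap.add_apply, map_smul, map_smul, LinearMap.smul_apply,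
      LinearMap.smul_apply, h01, C.sym x₂ x₁, h12]
    simp) n1
  have g10 : C.P₀ x₁ e₀ = 0 := he₀ _ (Submodule.subset_span (by simp))
  have g20 : C.P₀ x₂ e₀ = 0 := he₀ _ (Submodule.subset_span (by simp))
  have g01 : C.P₀ x₀ e₁ = 0 := he₁ _ (Submodule.subset_span (by simp))
  have g21 : C.P₀ x₂ e₁ = 0 := he₁ _ (Submodule.subset_span (by simp))
  obtain ⟨y, fy, hpy, hey, hfy⟩ := exists_hpair_orth_fin C.nd ![x₀, x₁, x₂] (by omega)
  have qx : ∀ i, C.Q₀ (![x₀, x₁, x₂] i) = 0 := by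
    intro i; fin_cases i
    · exact hx₀
    · exact hx₁
    · exact hp₂.he
  have s00 : C.P₀ x₀ x₀ = 0 := by rw [wq_self, hx₀, mul_zero]
  have s11 : C.P₀ x₁ x₁ = 0 := by rw [wq_self, hx₁, mul_zero]
  have xx : ∀ i j, C.P₀ (![x₀, x₁, x₂] i) (![x₀, x₁, x₂] j) = 0 := by
    intro i j
    fin_cases i <;> fin_cases j
    · exact s00
    · exact h01
    · exact h02
    · exact hx₁₀
    · exact s11
    · exact h12
    · rw [C.sym]; exact h02
    · rw [C.sym]; exact h12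
    · exact hp₂.ee
  have xd : ∀ i j, C.P₀ (![x₀, x₁, x₂] i) (![e₀, e₁, f₂] j) = if i = j then 1 else 0 := by
    intro i j
    fin_cases i <;> fin_cases j
    · exact hpe₀.hef
    · exact g01
    · exact h0f
    · exact g10
    · exact hpe₁.hef
    · exact h1f
    · exact g20
    · exact g21
    · exact hp₂.hef
  have yx : ∀ i, C.P₀ y (![x₀, x₁, x₂] i) = 0 := by
    intro i; rw [C.sym]; exact hey i
  have fx : ∀ i, C.P₀ fy (![x₀, x₁, x₂] i) = 0 := by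
    intro i; rw [C.sym]; exact hfy i
  obtain ⟨A, hA⟩ : ∃ A, A = (D⁻¹ * a₀) • p + (-(D⁻¹ * b₀)) • p₁ := ⟨_, rfl⟩
  obtain ⟨B, hB⟩ : ∃ B, B = D⁻¹ • ((-c₀) • p + d₀ • p₁) := ⟨_, rfl⟩
  have hDB : D • B = (-c₀) • p + d₀ • p₁ := by rw [hB, smul_smul, mul_inv_cancel₀ hD, one_smul]
  have hM : SHas M A (D • B) := by
    rw [hA, hDB]
    apply h.line hp₁
    rw [hDdef] at hD ⊢
    field_simp
  have qA : Q A = 0 := hM.sing
  have qB : Q B = 0 := by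
    rw [hB, wq_smul, wq_add, wq_smul, wq_smul, h.sing, hp₁, map_smul, map_smul,
      LinearMap.smul_apply, hpp1]
    simp
  have AB : P A B = 0 := by
    rw [hA, hB]
    simp only [map_add, map_smul, LinearMap.add_apply, LinearMap.smul_apply, hpp, hpp1, hp1p, hp1p1,
      smul_zero, add_zero]
  have A0 : P A (R x₀) = 1 := by
    rw [hA, wq_symm]
    simp only [map_add, map_smul, ← hd₀', ← hc₀', smul_eq_mul]
    rw [hDdef] at hD ⊢
    field_simp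
    ring
  have A1 : P A (R x₁) = 0 := by
    rw [hA, wq_symm]
    simp only [map_add, map_smul, ← ha₀', ← hb₀', smul_eq_mul]
    ring
  have B0 : P B (R x₀) = 0 := by
    rw [hB, wq_symm]
    simp only [map_add, map_smul, ← hd₀', ← hc₀', smul_eq_mul]
    ring
  have B1 : P B (R x₁) = 1 := by
    rw [hB, wq_symm]
    simp only [map_add, map_smul, ← ha₀', ← hb₀', smul_eq_mul]
    rw [hDdef] at hD ⊢
    field_simp
    ring
  by_cases hz1 : P A (R x₂) ∈ F₀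
  swap
  · exact ((⟨qx, xx, xd, hpy, yx, fx, qA, qB, AB, A0, A1, B0, B1, hD, hM, hz1⟩ :
      Cfg C ![x₀, x₁, x₂] ![e₀, e₁, f₂] y fy A B D).false H).elim
  by_cases hz2 : P B (R x₂) ∈ F₀
  swap
  · exact ((Cfg.swap (x := ![x₀, x₁, x₂]) (d := ![e₀, e₁, f₂]) qx xx xd hpy yx fx qA qB AB A0 A1 B0
      B1 hD hM hz2).false H).elim
  -- the rational case
  obtain ⟨z₀, hz₀⟩ : ∃ z₀ : ι → F₀, z₀ = x₂ - (⟨_, hz1⟩ : F₀) • x₀ - (⟨_, hz2⟩ : F₀) • x₁ := ⟨_, rfl⟩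
  have hRz : R z₀ = R x₂ - P A (R x₂) • R x₀ - P B (R x₂) • R x₁ := by
    rw [hz₀, rv_sub, rv_sub, rv_smul, rv_smul]
  have hz₀q : C.Q₀ z₀ = 0 := by
    rw [hz₀, wq_sub, wq_sub, wq_smul, wq_smul, hp₂.he, hx₀, hx₁]
    simp only [map_sub, map_smul, LinearMap.sub_apply, LinearMap.smul_apply]
    rw [C.sym x₂ x₀, C.sym x₂ x₁, h02, h12, h01]
    simp
  have hz₀ne : z₀ ≠ 0 := by
    intro h0
    have h1 : C.P₀ z₀ f₂ = 1 := by
      rw [hz₀]
      simp only [map_sub, map_smul, LinearMap.sub_apply, LinearMap.smul_apply]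
      rw [hp₂.hef, h0f, h1f]
      simp
    rw [h0] at h1
    simp at h1
  have zA : P (R z₀) A = 0 := by
    rw [hRz]
    simp only [map_sub, map_smul, LinearMap.sub_apply, LinearMap.smul_apply]
    rw [wq_symm Q (R x₂) A, wq_symm Q (R x₀) A, wq_symm Q (R x₁) A, A0, A1]
    simp
  have zB : P (R z₀) B = 0 := by
    rw [hRz]
    simp only [map_sub, map_smul, LinearMap.sub_apply, LinearMap.smul_apply]
    rw [wq_symm Q (R x₂) B, wq_symm Q (R x₀) B, wq_symm Q (R x₁) B, B0, B1]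
    simp
  have ep : p = d₀ • A + b₀ • B := by
    have : d₀ • A + b₀ • B = (D⁻¹ * (d₀ * a₀ - c₀ * b₀)) • p := by rw [hA, hB]; module
    rw [this, ← hDdef, inv_mul_cancel₀ hD, one_smul]
  have ep₁ : p₁ = c₀ • A + a₀ • B := by
    have : c₀ • A + a₀ • B = (D⁻¹ * (d₀ * a₀ - c₀ * b₀)) • p₁ := by rw [hA, hB]; module
    rw [this, ← hDdef, inv_mul_cancel₀ hD, one_smul]
  have zp : P (R z₀) p = 0 := by rw [ep, map_add, map_smul, map_smul, zA, zB]; simp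
  have zp₁ : P (R z₀) p₁ = 0 := by rw [ep₁, map_add, map_smul, map_smul, zA, zB]; simp
  obtain ⟨hw, hu, hmem⟩ := h
  have hfix := siegO_fix_of_orth p p₁ (R z₀) hw hu zp zp₁
  have hSF := C.mem_SF_of_point H hmem hz₀ne hz₀q (c := 1) (x' := z₀) (by rw [one_smul]; exact hfix)
  obtain ⟨l, hl, hall⟩ := exists_of_mem_SF _ hSF
  obtain ⟨t₀, ht₀⟩ := hall z₀
  rw [hfix] at ht₀
  have hlF : l ∈ F₀ := smul_rv_eq_rv hz₀ne ht₀
  intro t
  obtain ⟨t', ht'⟩ := hall t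
  rw [siegO_ts_apply _ _ hw hu hp₁] at ht'
  refine ⟨(⟨l, hlF⟩ : F₀)⁻¹ • t' - t, ?_⟩
  rw [rv_sub, rv_smul, ← ht', smul_smul]
  have : (((⟨l, hlF⟩ : F₀)⁻¹ : F₀) : F) * l = 1 := by
    push_cast
    exact inv_mul_cancel₀ hl
  rw [this, one_smul]
  abel

end OCtx

end Cfsg.Agent.Lib.Helper16
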