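import Mathlib
import Cfsg.Agent.Lib.Helper16.SubSL3

set_option autoImplicit false
set_option linter.unusedSectionVars false

namespace Cfsg.Agent.Lib.Helper16

open Matrix Cfsg Cfsg.Agent.Lib.Helper6 Module

variable {F : Type*} [Field F] {ι : Type} [Fintype ι] [DecidableEq ι]
variable {F₀ : Subfield F} {P : Matrix.GeneralLinearGroup ι F}
variable {M : Subgroup (Matrix.GeneralLinearGroup ι F)}

theorem glT_mul (u w w' : ι → F) (h : w ⬝ᵥ u = 0) (h' : w' ⬝ᵥ u = 0) :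
    glT u w h * glT u w' h' = glT u (w + w') (by rw [add_dotProduct, h, h', add_zero]) := by
  apply gl_ext_mulVec
  intro x
  rw [Units.val_mul, ← Matrix.mulVec_mulVec, glT_mulVec, glT_mulVec, glT_mulVec, dotProduct_add,
    dotProduct_smul, h, add_dotProduct]
  ext i
  simp only [Pi.add_apply, Pi.smul_apply, smul_eq_mul]
  ring

theorem glT_congr {u w w' : ι → F} (hw : w = w') (h : w ⬝ᵥ u = 0) :
    glT u w h = glT u w' (by rw [← hw]; exact h) := by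
  subst hw; rfl

theorem glT_zero (u : ι → F) : glT u 0 (zero_dotProduct u) = 1 := by
  apply gl_ext_mulVec
  intro x
  rw [glT_mulVec]
  simp

theorem glT_pow (u w : ι → F) (h : w ⬝ᵥ u = 0) (k : ℕ) :
    glT u w h ^ k = glT u ((k : F) • w) (by rw [smul_dotProduct, h, smul_zero]) := by
  induction k with
  | zero =>
    rw [pow_zero, ← glT_zero u]
    apply glT_congr
    simp
  | succ k ih =>
    rw [pow_succ, ih, glT_mul]
    apply glT_congr
    push_cast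
    rw [add_smul, one_smul]

/-- a vector killed by all rational covectors vanishing at `x₁` is a multiple of `x₁` -/
theorem dual_span (x₁ : ι → F₀) (hx₁ : x₁ ≠ 0) (z : ι → F)
    (h : ∀ φ : ι → F₀, φ ⬝ᵥ x₁ = 0 → rc F₀ P φ ⬝ᵥ z = 0) : ∃ c : F, z = c • rv F₀ P x₁ := by
  obtain ⟨i₀, hi₀⟩ : ∃ i, x₁ i ≠ 0 := by
    by_contra hc
    push Not at hc
    exact hx₁ (funext hc)
  have hi₀' : ((x₁ i₀ : F₀) : F) ≠ 0 := fun h0 => hi₀ (by exact_mod_cast h0)
  set cz := ((P⁻¹ : Matrix.GeneralLinearGroup ι F) : Matrix ι ι F) *ᵥ z with hcz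
  have key : ∀ j, (x₁ i₀ : F) * cz j = (x₁ j : F) * cz i₀ := by
    intro j
    have h1 := h (x₁ i₀ • Pi.single j 1 - x₁ j • Pi.single i₀ 1) (by
      rw [sub_dotProduct, smul_dotProduct, smul_dotProduct, single_one_dotProduct,
        single_one_dotProduct, smul_eq_mul, smul_eq_mul]
      ring)
    rw [rc_sub, rc_smul, rc_smul, sub_dotProduct, smul_dotProduct, smul_dotProduct, rc_single_dot,
      rc_single_dot, smul_eq_mul, smul_eq_mul] at h1
    exact sub_eq_zero.1 h1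
  refine ⟨cz i₀ / x₁ i₀, ?_⟩
  have h2 : cz = (cz i₀ / x₁ i₀) • up F₀ x₁ := by
    ext j
    simp only [Pi.smul_apply, smul_eq_mul, up]
    have := key j
    field_simp
    linear_combination this
  rw [rv, ← mulVec_smul, ← h2, hcz, gl_mulVec_inv]

/-- Case (i): the image of a rational point which is killed by a rational covector is rational. -/
theorem rat_point_of_killed (hS : Geo.subfieldSubgroup F₀ P ⊓ Geo.specialLinear ι F ≤ M)
    (hn : 3 ≤ Fintype.card ι) (hB : ∀ l, Bm F₀ P M l → l ∈ F₀)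
    (h : Matrix.GeneralLinearGroup ι F) (hh : h ∈ M) (x₁ : ι → F₀) (hx₁ : x₁ ≠ 0)
    (ψ : ι → F₀) (hψ : ψ ≠ 0) (hψw : rc F₀ P ψ ⬝ᵥ ((h : Matrix ι ι F) *ᵥ rv F₀ P x₁) = 0) :
    ∃ (c : F) (x' : ι → F₀), (h : Matrix ι ι F) *ᵥ rv F₀ P x₁ = c • rv F₀ P x' := by
  set w := (h : Matrix ι ι F) *ᵥ rv F₀ P x₁ with hw
  obtain ⟨b, hb, hb0⟩ := exists_dot_zero_notMem ![ψ] ⊥ (by simp; omega)
  have hb0' : b ≠ 0 := fun h => hb0 (by rw [h]; exact Submodule.zero_mem _)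
  have hψb : ψ ⬝ᵥ b = 0 := by rw [dotProduct_comm]; exact hb 0
  by_cases hex : ∃ φ : ι → F₀, φ ⬝ᵥ x₁ = 0 ∧
      rc F₀ P φ ⬝ᵥ (((h⁻¹ : Matrix.GeneralLinearGroup ι F) : Matrix ι ι F) *ᵥ rv F₀ P b) ≠ 0
  · obtain ⟨φ, hφ, hne⟩ := hex
    have h1 := (THas_rat hS x₁ φ hφ).conj hh
    rw [← hw] at h1
    set a := rc F₀ P φ ᵥ* ((h⁻¹ : Matrix.GeneralLinearGroup ι F) : Matrix ι ι F) with ha
    have ha' : ∀ v, a ⬝ᵥ v = rc F₀ P φ ⬝ᵥ (((h⁻¹ : Matrix.GeneralLinearGroup ι F) : Matrix ι ι F) *ᵥ v) := by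
      intro v; rw [ha, Matrix.dotProduct_mulVec]
    have haw : a ⬝ᵥ w = 0 := by rw [ha', hw, gl_inv_mulVec, rc_dot_rv, hφ]; rfl
    have h2 := THas_comm h1 (THas_rat hS b ψ hψb) haw (by rw [rc_dot_rv, hψb]; rfl) hψw
    rw [← THas_smul_iff] at h2
    obtain ⟨x, hx⟩ := rat_of_axis hS hn hB ψ hψ _ h2 (by rw [dotProduct_smul, hψw, smul_zero])
    rw [ha'] at hx
    refine ⟨(rc F₀ P φ ⬝ᵥ (((h⁻¹ : Matrix.GeneralLinearGroup ι F) : Matrix ι ι F) *ᵥ rv F₀ P b))⁻¹, x, ?_⟩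
    rw [← hx, smul_smul, inv_mul_cancel₀ hne, one_smul]
  · push Not at hex
    obtain ⟨c, hc⟩ := dual_span x₁ hx₁ _ hex
    have h1 : rv F₀ P b = c • w := by
      rw [hw, ← mulVec_smul, ← hc, gl_mulVec_inv]
    have hc0 : c ≠ 0 := by
      rintro rfl
      rw [zero_smul] at h1
      exact rv_ne_zero F₀ P hb0' h1
    exact ⟨c⁻¹, b, by rw [h1, smul_smul, inv_mul_cancel₀ hc0, one_smul]⟩

end Cfsg.Agent.Lib.Helper16
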