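import Mathlib
import Cfsg.Agent.Lib.Helper16.SubSL4

set_option autoImplicit false
set_option linter.unusedSectionVars false

namespace Cfsg.Agent.Lib.Helper16

open Matrix Cfsg Cfsg.Agent.Lib.Helper6 Module

variable {F : Type*} [Field F] {ι : Type} [Fintype ι] [DecidableEq ι]
variable {F₀ : Subfield F} {P : Matrix.GeneralLinearGroup ι F}
variable {M : Subgroup (Matrix.GeneralLinearGroup ι F)}

variable (M) in
/-- the elements of `M` acting trivially modulo the line spanned by `β` and `w` -/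
def HL (β w : ι → F) : Subgroup (Matrix.GeneralLinearGroup ι F) where
  carrier := {g | g ∈ M ∧ ∀ x, (g : Matrix ι ι F) *ᵥ x - x ∈ Submodule.span F {β, w}}
  one_mem' := ⟨M.one_mem, fun x => by simp⟩
  mul_mem' := by
    rintro a b ⟨ha, ha'⟩ ⟨hb, hb'⟩
    refine ⟨M.mul_mem ha hb, fun x => ?_⟩
    have h1 := ha' ((b : Matrix ι ι F) *ᵥ x)
    have h2 := hb' x
    have := Submodule.add_mem _ h1 h2
    rw [Units.val_mul, ← Matrix.mulVec_mulVec]
    convert this using 1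
    abel
  inv_mem' := by
    rintro a ⟨ha, ha'⟩
    refine ⟨M.inv_mem ha, fun x => ?_⟩
    have h1 := ha' (((a⁻¹ : Matrix.GeneralLinearGroup ι F) : Matrix ι ι F) *ᵥ x)
    rw [gl_mulVec_inv] at h1
    have := Submodule.neg_mem _ h1
    convert this using 1
    abel

variable (F₀ P) in
/-- the rational transvections with centre `b` -/
def EL (b : ι → F₀) : Subgroup (Matrix.GeneralLinearGroup ι F) where
  carrier := {g | ∃ ψ : ι → F₀, ∃ h : rc F₀ P ψ ⬝ᵥ rv F₀ P b = 0,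
    g = glT (rv F₀ P b) (rc F₀ P ψ) h}
  one_mem' := ⟨0, by rw [rc_zero, zero_dotProduct], by
    rw [← glT_zero (rv F₀ P b)]
    exact glT_congr (rc_zero F₀ P).symm _⟩
  mul_mem' := by
    rintro _ _ ⟨ψ, h, rfl⟩ ⟨ψ', h', rfl⟩
    refine ⟨ψ + ψ', by rw [rc_add, add_dotProduct, h, h', add_zero], ?_⟩
    rw [glT_mul]
    exact glT_congr (rc_add F₀ P ψ ψ').symm _
  inv_mem' := by
    rintro _ ⟨ψ, h, rfl⟩
    have e : - rc F₀ P ψ = rc F₀ P (-ψ) := by
      have := rc_sub F₀ P 0 ψ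
      rw [rc_zero, zero_sub, zero_sub] at this
      exact this.symm
    refine ⟨-ψ, by rw [← e, neg_dotProduct, h, neg_zero], ?_⟩
    rw [glT_inv]
    exact glT_congr e _

theorem borel (hS : Geo.subfieldSubgroup F₀ P ⊓ Geo.specialLinear ι F ≤ M)
    (hM : M ≤ Geo.specialLinear ι F)
    (hn : 4 ≤ Fintype.card ι) (hB : ∀ l, Bm F₀ P M l → l ∈ F₀) (b : ι → F₀) (hb : b ≠ 0)
    (w : ι → F) (hfull : ∀ ψ : ι → F₀, ψ ≠ 0 → rc F₀ P ψ ⬝ᵥ w ≠ 0)
    (g : Matrix.GeneralLinearGroup ι F) (hg : g ∈ HL M (rv F₀ P b) w) (c : F)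
    (hc : (g : Matrix ι ι F) *ᵥ rv F₀ P b = c • rv F₀ P b) : g ∈ EL F₀ P b := by
  set β := rv F₀ P b with hβ
  have hβ0 : β ≠ 0 := rv_ne_zero F₀ P hb
  have hc0 : c ≠ 0 := by
    rintro rfl
    rw [zero_smul] at hc
    exact gl_mulVec_ne_zero g hβ0 hc
  have hginv : ((g⁻¹ : Matrix.GeneralLinearGroup ι F) : Matrix ι ι F) *ᵥ β = c⁻¹ • β := by
    have := gl_inv_mulVec g β
    rw [hc, mulVec_smul] at this
    conv_rhs => rw [← this, smul_smul, inv_mul_cancel₀ hc0, one_smul]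
  -- Step A
  have stepA : ∀ ψ : ι → F₀, ψ ⬝ᵥ b = 0 → ∀ u : ι → F₀,
      c * (rc F₀ P ψ ⬝ᵥ (((g⁻¹ : Matrix.GeneralLinearGroup ι F) : Matrix ι ι F) *ᵥ rv F₀ P u)) ∈ F₀ := by
    intro ψ hψ u
    have h1 := (THas_rat hS b ψ hψ).conj hg.1
    rw [← hβ, hc, THas_smul_iff] at h1
    obtain ⟨y, hy⟩ := rat_of_centre hS (by omega) hB b hb _ h1 (by
      rw [smul_dotProduct, ← Matrix.dotProduct_mulVec, ← hβ, hginv, dotProduct_smul, hβ, rc_dot_rv, hψ]
      simp)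
    have h2 := congrArg (fun a => a ⬝ᵥ rv F₀ P u) hy
    simp only [smul_dotProduct, ← Matrix.dotProduct_mulVec, rc_dot_rv, smul_eq_mul] at h2
    rw [h2]
    exact (y ⬝ᵥ u).2
  have hginvH := (HL M β w).inv_mem hg
  -- Step B
  have stepB : ∀ u : ι → F₀,
      ((g⁻¹ : Matrix.GeneralLinearGroup ι F) : Matrix ι ι F) *ᵥ rv F₀ P u - rv F₀ P u ∈
        Submodule.span F {β} := by
    intro u
    obtain ⟨s, t, hst⟩ := Submodule.mem_span_pair.1 (hginvH.2 (rv F₀ P u))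
    have ht : t = 0 := by
      by_contra ht
      obtain ⟨ψ₁, h1, h1'⟩ := exists_dot_zero_notMem ![b, u] ⊥ (by simp; omega)
      have hψ₁ : ψ₁ ≠ 0 := fun h => h1' (by rw [h]; exact Submodule.zero_mem _)
      obtain ⟨ψ₂, h2, h2'⟩ := exists_dot_zero_notMem ![b, u] (Submodule.span F₀ {ψ₁}) (by
        rw [finrank_span_singleton hψ₁]; omega)
      have e : ∀ ψ : ι → F₀, ψ ⬝ᵥ b = 0 → ψ ⬝ᵥ u = 0 →
          rc F₀ P ψ ⬝ᵥ (((g⁻¹ : Matrix.GeneralLinearGroup ι F) : Matrix ι ι F) *ᵥ rv F₀ P u) =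
            t * (rc F₀ P ψ ⬝ᵥ w) := by
        intro ψ hb' hu'
        have : ((g⁻¹ : Matrix.GeneralLinearGroup ι F) : Matrix ι ι F) *ᵥ rv F₀ P u =
            rv F₀ P u + (s • β + t • w) := by rw [hst]; abel
        rw [this, dotProduct_add, dotProduct_add, dotProduct_smul, dotProduct_smul, hβ, rc_dot_rv,
          rc_dot_rv, hb', hu']
        simp
      have a1 := stepA ψ₁ (h1 0) u
      have a2 := stepA ψ₂ (h2 0) u
      rw [e ψ₁ (h1 0) (h1 1)] at a1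
      rw [e ψ₂ (h2 0) (h2 1)] at a2
      set f₁ : F₀ := ⟨_, a1⟩ with hf₁
      set f₂ : F₀ := ⟨_, a2⟩ with hf₂
      have hf₁0 : f₁ ≠ 0 := by
        intro h0
        have : c * (t * (rc F₀ P ψ₁ ⬝ᵥ w)) = 0 := congrArg Subtype.val h0
        exact mul_ne_zero hc0 (mul_ne_zero ht (hfull ψ₁ hψ₁)) this
      have hz : rc F₀ P (f₂ • ψ₁ - f₁ • ψ₂) ⬝ᵥ w = 0 := by
        rw [rc_sub, rc_smul, rc_smul, sub_dotProduct, smul_dotProduct, smul_dotProduct]
        change (c * (t * (rc F₀ P ψ₂ ⬝ᵥ w))) * _ - (c * (t * (rc F₀ P ψ₁ ⬝ᵥ w))) * _ = 0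
        ring
      have hz' : f₂ • ψ₁ - f₁ • ψ₂ = 0 := by
        by_contra hne
        exact hfull _ hne hz
      apply h2'
      rw [Submodule.mem_span_singleton]
      refine ⟨f₁⁻¹ * f₂, ?_⟩
      rw [mul_smul, sub_eq_zero.1 hz', smul_smul, inv_mul_cancel₀ hf₁0, one_smul]
    rw [← hst, ht, zero_smul, add_zero]
    exact Submodule.smul_mem _ _ (Submodule.mem_span_singleton_self _)
  -- Step C
  have stepC : ∀ x : ι → F,
      ((g⁻¹ : Matrix.GeneralLinearGroup ι F) : Matrix ι ι F) *ᵥ x - x ∈ Submodule.span F {β} := by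
    intro x
    have h1 : ((g⁻¹ : Matrix.GeneralLinearGroup ι F) : Matrix ι ι F) *ᵥ x - x =
        ∑ i, (rc F₀ P (Pi.single i 1) ⬝ᵥ x) •
          (((g⁻¹ : Matrix.GeneralLinearGroup ι F) : Matrix ι ι F) *ᵥ rv F₀ P (Pi.single i 1) -
            rv F₀ P (Pi.single i 1)) := by
      simp only [smul_sub, Finset.sum_sub_distrib, ← mulVec_smul]
      rw [← Matrix.mulVec_sum, ← eq_sum_rv F₀ P x]
    rw [h1]
    exact Submodule.sum_mem _ (fun i _ => Submodule.smul_mem _ _ (stepB _))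
  -- Step D
  obtain ⟨π, -, hπ⟩ := exists_row (⊥ : Submodule F₀ (ι → F₀)) b (by simpa using hb)
  set a := rc F₀ P π ᵥ* (((g⁻¹ : Matrix.GeneralLinearGroup ι F) : Matrix ι ι F) - 1) with ha
  have hmat : ((g⁻¹ : Matrix.GeneralLinearGroup ι F) : Matrix ι ι F) = 1 + vecMulVec β a := by
    rw [Matrix.ext_iff_mulVec]
    intro x
    rw [rk1_mulVec]
    obtain ⟨s, hs⟩ := Submodule.mem_span_singleton.1 (stepC x)
    have h1 : a ⬝ᵥ x = s := by
      rw [ha, ← Matrix.dotProduct_mulVec, sub_mulVec, one_mulVec, ← hs, dotProduct_smul, hβ, rc_dot_rv,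
        hπ]
      simp
    rw [h1, hs]; abel
  have hdet : a ⬝ᵥ β = 0 := by
    have h1 := (mem_specialLinear_iff _).1 (hM (M.inv_mem hg.1))
    rw [hmat, rk1_det] at h1
    simpa using h1
  obtain ⟨y, hy⟩ := rat_of_centre hS (by omega) hB b hb a ⟨g⁻¹, M.inv_mem hg.1, hmat⟩ hdet
  have hfin : g⁻¹ ∈ EL F₀ P b := by
    refine ⟨y, by rw [← hy]; exact hdet, ?_⟩
    apply Units.ext
    rw [hmat, glT_coe, hy]
  have := (EL F₀ P b).inv_mem hfin
  rwa [inv_inv] at this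

end Cfsg.Agent.Lib.Helper16
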