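import Mathlib
import Cfsg.Agent.Lib.Helper16.SubSL5

set_option autoImplicit false
set_option linter.unusedSectionVars false

namespace Cfsg.Agent.Lib.Helper16

open Matrix Cfsg Cfsg.Agent.Lib.Helper6 Module

variable {F : Type*} [Field F] {ι : Type} [Fintype ι] [DecidableEq ι]
variable {F₀ : Subfield F} {P : Matrix.GeneralLinearGroup ι F}
variable {M : Subgroup (Matrix.GeneralLinearGroup ι F)}

theorem exists_dot_eq_one {K : Type*} [Field K] (ψ : ι → K) (hψ : ψ ≠ 0) : ∃ y, ψ ⬝ᵥ y = 1 := by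
  obtain ⟨y, -, hy⟩ := exists_row (⊥ : Submodule K (ι → K)) ψ (by simpa using hψ)
  exact ⟨y, by rw [dotProduct_comm]; exact hy⟩

theorem glT_rat_ne_one (b ψ : ι → F₀) (hb : b ≠ 0) (hψ : ψ ≠ 0)
    (h : rc F₀ P ψ ⬝ᵥ rv F₀ P b = 0) : glT (rv F₀ P b) (rc F₀ P ψ) h ≠ 1 := by
  intro hc
  obtain ⟨y, hy⟩ := exists_dot_eq_one ψ hψ
  have h1 := glT_mulVec (rv F₀ P b) (rc F₀ P ψ) h (rv F₀ P y)
  rw [hc, Units.val_one, one_mulVec, rc_dot_rv, hy] at h1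
  have h2 : rv F₀ P b = 0 := by simpa using h1
  exact rv_ne_zero F₀ P hb h2

/-- the quadratic identity satisfied by `k` when `k * X` is conjugate to the transvection `X` -/
theorem quad_identity (β a : ι → F) (h0 : a ⬝ᵥ β = 0) (k l : Matrix.GeneralLinearGroup ι F)
    (hkl : k * glT β a h0 = l * glT β a h0 * l⁻¹) (y : ι → F) :
    ((k : Matrix ι ι F) *ᵥ ((k : Matrix ι ι F) *ᵥ y - y) - ((k : Matrix ι ι F) *ᵥ y - y)) +
      (a ⬝ᵥ y) • ((k : Matrix ι ι F) *ᵥ ((k : Matrix ι ι F) *ᵥ β) - (k : Matrix ι ι F) *ᵥ β) +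
      (a ⬝ᵥ ((k : Matrix ι ι F) *ᵥ y - y) + (a ⬝ᵥ y) * (a ⬝ᵥ ((k : Matrix ι ι F) *ᵥ β))) •
        ((k : Matrix ι ι F) *ᵥ β) = 0 := by
  set X := glT β a h0 with hX
  have f1 : ∀ v, ((k * X : Matrix.GeneralLinearGroup ι F) : Matrix ι ι F) *ᵥ v =
      (k : Matrix ι ι F) *ᵥ v + (a ⬝ᵥ v) • ((k : Matrix ι ι F) *ᵥ β) := by
    intro v
    rw [Units.val_mul, ← Matrix.mulVec_mulVec, hX, glT_mulVec, mulVec_add, mulVec_smul]
  have f2 : ∀ v, ((k * X : Matrix.GeneralLinearGroup ι F) : Matrix ι ι F) *ᵥ v - v =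
      (a ⬝ᵥ (((l⁻¹ : Matrix.GeneralLinearGroup ι F) : Matrix ι ι F) *ᵥ v)) • ((l : Matrix ι ι F) *ᵥ β) := by
    intro v
    rw [hkl, Units.val_mul, Units.val_mul, ← Matrix.mulVec_mulVec, ← Matrix.mulVec_mulVec, hX,
      glT_mulVec, mulVec_add, mulVec_smul, gl_mulVec_inv]
    abel
  have f3 : ((k * X : Matrix.GeneralLinearGroup ι F) : Matrix ι ι F) *ᵥ ((l : Matrix ι ι F) *ᵥ β) =
      (l : Matrix ι ι F) *ᵥ β := by
    rw [hkl, Units.val_mul, Units.val_mul, ← Matrix.mulVec_mulVec, ← Matrix.mulVec_mulVec,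
      gl_inv_mulVec, hX, glT_mulVec, h0, zero_smul, add_zero]
  have f4 : ((k * X : Matrix.GeneralLinearGroup ι F) : Matrix ι ι F) *ᵥ
      (((k * X : Matrix.GeneralLinearGroup ι F) : Matrix ι ι F) *ᵥ y - y) =
      ((k * X : Matrix.GeneralLinearGroup ι F) : Matrix ι ι F) *ᵥ y - y := by
    rw [f2 y, mulVec_smul, f3]
  rw [f1 y] at f4
  rw [f1] at f4
  simp only [mulVec_add, mulVec_sub, mulVec_smul, dotProduct_add, dotProduct_sub, dotProduct_smul,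
    smul_eq_mul] at f4 ⊢
  linear_combination (norm := module) f4

theorem exists_two_other (hn : 4 ≤ Fintype.card ι) (i j : ι) :
    ∃ k l : ι, k ≠ i ∧ k ≠ j ∧ l ≠ i ∧ l ≠ j ∧ k ≠ l := by
  have h1 : 1 < (Finset.univ \ {i, j} : Finset ι).card := by
    have h2 := Finset.card_univ_sdiff ({i, j} : Finset ι)
    have h3 : ({i, j} : Finset ι).card ≤ 2 := Finset.card_le_two
    omega
  obtain ⟨k, hk, l, hl, hkl⟩ := Finset.one_lt_card.1 h1
  simp only [Finset.mem_sdiff, Finset.mem_univ, Finset.mem_insert, Finset.mem_singleton, true_and,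
    not_or] at hk hl
  exact ⟨k, l, hk.1, hk.2, hl.1, hl.2, hkl⟩

/-- Case (ii): no image of a rational point has full rank. -/
theorem no_full_rank [Fintype F] (hS : Geo.subfieldSubgroup F₀ P ⊓ Geo.specialLinear ι F ≤ M)
    (hM : M ≤ Geo.specialLinear ι F)
    (hn : 4 ≤ Fintype.card ι) (hB : ∀ l, Bm F₀ P M l → l ∈ F₀)
    (h : Matrix.GeneralLinearGroup ι F) (hh : h ∈ M) (x₁ : ι → F₀) (hx₁ : x₁ ≠ 0)
    (hfull : ∀ ψ : ι → F₀, ψ ≠ 0 → rc F₀ P ψ ⬝ᵥ ((h : Matrix ι ι F) *ᵥ rv F₀ P x₁) ≠ 0) : False := by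
  classical
  set w := (h : Matrix ι ι F) *ᵥ rv F₀ P x₁ with hw
  haveI : Nonempty ι := Fintype.card_pos_iff.1 (by omega)
  obtain ⟨i₀⟩ := ‹Nonempty ι›
  set b : ι → F₀ := Pi.single i₀ 1 with hb
  have hb0 : b ≠ 0 := single_ne_zero' i₀
  set β := rv F₀ P b with hβ
  have hβ0 : β ≠ 0 := rv_ne_zero F₀ P hb0
  obtain ⟨p, hp⟩ := CharP.exists F
  haveI := hp
  haveI : Fact p.Prime := ⟨CharP.char_is_prime F p⟩
  have hEH : EL F₀ P b ≤ HL M β w := by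
    rintro _ ⟨ψ, h0, rfl⟩
    refine ⟨hS (glT_rat_mem b ψ h0), fun x => ?_⟩
    rw [glT_mulVec, add_sub_cancel_left]
    exact Submodule.smul_mem _ _ (Submodule.subset_span (by simp [hβ]))
  obtain ⟨j₀, -, hj₀, -, -, -⟩ := exists_two_other hn i₀ i₀
  have hdot : ∀ j, j ≠ i₀ → (Pi.single j (1 : F₀) : ι → F₀) ⬝ᵥ b = 0 := fun j hj => single_dot_ne j i₀ hj
  have hrc0 : ∀ ψ : ι → F₀, ψ ⬝ᵥ b = 0 → rc F₀ P ψ ⬝ᵥ β = 0 := by
    intro ψ hψ
    rw [hβ, rc_dot_rv, hψ]; rfl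
  have hE1 : EL F₀ P b ≠ ⊥ := by
    intro hbot
    have h1 : glT β (rc F₀ P (Pi.single j₀ 1)) (hrc0 _ (hdot j₀ hj₀)) ∈ EL F₀ P b := ⟨_, _, rfl⟩
    rw [hbot, Subgroup.mem_bot] at h1
    exact glT_rat_ne_one b _ hb0 (single_ne_zero' j₀) _ h1
  have hpE : ∀ x ∈ EL F₀ P b, x ^ p = 1 := by
    rintro _ ⟨ψ, h0, rfl⟩
    rw [glT_pow, ← glT_zero (rv F₀ P b)]
    apply glT_congr
    rw [CharP.cast_eq_zero, zero_smul]
  have hcomm : ∀ x ∈ EL F₀ P b, ∀ y ∈ EL F₀ P b, x * y = y * x := by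
    rintro _ ⟨ψ, h0, rfl⟩ _ ⟨ψ', h0', rfl⟩
    rw [glT_mul, glT_mul]
    exact glT_congr (add_comm _ _) _
  have hbor : ∀ g ∈ HL M β w, ∀ c : F, (g : Matrix ι ι F) *ᵥ β = c • β → g ∈ EL F₀ P b :=
    fun g hg c hc => borel hS hM hn hB b hb0 w hfull g hg c hc
  have hTI : ∀ g ∈ HL M β w, ∀ x ∈ EL F₀ P b, x ≠ 1 → g * x * g⁻¹ ∈ EL F₀ P b → g ∈ EL F₀ P b := by
    rintro g hg _ ⟨ψ, h0, rfl⟩ hx1 ⟨ψ', h0', he⟩
    have hψ : ψ ≠ 0 := by
      rintro rfl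
      apply hx1
      rw [← glT_zero (rv F₀ P b)]
      exact glT_congr (rc_zero F₀ P) _
    obtain ⟨y, hy⟩ := exists_dot_eq_one ψ hψ
    have h1 := congrArg (fun t : Matrix.GeneralLinearGroup ι F =>
      (t : Matrix ι ι F) *ᵥ ((g : Matrix ι ι F) *ᵥ rv F₀ P y)) he
    simp only [Units.val_mul, ← Matrix.mulVec_mulVec, gl_inv_mulVec, glT_mulVec, rc_dot_rv, hy,
      mulVec_add, mulVec_smul] at h1
    apply hbor g hg (rc F₀ P ψ' ⬝ᵥ ((g : Matrix ι ι F) *ᵥ rv F₀ P y))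
    have h2 := add_left_cancel h1
    simpa using h2
  obtain ⟨K, hKH, hdec, hKE, hconj⟩ := frob_core' (HL M β w) (EL F₀ P b) hEH p hE1 hpE hcomm hTI
  have hK1 : ∀ k ∈ K, k = 1 := by
    intro k hk
    apply hKE k hk
    set u := (k : Matrix ι ι F) *ᵥ β with hu
    have hu0 : u ≠ 0 := gl_mulVec_ne_zero k hβ0
    have G : ∀ ψ : ι → F₀, ψ ≠ 0 → ψ ⬝ᵥ b = 0 → ∀ y : ι → F,
        ((k : Matrix ι ι F) *ᵥ ((k : Matrix ι ι F) *ᵥ y - y) - ((k : Matrix ι ι F) *ᵥ y - y)) +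
        (rc F₀ P ψ ⬝ᵥ y) • ((k : Matrix ι ι F) *ᵥ u - u) +
        (rc F₀ P ψ ⬝ᵥ ((k : Matrix ι ι F) *ᵥ y - y) + (rc F₀ P ψ ⬝ᵥ y) * (rc F₀ P ψ ⬝ᵥ u)) • u = 0 := by
      intro ψ hψ hψb y
      obtain ⟨l, -, hl⟩ := hconj k hk (glT β (rc F₀ P ψ) (hrc0 ψ hψb)) ⟨ψ, _, rfl⟩
        (glT_rat_ne_one b ψ hb0 hψ _)
      exact quad_identity β (rc F₀ P ψ) (hrc0 ψ hψb) k l hl y
    have polar : ∀ ψ ψ' : ι → F₀, ψ ≠ 0 → ψ' ≠ 0 → ψ + ψ' ≠ 0 → ψ ⬝ᵥ b = 0 → ψ' ⬝ᵥ b = 0 →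
        ∀ y : ι → F,
        ((k : Matrix ι ι F) *ᵥ ((k : Matrix ι ι F) *ᵥ y - y) - ((k : Matrix ι ι F) *ᵥ y - y)) =
        ((rc F₀ P ψ ⬝ᵥ y) * (rc F₀ P ψ' ⬝ᵥ u) + (rc F₀ P ψ' ⬝ᵥ y) * (rc F₀ P ψ ⬝ᵥ u)) • u := by
      intro ψ ψ' h1 h2 h3 h4 h5 y
      have G1 := G ψ h1 h4 y
      have G2 := G ψ' h2 h5 y
      have G3 := G (ψ + ψ') h3 (by rw [add_dotProduct, h4, h5, add_zero]) y
      rw [rc_add] at G3
      simp only [add_dotProduct] at G3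
      linear_combination (norm := module) G1 + G2 - G3
    have hsum : ∀ s t : ι, s ≠ t → (Pi.single s (1 : F₀) : ι → F₀) + Pi.single t 1 ≠ 0 := by
      intro s t hst h0
      have := congrFun h0 s
      simp [Pi.single_apply, hst] at this
    have hzero : ∀ j, j ≠ i₀ → rc F₀ P (Pi.single j 1) ⬝ᵥ u = 0 := by
      intro j hj
      obtain ⟨k', l', hk1, hk2, hl1, hl2, hkl⟩ := exists_two_other hn i₀ j
      have p1 := polar (Pi.single j 1) (Pi.single k' 1) (single_ne_zero' j) (single_ne_zero' k')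
        (hsum j k' hk2.symm) (hdot j hj) (hdot k' hk1) (rv F₀ P (Pi.single k' 1))
      have p2 := polar (Pi.single j 1) (Pi.single l' 1) (single_ne_zero' j) (single_ne_zero' l')
        (hsum j l' hl2.symm) (hdot j hj) (hdot l' hl1) (rv F₀ P (Pi.single k' 1))
      rw [p1] at p2
      simp only [rc_dot_rv, single_dot_ne j k' hk2.symm, single_dot_self, single_dot_ne l' k' hkl.symm] at p2
      simp only [ZeroMemClass.coe_zero, OneMemClass.coe_one, zero_mul, one_mul, zero_add, zero_smul] at p2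
      exact (smul_eq_zero.1 p2).resolve_right hu0
    apply hbor k (hKH hk) (rc F₀ P (Pi.single i₀ 1) ⬝ᵥ u)
    rw [← hu]
    conv_lhs => rw [eq_sum_rv F₀ P u]
    rw [Finset.sum_eq_single i₀]
    · intro j _ hj
      rw [hzero j hj, zero_smul]
    · intro hc
      exact absurd (Finset.mem_univ _) hc
  have hHE : ∀ g ∈ HL M β w, g ∈ EL F₀ P b := by
    intro g hg
    obtain ⟨k, hk, x, hx, rfl⟩ := hdec g hg
    rw [hK1 k hk, one_mul]; exact hx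
  -- a transvection with centre `w`
  obtain ⟨φ, hφ, hφ0⟩ := exists_dot_zero_notMem ![x₁] ⊥ (by simp; omega)
  have hφ0' : φ ≠ 0 := fun h => hφ0 (by rw [h]; exact Submodule.zero_mem _)
  obtain ⟨t, htM, ht⟩ := (THas_rat hS x₁ φ (hφ 0)).conj hh
  rw [← hw] at ht
  have htH : t ∈ HL M β w := by
    refine ⟨htM, fun x => ?_⟩
    rw [ht, rk1_mulVec, add_sub_cancel_left]
    exact Submodule.smul_mem _ _ (Submodule.subset_span (by simp))
  obtain ⟨ψ, h0, hte⟩ := hHE t htH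
  obtain ⟨y, hy⟩ := exists_dot_eq_one φ hφ0'
  have h1 := congrArg (fun t : Matrix.GeneralLinearGroup ι F =>
      (t : Matrix ι ι F) *ᵥ ((h : Matrix ι ι F) *ᵥ rv F₀ P y)) hte
  simp only [ht, rk1_mulVec, glT_mulVec, ← Matrix.dotProduct_mulVec, gl_inv_mulVec, rc_dot_rv, hy] at h1
  have h2 := add_left_cancel h1
  have h3 : w = (rc F₀ P ψ ⬝ᵥ ((h : Matrix ι ι F) *ᵥ rv F₀ P y)) • β := by simpa using h2
  apply hfull (Pi.single j₀ 1) (single_ne_zero' j₀)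
  rw [h3, dotProduct_smul, hrc0 _ (hdot j₀ hj₀), smul_zero]

theorem isMaximalIn_of_inf {G : Type*} [Group G] (K S : Subgroup G)
    (hne : ∃ g ∈ K, g ∉ S)
    (hmax : ∀ M : Subgroup G, S ⊓ K ≤ M → M ≤ K → (∃ h ∈ M, h ∉ S) → K ≤ M) :
    Geo.IsMaximalIn K (S ⊓ K) := by
  refine ⟨lt_of_le_of_ne inf_le_right ?_, ?_⟩
  · intro h
    obtain ⟨g, hg, hg'⟩ := hne
    rw [← h] at hg
    exact hg' hg.1
  · intro M hPM hMK
    by_cases h : ∃ h ∈ M, h ∉ S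
    · exact Or.inr (le_antisymm hMK (hmax M hPM hMK h))
    · push Not at h
      exact Or.inl (le_antisymm (fun x hx => ⟨h x hx, hMK hx⟩) hPM)

theorem exists_notMem_subfield [Fintype F] (F₀ : Subfield F) (r : ℕ) (hr : r.Prime)
    (hcard : Fintype.card F = Nat.card F₀ ^ r) : ∃ l : F, l ∉ F₀ := by
  by_contra hc
  push Not at hc
  have h1 : Nat.card F₀ = Fintype.card F := by
    rw [← Nat.card_eq_fintype_card]
    exact Nat.card_congr ⟨fun x => x.1, fun x => ⟨x, hc x⟩, fun _ => rfl, fun _ => rfl⟩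
  rw [h1] at hcard
  have h2 : 1 < Fintype.card F := Fintype.one_lt_card
  have h3 := Nat.pow_lt_pow_right h2 hr.one_lt
  rw [pow_one] at h3
  omega

/-- subfield subgroups are maximal in `SL` -/
theorem sl_subfield_isMaximalIn [Fintype F] (hn : 4 ≤ Fintype.card ι) (F₀ : Subfield F) (r : ℕ)
    (hr : r.Prime) (hcard : Fintype.card F = Nat.card F₀ ^ r) (P : Matrix.GeneralLinearGroup ι F) :
    Geo.IsMaximalIn (Geo.specialLinear ι F) (Geo.subfieldSubgroup F₀ P ⊓ Geo.specialLinear ι F) := by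
  haveI : Nonempty ι := Fintype.card_pos_iff.1 (by omega)
  haveI : Nontrivial ι := Fintype.one_lt_card_iff_nontrivial.1 (by omega)
  apply isMaximalIn_of_inf
  · obtain ⟨l, hl⟩ := exists_notMem_subfield F₀ r hr hcard
    obtain ⟨i⟩ := ‹Nonempty ι›
    obtain ⟨j, -, hj, -, -, -⟩ := exists_two_other hn i i
    have h0 : (l • rc F₀ P (Pi.single j 1)) ⬝ᵥ rv F₀ P (Pi.single i 1) = 0 := by
      rw [smul_dotProduct, rc_dot_rv, single_dot_ne j i hj]; simp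
    refine ⟨glT _ _ h0, glT_mem_SL _ _ _, ?_⟩
    intro hc
    obtain ⟨c, hc0, hc⟩ := exists_of_mem_subfieldSubgroup F₀ P _ hc
    obtain ⟨x, hx⟩ := exists_of_rat F₀ P (hc _ (rat_rv F₀ P (Pi.single i 1)))
    obtain ⟨x', hx'⟩ := exists_of_rat F₀ P (hc _ (rat_rv F₀ P (Pi.single j 1)))
    rw [glT_mulVec, h0, zero_smul, add_zero] at hx
    rw [glT_mulVec, smul_dotProduct, rc_dot_rv, single_dot_self] at hx'
    have h1 := smul_rv_eq_rv (single_ne_zero' i) hx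
    have h2 := congrArg (fun v => rc F₀ P (Pi.single i 1) ⬝ᵥ v) hx'
    simp only [dotProduct_smul, dotProduct_add, rc_dot_rv, single_dot_self,
      single_dot_ne i j hj.symm] at h2
    simp only [ZeroMemClass.coe_zero, OneMemClass.coe_one, smul_eq_mul, mul_one, zero_add] at h2
    apply hl
    have h3 : l = c⁻¹⁻¹ * (c⁻¹ * l) := by
      rw [inv_inv]; field_simp
    rw [h3, h2]
    exact F₀.mul_mem (F₀.inv_mem h1) (Subtype.coe_prop _)
  · rintro M hS hM ⟨h, hh, hnot⟩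
    by_cases hB : ∀ l, Bm F₀ P M l → l ∈ F₀
    · exfalso
      apply hnot
      apply mem_subfield_of_points
      intro x₁
      by_cases hx₁ : x₁ = 0
      · exact ⟨0, 0, by rw [hx₁, rv_zero, mulVec_zero, smul_zero]⟩
      by_cases hk : ∃ ψ : ι → F₀, ψ ≠ 0 ∧ rc F₀ P ψ ⬝ᵥ ((h : Matrix ι ι F) *ᵥ rv F₀ P x₁) = 0
      · obtain ⟨ψ, hψ, hψw⟩ := hk
        exact rat_point_of_killed hS (by omega) hB h hh x₁ hx₁ ψ hψ hψw
      · push Not at hk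
        exact (no_full_rank hS hM hn hB h hh x₁ hx₁ hk).elim
    · push Not at hB
      obtain ⟨l, hl, hl0⟩ := hB
      apply SL_le_of_Bm (F₀ := F₀) (P := P)
      exact subring_dichotomy F₀ r hr hcard (Bm F₀ P M) (Bm_coe hS) (fun a b => Bm_add)
        (fun a b => Bm_mul hS (by omega)) l hl hl0

end Cfsg.Agent.Lib.Helper16
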