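import Mathlib
import Cfsg.Agent.Lib.Helper16.SubO11
import Cfsg.Agent.Lib.Helper16.SubSL6

set_option autoImplicit false
set_option linter.unusedSectionVars false

namespace Cfsg.Agent.Lib.Helper16

open Cfsg Cfsg.Agent.Lib.Helper6 Module Matrix

variable {F : Type*} [Field F] [Fintype F] {ι : Type} [Fintype ι] [DecidableEq ι]
variable {F₀ : Subfield F} {Pm : Matrix.GeneralLinearGroup ι F} {Q : QuadraticForm F (ι → F)}
variable {M : Subgroup ↥(OG Q)}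

local notation "P" => QuadraticMap.polarBilin Q
local notation "R" => rv F₀ Pm

namespace OCtx

theorem sub_max (C : OCtx F₀ Pm Q M) (r : ℕ) (hr : r.Prime)
    (hcard : Fintype.card F = Nat.card F₀ ^ r) (h : ↥(OG Q)) (hhM : h ∈ M)
    (hh : h ∉ SF F₀ Pm Q) : commutator ↥(OG Q) ≤ M := by
  by_contra hM
  have H : C.Hyp := fun x₀ hx₀ y hy => C.hyp_of_not_le r hr hcard hM hx₀ hy
  have hfr := C.fr
  obtain ⟨x, fx, hpx, -, -⟩ := exists_hpair_orth_fin C.nd ![] (by omega)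
  obtain ⟨y₁, y₂, hpy, he, hf⟩ := exists_hpair_orth_fin C.nd ![x] (by omega)
  have h1 : C.P₀ x y₁ = 0 := he 0
  have h2 : C.P₀ x y₂ = 0 := hf 0
  have s1 := (C.rat hpx.he (by rw [C.sym]; exact h1)).map hhM
  have s2 := (C.rat hpx.he (by rw [C.sym]; exact h2)).map hhM
  obtain ⟨p, hp⟩ : ∃ p, p = h.1 (R x) := ⟨_, rfl⟩
  obtain ⟨p₁, hp₁⟩ : ∃ p₁, p₁ = h.1 (R y₁) := ⟨_, rfl⟩
  obtain ⟨p₂, hp₂⟩ : ∃ p₂, p₂ = h.1 (R y₂) := ⟨_, rfl⟩
  rw [← hp, ← hp₁] at s1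
  rw [← hp, ← hp₂] at s2
  have q1 : Q p₁ = 0 := by rw [hp₁, h.2, C.Qc, hpy.he]; rfl
  have q2 : Q p₂ = 0 := by rw [hp₂, h.2, C.Qc, hpy.hf]; rfl
  have p12 : P p₁ p₂ = 1 := by rw [hp₁, hp₂, OG_polar Q h.2, C.Pc, hpy.hef]; rfl
  have pp1 : P p p₁ = 0 := by rw [hp, hp₁, OG_polar Q h.2, C.Pc, h1]; rfl
  have pp2 : P p p₂ = 0 := by rw [hp, hp₂, OG_polar Q h.2, C.Pc, h2]; rfl
  have ppp : P p p = 0 := by rw [wq_self, s1.sing, mul_zero]
  have hp0 : p ≠ 0 := by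
    rw [hp]
    intro h0
    exact rv_ne_zero F₀ Pm hpx.ne_zero (h.1.injective (by rw [h0, map_zero]))
  have i1 : ∀ μ : F, p₁ ≠ μ • p := by
    intro μ he
    rw [he, map_smul, LinearMap.smul_apply, pp2, smul_zero] at p12
    exact zero_ne_one p12
  have i2 : ∀ μ : F, p₂ ≠ μ • p := by
    intro μ he
    rw [he, map_smul, wq_symm, pp1, smul_zero] at p12
    exact zero_ne_one p12
  have L1 := C.line_rat H s1 q1 hp0 i1
  have L2 := C.line_rat H s2 q2 hp0 i2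
  obtain ⟨t, -, ht⟩ := C.exists_sing_ne p hp0
  obtain ⟨e, he⟩ := L2 t
  obtain ⟨w, hw⟩ := L1 e
  have a1 : P (R e) p₁ = - P (R t) p := by
    rw [← he, map_sub, map_smul, map_smul, LinearMap.sub_apply, LinearMap.smul_apply,
      LinearMap.smul_apply, pp1, wq_symm Q p₂ p₁, p12]
    simp
  have a2 : P (R e) p = 0 := by
    rw [← he, map_sub, map_smul, map_smul, LinearMap.sub_apply, LinearMap.smul_apply,
      LinearMap.smul_apply, ppp, wq_symm Q p₂ p, pp2]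
    simp
  rw [a1, a2, zero_smul, sub_zero] at hw
  apply hh
  apply C.mem_SF_of_point H hhM hpx.ne_zero hpx.he (c := (- P (R t) p)⁻¹) (x' := w)
  rw [← hw, smul_smul, inv_mul_cancel₀ (neg_ne_zero.2 ht), one_smul, hp]

theorem sub_ne (C : OCtx F₀ Pm Q M) (l : F) (hl : l ∉ F₀) :
    ∃ g ∈ commutator ↥(OG Q), g ∉ SF F₀ Pm Q := by
  have hfr := C.fr
  have hfrF := C.frF
  obtain ⟨e, fe, hpe, -, -⟩ := exists_hpair_orth_fin C.nd ![] (by omega)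
  obtain ⟨a, fa, hpa, hea, hfa⟩ := exists_hpair_orth_fin C.nd ![e] (by omega)
  have h1 : C.P₀ e a = 0 := hea 0
  have h2 : C.P₀ e fa = 0 := hfa 0
  have hw : Q (R e) = 0 := (ratQ_eq_zero_iff C.hrat e).1 hpe.he
  have hu : P (l • R a) (R e) = 0 := by
    rw [map_smul, LinearMap.smul_apply, C.Pc, C.sym, h1]; simp
  have hq : Q (l • R a) = 0 := by rw [wq_smul, C.Qc, hpa.he]; simp
  refine ⟨siegO Q (R e) (l • R a) hw hu, siegO_mem_comm Q C.hQ (Or.inr (by omega)) _ _ _ _, ?_⟩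
  intro hc
  obtain ⟨c, hc0, hall⟩ := exists_of_mem_SF _ hc
  obtain ⟨t₀, ht₀⟩ := hall e
  rw [siegO_fix] at ht₀
  have hcF : c ∈ F₀ := smul_rv_eq_rv hpe.ne_zero ht₀
  obtain ⟨t₁, ht₁⟩ := hall fa
  rw [siegO_ts_apply _ _ hw hu hq, map_smul, C.Pc, C.Pc, C.sym fa a, hpa.hef, C.sym fa e, h2] at ht₁
  simp only [OneMemClass.coe_one, smul_eq_mul, mul_one, ZeroMemClass.coe_zero, zero_smul,
    sub_zero] at ht₁
  apply hl
  have h3 : l • R e = R ((⟨c, hcF⟩ : F₀)⁻¹ • t₁ - fa) := by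
    rw [rv_sub, rv_smul, ← ht₁, smul_smul]
    have : (((⟨c, hcF⟩ : F₀)⁻¹ : F₀) : F) * c = 1 := by
      push_cast
      exact inv_mul_cancel₀ hc0
    rw [this, one_smul]
    abel
  exact smul_rv_eq_rv hpe.ne_zero h3

end OCtx

/-- maximality of the subfield subgroups of the orthogonal groups -/
theorem orth_subfield_isMaximalIn (Q : QuadraticForm F (ι → F))
    (hQ : (QuadraticMap.polarBilin Q).Nondegenerate) (hn : 13 ≤ Fintype.card ι) (F₀ : Subfield F)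
    (r : ℕ) (hr : r.Prime) (hcard : Fintype.card F = Nat.card F₀ ^ r)
    (Pm : Matrix.GeneralLinearGroup ι F) (hP : Geo.IsQuadFormRationalStructure ⇑Q F₀ Pm) :
    Geo.IsMaximalIn (Geo.omegaGL ⇑Q) (Geo.subfieldSubgroup F₀ Pm ⊓ Geo.omegaGL ⇑Q) := by
  have hrat : ∀ x : ι → F₀, Q (rv F₀ Pm x) ∈ F₀ := fun x => hP _ (fun i => (x i).2)
  obtain ⟨l, hl⟩ := exists_notMem_subfield F₀ r hr hcard
  apply isMaximalIn_omegaGL Q _ (SF F₀ Pm Q) (fun g => Iff.rfl)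
  · exact (⟨hrat, hQ, hn, le_top⟩ : OCtx F₀ Pm Q ⊤).sub_ne l hl
  · intro M hS _ h hhM hh
    exact (⟨hrat, hQ, hn, hS⟩ : OCtx F₀ Pm Q M).sub_max r hr hcard h hhM hh

end Cfsg.Agent.Lib.Helper16
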