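import Mathlib
import Cfsg.Agent.Lib.Helper16.SubO12

set_option autoImplicit false
set_option linter.unusedSectionVars false

namespace Cfsg.Agent.Lib.Helper16

open Cfsg Cfsg.Agent.Lib.Helper6 Module Matrix

theorem map_commutator_congr {G : Type*} [Group G] (H H' : Subgroup G) (h : H = H') :
    (commutator H).map H.subtype = (commutator H').map H'.subtype := by
  subst h; rfl

variable {F : Type*} [Field F] {ι : Type} [Fintype ι] [DecidableEq ι]

theorem omegaGL_smul (Q : (ι → F) → F) (ζ : F) (hζ : ζ ≠ 0) :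
    Geo.omegaGL (fun v => ζ * Q v) = Geo.omegaGL Q := by
  apply map_commutator_congr
  ext g
  constructor
  · intro h u v
    exact mul_left_cancel₀ hζ (h u v)
  · intro h u v
    exact congrArg (fun t => ζ * t) (h u v)

theorem smul_nondeg (Q : QuadraticForm F (ι → F)) (hQ : (QuadraticMap.polarBilin Q).Nondegenerate)
    (ζ : F) (hζ : ζ ≠ 0) : (QuadraticMap.polarBilin (ζ • Q)).Nondegenerate := by
  apply nondeg_of_left
  intro u hu
  apply hQ.1 u
  intro v
  have h1 := hu v
  rw [QuadraticMap.polar] at h1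
  simp only [_root_.smul_apply, smul_eq_mul] at h1
  rw [QuadraticMap.polarBilin_apply_apply, QuadraticMap.polar]
  apply mul_left_cancel₀ hζ
  rw [mul_zero]
  linear_combination h1

/-- maximality of the subfield subgroups, up to a scalar -/
theorem orth_subfield_isMaximalIn' [Fintype F] (Q : (ι → F) → F)
    (hQ : Geo.IsNondegenerateQuadraticForm Q) (hn : 13 ≤ Fintype.card ι) (F₀ : Subfield F)
    (r : ℕ) (hr : r.Prime) (hcard : Fintype.card F = Nat.card F₀ ^ r)
    (Pm : Matrix.GeneralLinearGroup ι F) (ζ : F) (hζ : ζ ≠ 0)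
    (hP : Geo.IsQuadFormRationalStructure (fun v => ζ * Q v) F₀ Pm) :
    Geo.IsMaximalIn (Geo.omegaGL Q) (Geo.subfieldSubgroup F₀ Pm ⊓ Geo.omegaGL Q) := by
  have h := orth_subfield_isMaximalIn (ζ • toQF hQ) (smul_nondeg _ (toQF_nondeg hQ) ζ hζ) hn F₀ r hr
    hcard Pm hP
  have e : ⇑(ζ • toQF hQ) = fun v => ζ * Q v := rfl
  rw [e, omegaGL_smul Q ζ hζ] at h
  exact h

end Cfsg.Agent.Lib.Helper16
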