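import Mathlib
import Cfsg.Agent.Lib.Helper6.SpMax
import Cfsg.Agent.Lib.Helper16.SubSL6
import Cfsg.Agent.Lib.Helper16.SL2Frob

set_option autoImplicit false
set_option linter.unusedSectionVars false

namespace Cfsg.Agent.Lib.Helper16.Sp

open Cfsg Cfsg.Agent.Lib.Helper6 Module Matrix

section Alt

variable {K V : Type*} [Field K] [AddCommGroup V] [Module K V] [FiniteDimensional K V]
  {B : LinearMap.BilinForm K V}

theorem alt_exists_orth (hB : B.Nondegenerate) (hA : B.IsAlt) (X : Submodule K V) (a : V)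
    (ha : a ∉ X) : ∃ t, (∀ n ∈ X, B n t = 0) ∧ B t a ≠ 0 := by
  by_contra hcon
  push Not at hcon
  apply ha
  rw [← LinearMap.BilinForm.orthogonal_orthogonal hB hA.isRefl X,
    LinearMap.BilinForm.mem_orthogonal_iff]
  intro t ht
  exact hcon t (LinearMap.BilinForm.mem_orthogonal_iff.mp ht)

theorem alt_swap (hA : B.IsAlt) (x y : V) : B x y = - B y x := by
  rw [← hA.neg_eq]

theorem alt_hpair_fin (hB : B.Nondegenerate) (hA : B.IsAlt) {k : ℕ} (v : Fin k → V)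
    (h : 2 * k + 1 ≤ finrank K V) :
    ∃ e f, B e f = 1 ∧ (∀ i, B (v i) e = 0) ∧ (∀ i, B (v i) f = 0) := by
  have h1 : finrank K (Submodule.span K (Set.range v)) ≤ k := by
    have := finrank_range_le_card (R := K) v
    simpa [Set.finrank] using this
  have h2 := LinearMap.BilinForm.finrank_orthogonal hB (Submodule.span K (Set.range v))
  have h3 : ¬ LinearMap.BilinForm.orthogonal B (Submodule.span K (Set.range v)) ≤
      Submodule.span K (Set.range v) := by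
    intro hle
    have := Submodule.finrank_mono hle
    omega
  obtain ⟨e, he, heY⟩ := SetLike.not_le_iff_exists.1 h3
  obtain ⟨t, ht1, ht2⟩ := alt_exists_orth hB hA _ e heY
  have het : B e t ≠ 0 := by rw [alt_swap hA]; exact neg_ne_zero.2 ht2
  refine ⟨e, (B e t)⁻¹ • t, by rw [map_smul, smul_eq_mul, inv_mul_cancel₀ het], fun i => ?_,
    fun i => ?_⟩
  · exact LinearMap.BilinForm.mem_orthogonal_iff.mp he _ (Submodule.subset_span ⟨i, rfl⟩)
  · rw [map_smul, ht1 _ (Submodule.subset_span ⟨i, rfl⟩), smul_zero]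

end Alt

variable {F : Type*} [Field F] {m : ℕ}

/-- the scaled symplectic form -/
def Bz (m : ℕ) (ζ : F) : LinearMap.BilinForm F (Fin m ⊕ Fin m → F) := ζ • sympB m F

theorem Bz_apply (ζ : F) (u v : Fin m ⊕ Fin m → F) : Bz m ζ u v = ζ * sympForm m F u v := rfl

theorem Bz_isAlt (ζ : F) : (Bz m ζ).IsAlt := fun x => by rw [Bz_apply, sympForm_self, mul_zero]

theorem Bz_self (ζ : F) (u : Fin m ⊕ Fin m → F) : Bz m ζ u u = 0 := Bz_isAlt ζ u

theorem Bz_swap (ζ : F) (u v : Fin m ⊕ Fin m → F) : Bz m ζ u v = - Bz m ζ v u :=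
  alt_swap (Bz_isAlt ζ) u v

theorem Bz_zero_symm {ζ : F} {u v : Fin m ⊕ Fin m → F} (h : Bz m ζ u v = 0) : Bz m ζ v u = 0 := by
  rw [Bz_swap, h, neg_zero]

theorem Bz_nondeg {ζ : F} (hζ : ζ ≠ 0) : (Bz m ζ).Nondegenerate := by
  constructor
  · intro x hx
    apply sympForm_nondeg_left m x
    intro z
    exact (mul_eq_zero.1 (hx z)).resolve_left hζ
  · intro x hx
    apply sympForm_nondeg_right m x
    intro z
    exact (mul_eq_zero.1 (hx z)).resolve_left hζ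

theorem Bz_iso (ζ : F) {g : Matrix.GeneralLinearGroup (Fin m ⊕ Fin m) F} (hg : g ∈ spGL m F)
    (u v : Fin m ⊕ Fin m → F) :
    Bz m ζ ((g : Matrix _ _ F) *ᵥ u) ((g : Matrix _ _ F) *ᵥ v) = Bz m ζ u v := by
  rw [Bz_apply, Bz_apply, (mem_spGL_iff m g).mp hg]

theorem Bz_inv (ζ : F) {g : Matrix.GeneralLinearGroup (Fin m ⊕ Fin m) F} (hg : g ∈ spGL m F)
    (u v : Fin m ⊕ Fin m → F) :
    Bz m ζ (((g⁻¹ : Matrix.GeneralLinearGroup (Fin m ⊕ Fin m) F) : Matrix _ _ F) *ᵥ u) v =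
      Bz m ζ u ((g : Matrix _ _ F) *ᵥ v) := by
  rw [Bz_apply, Bz_apply, spGL_form_inv m hg]

/-- the action of an element of the unipotent radical of a point stabiliser -/
def ES (ζ : F) (u y : Fin m ⊕ Fin m → F) (c : F) (x : Fin m ⊕ Fin m → F) : Fin m ⊕ Fin m → F :=
  x + Bz m ζ x u • y + Bz m ζ x y • u + (c * Bz m ζ x u) • u

theorem tvz_mulVec (ζ : F) (v : Fin m ⊕ Fin m → F) (a : F) (x : Fin m ⊕ Fin m → F) :
    (tvGL m v (ζ * a) : Matrix _ _ F) *ᵥ x = x + (a * Bz m ζ x v) • v := by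
  rw [tvGL_mulVec, Bz_apply]
  congr 2
  ring

/-- the corresponding group element -/
def eGL (ζ : F) (u y : Fin m ⊕ Fin m → F) (c : F) : Matrix.GeneralLinearGroup (Fin m ⊕ Fin m) F :=
  tvGL m (u + y) (ζ * 1) * tvGL m u (ζ * (c - 1)) * tvGL m y (ζ * (-1))

theorem eGL_mem (ζ : F) (u y : Fin m ⊕ Fin m → F) (c : F) : eGL ζ u y c ∈ spGL m F :=
  (spGL m F).mul_mem ((spGL m F).mul_mem (tvGL_mem m _ _) (tvGL_mem m _ _)) (tvGL_mem m _ _)

theorem eGL_mulVec (ζ : F) {u y : Fin m ⊕ Fin m → F} (h : Bz m ζ y u = 0) (c : F)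
    (x : Fin m ⊕ Fin m → F) : (eGL ζ u y c : Matrix _ _ F) *ᵥ x = ES ζ u y c x := by
  have h' := Bz_zero_symm h
  rw [eGL, Units.val_mul, Units.val_mul, ← Matrix.mulVec_mulVec, ← Matrix.mulVec_mulVec,
    tvz_mulVec, tvz_mulVec, tvz_mulVec, ES]
  simp only [map_add, map_smul, LinearMap.add_apply, LinearMap.smul_apply, Bz_self, h, h',
    smul_eq_mul, mul_zero, add_zero]
  module

/-- membership of the elements `e(u, y, c)` -/
def EH (ζ : F) (M : Subgroup (Matrix.GeneralLinearGroup (Fin m ⊕ Fin m) F))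
    (u y : Fin m ⊕ Fin m → F) (c : F) : Prop :=
  Bz m ζ y u = 0 ∧ ∃ g ∈ M, ∀ x, (g : Matrix _ _ F) *ᵥ x = ES ζ u y c x

variable {ζ : F} {M : Subgroup (Matrix.GeneralLinearGroup (Fin m ⊕ Fin m) F)}

theorem EH.orth {u y : Fin m ⊕ Fin m → F} {c : F} (h : EH ζ M u y c) : Bz m ζ y u = 0 := h.1

theorem EH.mul {u y y' : Fin m ⊕ Fin m → F} {c c' : F} (h : EH ζ M u y c) (h' : EH ζ M u y' c') :
    EH ζ M u (y + y') (c + c' + Bz m ζ y' y) := by
  obtain ⟨o, g, hg, e⟩ := h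
  obtain ⟨o', g', hg', e'⟩ := h'
  refine ⟨by rw [map_add, LinearMap.add_apply, o, o', add_zero], g * g', M.mul_mem hg hg', ?_⟩
  intro x
  rw [Units.val_mul, ← Matrix.mulVec_mulVec, e', e, ES, ES, ES]
  have o2 := Bz_zero_symm o
  simp only [map_add, map_smul, LinearMap.add_apply, LinearMap.smul_apply, Bz_self, o, o', o2,
    smul_eq_mul, mul_zero, add_zero]
  module

theorem EH.inv {u y : Fin m ⊕ Fin m → F} {c : F} (h : EH ζ M u y c) : EH ζ M u (-y) (-c) := by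
  obtain ⟨o, g, hg, e⟩ := h
  refine ⟨by rw [map_neg, LinearMap.neg_apply, o, neg_zero], g⁻¹, M.inv_mem hg, ?_⟩
  intro x
  have h1 : (g : Matrix _ _ F) *ᵥ (ES ζ u (-y) (-c) x) = x := by
    rw [e, ES, ES]
    have o2 := Bz_zero_symm o
    simp only [map_add, map_smul, map_neg, LinearMap.add_apply, LinearMap.smul_apply,
      LinearMap.neg_apply, Bz_self, o, o2, smul_eq_mul, mul_zero, add_zero, neg_zero]
    module
  conv_lhs => rw [← h1]
  exact gl_inv_mulVec g _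

theorem EH.map (hM : M ≤ spGL m F) {u y : Fin m ⊕ Fin m → F} {c : F} (h : EH ζ M u y c)
    {g : Matrix.GeneralLinearGroup (Fin m ⊕ Fin m) F} (hg : g ∈ M) :
    EH ζ M ((g : Matrix _ _ F) *ᵥ u) ((g : Matrix _ _ F) *ᵥ y) c := by
  obtain ⟨o, k, hk, e⟩ := h
  refine ⟨by rw [Bz_iso ζ (hM hg), o], g * k * g⁻¹, M.mul_mem (M.mul_mem hg hk) (M.inv_mem hg), ?_⟩
  intro x
  rw [Units.val_mul, Units.val_mul, ← Matrix.mulVec_mulVec, ← Matrix.mulVec_mulVec, e, ES, ES,
    Bz_inv ζ (hM hg), Bz_inv ζ (hM hg)]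
  simp only [Matrix.mulVec_add, Matrix.mulVec_smul, gl_mulVec_inv]

theorem EH.congr {u y u' y' : Fin m ⊕ Fin m → F} {c c' : F} (h : EH ζ M u y c)
    (o : Bz m ζ y' u' = 0) (e : ∀ x, ES ζ u y c x = ES ζ u' y' c' x) : EH ζ M u' y' c' := by
  obtain ⟨-, g, hg, e'⟩ := h
  exact ⟨o, g, hg, fun x => by rw [e', e]⟩

theorem EH.scale {u y : Fin m ⊕ Fin m → F} {c a : F} (h : EH ζ M (a • u) y c) (ha : a ≠ 0) :
    EH ζ M u (a • y) (a * a * c) := by
  have o := h.orth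
  rw [map_smul, smul_eq_mul] at o
  have o' := (mul_eq_zero.1 o).resolve_left ha
  apply h.congr (by rw [map_smul, LinearMap.smul_apply, o', smul_zero])
  intro x
  rw [ES, ES]
  simp only [map_smul, smul_eq_mul]
  module

theorem EH.swap {u y : Fin m ⊕ Fin m → F} (h : EH ζ M u y 0) : EH ζ M y u 0 := by
  apply h.congr (Bz_zero_symm h.orth)
  intro x
  rw [ES, ES]
  module

theorem EH.shift {u y : Fin m ⊕ Fin m → F} {c : F} (h : EH ζ M u y c) (s : F) :
    EH ζ M u (y - s • u) (c + 2 * s) := by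
  have o : Bz m ζ (y - s • u) u = 0 := by
    rw [map_sub, LinearMap.sub_apply, h.orth, map_smul, LinearMap.smul_apply, Bz_self]
    simp
  apply h.congr o
  intro x
  rw [ES, ES]
  simp only [map_sub, map_smul, smul_eq_mul]
  module

theorem EH_zero (u : Fin m ⊕ Fin m → F) : EH ζ M u 0 0 := by
  refine ⟨by simp, 1, M.one_mem, fun x => ?_⟩
  rw [ES]
  simp

/-- the basic move -/
theorem EH.move (hM : M ≤ spGL m F) {x y a b : Fin m ⊕ Fin m → F} {c c' : F} (h : EH ζ M x y c)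
    (h' : EH ζ M a b c') (hax : Bz m ζ x a = 0) (hbx : Bz m ζ x b = 0) (hya : Bz m ζ y a = 0) :
    EH ζ M x (Bz m ζ y b • a) 0 := by
  obtain ⟨o', k, hk, e⟩ := h'
  have h2 := h.map hM hk
  rw [e, e, ES, ES, hax, hbx, hya] at h2
  simp only [zero_smul, mul_zero, add_zero] at h2
  have h3 := h2.mul h.inv
  apply h3.congr (by rw [map_smul, LinearMap.smul_apply, Bz_zero_symm hax, smul_zero])
  intro v
  have e1 : Bz m ζ (-y) (y + Bz m ζ y b • a) = 0 := by
    simp only [map_add, map_smul, map_neg, LinearMap.neg_apply, Bz_self, hya, smul_eq_mul]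
    simp
  rw [e1, ES, ES]
  simp only [map_add, map_smul, map_neg, smul_eq_mul]
  module

end Cfsg.Agent.Lib.Helper16.Sp
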