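import Mathlib
import Cfsg.Agent.Lib.Helper16.SubSp1

set_option autoImplicit false
set_option linter.unusedSectionVars false

namespace Cfsg.Agent.Lib.Helper16.Sp

open Cfsg Cfsg.Agent.Lib.Helper6 Module Matrix

variable {F : Type*} [Field F] [Fintype F] {m : ℕ}
variable {F₀ : Subfield F} {Pm : Matrix.GeneralLinearGroup (Fin m ⊕ Fin m) F} {ζ : F}
variable {M : Subgroup (Matrix.GeneralLinearGroup (Fin m ⊕ Fin m) F)}

local notation "R" => rv F₀ Pm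
local notation "B'" => Bz m ζ

theorem mem_SF_of (g : Matrix.GeneralLinearGroup (Fin m ⊕ Fin m) F) (l : F) (hl : l ≠ 0)
    (h : ∀ x, ∃ x', l • ((g : Matrix _ _ F) *ᵥ R x) = R x') : g ∈ Geo.subfieldSubgroup F₀ Pm := by
  apply mem_subfieldSubgroup_of F₀ Pm _ l⁻¹ (inv_ne_zero hl)
  intro v hv
  obtain ⟨x, rfl⟩ := exists_of_rat F₀ Pm hv
  obtain ⟨x', hx'⟩ := h x
  rw [inv_inv, hx']
  exact rat_rv F₀ Pm _

theorem exists_of_mem_SF (g : Matrix.GeneralLinearGroup (Fin m ⊕ Fin m) F)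
    (hg : g ∈ Geo.subfieldSubgroup F₀ Pm) :
    ∃ l : F, l ≠ 0 ∧ ∀ x, ∃ x', l • ((g : Matrix _ _ F) *ᵥ R x) = R x' := by
  obtain ⟨l, hl, h⟩ := exists_of_mem_subfieldSubgroup F₀ Pm _ hg
  refine ⟨l⁻¹, inv_ne_zero hl, fun x => ?_⟩
  exact exists_of_rat F₀ Pm (h _ (rat_rv F₀ Pm x))

variable (F₀ Pm ζ M) in
/-- the standing hypotheses -/
structure SCtx : Prop where
  hrat : ∀ x y : Fin m ⊕ Fin m → F₀, B' (R x) (R y) ∈ F₀
  hζ : ζ ≠ 0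
  hm : 7 ≤ m
  hS : Geo.subfieldSubgroup F₀ Pm ⊓ spGL m F ≤ M
  hM : M ≤ spGL m F

namespace SCtx

/-- the rational form -/
noncomputable def B₀ (C : SCtx F₀ Pm ζ M) : LinearMap.BilinForm F₀ (Fin m ⊕ Fin m → F₀) :=
  LinearMap.mk₂ F₀ (fun x y => ⟨B' (R x) (R y), C.hrat x y⟩)
    (fun x x' y => Subtype.ext (by
      change B' (R (x + x')) (R y) = B' (R x) (R y) + B' (R x') (R y)
      rw [rv_add, map_add, LinearMap.add_apply]))
    (fun c x y => Subtype.ext (by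
      change B' (R (c • x)) (R y) = (c : F) * B' (R x) (R y)
      rw [rv_smul, map_smul, LinearMap.smul_apply, smul_eq_mul]))
    (fun x y y' => Subtype.ext (by
      change B' (R x) (R (y + y')) = B' (R x) (R y) + B' (R x) (R y')
      rw [rv_add, map_add]))
    (fun c x y => Subtype.ext (by
      change B' (R x) (R (c • y)) = (c : F) * B' (R x) (R y)
      rw [rv_smul, map_smul, smul_eq_mul]))

theorem Bc (C : SCtx F₀ Pm ζ M) (x y : Fin m ⊕ Fin m → F₀) :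
    B' (R x) (R y) = ((C.B₀ x y : F₀) : F) := rfl

theorem alt (C : SCtx F₀ Pm ζ M) : (C.B₀).IsAlt := fun x => Subtype.ext (by
  rw [← C.Bc, Bz_self]; rfl)

theorem sym0 (C : SCtx F₀ Pm ζ M) {x y : Fin m ⊕ Fin m → F₀} (h : C.B₀ x y = 0) : C.B₀ y x = 0 := by
  rw [alt_swap C.alt, h, neg_zero]

theorem eq_zero_of_rat (C : SCtx F₀ Pm ζ M) (v : Fin m ⊕ Fin m → F) (h : ∀ y, B' v (R y) = 0) :
    v = 0 := by
  apply (Bz_nondeg C.hζ).1 v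
  intro w
  rw [eq_sum_rv F₀ Pm w, map_sum]
  apply Finset.sum_eq_zero
  intro i _
  rw [map_smul, h, smul_zero]

theorem nd (C : SCtx F₀ Pm ζ M) : (C.B₀).Nondegenerate := by
  have key : ∀ x, (∀ y, C.B₀ x y = 0) → x = 0 := by
    intro x hx
    apply rv_injective F₀ Pm
    rw [rv_zero]
    apply C.eq_zero_of_rat
    intro y
    rw [C.Bc, hx y]; rfl
  refine ⟨key, fun x hx => key x (fun y => C.sym0 (hx y))⟩

theorem fr (C : SCtx F₀ Pm ζ M) : 14 ≤ finrank F₀ (Fin m ⊕ Fin m → F₀) := by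
  rw [Module.finrank_fintype_fun_eq_card]
  have := C.hm
  simp
  omega

theorem rat_of_B (C : SCtx F₀ Pm ζ M) (v : Fin m ⊕ Fin m → F) (h : ∀ y, B' v (R y) ∈ F₀) :
    ∃ x, v = R x := by
  let φ : Module.Dual F₀ (Fin m ⊕ Fin m → F₀) :=
    { toFun := fun y => ⟨B' v (R y), h y⟩
      map_add' := fun y y' => Subtype.ext (by
        change B' v (R (y + y')) = B' v (R y) + B' v (R y')
        rw [rv_add, map_add])
      map_smul' := fun c y => Subtype.ext (by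
        change B' v (R (c • y)) = (c : F) * B' v (R y)
        rw [rv_smul, map_smul, smul_eq_mul]) }
  set x := (LinearMap.BilinForm.toDual _ C.nd).symm φ with hx
  refine ⟨x, ?_⟩
  rw [← sub_eq_zero]
  apply C.eq_zero_of_rat
  intro y
  have h1 : C.B₀ x y = φ y := by
    rw [← LinearMap.BilinForm.toDual_def C.nd, hx, LinearEquiv.apply_symm_apply]
  have h2 := congrArg (Subtype.val) h1
  rw [← C.Bc] at h2
  rw [map_sub, LinearMap.sub_apply, h2]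
  exact sub_self _

theorem rat (C : SCtx F₀ Pm ζ M) {x y : Fin m ⊕ Fin m → F₀} (hxy : C.B₀ y x = 0) (c : F₀) :
    EH ζ M (R x) (R y) c := by
  have o : B' (R y) (R x) = 0 := by rw [C.Bc, hxy]; rfl
  refine ⟨o, eGL ζ (R x) (R y) c, C.hS ⟨?_, eGL_mem _ _ _ _⟩, eGL_mulVec ζ o c⟩
  apply mem_SF_of _ 1 one_ne_zero
  intro t
  refine ⟨t + C.B₀ t x • y + C.B₀ t y • x + (c * C.B₀ t x) • x, ?_⟩
  rw [one_smul, eGL_mulVec ζ o, ES, rv_add, rv_add, rv_add, rv_smul, rv_smul, rv_smul, C.Bc, C.Bc]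
  push_cast
  rfl

theorem rat0 (C : SCtx F₀ Pm ζ M) {x y : Fin m ⊕ Fin m → F₀} (hxy : C.B₀ y x = 0) :
    EH ζ M (R x) (R y) 0 := C.rat hxy 0

theorem move (C : SCtx F₀ Pm ζ M) {l μ c c' : F} {x y a b : Fin m ⊕ Fin m → F₀}
    (h : EH ζ M (R x) (l • R y) c) (h' : EH ζ M (R a) (μ • R b) c') (hax : C.B₀ x a = 0)
    (hbx : C.B₀ x b = 0) (hya : C.B₀ y a = 0) (hyb : C.B₀ y b = 1) :
    EH ζ M (R x) ((l * μ) • R a) 0 := by
  have := h.move C.hM h' (by rw [C.Bc, hax]; rfl) (by rw [map_smul, C.Bc, hbx]; simp)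
    (by rw [map_smul, LinearMap.smul_apply, C.Bc, hya]; simp)
  rw [map_smul, map_smul, LinearMap.smul_apply, C.Bc, hyb] at this
  simpa [mul_comm] using this

theorem move1 (C : SCtx F₀ Pm ζ M) {l c : F} {x y a b : Fin m ⊕ Fin m → F₀}
    (h : EH ζ M (R x) (l • R y) c) (hba : C.B₀ b a = 0) (hax : C.B₀ x a = 0) (hbx : C.B₀ x b = 0)
    (hya : C.B₀ y a = 0) (hyb : C.B₀ y b = 1) : EH ζ M (R x) (l • R a) 0 := by
  have := C.move (μ := 1) h (by rw [one_smul]; exact C.rat0 hba) hax hbx hya hyb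
  rwa [mul_one] at this

theorem swap (C : SCtx F₀ Pm ζ M) {l : F} {x a : Fin m ⊕ Fin m → F₀}
    (h : EH ζ M (R x) (l • R a) 0) : EH ζ M (R a) (l • R x) 0 := by
  by_cases hl : l = 0
  · rw [hl, zero_smul]; exact EH_zero _
  · have := h.swap.scale hl
    rwa [mul_zero] at this

/-- the parameters all of whose rational short root elements lie in `M` -/
def Bo (C : SCtx F₀ Pm ζ M) (l : F) : Prop :=
  ∀ x a : Fin m ⊕ Fin m → F₀, C.B₀ a x = 0 → EH ζ M (R x) (l • R a) 0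

theorem exists_partner (C : SCtx F₀ Pm ζ M) (X : Submodule F₀ (Fin m ⊕ Fin m → F₀))
    (a : Fin m ⊕ Fin m → F₀) (ha : a ∉ X) : ∃ b, (∀ n ∈ X, C.B₀ n b = 0) ∧ C.B₀ a b = 1 := by
  obtain ⟨t, ht1, ht2⟩ := alt_exists_orth C.nd C.alt X a ha
  have h2 : C.B₀ a t ≠ 0 := by rw [alt_swap C.alt]; exact neg_ne_zero.2 ht2
  exact ⟨(C.B₀ a t)⁻¹ • t, fun n hn => by rw [map_smul, ht1 n hn, smul_zero],
    by rw [map_smul, smul_eq_mul, inv_mul_cancel₀ h2]⟩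

theorem Bo_of_one (C : SCtx F₀ Pm ζ M) {l c : F} {x₀ y₀ : Fin m ⊕ Fin m → F₀} (hx₀ : x₀ ≠ 0)
    (hy₀ : y₀ ∉ Submodule.span F₀ {x₀}) (h : EH ζ M (R x₀) (l • R y₀) c) : C.Bo l := by
  intro x' a' hax'
  have hfr := C.fr
  obtain ⟨b₀, hb1, hb2⟩ := C.exists_partner _ y₀ hy₀
  have hb1' : C.B₀ x₀ b₀ = 0 := hb1 _ (Submodule.mem_span_singleton_self _)
  obtain ⟨a₁, f₁, hp₁, he₁, hf₁⟩ := alt_hpair_fin C.nd C.alt ![x₀, y₀, b₀, x', a'] (by omega)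
  have e0 : C.B₀ x₀ a₁ = 0 := he₁ 0
  have e1 : C.B₀ y₀ a₁ = 0 := he₁ 1
  have e2 : C.B₀ b₀ a₁ = 0 := he₁ 2
  have e3 : C.B₀ x' a₁ = 0 := he₁ 3
  have e4 : C.B₀ a' a₁ = 0 := he₁ 4
  have f0 : C.B₀ x₀ f₁ = 0 := hf₁ 0
  have f3 : C.B₀ x' f₁ = 0 := hf₁ 3
  have f4 : C.B₀ a' f₁ = 0 := hf₁ 4
  have s1 : EH ζ M (R x₀) (l • R a₁) 0 := C.move1 h e2 e0 hb1' e1 hb2
  have s2 := C.swap s1
  obtain ⟨b₁, hb₁, hpb⟩ := C.exists_partner (Submodule.span F₀ {a₁}) x₀ (by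
      intro hc
      obtain ⟨c, hc⟩ := Submodule.mem_span_singleton.1 hc
      have h1 := f0
      rw [← hc, map_smul, LinearMap.smul_apply, hp₁, smul_eq_mul, mul_one] at h1
      rw [h1, zero_smul] at hc
      exact hx₀ hc.symm)
  have hb₁' : C.B₀ a₁ b₁ = 0 := hb₁ _ (Submodule.mem_span_singleton_self _)
  obtain ⟨a₂, f₂, hp₂, he₂, hf₂⟩ := alt_hpair_fin C.nd C.alt ![a₁, x₀, x', b₁] (by omega)
  have g0 : C.B₀ a₁ a₂ = 0 := he₂ 0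
  have g1 : C.B₀ x₀ a₂ = 0 := he₂ 1
  have g2 : C.B₀ x' a₂ = 0 := he₂ 2
  have g3 : C.B₀ b₁ a₂ = 0 := he₂ 3
  have k0 : C.B₀ a₁ f₂ = 0 := hf₂ 0
  have k2 : C.B₀ x' f₂ = 0 := hf₂ 2
  have s3 : EH ζ M (R a₁) (l • R a₂) 0 := C.move1 s2 g3 g0 hb₁' g1 hpb
  have s4 : EH ζ M (R a₁) (l • R x') 0 := C.move1 s3 (C.sym0 k2) (C.sym0 e3) k0 (C.sym0 g2) hp₂
  have s5 := C.swap s4
  exact C.move1 s5 (C.sym0 f4) (C.sym0 hax') f3 (C.sym0 e4) hp₁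

theorem Bo_coe (C : SCtx F₀ Pm ζ M) (c : F₀) : C.Bo (c : F) := by
  intro x a hax
  rw [← rv_smul]
  exact C.rat0 (by rw [map_smul, LinearMap.smul_apply, hax, smul_zero])

theorem Bo_add (C : SCtx F₀ Pm ζ M) {a b : F} (ha : C.Bo a) (hb : C.Bo b) : C.Bo (a + b) := by
  intro x y hxy
  have := (ha x y hxy).mul (hb x y hxy)
  rw [map_smul, map_smul, LinearMap.smul_apply, Bz_self, ← add_smul] at this
  simpa using this

theorem notMem_span_of (C : SCtx F₀ Pm ζ M) {e f x : Fin m ⊕ Fin m → F₀} (hp : C.B₀ e f = 1)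
    (hx : C.B₀ x f = 0) : e ∉ Submodule.span F₀ {x} := by
  intro h
  obtain ⟨c, rfl⟩ := Submodule.mem_span_singleton.1 h
  rw [map_smul, LinearMap.smul_apply, hx, smul_zero] at hp
  exact zero_ne_one hp

theorem ne_zero_of (C : SCtx F₀ Pm ζ M) {e f : Fin m ⊕ Fin m → F₀} (hp : C.B₀ e f = 1) : e ≠ 0 := by
  rintro rfl
  simp at hp

theorem Bo_mul (C : SCtx F₀ Pm ζ M) {a b : F} (ha : C.Bo a) (hb : C.Bo b) : C.Bo (a * b) := by
  have hfr := C.fr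
  obtain ⟨e₁, f₁, hp₁, -, -⟩ := alt_hpair_fin C.nd C.alt ![] (by omega)
  obtain ⟨e₂, f₂, hp₂, he₂, hf₂⟩ := alt_hpair_fin C.nd C.alt ![e₁, f₁] (by omega)
  obtain ⟨e₃, f₃, hp₃, he₃, hf₃⟩ := alt_hpair_fin C.nd C.alt ![e₁, f₁, e₂, f₂] (by omega)
  have a1 : C.B₀ e₁ e₂ = 0 := he₂ 0
  have a2 : C.B₀ e₁ f₂ = 0 := hf₂ 0
  have a3 : C.B₀ e₁ e₃ = 0 := he₃ 0
  have a4 : C.B₀ e₂ e₃ = 0 := he₃ 2
  have a5 : C.B₀ f₂ e₃ = 0 := he₃ 3
  have a6 : C.B₀ e₁ f₃ = 0 := hf₃ 0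
  have h1 := ha e₁ e₂ (C.sym0 a1)
  have h2 := hb e₃ f₂ a5
  have h3 := C.move h1 h2 a3 a2 a4 hp₂
  exact C.Bo_of_one (C.ne_zero_of hp₁) (C.notMem_span_of hp₃ a6) h3

end SCtx

end Cfsg.Agent.Lib.Helper16.Sp
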