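import Mathlib
import Cfsg.Agent.Lib.Helper16.SubSp2

set_option autoImplicit false
set_option linter.unusedSectionVars false

namespace Cfsg.Agent.Lib.Helper16.Sp

open Cfsg Cfsg.Agent.Lib.Helper6 Module Matrix

variable {F : Type*} [Field F] [Fintype F] {m : ℕ}
variable {F₀ : Subfield F} {Pm : Matrix.GeneralLinearGroup (Fin m ⊕ Fin m) F} {ζ : F}
variable {M : Subgroup (Matrix.GeneralLinearGroup (Fin m ⊕ Fin m) F)}

local notation "R" => rv F₀ Pm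
local notation "B'" => Bz m ζ

theorem EH.split {a x : Fin m ⊕ Fin m → F} {l : F} (h : EH ζ M (a + l • x) 0 1) (h' : EH ζ M a 0 1)
    (hax : B' a x = 0) : EH ζ M x (l • a) (l * l) := by
  obtain ⟨-, g₁, hg₁, e₁⟩ := h
  obtain ⟨-, g₃, hg₃, e₃⟩ := h'.inv
  refine ⟨by rw [map_smul, LinearMap.smul_apply, hax, smul_zero], g₁ * g₃, M.mul_mem hg₁ hg₃, ?_⟩
  intro v
  rw [Units.val_mul, ← Matrix.mulVec_mulVec, e₃, e₁, ES, ES, ES]
  simp only [map_add, map_smul, map_neg, map_zero, LinearMap.add_apply, LinearMap.smul_apply,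
    Bz_self, hax, smul_eq_mul, mul_zero, add_zero, neg_zero, smul_zero, zero_smul]
  module

theorem EH.add0 {x : Fin m ⊕ Fin m → F} {c c' : F} (h : EH ζ M x 0 c) (h' : EH ζ M x 0 c') :
    EH ζ M x 0 (c + c') := by
  have := h.mul h'
  simpa using this

theorem EH.neg0 {x : Fin m ⊕ Fin m → F} {c : F} (h : EH ζ M x 0 c) : EH ζ M x 0 (-c) := by
  have := h.inv
  simpa using this

theorem exists_sq_sub (μ : F) : ∃ s t : F, μ = s * s - t * t := by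
  by_cases h2 : (2 : F) = 0
  · have : CharP F 2 := CharTwo.of_one_ne_zero_of_two_eq_zero one_ne_zero h2
    obtain ⟨s, hs⟩ := FiniteField.isSquare_of_char_two (ringChar.eq F 2) μ
    exact ⟨s, 0, by rw [hs]; ring⟩
  · exact ⟨(μ + 1) / 2, (μ - 1) / 2, by field_simp; ring⟩

namespace SCtx

theorem tv_all (C : SCtx F₀ Pm ζ M) (hB : ∀ l, C.Bo l) (x : Fin m ⊕ Fin m → F₀) (μ : F) :
    EH ζ M (R x) 0 μ := by
  have hfr := C.fr
  obtain ⟨a, fa, hp, he, hf⟩ := alt_hpair_fin C.nd C.alt ![x] (by omega)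
  have h1 : C.B₀ x a = 0 := he 0
  have h2 : C.B₀ x fa = 0 := hf 0
  have sq : ∀ l : F, EH ζ M (R x) 0 (l * l) := by
    intro l
    obtain ⟨o, k, hk, ek⟩ := hB l x fa (C.sym0 h2)
    have t1 : EH ζ M (R a) 0 1 := by
      have := C.rat (x := a) (y := 0) (by simp) 1
      rwa [rv_zero] at this
    have t2 := t1.map C.hM hk
    rw [ek, Matrix.mulVec_zero, ES, map_smul, C.Bc, C.Bc, C.sym0 h1, hp] at t2
    have e : R a + ((0 : F₀) : F) • l • R fa + (l • ((1 : F₀) : F)) • R x +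
        (0 * ((0 : F₀) : F)) • R x = R a + l • R x := by simp
    rw [e] at t2
    have t3 := t2.split t1 (by rw [C.Bc, C.sym0 h1]; rfl)
    have t4 := t3.mul (hB l x a (C.sym0 h1)).inv
    have e2 : B' (-(l • R a)) (l • R a) = 0 := by
      rw [map_neg, LinearMap.neg_apply, Bz_self, neg_zero]
    rw [e2, add_neg_cancel] at t4
    simpa using t4
  obtain ⟨s, t, rfl⟩ := exists_sq_sub μ
  rw [sub_eq_add_neg]
  exact (sq s).add0 (sq t).neg0

theorem rat_mem_tvSet (C : SCtx F₀ Pm ζ M) (hB : ∀ l, C.Bo l) (x : Fin m ⊕ Fin m → F₀) :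
    R x ∈ tvSet m M := by
  intro c
  obtain ⟨-, g, hg, e⟩ := C.tv_all hB x (ζ⁻¹ * c)
  have : tvGL m (R x) c = g := by
    apply gl_ext_mulVec
    intro v
    have h1 : c = ζ * (ζ⁻¹ * c) := by rw [← mul_assoc, mul_inv_cancel₀ C.hζ, one_mul]
    rw [e, ES]
    conv_lhs => rw [h1, tvz_mulVec]
    simp
  rw [this]; exact hg

theorem eq_smul_of_orth (C : SCtx F₀ Pm ζ M) {x₀ : Fin m ⊕ Fin m → F₀} (hx0 : x₀ ≠ 0)
    (v : Fin m ⊕ Fin m → F) (h : ∀ a, C.B₀ a x₀ = 0 → B' v (R a) = 0) : ∃ μ : F, v = μ • R x₀ := by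
  obtain ⟨f₀, -, hf₀⟩ := C.exists_partner ⊥ x₀ (by simpa using hx0)
  refine ⟨B' v (R f₀), ?_⟩
  rw [← sub_eq_zero]
  apply C.eq_zero_of_rat
  intro t
  have hf₀' : C.B₀ f₀ x₀ = -1 := by rw [alt_swap C.alt, hf₀]
  have h1 := h (t + C.B₀ t x₀ • f₀) (by
    rw [map_add, LinearMap.add_apply, map_smul, LinearMap.smul_apply, hf₀']
    simp)
  rw [rv_add, rv_smul, map_add, map_smul, smul_eq_mul] at h1
  rw [map_sub, LinearMap.sub_apply, map_smul, LinearMap.smul_apply, C.Bc x₀ t,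
    alt_swap C.alt x₀ t, smul_eq_mul]
  push_cast
  linear_combination h1

theorem tvSet_add_rat (C : SCtx F₀ Pm ζ M) (hB : ∀ l, C.Bo l) {u : Fin m ⊕ Fin m → F}
    (hu : u ∈ tvSet m M) (x : Fin m ⊕ Fin m → F₀) (l : F) : u + l • R x ∈ tvSet m M := by
  by_cases hl : l = 0
  · rw [hl, zero_smul, add_zero]; exact hu
  by_cases hx0 : x = 0
  · rw [hx0, rv_zero, smul_zero, add_zero]; exact hu
  by_cases h1 : sympForm m F u (R x) = 0
  swap
  · apply tvSet_add_of_ne hu (tvSet_smul (C.rat_mem_tvSet hB x) l)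
    rw [sympForm_smul_right]
    exact mul_ne_zero hl h1
  have h1' : B' u (R x) = 0 := by rw [Bz_apply, h1, mul_zero]
  by_cases h2 : ∃ a, C.B₀ a x = 0 ∧ B' u (R a) ≠ 0
  · obtain ⟨a, ha, hua⟩ := h2
    obtain ⟨-, g, hg, e⟩ := hB (l * (B' u (R a))⁻¹) x a ha
    have h3 := tvSet_mulVec hu hg (C.hM hg)
    rw [e, ES, h1', map_smul, smul_eq_mul, mul_assoc, inv_mul_cancel₀ hua] at h3
    simpa using h3
  · push Not at h2
    obtain ⟨μ, hμ⟩ := C.eq_smul_of_orth hx0 u h2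
    rw [hμ, ← add_smul]
    exact tvSet_smul (C.rat_mem_tvSet hB x) _

theorem le_of_Bo (C : SCtx F₀ Pm ζ M) (hB : ∀ l, C.Bo l) : spGL m F ≤ M := by
  apply eq_spGL_of_tvSet
  intro v
  rw [eq_sum_rv F₀ Pm v]
  have : ∀ s : Finset (Fin m ⊕ Fin m),
      ∑ i ∈ s, (rc F₀ Pm (Pi.single i 1) ⬝ᵥ v) • R (Pi.single i 1) ∈ tvSet m M := by
    intro s
    induction s using Finset.induction_on with
    | empty => simpa using tvSet_zero
    | insert a s ha ih =>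
      rw [Finset.sum_insert ha, add_comm]
      exact C.tvSet_add_rat hB ih _ _
  exact this _

theorem exists_Bo (C : SCtx F₀ Pm ζ M) {x₀ : Fin m ⊕ Fin m → F₀} (hx₀ : x₀ ≠ 0)
    {y : Fin m ⊕ Fin m → F} {c : F} (h : EH ζ M (R x₀) y c)
    (hy : ¬ ∃ (y₀ : Fin m ⊕ Fin m → F₀) (s : F), y = R y₀ + s • R x₀) :
    ∃ β, β ∉ F₀ ∧ C.Bo β := by
  have hfr := C.fr
  obtain ⟨f₀, -, hf₀⟩ := C.exists_partner ⊥ x₀ (by simpa using hx₀)
  have hf₀' : C.B₀ f₀ x₀ = -1 := by rw [alt_swap C.alt, hf₀]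
  obtain ⟨yW, hyW⟩ : ∃ yW, yW = y - (B' y (R f₀)) • R x₀ := ⟨_, rfl⟩
  have h1 : EH ζ M (R x₀) yW (c + 2 * B' y (R f₀)) := by rw [hyW]; exact h.shift _
  have hW1 : B' yW (R x₀) = 0 := h1.orth
  have hW2 : B' yW (R f₀) = 0 := by
    rw [hyW, map_sub, LinearMap.sub_apply, map_smul, LinearMap.smul_apply, C.Bc, hf₀]
    simp
  have hnr : ¬ ∀ z, B' yW (R z) ∈ F₀ := by
    intro hall
    obtain ⟨y₀, hy₀⟩ := C.rat_of_B yW hall
    exact hy ⟨y₀, B' y (R f₀), by rw [← hy₀, hyW]; abel⟩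
  push Not at hnr
  obtain ⟨z, hz⟩ := hnr
  obtain ⟨b, hb⟩ : ∃ b, b = z - C.B₀ z f₀ • x₀ + C.B₀ z x₀ • f₀ := ⟨_, rfl⟩
  have hbx : C.B₀ b x₀ = 0 := by
    rw [hb, map_add, map_sub, map_smul, map_smul, LinearMap.add_apply, LinearMap.sub_apply,
      LinearMap.smul_apply, LinearMap.smul_apply, C.alt x₀, hf₀']
    simp
  have hbα : B' yW (R b) ∉ F₀ := by
    rw [hb, rv_add, rv_sub, rv_smul, rv_smul, map_add, map_sub, map_smul, map_smul, hW1, hW2]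
    simpa using hz
  obtain ⟨a, fa, hpa, hea, hfa⟩ := alt_hpair_fin C.nd C.alt ![x₀, b] (by omega)
  obtain ⟨a', fa', hpa', hea', hfa'⟩ := alt_hpair_fin C.nd C.alt ![x₀, a, b, fa] (by omega)
  have a0 : C.B₀ x₀ a = 0 := hea 0
  have a1 : C.B₀ b a = 0 := hea 1
  have a2 : C.B₀ x₀ fa = 0 := hfa 0
  have a3 : C.B₀ b fa = 0 := hfa 1
  have b0 : C.B₀ x₀ a' = 0 := hea' 0
  have b1 : C.B₀ a a' = 0 := hea' 1
  have b2 : C.B₀ b a' = 0 := hea' 2
  have b3 : C.B₀ fa a' = 0 := hea' 3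
  have b4 : C.B₀ x₀ fa' = 0 := hfa' 0
  obtain ⟨o, k, hk, ek⟩ := C.rat0 a1
  have h2 := h1.map C.hM hk
  rw [ek, ek, ES, ES, C.Bc, C.Bc, a0, C.sym0 hbx] at h2
  simp only [ZeroMemClass.coe_zero, zero_smul, mul_zero, add_zero, zero_mul] at h2
  have h3 := h2.mul h1.inv
  have e3 : yW + B' yW (R a) • R b + B' yW (R b) • R a + -yW =
      B' yW (R a) • R b + B' yW (R b) • R a := by abel
  rw [e3] at h3
  have h4 := h3.move C.hM (C.rat0 b3) (by rw [C.Bc, b0]; rfl) (by rw [C.Bc, a2]; rfl) (by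
    rw [map_add, LinearMap.add_apply, map_smul, map_smul, LinearMap.smul_apply,
      LinearMap.smul_apply, C.Bc, C.Bc, b1, b2]
    simp)
  have e4 : B' (B' yW (R a) • R b + B' yW (R b) • R a) (R fa) = B' yW (R b) := by
    rw [map_add, LinearMap.add_apply, map_smul, map_smul, LinearMap.smul_apply,
      LinearMap.smul_apply, C.Bc, C.Bc, a3, hpa]
    simp
  rw [e4] at h4
  exact ⟨_, hbα, C.Bo_of_one hx₀ (C.notMem_span_of hpa' b4) h4⟩

/-- elements of the unipotent radicals of rational points are rational modulo the centre -/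
def Hyp (_C : SCtx F₀ Pm ζ M) : Prop :=
  ∀ x₀ : Fin m ⊕ Fin m → F₀, x₀ ≠ 0 → ∀ (y : Fin m ⊕ Fin m → F) (c : F), EH ζ M (R x₀) y c →
    ∃ (y₀ : Fin m ⊕ Fin m → F₀) (s : F), y = R y₀ + s • R x₀

theorem hyp_of_not_le (C : SCtx F₀ Pm ζ M) (r : ℕ) (hr : r.Prime)
    (hcard : Fintype.card F = Nat.card F₀ ^ r) (hM : ¬ spGL m F ≤ M) : C.Hyp := by
  intro x₀ hx₀ y c h
  by_contra hy
  obtain ⟨β, hβ, hB⟩ := C.exists_Bo hx₀ h hy
  exact hM (C.le_of_Bo (subring_dichotomy F₀ r hr hcard C.Bo C.Bo_coe (fun _ _ => C.Bo_add)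
    (fun _ _ => C.Bo_mul) β hB hβ))

end SCtx

end Cfsg.Agent.Lib.Helper16.Sp
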