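import Mathlib
import Cfsg.Agent.Lib.Helper16.SubSp3

set_option autoImplicit false
set_option linter.unusedSectionVars false

namespace Cfsg.Agent.Lib.Helper16.Sp

open Cfsg Cfsg.Agent.Lib.Helper6 Module Matrix

variable {F : Type*} [Field F] [Fintype F] {m : ℕ}
variable {F₀ : Subfield F} {Pm : Matrix.GeneralLinearGroup (Fin m ⊕ Fin m) F} {ζ : F}
variable {M : Subgroup (Matrix.GeneralLinearGroup (Fin m ⊕ Fin m) F)}

local notation "R" => rv F₀ Pm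
local notation "B'" => Bz m ζ

namespace SCtx

theorem hyp_swap (C : SCtx F₀ Pm ζ M) (H : C.Hyp) {p : Fin m ⊕ Fin m → F} {l : F} (hl : l ≠ 0)
    {a : Fin m ⊕ Fin m → F₀} (ha0 : a ≠ 0) (h : EH ζ M p (l • R a) 0) :
    ∃ (t : Fin m ⊕ Fin m → F₀) (s : F), l • p = R t + s • R a :=
  H a ha0 _ _ (h.swap.scale hl)

theorem key_point (C : SCtx F₀ Pm ζ M) (H : C.Hyp) {g : Matrix.GeneralLinearGroup (Fin m ⊕ Fin m) F}
    (hgM : g ∈ M) {x x' : Fin m ⊕ Fin m → F₀} {c : F} (hc : c ≠ 0) (hx' : x' ≠ 0)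
    (hg : (g : Matrix _ _ F) *ᵥ R x = c • R x') {a : Fin m ⊕ Fin m → F₀} (hax : C.B₀ a x = 0) :
    ∃ w, c⁻¹ • ((g : Matrix _ _ F) *ᵥ R a) = R w := by
  have hfr := C.fr
  have hgS := C.hM hgM
  have step1 : ∀ y : Fin m ⊕ Fin m → F₀, C.B₀ y x = 0 → ∃ (y' : Fin m ⊕ Fin m → F₀) (l : F),
      c • ((g : Matrix _ _ F) *ᵥ R y) = R y' + l • R x' := by
    intro y hy
    have h1 := (C.rat0 hy).map C.hM hgM
    rw [hg] at h1
    exact H x' hx' _ _ (h1.scale hc)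
  obtain ⟨v', l, hv⟩ := step1 a hax
  obtain ⟨b, fb, hpb, heb, hfb⟩ := alt_hpair_fin C.nd C.alt ![x, a] (by omega)
  have hxb : C.B₀ x b = 0 := heb 0
  have hab : C.B₀ a b = 0 := heb 1
  have hxfb : C.B₀ x fb = 0 := hfb 0
  have hafb : C.B₀ a fb = 0 := hfb 1
  obtain ⟨b', lb, hb⟩ := step1 b (C.sym0 hxb)
  obtain ⟨p, hp⟩ : ∃ p, p = R v' + l • R x' := ⟨_, rfl⟩
  obtain ⟨q, hq⟩ : ∃ q, q = R b' + lb • R x' := ⟨_, rfl⟩
  rw [← hp] at hv
  rw [← hq] at hb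
  have e1 : (g : Matrix _ _ F) *ᵥ R a = c⁻¹ • p := by
    rw [← hv, smul_smul, inv_mul_cancel₀ hc, one_smul]
  have e2 : (g : Matrix _ _ F) *ᵥ R b = c⁻¹ • q := by
    rw [← hb, smul_smul, inv_mul_cancel₀ hc, one_smul]
  have e3 : R x' = c⁻¹ • ((g : Matrix _ _ F) *ᵥ R x) := by
    rw [hg, smul_smul, inv_mul_cancel₀ hc, one_smul]
  have s3 := (C.rat0 (C.sym0 hab)).map C.hM hgM
  rw [e1, e2] at s3
  have s4 := s3.scale (inv_ne_zero hc)
  rw [smul_smul, mul_zero] at s4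
  have hb' : b' ∉ Submodule.span F₀ {v', x'} := by
    intro hmem
    obtain ⟨μ₁, μ₂, hμ⟩ := Submodule.mem_span_pair.1 hmem
    have h1 : q = (μ₁ : F) • p + ((μ₂ : F) + lb - μ₁ * l) • R x' := by
      rw [hq, hp, ← hμ, rv_add, rv_smul, rv_smul]
      module
    have h2 : B' q ((g : Matrix _ _ F) *ᵥ R fb) = c := by
      rw [← hb, map_smul, LinearMap.smul_apply, Bz_iso ζ hgS, C.Bc, hpb]
      simp
    have h3 : B' p ((g : Matrix _ _ F) *ᵥ R fb) = 0 := by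
      rw [← hv, map_smul, LinearMap.smul_apply, Bz_iso ζ hgS, C.Bc, hafb]
      simp
    have h4 : B' (R x') ((g : Matrix _ _ F) *ᵥ R fb) = 0 := by
      rw [e3, map_smul, LinearMap.smul_apply, Bz_iso ζ hgS, C.Bc, hxfb]
      simp
    rw [h1, map_add, LinearMap.add_apply, map_smul, map_smul, LinearMap.smul_apply,
      LinearMap.smul_apply, h3, h4] at h2
    apply hc
    rw [← h2]; simp
  obtain ⟨f, hf1, hfb'⟩ := C.exists_partner _ b' hb'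
  have hfv : C.B₀ v' f = 0 := hf1 _ (Submodule.subset_span (by simp))
  have hfx : C.B₀ x' f = 0 := hf1 _ (Submodule.subset_span (by simp))
  obtain ⟨a₂, f₂, hp₂, he₂, hf₂⟩ := alt_hpair_fin C.nd C.alt ![v', x', b', f] (by omega)
  have k1 : C.B₀ v' a₂ = 0 := he₂ 0
  have k2 : C.B₀ x' a₂ = 0 := he₂ 1
  have k3 : C.B₀ b' a₂ = 0 := he₂ 2
  have k4 : C.B₀ f a₂ = 0 := he₂ 3
  have k1' : C.B₀ v' f₂ = 0 := hf₂ 0
  have k2' : C.B₀ x' f₂ = 0 := hf₂ 1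
  have k3' : C.B₀ b' f₂ = 0 := hf₂ 2
  have k4' : C.B₀ f f₂ = 0 := hf₂ 3
  have hpz : ∀ z : Fin m ⊕ Fin m → F₀, C.B₀ v' z = 0 → C.B₀ x' z = 0 → B' p (R z) = 0 := by
    intro z h1 h2
    rw [hp, map_add, LinearMap.add_apply, map_smul, LinearMap.smul_apply, C.Bc, C.Bc, h1, h2]
    simp
  have hqz : ∀ z : Fin m ⊕ Fin m → F₀, C.B₀ x' z = 0 → B' ((c⁻¹ * c⁻¹) • q) (R z) =
      (c⁻¹ * c⁻¹) * ((C.B₀ b' z : F₀) : F) := by
    intro z h2
    rw [hq, map_smul, LinearMap.smul_apply, map_add, LinearMap.add_apply, map_smul,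
      LinearMap.smul_apply, C.Bc, C.Bc, h2]
    simp
  have hcc : c⁻¹ * c⁻¹ ≠ 0 := mul_ne_zero (inv_ne_zero hc) (inv_ne_zero hc)
  have m1 := s4.move C.hM (C.rat0 k4) (hpz a₂ k1 k2) (hpz f hfv hfx) (by rw [hqz a₂ k2, k3]; simp)
  have m2 := s4.move C.hM (C.rat0 k4') (hpz f₂ k1' k2') (hpz f hfv hfx)
    (by rw [hqz f₂ k2', k3']; simp)
  rw [hqz f hfx, hfb'] at m1 m2
  simp only [OneMemClass.coe_one, mul_one] at m1 m2
  have hp₂' : C.B₀ f₂ a₂ = -1 := by rw [alt_swap C.alt, hp₂]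
  have hf₂0 : f₂ ≠ 0 := by
    rintro rfl
    simp at hp₂
  obtain ⟨t, s, hts⟩ := C.hyp_swap H hcc (C.ne_zero_of hp₂) m1
  obtain ⟨t', s', hts'⟩ := C.hyp_swap H hcc hf₂0 m2
  have hs' : s' = ((C.B₀ t' a₂ - C.B₀ t a₂ : F₀) : F) := by
    have h1 : B' (R t + s • R a₂) (R a₂) = B' (R t' + s' • R f₂) (R a₂) := by rw [← hts, ← hts']
    rw [map_add, map_add, LinearMap.add_apply, LinearMap.add_apply, map_smul, map_smul,
      LinearMap.smul_apply, LinearMap.smul_apply, C.Bc, C.Bc, C.Bc, C.Bc, C.alt a₂, hp₂'] at h1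
    push_cast at h1 ⊢
    simp only [smul_eq_mul, mul_zero, add_zero] at h1
    linear_combination h1
  refine ⟨t' + (C.B₀ t' a₂ - C.B₀ t a₂) • f₂, ?_⟩
  rw [rv_add, rv_smul, ← hs', ← hts', e1, smul_smul]

/-- an element of `M` mapping a rational point to a rational point is in the subfield group -/
theorem mem_SF_of_point (C : SCtx F₀ Pm ζ M) (H : C.Hyp)
    {g : Matrix.GeneralLinearGroup (Fin m ⊕ Fin m) F} (hgM : g ∈ M) {x x' : Fin m ⊕ Fin m → F₀}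
    {c : F} (hx0 : x ≠ 0) (hg : (g : Matrix _ _ F) *ᵥ R x = c • R x') :
    g ∈ Geo.subfieldSubgroup F₀ Pm := by
  have hfr := C.fr
  have hne : (g : Matrix (Fin m ⊕ Fin m) (Fin m ⊕ Fin m) F) *ᵥ R x ≠ 0 :=
    gl_mulVec_ne_zero g (rv_ne_zero F₀ Pm hx0)
  have hc : c ≠ 0 := by
    rintro rfl
    rw [zero_smul] at hg
    exact hne hg
  have hx' : x' ≠ 0 := by
    rintro rfl
    rw [rv_zero, smul_zero] at hg
    exact hne hg
  apply mem_SF_of g c⁻¹ (inv_ne_zero hc)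
  intro b
  obtain ⟨a, fa, hpa, hea, hfa⟩ := alt_hpair_fin C.nd C.alt ![x, b] (by omega)
  have h1 : C.B₀ x a = 0 := hea 0
  have h2 : C.B₀ b a = 0 := hea 1
  obtain ⟨w, hw⟩ := C.key_point H hgM hc hx' hg (C.sym0 h1)
  have hw' : (g : Matrix _ _ F) *ᵥ R a = c • R w := by
    rw [← hw, smul_smul, mul_inv_cancel₀ hc, one_smul]
  have hw0 : w ≠ 0 := by
    rintro rfl
    rw [rv_zero, smul_zero] at hw'
    exact gl_mulVec_ne_zero g (rv_ne_zero F₀ Pm (C.ne_zero_of hpa)) hw'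
  exact C.key_point H hgM hc hw0 hw' h2

end SCtx

end Cfsg.Agent.Lib.Helper16.Sp
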