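import Mathlib
import Cfsg.Agent.Lib.Helper16.SubSp4

set_option autoImplicit false
set_option linter.unusedSectionVars false

namespace Cfsg.Agent.Lib.Helper16.Sp

open Cfsg Cfsg.Agent.Lib.Helper6 Module Matrix

variable {F : Type*} [Field F] [Fintype F] {m : ℕ}
variable {F₀ : Subfield F} {Pm : Matrix.GeneralLinearGroup (Fin m ⊕ Fin m) F} {ζ : F}
variable {M : Subgroup (Matrix.GeneralLinearGroup (Fin m ⊕ Fin m) F)}

local notation "R" => rv F₀ Pm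
local notation "B'" => Bz m ζ
local notation "V" => Fin m ⊕ Fin m → F
local notation "V₀" => Fin m ⊕ Fin m → F₀
local notation "G" => Matrix.GeneralLinearGroup (Fin m ⊕ Fin m) F

theorem eq_zero_of_mul_mem {a z : F} (ha : a ∈ F₀) (hz : z ∉ F₀) (h : a * z ∈ F₀) : a = 0 := by
  by_contra h0
  apply hz
  have : z = a⁻¹ * (a * z) := by field_simp
  rw [this]
  exact F₀.mul_mem (F₀.inv_mem ha) h

/-- lower unitriangular matrices -/
def yL (t : F) : Matrix.SpecialLinearGroup (Fin 2) F := ⟨!![1, 0; t, 1], by simp [det_fin_two]⟩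

/-- the configuration: a rational totally isotropic line and a point -/
structure Cfg (C : SCtx F₀ Pm ζ M) (x d : Fin 2 → V₀) (y fy : V₀) (A : V) (s : F) : Prop where
  xx : ∀ i j, C.B₀ (x i) (x j) = 0
  xd : ∀ i j, C.B₀ (x i) (d j) = if i = j then 1 else 0
  hy : C.B₀ y fy = 1
  yx : ∀ i, C.B₀ y (x i) = 0
  fx : ∀ i, C.B₀ fy (x i) = 0
  A0 : B' A (R (x 0)) = 1
  hs : s ≠ 0
  hM : EH ζ M A 0 s
  hz : B' A (R (x 1)) ∉ F₀

variable (Pm ζ) in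
/-- the radical vector -/
noncomputable def zv (x : Fin 2 → V₀) (A : V) : V := R (x 1) - B' A (R (x 1)) • R (x 0)

variable (Pm) in
/-- membership in the three-dimensional space -/
def InX (x : Fin 2 → V₀) (A : V) (v : V) : Prop :=
  ∃ c₀ c₁ c₂ : F, v = c₀ • R (x 0) + c₁ • R (x 1) + c₂ • A

theorem InX.add {x : Fin 2 → V₀} {A v w : V} (h : InX Pm x A v) (h' : InX Pm x A w) :
    InX Pm x A (v + w) := by
  obtain ⟨c₀, c₁, c₂, rfl⟩ := h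
  obtain ⟨e₀, e₁, e₂, rfl⟩ := h'
  exact ⟨c₀ + e₀, c₁ + e₁, c₂ + e₂, by module⟩

theorem InX.neg {x : Fin 2 → V₀} {A v : V} (h : InX Pm x A v) : InX Pm x A (-v) := by
  obtain ⟨c₀, c₁, c₂, rfl⟩ := h
  exact ⟨-c₀, -c₁, -c₂, by module⟩

variable (Pm ζ) in
/-- the relation between `SL₂` and `GL` -/
structure Rel (x : Fin 2 → V₀) (A : V) (μ : Matrix.SpecialLinearGroup (Fin 2) F) (g : G) : Prop where
  fz : (g : Matrix (Fin m ⊕ Fin m) (Fin m ⊕ Fin m) F) *ᵥ zv Pm ζ x A = zv Pm ζ x A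
  fX : ∀ v, InX Pm x A ((g : Matrix (Fin m ⊕ Fin m) (Fin m ⊕ Fin m) F) *ᵥ v - v)
  e1 : ∃ κ : F, (g : Matrix (Fin m ⊕ Fin m) (Fin m ⊕ Fin m) F) *ᵥ R (x 0) = μ.1 0 0 • R (x 0) + μ.1 1 0 • A + κ • zv Pm ζ x A
  e2 : ∃ κ : F, (g : Matrix (Fin m ⊕ Fin m) (Fin m ⊕ Fin m) F) *ᵥ A = μ.1 0 1 • R (x 0) + μ.1 1 1 • A + κ • zv Pm ζ x A

theorem Rel.one (x : Fin 2 → V₀) (A : V) : Rel Pm ζ x A 1 1 := by
  refine ⟨by simp, fun v => ⟨0, 0, 0, by simp⟩, ⟨0, ?_⟩, ⟨0, ?_⟩⟩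
  all_goals
    rw [sl2_val_one]
    simp

theorem sl2_mul_entries (a b : Matrix.SpecialLinearGroup (Fin 2) F) (i j : Fin 2) :
    (a * b).1 i j = a.1 i 0 * b.1 0 j + a.1 i 1 * b.1 1 j := by
  rw [sl2_val_mul, Matrix.mul_apply, Fin.sum_univ_two]

theorem Rel.mul {x : Fin 2 → V₀} {A : V} {μ μ' : Matrix.SpecialLinearGroup (Fin 2) F}
    {g g' : G} (h : Rel Pm ζ x A μ g) (h' : Rel Pm ζ x A μ' g') :
    Rel Pm ζ x A (μ * μ') (g * g') := by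
  obtain ⟨k1, a1⟩ := h.e1
  obtain ⟨k2, a2⟩ := h.e2
  obtain ⟨l1, b1⟩ := h'.e1
  obtain ⟨l2, b2⟩ := h'.e2
  have hmul : ∀ v, ((g * g' : G) : Matrix (Fin m ⊕ Fin m) (Fin m ⊕ Fin m) F) *ᵥ v =
      (g : Matrix (Fin m ⊕ Fin m) (Fin m ⊕ Fin m) F) *ᵥ ((g' : Matrix (Fin m ⊕ Fin m) (Fin m ⊕ Fin m) F) *ᵥ v) := by
    intro v; rw [Units.val_mul, Matrix.mulVec_mulVec]
  refine ⟨by rw [hmul, h'.fz, h.fz], fun v => ?_, ?_, ?_⟩
  · have := (h.fX ((g' : Matrix (Fin m ⊕ Fin m) (Fin m ⊕ Fin m) F) *ᵥ v)).add (h'.fX v)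
    rw [hmul]
    convert this using 1
    abel
  · refine ⟨μ'.1 0 0 * k1 + μ'.1 1 0 * k2 + l1, ?_⟩
    rw [hmul, b1, Matrix.mulVec_add, Matrix.mulVec_add, Matrix.mulVec_smul, Matrix.mulVec_smul,
      Matrix.mulVec_smul, a1, a2, h.fz, sl2_mul_entries, sl2_mul_entries]
    module
  · refine ⟨μ'.1 0 1 * k1 + μ'.1 1 1 * k2 + l2, ?_⟩
    rw [hmul, b2, Matrix.mulVec_add, Matrix.mulVec_add, Matrix.mulVec_smul, Matrix.mulVec_smul,
      Matrix.mulVec_smul, a1, a2, h.fz, sl2_mul_entries, sl2_mul_entries]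
    module

theorem Rel.inv {x : Fin 2 → V₀} {A : V} {μ : Matrix.SpecialLinearGroup (Fin 2) F}
    {g : G} (h : Rel Pm ζ x A μ g) : Rel Pm ζ x A μ⁻¹ g⁻¹ := by
  obtain ⟨k1, a1⟩ := h.e1
  obtain ⟨k2, a2⟩ := h.e2
  have hz : ((g⁻¹ : G) : Matrix (Fin m ⊕ Fin m) (Fin m ⊕ Fin m) F) *ᵥ zv Pm ζ x A = zv Pm ζ x A := by
    conv_lhs => rw [← h.fz]
    exact gl_inv_mulVec g _
  have hdet : μ.1 0 0 * μ.1 1 1 - μ.1 0 1 * μ.1 1 0 = 1 := by
    have := μ.2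
    rwa [det_fin_two] at this
  have c1 := congrArg (fun v => ((g⁻¹ : G) : Matrix (Fin m ⊕ Fin m) (Fin m ⊕ Fin m) F) *ᵥ v) a1
  have c2 := congrArg (fun v => ((g⁻¹ : G) : Matrix (Fin m ⊕ Fin m) (Fin m ⊕ Fin m) F) *ᵥ v) a2
  simp only [gl_inv_mulVec, Matrix.mulVec_add, Matrix.mulVec_smul, hz] at c1 c2
  have i00 : (μ⁻¹).1 0 0 = μ.1 1 1 := by rw [sl2_val_inv, adjugate_fin_two]; simp
  have i01 : (μ⁻¹).1 0 1 = - μ.1 0 1 := by rw [sl2_val_inv, adjugate_fin_two]; simp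
  have i10 : (μ⁻¹).1 1 0 = - μ.1 1 0 := by rw [sl2_val_inv, adjugate_fin_two]; simp
  have i11 : (μ⁻¹).1 1 1 = μ.1 0 0 := by rw [sl2_val_inv, adjugate_fin_two]; simp
  have one : ∀ v : V, v = (μ.1 0 0 * μ.1 1 1 - μ.1 0 1 * μ.1 1 0) • v := by
    intro v; rw [hdet, one_smul]
  refine ⟨hz, fun v => ?_, ?_, ?_⟩
  · have := (h.fX (((g⁻¹ : G) : Matrix (Fin m ⊕ Fin m) (Fin m ⊕ Fin m) F) *ᵥ v)).neg
    rw [gl_mulVec_inv] at this
    convert this using 1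
    abel
  · refine ⟨-(μ.1 1 1 * k1 - μ.1 1 0 * k2), ?_⟩
    rw [i00, i10, one (((g⁻¹ : G) : Matrix (Fin m ⊕ Fin m) (Fin m ⊕ Fin m) F) *ᵥ R (x 0))]
    linear_combination (norm := module) (- μ.1 1 1) • c1 + μ.1 1 0 • c2
  · refine ⟨-(μ.1 0 0 * k2 - μ.1 0 1 * k1), ?_⟩
    rw [i01, i11, one (((g⁻¹ : G) : Matrix (Fin m ⊕ Fin m) (Fin m ⊕ Fin m) F) *ᵥ A)]
    linear_combination (norm := module) (- μ.1 0 0) • c2 + μ.1 0 1 • c1

variable (Pm ζ M) in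
/-- the image of `M` in `SL₂` -/
def HT (x : Fin 2 → V₀) (A : V) : Subgroup (Matrix.SpecialLinearGroup (Fin 2) F) where
  carrier := {μ | ∃ g ∈ M, Rel Pm ζ x A μ g}
  one_mem' := ⟨1, M.one_mem, Rel.one x A⟩
  mul_mem' := by
    rintro a b ⟨g, hg, h⟩ ⟨g', hg', h'⟩
    exact ⟨g * g', M.mul_mem hg hg', h.mul h'⟩
  inv_mem' := by
    rintro a ⟨g, hg, h⟩
    exact ⟨g⁻¹, M.inv_mem hg, h.inv⟩

namespace Cfg

variable {C : SCtx F₀ Pm ζ M} {x d : Fin 2 → (Fin m ⊕ Fin m → F₀)} {y fy : Fin m ⊕ Fin m → F₀}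
  {A : Fin m ⊕ Fin m → F} {s : F}

theorem uu (c : Cfg C x d y fy A s) (i j : Fin 2) : B' (R (x i)) (R (x j)) = 0 := by
  rw [C.Bc, c.xx]; rfl

theorem ud (c : Cfg C x d y fy A s) (i j : Fin 2) :
    B' (R (x i)) (R (d j)) = if i = j then 1 else 0 := by
  rw [C.Bc, c.xd]; split_ifs <;> rfl

theorem yu (c : Cfg C x d y fy A s) (i : Fin 2) : B' (R y) (R (x i)) = 0 := by
  rw [C.Bc, c.yx]; rfl

theorem fu (c : Cfg C x d y fy A s) (i : Fin 2) : B' (R fy) (R (x i)) = 0 := by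
  rw [C.Bc, c.fx]; rfl

theorem uf (c : Cfg C x d y fy A s) (i : Fin 2) : B' (R (x i)) (R fy) = 0 :=
  Bz_zero_symm (c.fu i)

theorem x_ne (c : Cfg C x d y fy A s) (i : Fin 2) : x i ≠ 0 := by
  intro h
  have := c.xd i i
  rw [h] at this
  simp at this

theorem zu (c : Cfg C x d y fy A s) (i : Fin 2) : B' (zv Pm ζ x A) (R (x i)) = 0 := by
  rw [zv]
  simp only [map_sub, map_smul, LinearMap.sub_apply, LinearMap.smul_apply, c.uu, smul_zero, sub_zero]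

theorem zA (c : Cfg C x d y fy A s) : B' (zv Pm ζ x A) A = 0 := by
  rw [zv]
  simp only [map_sub, map_smul, LinearMap.sub_apply, LinearMap.smul_apply]
  rw [Bz_swap ζ (R (x 1)) A, Bz_swap ζ (R (x 0)) A, c.A0]
  simp

theorem tv_rat (c : Cfg C x d y fy A s) (i : Fin 2) : EH ζ M (R (x i)) 0 1 := by
  have := C.rat (x := x i) (y := 0) (by simp) 1
  rwa [rv_zero] at this

theorem relX1 (c : Cfg C x d y fy A s) : xU (1 : F) ∈ HT Pm ζ M x A := by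
  obtain ⟨-, g, hg, e⟩ := c.tv_rat 0
  refine ⟨g, hg, ?_, fun v => ?_, ⟨0, ?_⟩, ⟨0, ?_⟩⟩
  · rw [e, ES, c.zu]; simp
  · rw [e, ES]
    exact ⟨B' v (R (x 0)), 0, 0, by simp⟩
  · rw [e, ES, c.uu]; simp [xU]
  · rw [e, ES, c.A0]; simp [xU]; abel

theorem relX2 (c : Cfg C x d y fy A s) :
    xU (B' A (R (x 1)) * B' A (R (x 1))) ∈ HT Pm ζ M x A := by
  obtain ⟨-, g, hg, e⟩ := c.tv_rat 1
  refine ⟨g, hg, ?_, fun v => ?_, ⟨0, ?_⟩, ⟨B' A (R (x 1)), ?_⟩⟩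
  · rw [e, ES, c.zu]; simp
  · rw [e, ES]
    exact ⟨0, B' v (R (x 1)), 0, by simp⟩
  · rw [e, ES, c.uu]; simp [xU]
  · rw [e, ES, zv]; simp [xU]; module

theorem relY (c : Cfg C x d y fy A s) : yL (-s) ∈ HT Pm ζ M x A := by
  obtain ⟨-, g, hg, e⟩ := c.hM
  refine ⟨g, hg, ?_, fun v => ?_, ⟨0, ?_⟩, ⟨0, ?_⟩⟩
  · rw [e, ES, c.zA]; simp
  · rw [e, ES]
    exact ⟨0, 0, s * B' v A, by simp⟩
  · rw [e, ES, Bz_swap ζ _ A, c.A0]; simp [yL]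
  · rw [e, ES, Bz_self]; simp [yL]

theorem lemR (c : Cfg C x d y fy A s) (H : C.Hyp) {p w : V} {c' : F} (p₀ p₁ w₀ w₁ : F)
    (hp : p = p₀ • R (x 0) + p₁ • R (x 1)) (hw : w = w₀ • R (x 0) + w₁ • R (x 1))
    (h : EH ζ M p (R y + w) c') : ∃ t, p = R t := by
  have hup : ∀ j, B' p (R (x j)) = 0 := by
    intro j
    rw [hp]
    simp only [map_add, map_smul, LinearMap.add_apply, LinearMap.smul_apply, c.uu, smul_zero,
      add_zero]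
  have hfp : B' p (R fy) = 0 := by
    rw [hp]
    simp only [map_add, map_smul, LinearMap.add_apply, LinearMap.smul_apply, c.uf, smul_zero,
      add_zero]
  have hyu : ∀ j, B' (R y + w) (R (x j)) = 0 := by
    intro j
    rw [hw]
    simp only [map_add, map_smul, LinearMap.add_apply, LinearMap.smul_apply, c.uu, c.yu, smul_zero,
      add_zero]
  have hyf : B' (R y + w) (R fy) = 1 := by
    rw [hw]
    simp only [map_add, map_smul, LinearMap.add_apply, LinearMap.smul_apply, c.uf, smul_zero,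
      add_zero]
    rw [C.Bc, c.hy]; rfl
  have mv : ∀ j, ∃ (t : V₀) (s : F), p = R t + s • R (x j) := by
    intro j
    have h1 := h.move C.hM (C.rat0 (c.fx j)) (hup j) hfp (hyu j)
    rw [hyf] at h1
    obtain ⟨t, s, hts⟩ := C.hyp_swap H one_ne_zero (c.x_ne j) h1
    exact ⟨t, s, by rw [← hts, one_smul]⟩
  obtain ⟨t, s₀, h0⟩ := mv 0
  obtain ⟨t', s₁, h1⟩ := mv 1
  have hs₁ : s₁ = ((C.B₀ t (d 1) - C.B₀ t' (d 1) : F₀) : F) := by
    have h2 : B' (R t + s₀ • R (x 0)) (R (d 1)) = B' (R t' + s₁ • R (x 1)) (R (d 1)) := by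
      rw [← h0, ← h1]
    simp only [map_add, map_smul, LinearMap.add_apply, LinearMap.smul_apply, c.ud, C.Bc] at h2
    rw [if_neg (by decide), if_pos trivial, smul_zero, add_zero, smul_eq_mul, mul_one] at h2
    push_cast
    linear_combination -h2
  exact ⟨t' + (C.B₀ t (d 1) - C.B₀ t' (d 1)) • x 1, by rw [rv_add, rv_smul, ← hs₁, ← h1]⟩

theorem coords (c : Cfg C x d y fy A s) {p₀ p₁ : F} {t : V₀}
    (h : p₀ • R (x 0) + p₁ • R (x 1) = R t) : p₀ ∈ F₀ ∧ p₁ ∈ F₀ := by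
  have key : ∀ j, B' (p₀ • R (x 0) + p₁ • R (x 1)) (R (d j)) ∈ F₀ := by
    intro j
    rw [h, C.Bc]
    exact (C.B₀ t (d j)).2
  have k0 := key 0
  have k1 := key 1
  simp only [map_add, map_smul, LinearMap.add_apply, LinearMap.smul_apply, c.ud] at k0 k1
  simp at k0 k1
  exact ⟨k0, k1⟩

theorem borel (c : Cfg C x d y fy A s) (H : C.Hyp) (μ : Matrix.SpecialLinearGroup (Fin 2) F)
    (hm : μ ∈ HT Pm ζ M x A) (h10 : μ.1 1 0 = 0) : μ.1 0 0 = 1 := by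
  obtain ⟨g, hgM, hR⟩ := hm
  have hgS := C.hM hgM
  obtain ⟨κ, a1⟩ := hR.e1
  rw [h10, zero_smul, add_zero] at a1
  have hdet := μ.2
  rw [det_fin_two, h10, mul_zero, sub_zero] at hdet
  obtain ⟨α, hα⟩ : ∃ α, α = μ.1 0 0 := ⟨_, rfl⟩
  rw [← hα] at a1 hdet ⊢
  have hα0 : α ≠ 0 := left_ne_zero_of_mul_eq_one hdet
  obtain ⟨ζ₁, hζ₁⟩ : ∃ ζ₁, ζ₁ = B' A (R (x 1)) := ⟨_, rfl⟩
  have hzv : zv Pm ζ x A = R (x 1) - ζ₁ • R (x 0) := by rw [zv, hζ₁]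
  have hz1 : ζ₁ ∉ F₀ := by rw [hζ₁]; exact c.hz
  have fz := hR.fz
  obtain ⟨c₀, c₁, c₂, hc⟩ := hR.fX (R y)
  have hyz : B' (R y) (zv Pm ζ x A) = 0 := by
    rw [hzv]
    simp only [map_sub, map_smul, c.yu, smul_zero, sub_zero]
  have gyz : B' ((g : Matrix (Fin m ⊕ Fin m) (Fin m ⊕ Fin m) F) *ᵥ R y) (zv Pm ζ x A) = 0 := by
    have := Bz_iso ζ hgS (R y) (zv Pm ζ x A)
    rw [fz, hyz] at this
    exact this
  have gy0 : B' ((g : Matrix (Fin m ⊕ Fin m) (Fin m ⊕ Fin m) F) *ᵥ R y) (R (x 0)) = 0 := by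
    have := Bz_iso ζ hgS (R y) (R (x 0))
    rw [a1, map_add, map_smul, map_smul, gyz, c.yu, smul_zero, add_zero, smul_eq_mul] at this
    exact (mul_eq_zero.1 this).resolve_left hα0
  have hc2 : c₂ = 0 := by
    have := congrArg (fun v => B' v (R (x 0))) hc
    simp only [map_add, map_sub, map_smul, LinearMap.add_apply, LinearMap.sub_apply,
      LinearMap.smul_apply, c.uu, c.yu, gy0, c.A0, smul_eq_mul] at this
    simpa using this.symm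
  have hgy : (g : Matrix (Fin m ⊕ Fin m) (Fin m ⊕ Fin m) F) *ᵥ R y = R y + (c₀ • R (x 0) + c₁ • R (x 1)) := by
    rw [hc2, zero_smul, add_zero] at hc
    rw [← hc]; abel
  have hS : ∀ i, EH ζ M ((g : Matrix (Fin m ⊕ Fin m) (Fin m ⊕ Fin m) F) *ᵥ R (x i)) (R y + (c₀ • R (x 0) + c₁ • R (x 1))) 0 := by
    intro i
    rw [← hgy]
    exact (C.rat0 (c.yx i)).map C.hM hgM
  have e0 : (g : Matrix (Fin m ⊕ Fin m) (Fin m ⊕ Fin m) F) *ᵥ R (x 0) = (α - κ * ζ₁) • R (x 0) + κ • R (x 1) := by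
    rw [a1, hzv]; module
  have e1 : (g : Matrix (Fin m ⊕ Fin m) (Fin m ⊕ Fin m) F) *ᵥ R (x 1) =
      (ζ₁ * α - ζ₁ * (1 + ζ₁ * κ)) • R (x 0) + (1 + ζ₁ * κ) • R (x 1) := by
    have h2 : R (x 1) = zv Pm ζ x A + ζ₁ • R (x 0) := by rw [hzv]; abel
    conv_lhs => rw [h2]
    rw [Matrix.mulVec_add, Matrix.mulVec_smul, fz, a1, hzv]
    module
  obtain ⟨t₀, ht₀⟩ := c.lemR H _ _ _ _ e0 rfl (hS 0)
  obtain ⟨t₁, ht₁⟩ := c.lemR H _ _ _ _ e1 rfl (hS 1)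
  obtain ⟨b0, b1⟩ := c.coords (e0.symm.trans ht₀)
  obtain ⟨d0, d1⟩ := c.coords (e1.symm.trans ht₁)
  have hκ : κ = 0 := by
    apply eq_zero_of_mul_mem b1 hz1
    have := F₀.sub_mem d1 F₀.one_mem
    convert this using 1
    ring
  rw [hκ] at b0 d0
  have hαF : α ∈ F₀ := by simpa using b0
  have := eq_zero_of_mul_mem (F₀.sub_mem hαF F₀.one_mem) hz1 (by
    convert d0 using 1
    ring)
  exact sub_eq_zero.1 this

/-- the configuration is contradictory -/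
theorem false (c : Cfg C x d y fy A s) (H : C.Hyp) : False := by
  have hz : B' A (R (x 1)) ∉ F₀ := c.hz
  have h := sl2_frob (HT Pm ζ M x A) (c.borel H) 1 (B' A (R (x 1)) * B' A (R (x 1))) one_ne_zero
    (by
      intro h0
      apply hz
      rw [mul_self_eq_zero.1 h0]
      exact F₀.zero_mem)
    (by
      intro h0
      apply hz
      rcases mul_self_eq_one_iff.1 h0.symm with h1 | h1
      · rw [h1]; exact F₀.one_mem
      · rw [h1]; exact F₀.neg_mem F₀.one_mem)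
    c.relX1 c.relX2 _ c.relY
  have h2 : (yL (-s)).1 1 0 = -s := by simp [yL]
  rw [h2] at h
  exact c.hs (neg_eq_zero.1 h)

end Cfg

end Cfsg.Agent.Lib.Helper16.Sp
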