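import Mathlib
import Cfsg.Agent.Lib.Helper16.SubSp5
import Cfsg.Agent.Lib.Helper16.Orth34

set_option autoImplicit false
set_option linter.unusedSectionVars false

namespace Cfsg.Agent.Lib.Helper16.Sp

open Cfsg Cfsg.Agent.Lib.Helper6 Module Matrix

variable {F : Type*} [Field F] [Fintype F] {m : ℕ}
variable {F₀ : Subfield F} {Pm : Matrix.GeneralLinearGroup (Fin m ⊕ Fin m) F} {ζ : F}
variable {M : Subgroup (Matrix.GeneralLinearGroup (Fin m ⊕ Fin m) F)}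

local notation "R" => rv F₀ Pm
local notation "B'" => Bz m ζ

namespace SCtx

theorem sub_max (C : SCtx F₀ Pm ζ M) (r : ℕ) (hr : r.Prime)
    (hcard : Fintype.card F = Nat.card F₀ ^ r) (h : Matrix.GeneralLinearGroup (Fin m ⊕ Fin m) F)
    (hhM : h ∈ M) (hh : h ∉ Geo.subfieldSubgroup F₀ Pm) : spGL m F ≤ M := by
  by_contra hM
  have H : C.Hyp := C.hyp_of_not_le r hr hcard hM
  have hfr := C.fr
  obtain ⟨x, fx, hpx, -, -⟩ := alt_hpair_fin C.nd C.alt ![] (by omega)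
  have hx0 : x ≠ 0 := C.ne_zero_of hpx
  obtain ⟨p, hp⟩ : ∃ p, p = (h : Matrix (Fin m ⊕ Fin m) (Fin m ⊕ Fin m) F) *ᵥ R x := ⟨_, rfl⟩
  have hp0 : p ≠ 0 := by rw [hp]; exact gl_mulVec_ne_zero h (rv_ne_zero F₀ Pm hx0)
  have hEp : EH ζ M p 0 1 := by
    have h1 := (C.rat (x := x) (y := 0) (by simp) 1).map C.hM hhM
    rw [rv_zero, Matrix.mulVec_zero, ← hp] at h1
    exact h1
  obtain ⟨x₀, hx₀⟩ : ∃ x₀, B' p (R x₀) ≠ 0 := by
    by_contra hc
    push Not at hc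
    exact hp0 (C.eq_zero_of_rat p hc)
  obtain ⟨a, ha⟩ : ∃ a, a = B' p (R x₀) := ⟨_, rfl⟩
  rw [← ha] at hx₀
  obtain ⟨A, hA⟩ : ∃ A, A = a⁻¹ • p := ⟨_, rfl⟩
  have hpA : p = a • A := by rw [hA, smul_smul, mul_inv_cancel₀ hx₀, one_smul]
  have hEA : EH ζ M A 0 (a * a) := by
    rw [hpA] at hEp
    have := hEp.scale hx₀
    rwa [smul_zero, mul_one] at this
  have A0 : B' A (R x₀) = 1 := by
    rw [hA, map_smul, LinearMap.smul_apply, ← ha, smul_eq_mul, inv_mul_cancel₀ hx₀]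
  have hx₀0 : x₀ ≠ 0 := by
    rintro rfl
    rw [rv_zero, map_zero] at A0
    exact zero_ne_one A0
  obtain ⟨x₁, f₁, hp₁, he₁, hf₁⟩ := alt_hpair_fin C.nd C.alt ![x₀] (by omega)
  have e0 : C.B₀ x₀ x₁ = 0 := he₁ 0
  have f0 : C.B₀ x₀ f₁ = 0 := hf₁ 0
  obtain ⟨d₀, hd₀, hpd⟩ := C.exists_partner (Submodule.span F₀ {x₁}) x₀ (by
      intro hc
      obtain ⟨c, hc⟩ := Submodule.mem_span_singleton.1 hc
      have h1 := f0
      rw [← hc, map_smul, LinearMap.smul_apply, hp₁, smul_eq_mul, mul_one] at h1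
      rw [h1, zero_smul] at hc
      exact hx₀0 hc.symm)
  have hd₀' : C.B₀ x₁ d₀ = 0 := hd₀ _ (Submodule.mem_span_singleton_self _)
  obtain ⟨y, fy, hpy, hey, hfy⟩ := alt_hpair_fin C.nd C.alt ![x₀, x₁] (by omega)
  have y0 : C.B₀ x₀ y = 0 := hey 0
  have y1 : C.B₀ x₁ y = 0 := hey 1
  have g0 : C.B₀ x₀ fy = 0 := hfy 0
  have g1 : C.B₀ x₁ fy = 0 := hfy 1
  by_cases hz : B' A (R x₁) ∈ F₀
  · obtain ⟨-, g, hg, e⟩ := hEA
    have hAz : B' (R (x₁ - (⟨_, hz⟩ : F₀) • x₀)) A = 0 := by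
      rw [rv_sub, rv_smul, map_sub, map_smul, LinearMap.sub_apply, LinearMap.smul_apply,
        Bz_swap ζ (R x₁) A, Bz_swap ζ (R x₀) A, A0]
      simp
    have hz0 : x₁ - (⟨_, hz⟩ : F₀) • x₀ ≠ 0 := by
      intro h0
      have := congrArg (fun v => C.B₀ v f₁) h0
      simp only [map_sub, map_smul, LinearMap.sub_apply, LinearMap.smul_apply, hp₁, f0, smul_zero,
        sub_zero, map_zero, LinearMap.zero_apply] at this
      exact one_ne_zero this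
    have hgz : (g : Matrix (Fin m ⊕ Fin m) (Fin m ⊕ Fin m) F) *ᵥ R (x₁ - (⟨_, hz⟩ : F₀) • x₀) =
        (1 : F) • R (x₁ - (⟨_, hz⟩ : F₀) • x₀) := by
      rw [e, ES, hAz]; simp
    have hgS := C.mem_SF_of_point H hg hz0 hgz
    obtain ⟨l, hl0, hall⟩ := exists_of_mem_SF _ hgS
    obtain ⟨t₀, ht₀⟩ := hall (x₁ - (⟨_, hz⟩ : F₀) • x₀)
    rw [hgz, one_smul] at ht₀
    have hlF : l ∈ F₀ := smul_rv_eq_rv hz0 ht₀
    obtain ⟨t₁, ht₁⟩ := hall x₀
    rw [e, ES, Bz_swap ζ (R x₀) A, A0] at ht₁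
    simp only [smul_zero, add_zero, map_zero, zero_smul] at ht₁
    have h3 : (a * a) • A = R (x₀ - (⟨l, hlF⟩ : F₀)⁻¹ • t₁) := by
      rw [rv_sub, rv_smul, ← ht₁, smul_smul]
      have : (((⟨l, hlF⟩ : F₀)⁻¹ : F₀) : F) * l = 1 := by
        push_cast
        exact inv_mul_cancel₀ hl0
      rw [this, one_smul]
      module
    apply hh
    apply C.mem_SF_of_point H hhM hx0 (c := a⁻¹) (x' := x₀ - (⟨l, hlF⟩ : F₀)⁻¹ • t₁)
    rw [← h3, ← hp, hpA, smul_smul]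
    congr 1
    field_simp
  · have c : Cfg C ![x₀, x₁] ![d₀, f₁] y fy A (a * a) := by
      refine ⟨?_, ?_, hpy, ?_, ?_, A0, mul_ne_zero hx₀ hx₀, hEA, hz⟩
      · intro i j
        fin_cases i <;> fin_cases j
        · exact C.alt _
        · exact e0
        · exact C.sym0 e0
        · exact C.alt _
      · intro i j
        fin_cases i <;> fin_cases j
        · exact hpd
        · exact f0
        · exact hd₀'
        · exact hp₁
      · intro i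
        fin_cases i
        · exact C.sym0 y0
        · exact C.sym0 y1
      · intro i
        fin_cases i
        · exact C.sym0 g0
        · exact C.sym0 g1
    exact c.false H

theorem sub_ne (C : SCtx F₀ Pm ζ M) (l : F) (hl : l ∉ F₀) :
    ∃ g ∈ spGL m F, g ∉ Geo.subfieldSubgroup F₀ Pm := by
  have hfr := C.fr
  obtain ⟨e, fe, hpe, -, -⟩ := alt_hpair_fin C.nd C.alt ![] (by omega)
  have he0 : e ≠ 0 := C.ne_zero_of hpe
  have o : B' 0 (R e) = 0 := by simp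
  refine ⟨eGL ζ (R e) 0 l, eGL_mem _ _ _ _, ?_⟩
  intro hc
  obtain ⟨c, hc0, hall⟩ := exists_of_mem_SF _ hc
  obtain ⟨t₀, ht₀⟩ := hall e
  rw [eGL_mulVec ζ o, ES, Bz_self] at ht₀
  simp only [smul_zero, add_zero, map_zero, zero_smul, mul_zero] at ht₀
  have hcF : c ∈ F₀ := smul_rv_eq_rv he0 ht₀
  obtain ⟨t₁, ht₁⟩ := hall fe
  rw [eGL_mulVec ζ o, ES, Bz_swap ζ (R fe) (R e), C.Bc, hpe] at ht₁
  simp only [smul_zero, add_zero, map_zero, zero_smul, OneMemClass.coe_one] at ht₁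
  apply hl
  have h3 : l • R e = R (fe - (⟨c, hcF⟩ : F₀)⁻¹ • t₁) := by
    rw [rv_sub, rv_smul, ← ht₁, smul_smul]
    have : (((⟨c, hcF⟩ : F₀)⁻¹ : F₀) : F) * c = 1 := by
      push_cast
      exact inv_mul_cancel₀ hc0
    rw [this, one_smul]
    module
  exact smul_rv_eq_rv he0 h3

end SCtx

/-- maximality of the subfield subgroups of the symplectic groups -/
theorem sp_subfield_isMaximalIn (m : ℕ) (hm : 7 ≤ m) (F₀ : Subfield F) (r : ℕ) (hr : r.Prime)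
    (hcard : Fintype.card F = Nat.card F₀ ^ r)
    (Pm : Matrix.GeneralLinearGroup (Fin m ⊕ Fin m) F) (ζ : F) (hζ : ζ ≠ 0)
    (hP : Geo.IsFormRationalStructure (sympForm m F) F₀ ζ Pm) :
    Geo.IsMaximalIn (spGL m F) (Geo.subfieldSubgroup F₀ Pm ⊓ spGL m F) := by
  have hrat : ∀ x y : Fin m ⊕ Fin m → F₀, Bz m ζ (rv F₀ Pm x) (rv F₀ Pm y) ∈ F₀ := fun x y =>
    hP _ _ (fun i => (x i).2) (fun i => (y i).2)
  obtain ⟨l, hl⟩ := exists_notMem_subfield F₀ r hr hcard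
  apply isMaximalIn_of'
  · exact (⟨hrat, hζ, hm, inf_le_right, le_rfl⟩ : SCtx F₀ Pm ζ (spGL m F)).sub_ne l hl
  · rintro M hS hM ⟨h, hhM, hh⟩
    exact (⟨hrat, hζ, hm, hS, hM⟩ : SCtx F₀ Pm ζ M).sub_max r hr hcard h hhM hh

end Cfsg.Agent.Lib.Helper16.Sp
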