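import Mathlib
import Cfsg.Agent.Lib.Helper6.UQ
import Cfsg.Agent.Lib.Helper16.SubSL6
import Cfsg.Agent.Lib.Helper16.SL2Frob

set_option autoImplicit false
set_option linter.unusedSectionVars false

namespace Cfsg.Agent.Lib.Helper16.SU

open Cfsg Cfsg.Agent.Lib.Helper6 Module Matrix

variable {F : Type*} [Field F] {ι : Type} [Fintype ι] [DecidableEq ι]
  {σ : F ≃+* F} {f : (ι → F) → (ι → F) → F}

/-- a hyperbolic pair orthogonal to given vectors -/
theorem uf_hpair [Finite F] (hf : Geo.IsUnitaryForm σ f) {k : ℕ} (hk : 2 * k + 4 < Fintype.card ι)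
    (v : Fin k → ι → F) :
    ∃ e e', f e e = 0 ∧ f e' e' = 0 ∧ f e e' = 1 ∧ (∀ i, f e (v i) = 0) ∧ (∀ i, f e' (v i) = 0) := by
  have hdim := finrank_ker_uMap (f := f) v
  have h1 : finrank F (Submodule.span F (Set.range v)) ≤ k := by
    have := finrank_range_le_card (R := F) v
    simpa [Set.finrank] using this
  have hnle : ¬ (LinearMap.ker (uMap f v) ≤ Submodule.span F (Set.range v)) := by
    intro hle
    have := Submodule.finrank_mono hle
    omega
  obtain ⟨b, hb, hb'⟩ := SetLike.not_le_iff_exists.mp hnle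
  rw [mem_ker_uMap hf] at hb
  obtain ⟨e, hee, hev, heb⟩ := uf_exists_iso hf hk v b hb'
  have he : e ∉ Submodule.span F (Set.range v) := by
    intro hmem
    apply heb
    have : ∀ w ∈ Submodule.span F (Set.range v), f w b = 0 := by
      intro w hw
      induction hw using Submodule.span_induction with
      | mem x hx =>
        obtain ⟨i, rfl⟩ := hx
        exact uf_eq_zero_symm hf (hb i)
      | zero => exact uf_zero_left hf _
      | add x y _ _ hx hy => rw [hf.add_left, hx, hy, add_zero]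
      | smul c x _ hx => rw [hf.smul_left, hx, mul_zero]
    exact this e hmem
  obtain ⟨e', hee', hev', hne⟩ := uf_exists_iso hf hk v e he
  refine ⟨e, (f e' e)⁻¹ • e', hee, ?_, ?_, hev, fun i => ?_⟩
  · rw [hf.smul_left, uf_smul_right hf, hee']; ring
  · rw [uf_smul_right hf, map_inv₀, ← hf.herm e e', inv_mul_cancel₀ (uf_ne_zero_symm hf hne)]
  · rw [hf.smul_left, hev', mul_zero]

/-- the action of an element of the unipotent radical of an isotropic point stabiliser -/
def US (f : (ι → F) → (ι → F) → F) (a z : ι → F) (μ : F) (x : ι → F) : ι → F :=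
  x - f x z • a + f x a • (z + μ • a)

/-- membership of these elements -/
def UH (σ : F ≃+* F) (f : (ι → F) → (ι → F) → F) (M : Subgroup (Matrix.GeneralLinearGroup ι F))
    (a z : ι → F) (μ : F) : Prop :=
  f a a = 0 ∧ f z a = 0 ∧ μ + σ μ + f z z = 0 ∧
    ∃ g ∈ M, ∀ x, (g : Matrix ι ι F) *ᵥ x = US f a z μ x

variable {M : Subgroup (Matrix.GeneralLinearGroup ι F)}

theorem UH.iso {a z : ι → F} {μ : F} (h : UH σ f M a z μ) : f a a = 0 := h.1

theorem UH.orth {a z : ι → F} {μ : F} (h : UH σ f M a z μ) : f z a = 0 := h.2.1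

theorem UH.cond {a z : ι → F} {μ : F} (h : UH σ f M a z μ) : μ + σ μ + f z z = 0 := h.2.2.1

theorem UH.mul (hf : Geo.IsUnitaryForm σ f) {a z z' : ι → F} {μ μ' : F} (h : UH σ f M a z μ)
    (h' : UH σ f M a z' μ') : UH σ f M a (z + z') (μ + μ' - f z' z) := by
  obtain ⟨ha, o, c, g, hg, e⟩ := h
  obtain ⟨-, o', c', g', hg', e'⟩ := h'
  have o2 := uf_eq_zero_symm hf o
  refine ⟨ha, by rw [hf.add_left, o, o', add_zero], ?_, g * g', M.mul_mem hg hg', ?_⟩
  · rw [map_sub, map_add, ← hf.herm z z']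
    simp only [hf.add_left, uf_add_right hf]
    linear_combination c + c'
  · intro x
    rw [Units.val_mul, ← Matrix.mulVec_mulVec, e', e, US, US, US]
    simp only [hf.add_left, uf_add_right hf, hf.smul_left, uf_sub_left hf, ha, o, o', o2,
      mul_zero, add_zero, sub_zero]
    module

theorem UH.inv (hf : Geo.IsUnitaryForm σ f) {a z : ι → F} {μ : F} (h : UH σ f M a z μ) :
    UH σ f M a (-z) (σ μ) := by
  obtain ⟨ha, o, c, g, hg, e⟩ := h
  have o2 := uf_eq_zero_symm hf o
  refine ⟨ha, by rw [uf_neg_left hf, o, neg_zero], ?_, g⁻¹, M.inv_mem hg, ?_⟩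
  · rw [hf.involutive, uf_neg_left hf, uf_neg_right hf]
    linear_combination c
  · intro x
    have h1 : (g : Matrix ι ι F) *ᵥ (US f a (-z) (σ μ) x) = x := by
      rw [e, US, US]
      simp only [hf.add_left, uf_add_right hf, hf.smul_left, uf_sub_left hf, uf_neg_left hf,
        uf_neg_right hf, ha, o, o2, mul_zero, add_zero, sub_zero, neg_zero]
      have : x = x + (f x a * (μ + σ μ + f z z)) • a := by rw [c, mul_zero, zero_smul, add_zero]
      conv_rhs => rw [this]
      module
    conv_lhs => rw [← h1]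
    exact gl_inv_mulVec g _

theorem uIso_inv {g : Matrix.GeneralLinearGroup ι F} (hg : g ∈ uIso f) (x y : ι → F) :
    f (((g⁻¹ : Matrix.GeneralLinearGroup ι F) : Matrix ι ι F) *ᵥ x) y =
      f x ((g : Matrix ι ι F) *ᵥ y) := by
  have h1 := (mem_uIso_iff g).mp hg
    (((g⁻¹ : Matrix.GeneralLinearGroup ι F) : Matrix ι ι F) *ᵥ x) y
  rw [gl_mulVec_inv] at h1
  exact h1.symm

theorem uIso_app {g : Matrix.GeneralLinearGroup ι F} (hg : g ∈ uIso f) (x y : ι → F) :
    f ((g : Matrix ι ι F) *ᵥ x) ((g : Matrix ι ι F) *ᵥ y) = f x y := (mem_uIso_iff g).mp hg x y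

theorem UH.map (hM : M ≤ uIso f) {a z : ι → F} {μ : F} (h : UH σ f M a z μ)
    {g : Matrix.GeneralLinearGroup ι F} (hg : g ∈ M) :
    UH σ f M ((g : Matrix ι ι F) *ᵥ a) ((g : Matrix ι ι F) *ᵥ z) μ := by
  obtain ⟨ha, o, c, k, hk, e⟩ := h
  refine ⟨by rw [uIso_app (hM hg), ha], by rw [uIso_app (hM hg), o], by rw [uIso_app (hM hg), c],
    g * k * g⁻¹, M.mul_mem (M.mul_mem hg hk) (M.inv_mem hg), ?_⟩
  intro x
  rw [Units.val_mul, Units.val_mul, ← Matrix.mulVec_mulVec, ← Matrix.mulVec_mulVec, e, US, US,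
    uIso_inv (hM hg), uIso_inv (hM hg)]
  simp only [Matrix.mulVec_add, Matrix.mulVec_sub, Matrix.mulVec_smul, gl_mulVec_inv]

theorem UH.congr {a z a' z' : ι → F} {μ μ' : F} (h : UH σ f M a z μ) (ha : f a' a' = 0)
    (o : f z' a' = 0) (c : μ' + σ μ' + f z' z' = 0) (e : ∀ x, US f a z μ x = US f a' z' μ' x) :
    UH σ f M a' z' μ' := by
  obtain ⟨-, -, -, g, hg, e'⟩ := h
  exact ⟨ha, o, c, g, hg, fun x => by rw [e', e]⟩

theorem UH.scale (hf : Geo.IsUnitaryForm σ f) {a z : ι → F} {μ c : F} (h : UH σ f M (c • a) z μ)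
    (hc : c ≠ 0) : UH σ f M a (σ c • z) (c * σ c * μ) := by
  have hσc : σ c ≠ 0 := by simpa using hc
  have ha := h.iso
  rw [hf.smul_left, uf_smul_right hf] at ha
  have ha' : f a a = 0 := by
    rcases mul_eq_zero.1 ha with h1 | h1
    · exact absurd h1 hc
    · exact (mul_eq_zero.1 h1).resolve_left hσc
  have o := h.orth
  rw [uf_smul_right hf] at o
  have o' := (mul_eq_zero.1 o).resolve_left hσc
  apply h.congr ha' (by rw [hf.smul_left, o', mul_zero])
  · rw [map_mul, map_mul, hf.involutive, hf.smul_left, uf_smul_right hf, hf.involutive]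
    linear_combination (c * σ c) * h.cond
  · intro x
    rw [US, US]
    simp only [uf_smul_right hf, hf.involutive]
    module

theorem UH.swap (hf : Geo.IsUnitaryForm σ f) {a z : ι → F} (h : UH σ f M a z 0) :
    UH σ f M z a 0 := by
  have hz : f z z = 0 := by
    have := h.cond
    simpa using this
  have h1 : UH σ f M z (-a) 0 := by
    apply h.congr hz (by rw [uf_neg_left hf, uf_eq_zero_symm hf h.orth, neg_zero])
      (by rw [uf_neg_left hf, uf_neg_right hf, h.iso]; simp)
    intro x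
    rw [US, US, uf_neg_right hf]
    module
  have h2 := h1.inv hf
  rwa [neg_neg, map_zero] at h2

theorem UH.shift (hf : Geo.IsUnitaryForm σ f) {a z : ι → F} {μ : F} (h : UH σ f M a z μ) (s : F) :
    UH σ f M a (z + s • a) (μ - s + σ s) := by
  have o2 := uf_eq_zero_symm hf h.orth
  apply h.congr h.iso (by rw [hf.add_left, hf.smul_left, h.orth, h.iso]; ring)
  · simp only [map_add, map_sub, hf.involutive, hf.add_left, uf_add_right hf, hf.smul_left,
      uf_smul_right hf, h.iso, h.orth, o2]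
    linear_combination h.cond
  · intro x
    rw [US, US]
    simp only [uf_add_right hf, uf_smul_right hf]
    module

theorem UH_zero (hf : Geo.IsUnitaryForm σ f) {a : ι → F} (ha : f a a = 0) : UH σ f M a 0 0 := by
  refine ⟨ha, uf_zero_left hf _, by rw [uf_zero_left hf]; simp, 1, M.one_mem, fun x => ?_⟩
  rw [US, uf_zero_right hf]
  simp

/-- the basic move -/
theorem UH.move (hf : Geo.IsUnitaryForm σ f) (hM : M ≤ uIso f) {x y a b : ι → F} {c c' : F}
    (h : UH σ f M x y c) (h' : UH σ f M a b c') (hax : f x a = 0) (hbx : f x b = 0)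
    (hya : f y a = 0) : UH σ f M x (f y b • a) 0 := by
  obtain ⟨ha, o', -, k, hk, e⟩ := h'
  have h2 := h.map hM hk
  rw [e, e, US, US, hax, hbx, hya] at h2
  simp only [zero_smul, add_zero, sub_zero] at h2
  have h3 := h.mul hf (h2.inv hf)
  have hay := uf_eq_zero_symm hf hya
  apply h3.congr h.iso (by rw [hf.smul_left, uf_eq_zero_symm hf hax, mul_zero])
    (by rw [hf.smul_left, uf_smul_right hf, ha]; simp)
  intro v
  have e1 : c + σ c - f (-(y - f y b • a)) y = 0 := by
    rw [uf_neg_left hf, uf_sub_left hf, hf.smul_left, hay]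
    linear_combination h.cond
  rw [e1, US, US]
  simp only [uf_add_right hf, uf_neg_right hf, uf_sub_right hf]
  module

end Cfsg.Agent.Lib.Helper16.SU
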