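import Mathlib
import Cfsg.Agent.Lib.Helper16.SubU1

set_option autoImplicit false
set_option linter.unusedSectionVars false

namespace Cfsg.Agent.Lib.Helper16.SU

open Cfsg Cfsg.Agent.Lib.Helper6 Module Matrix

variable {F : Type*} [Field F] [Fintype F] {ι : Type} [Fintype ι] [DecidableEq ι]
  {σ : F ≃+* F} {f : (ι → F) → (ι → F) → F}
variable {F₀ : Subfield F} {Pm : Matrix.GeneralLinearGroup ι F}
variable {M : Subgroup (Matrix.GeneralLinearGroup ι F)}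

local notation "R" => rv F₀ Pm

theorem mem_SF_of (g : Matrix.GeneralLinearGroup ι F) (l : F) (hl : l ≠ 0)
    (h : ∀ x, ∃ x', l • ((g : Matrix ι ι F) *ᵥ R x) = R x') : g ∈ Geo.subfieldSubgroup F₀ Pm := by
  apply mem_subfieldSubgroup_of F₀ Pm _ l⁻¹ (inv_ne_zero hl)
  intro v hv
  obtain ⟨x, rfl⟩ := exists_of_rat F₀ Pm hv
  obtain ⟨x', hx'⟩ := h x
  rw [inv_inv, hx']
  exact rat_rv F₀ Pm _

theorem exists_of_mem_SF (g : Matrix.GeneralLinearGroup ι F)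
    (hg : g ∈ Geo.subfieldSubgroup F₀ Pm) :
    ∃ l : F, l ≠ 0 ∧ ∀ x, ∃ x', l • ((g : Matrix ι ι F) *ᵥ R x) = R x' := by
  obtain ⟨l, hl, h⟩ := exists_of_mem_subfieldSubgroup F₀ Pm _ hg
  refine ⟨l⁻¹, inv_ne_zero hl, fun x => ?_⟩
  exact exists_of_rat F₀ Pm (h _ (rat_rv F₀ Pm x))

variable (F₀ Pm σ f M) in
/-- the standing hypotheses -/
structure UCtx : Prop where
  hf : Geo.IsUnitaryForm σ f
  hrat : ∀ x y : ι → F₀, f (R x) (R y) ∈ F₀
  hσ : ∀ c ∈ F₀, σ c ∈ F₀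
  hne : ∃ c ∈ F₀, σ c ≠ c
  hn : 13 ≤ Fintype.card ι
  hS : Geo.subfieldSubgroup F₀ Pm ⊓ (uIso f ⊓ Geo.specialLinear ι F) ≤ M
  hM : M ≤ uIso f

namespace UCtx

/-- the rational involution -/
def σ₀ (C : UCtx σ f F₀ Pm M) : F₀ ≃+* F₀ where
  toFun c := ⟨σ c, C.hσ c c.2⟩
  invFun c := ⟨σ c, C.hσ c c.2⟩
  left_inv c := Subtype.ext (C.hf.involutive c)
  right_inv c := Subtype.ext (C.hf.involutive c)
  map_mul' a b := Subtype.ext (map_mul σ (a : F) b)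
  map_add' a b := Subtype.ext (map_add σ (a : F) b)

/-- the rational form -/
def f₀ (C : UCtx σ f F₀ Pm M) (x y : ι → F₀) : F₀ := ⟨f (R x) (R y), C.hrat x y⟩

theorem fc (C : UCtx σ f F₀ Pm M) (x y : ι → F₀) : f (R x) (R y) = ((C.f₀ x y : F₀) : F) := rfl

theorem σc (C : UCtx σ f F₀ Pm M) (c : F₀) : σ (c : F) = ((C.σ₀ c : F₀) : F) := rfl

theorem eq_zero_of_rat (C : UCtx σ f F₀ Pm M) (v : ι → F) (h : ∀ y, f v (R y) = 0) : v = 0 := by
  apply uf_nondeg_left C.hf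
  intro w
  rw [eq_sum_rv F₀ Pm w, uf_sum_right C.hf]
  apply Finset.sum_eq_zero
  intro i _
  rw [h, mul_zero]

theorem hf₀ (C : UCtx σ f F₀ Pm M) : Geo.IsUnitaryForm C.σ₀ C.f₀ where
  ne_refl := by
    intro h
    obtain ⟨c, hc, hne⟩ := C.hne
    apply hne
    have := congrArg (fun e : F₀ ≃+* F₀ => ((e ⟨c, hc⟩ : F₀) : F)) h
    exact this
  involutive a := Subtype.ext (C.hf.involutive a)
  add_left x y v := Subtype.ext (by
    change f (R (x + y)) (R v) = f (R x) (R v) + f (R y) (R v)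
    rw [rv_add, C.hf.add_left])
  smul_left c x v := Subtype.ext (by
    change f (R (c • x)) (R v) = (c : F) * f (R x) (R v)
    rw [rv_smul, C.hf.smul_left])
  herm v w := Subtype.ext (C.hf.herm _ _)
  nondegenerate := by
    have key : ∀ v : ι → F₀, v ≠ 0 → ∃ x, C.f₀ v x ≠ 0 := by
      intro v hv
      by_contra hcon
      push Not at hcon
      apply hv
      apply rv_injective F₀ Pm
      rw [rv_zero]
      apply C.eq_zero_of_rat
      intro y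
      rw [C.fc, hcon y]; rfl
    intro v hv
    obtain ⟨x, hx⟩ := key v hv
    refine ⟨⟨x, ?_⟩, ⟨x, hx⟩⟩
    intro h0
    apply hx
    apply Subtype.ext
    have h1 : f (R x) (R v) = 0 := by rw [C.fc, h0]; rfl
    exact uf_eq_zero_symm C.hf h1

theorem sym0 (C : UCtx σ f F₀ Pm M) {x y : ι → F₀} (h : C.f₀ x y = 0) : C.f₀ y x = 0 :=
  uf_eq_zero_symm C.hf₀ h

theorem z0 (C : UCtx σ f F₀ Pm M) {x y : ι → F₀} (h : C.f₀ x y = 0) : f (R x) (R y) = 0 := by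
  rw [C.fc, h]; rfl

theorem o1 (C : UCtx σ f F₀ Pm M) {x y : ι → F₀} (h : C.f₀ x y = 1) : f (R x) (R y) = 1 := by
  rw [C.fc, h]; rfl

theorem sym1 (C : UCtx σ f F₀ Pm M) {x y : ι → F₀} (h : C.f₀ x y = 1) : C.f₀ y x = 1 := by
  rw [C.hf₀.herm, h, map_one]

theorem rat_of_f (C : UCtx σ f F₀ Pm M) (v : ι → F) (h : ∀ y, f v (R y) ∈ F₀) :
    ∃ x, v = R x := by
  have h' : ∀ y, f (R y) v ∈ F₀ := by
    intro y
    rw [C.hf.herm]
    exact C.hσ _ (h y)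
  let φ : (ι → F₀) →ₗ[F₀] F₀ :=
    { toFun := fun y => ⟨f (R y) v, h' y⟩
      map_add' := fun y y' => Subtype.ext (by
        change f (R (y + y')) v = f (R y) v + f (R y') v
        rw [rv_add, C.hf.add_left])
      map_smul' := fun c y => Subtype.ext (by
        change f (R (c • y)) v = (c : F) * f (R y) v
        rw [rv_smul, C.hf.smul_left]) }
  obtain ⟨x, hx⟩ := uPhi_surj C.hf₀ (fun i => φ (Pi.single i 1))
  refine ⟨x, ?_⟩
  rw [← sub_eq_zero]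
  apply C.eq_zero_of_rat
  intro y
  apply uf_eq_zero_symm C.hf
  have h1 : C.f₀ y x = φ y := by
    rw [← uPhi_dot C.hf₀, hx, row_of_linear']
  have h2 := congrArg (Subtype.val) h1
  rw [← C.fc] at h2
  rw [uf_sub_right C.hf, h2]
  exact sub_self _

theorem hpair (C : UCtx σ f F₀ Pm M) {k : ℕ} (hk : k ≤ 4) (v : Fin k → ι → F₀) :
    ∃ e e', C.f₀ e e = 0 ∧ C.f₀ e' e' = 0 ∧ C.f₀ e e' = 1 ∧ (∀ i, C.f₀ e (v i) = 0) ∧
      (∀ i, C.f₀ e' (v i) = 0) :=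
  uf_hpair C.hf₀ (by have := C.hn; omega) v

theorem rat (C : UCtx σ f F₀ Pm M) {x y : ι → F₀} (hx : C.f₀ x x = 0) (hxy : C.f₀ y x = 0) (c : F₀)
    (hc : c + C.σ₀ c + C.f₀ y y = 0) : UH σ f M (R x) (R y) c := by
  have ha : f (R x) (R x) = 0 := C.z0 hx
  have o : f (R y) (R x) = 0 := C.z0 hxy
  have hc' : (c : F) + σ c + f (R y) (R y) = 0 := by
    have := congrArg Subtype.val hc
    exact this
  refine ⟨ha, o, hc', uQ C.hf (R x) (R y) c ha o,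
    C.hS ⟨?_, uQ_mem_uIso C.hf _ _ _ ha o hc', uQ_mem_SL C.hf _ _ _ ha o⟩,
    fun t => by rw [uQ_mulVec C.hf, US]⟩
  apply mem_SF_of _ 1 one_ne_zero
  intro t
  refine ⟨t - C.f₀ t y • x + C.f₀ t x • (y + c • x), ?_⟩
  rw [one_smul, uQ_mulVec C.hf, rv_add, rv_sub, rv_smul, rv_smul, rv_add, rv_smul, C.fc, C.fc]

theorem rat0 (C : UCtx σ f F₀ Pm M) {x y : ι → F₀} (hx : C.f₀ x x = 0) (hy : C.f₀ y y = 0)
    (hxy : C.f₀ y x = 0) : UH σ f M (R x) (R y) 0 :=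
  C.rat hx hxy 0 (by rw [hy, map_zero]; simp)

theorem ratE (C : UCtx σ f F₀ Pm M) {x y : ι → F₀} (hx : C.f₀ x x = 0) (hxy : C.f₀ y x = 0) :
    ∃ c : F₀, UH σ f M (R x) (R y) c := by
  obtain ⟨t, ht⟩ := uf_trace_surj C.hf₀ (-(C.f₀ y y)) (by rw [map_neg, uf_self_fixed C.hf₀])
  exact ⟨t, C.rat hx hxy t (by rw [ht]; ring)⟩

theorem move (C : UCtx σ f F₀ Pm M) {l μ c c' : F} {x y a b : ι → F₀}
    (h : UH σ f M (R x) (l • R y) c) (h' : UH σ f M (R a) (μ • R b) c') (hax : C.f₀ x a = 0)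
    (hbx : C.f₀ x b = 0) (hya : C.f₀ y a = 0) (hyb : C.f₀ y b = 1) :
    UH σ f M (R x) ((l * σ μ) • R a) 0 := by
  have := h.move C.hf C.hM h' (C.z0 hax) (by rw [uf_smul_right C.hf, C.z0 hbx, mul_zero])
    (by rw [C.hf.smul_left, C.z0 hya, mul_zero])
  rw [C.hf.smul_left, uf_smul_right C.hf, C.o1 hyb, mul_one] at this
  exact this

theorem move1 (C : UCtx σ f F₀ Pm M) {l c : F} {x y a b : ι → F₀}
    (h : UH σ f M (R x) (l • R y) c) (ha : C.f₀ a a = 0) (hba : C.f₀ b a = 0) (hax : C.f₀ x a = 0)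
    (hbx : C.f₀ x b = 0) (hya : C.f₀ y a = 0) (hyb : C.f₀ y b = 1) :
    UH σ f M (R x) (l • R a) 0 := by
  obtain ⟨c', hc'⟩ := C.ratE ha hba
  have := C.move (μ := 1) h (by rw [one_smul]; exact hc') hax hbx hya hyb
  rwa [map_one, mul_one] at this

theorem swap (C : UCtx σ f F₀ Pm M) {l : F} {x a : ι → F₀}
    (h : UH σ f M (R x) (l • R a) 0) (ha : C.f₀ a a = 0) : UH σ f M (R a) (σ l • R x) 0 := by
  by_cases hl : l = 0
  · rw [hl, map_zero, zero_smul]; exact UH_zero C.hf (C.z0 ha)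
  · have := (h.swap C.hf).scale C.hf hl
    rwa [mul_zero] at this

/-- the parameters all of whose rational root elements lie in `M` -/
def Bo (C : UCtx σ f F₀ Pm M) (l : F) : Prop :=
  ∀ x a : ι → F₀, C.f₀ x x = 0 → C.f₀ a a = 0 → C.f₀ a x = 0 → UH σ f M (R x) (l • R a) 0

theorem exists_partner (C : UCtx σ f F₀ Pm M) (X : Submodule F₀ (ι → F₀))
    (a : ι → F₀) (ha : a ∉ X) : ∃ b, (∀ n ∈ X, C.f₀ n b = 0) ∧ C.f₀ a b = 1 := by
  obtain ⟨t, ht1, ht2⟩ := uf_separate C.hf₀ X a ha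
  refine ⟨(C.f₀ t a)⁻¹ • t, fun n hn => ?_, ?_⟩
  · rw [uf_smul_right C.hf₀, C.sym0 (ht1 n hn), mul_zero]
  · rw [uf_smul_right C.hf₀, map_inv₀, ← C.hf₀.herm a t,
      inv_mul_cancel₀ (uf_ne_zero_symm C.hf₀ ht2)]

theorem notMem_span_of (C : UCtx σ f F₀ Pm M) {e e' x : ι → F₀} (hp : C.f₀ e e' = 1)
    (hx : C.f₀ x e' = 0) : e ∉ Submodule.span F₀ {x} := by
  intro h
  obtain ⟨c, rfl⟩ := Submodule.mem_span_singleton.1 h
  rw [C.hf₀.smul_left, hx, mul_zero] at hp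
  exact zero_ne_one hp

theorem ne_zero_of (C : UCtx σ f F₀ Pm M) {e e' : ι → F₀} (hp : C.f₀ e e' = 1) : e ≠ 0 := by
  rintro rfl
  rw [uf_zero_left C.hf₀] at hp
  exact zero_ne_one hp

end UCtx

end Cfsg.Agent.Lib.Helper16.SU
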