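import Mathlib
import Cfsg.Agent.Lib.Helper16.SubU2

set_option autoImplicit false
set_option linter.unusedSectionVars false

namespace Cfsg.Agent.Lib.Helper16.SU

open Cfsg Cfsg.Agent.Lib.Helper6 Module Matrix

variable {F : Type*} [Field F] [Fintype F] {ι : Type} [Fintype ι] [DecidableEq ι]
  {σ : F ≃+* F} {f : (ι → F) → (ι → F) → F}
variable {F₀ : Subfield F} {Pm : Matrix.GeneralLinearGroup ι F}
variable {M : Subgroup (Matrix.GeneralLinearGroup ι F)}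

local notation "R" => rv F₀ Pm

namespace UCtx

theorem notMem_span_of' (C : UCtx σ f F₀ Pm M) {e e' x : ι → F₀} (hp : C.f₀ e e' = 1)
    (hx : C.f₀ x e' = 0) (hx0 : x ≠ 0) : x ∉ Submodule.span F₀ {e} := by
  intro hc
  obtain ⟨c, hc⟩ := Submodule.mem_span_singleton.1 hc
  have h1 := hx
  rw [← hc, C.hf₀.smul_left, hp, mul_one] at h1
  rw [h1, zero_smul] at hc
  exact hx0 hc.symm

theorem Bo_of_one (C : UCtx σ f F₀ Pm M) {l c : F} {x₀ y₀ : ι → F₀} (hx₀ : x₀ ≠ 0)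
    (hy₀ : y₀ ∉ Submodule.span F₀ {x₀}) (h : UH σ f M (R x₀) (l • R y₀) c) : C.Bo l := by
  intro x' a' hx' ha' hax'
  obtain ⟨b₀, hb1, hb2⟩ := C.exists_partner _ y₀ hy₀
  have hb1' : C.f₀ x₀ b₀ = 0 := hb1 _ (Submodule.mem_span_singleton_self _)
  obtain ⟨a₁, f₁, ia₁, if₁, hp₁, he₁, hf₁⟩ := C.hpair (by omega) ![x₀, y₀, b₀, x']
  have e0 : C.f₀ a₁ x₀ = 0 := he₁ 0
  have e1 : C.f₀ a₁ y₀ = 0 := he₁ 1
  have e2 : C.f₀ a₁ b₀ = 0 := he₁ 2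
  have e3 : C.f₀ a₁ x' = 0 := he₁ 3
  have f0 : C.f₀ f₁ x₀ = 0 := hf₁ 0
  have f3 : C.f₀ f₁ x' = 0 := hf₁ 3
  have s1 : UH σ f M (R x₀) (l • R a₁) 0 :=
    C.move1 h ia₁ (C.sym0 e2) (C.sym0 e0) hb1' (C.sym0 e1) hb2
  have s2 := C.swap s1 ia₁
  obtain ⟨b₁, hb₁, hpb⟩ := C.exists_partner (Submodule.span F₀ {a₁}) x₀
    (C.notMem_span_of' hp₁ (C.sym0 f0) hx₀)
  have hb₁' : C.f₀ a₁ b₁ = 0 := hb₁ _ (Submodule.mem_span_singleton_self _)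
  obtain ⟨a₂, f₂, ia₂, if₂, hp₂, he₂, hf₂⟩ := C.hpair (by omega) ![a₁, x₀, b₁, x']
  have g0 : C.f₀ a₂ a₁ = 0 := he₂ 0
  have g1 : C.f₀ a₂ x₀ = 0 := he₂ 1
  have g2 : C.f₀ a₂ b₁ = 0 := he₂ 2
  have g3 : C.f₀ a₂ x' = 0 := he₂ 3
  have k0 : C.f₀ f₂ a₁ = 0 := hf₂ 0
  have k3 : C.f₀ f₂ x' = 0 := hf₂ 3
  have s3 : UH σ f M (R a₁) (σ l • R a₂) 0 :=
    C.move1 s2 ia₂ (C.sym0 g2) (C.sym0 g0) hb₁' (C.sym0 g1) hpb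
  have s4 : UH σ f M (R a₁) (σ l • R x') 0 := C.move1 s3 hx' k3 e3 (C.sym0 k0) g3 hp₂
  have s5 := C.swap s4 hx'
  rw [C.hf.involutive] at s5
  obtain ⟨a₃, f₃, ia₃, if₃, hp₃, he₃, hf₃⟩ := C.hpair (by omega) ![x', a₁, f₁, a']
  have m0 : C.f₀ a₃ x' = 0 := he₃ 0
  have m1 : C.f₀ a₃ a₁ = 0 := he₃ 1
  have m2 : C.f₀ a₃ f₁ = 0 := he₃ 2
  have m3 : C.f₀ a₃ a' = 0 := he₃ 3
  have n0 : C.f₀ f₃ x' = 0 := hf₃ 0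
  have n3 : C.f₀ f₃ a' = 0 := hf₃ 3
  have s6 : UH σ f M (R x') (l • R a₃) 0 :=
    C.move1 s5 ia₃ (C.sym0 m2) (C.sym0 m0) (C.sym0 f3) (C.sym0 m1) hp₁
  exact C.move1 s6 ha' n3 (C.sym0 hax') (C.sym0 n0) m3 hp₃

theorem Bo_coe (C : UCtx σ f F₀ Pm M) (c : F₀) : C.Bo (c : F) := by
  intro x a hx ha hax
  rw [← rv_smul]
  exact C.rat0 hx (by rw [C.hf₀.smul_left, uf_smul_right C.hf₀, ha]; ring)
    (by rw [C.hf₀.smul_left, hax, mul_zero])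

theorem Bo_add (C : UCtx σ f F₀ Pm M) {a b : F} (ha : C.Bo a) (hb : C.Bo b) : C.Bo (a + b) := by
  intro x y hx hy hxy
  have := (ha x y hx hy hxy).mul C.hf (hb x y hx hy hxy)
  rw [C.hf.smul_left, uf_smul_right C.hf, C.z0 hy, ← add_smul] at this
  simpa using this

theorem Bo_sigma (C : UCtx σ f F₀ Pm M) {l : F} (h : C.Bo l) : C.Bo (σ l) := by
  intro x a hx ha hax
  exact C.swap (h a x ha hx (C.sym0 hax)) hx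

theorem Bo_mul (C : UCtx σ f F₀ Pm M) {a b : F} (ha : C.Bo a) (hb : C.Bo b) : C.Bo (a * b) := by
  obtain ⟨e₁, f₁, i₁, -, hp₁, -, -⟩ := C.hpair (by omega) ![]
  obtain ⟨e₂, f₂, i₂, j₂, hp₂, he₂, hf₂⟩ := C.hpair (by omega) ![e₁, f₁]
  obtain ⟨e₃, f₃, i₃, j₃, hp₃, he₃, hf₃⟩ := C.hpair (by omega) ![e₁, f₁, e₂, f₂]
  have a1 : C.f₀ e₂ e₁ = 0 := he₂ 0
  have a2 : C.f₀ f₂ e₁ = 0 := hf₂ 0
  have a3 : C.f₀ e₃ e₁ = 0 := he₃ 0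
  have a4 : C.f₀ e₃ e₂ = 0 := he₃ 2
  have a5 : C.f₀ e₃ f₂ = 0 := he₃ 3
  have a6 : C.f₀ f₃ e₁ = 0 := hf₃ 0
  have h1 := ha e₁ e₂ i₁ i₂ a1
  have h2 := (C.Bo_sigma hb) e₃ f₂ i₃ j₂ (C.sym0 a5)
  have h3 := C.move h1 h2 (C.sym0 a3) (C.sym0 a2) (C.sym0 a4) hp₂
  rw [C.hf.involutive] at h3
  exact C.Bo_of_one (C.ne_zero_of hp₁) (C.notMem_span_of hp₃ (C.sym0 a6)) h3

end UCtx

end Cfsg.Agent.Lib.Helper16.SU
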