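import Mathlib
import Cfsg.Agent.Lib.Helper16.SubU3

set_option autoImplicit false
set_option linter.unusedSectionVars false

namespace Cfsg.Agent.Lib.Helper16.SU

open Cfsg Cfsg.Agent.Lib.Helper6 Module Matrix

variable {F : Type*} [Field F] [Fintype F] {ι : Type} [Fintype ι] [DecidableEq ι]
  {σ : F ≃+* F} {f : (ι → F) → (ι → F) → F}
variable {F₀ : Subfield F} {Pm : Matrix.GeneralLinearGroup ι F}
variable {M : Subgroup (Matrix.GeneralLinearGroup ι F)}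

local notation "R" => rv F₀ Pm

namespace UCtx

theorem iso_of (C : UCtx σ f F₀ Pm M) {x : ι → F₀} (h : f (R x) (R x) = 0) : C.f₀ x x = 0 :=
  Subtype.ext h

/-- splitting a rational vector orthogonal to `x` into isotropic ones -/
theorem split1 (C : UCtx σ f F₀ Pm M) {x b : ι → F₀} (hb : b ∉ Submodule.span F₀ {x}) :
    ∃ (e : ι → F₀) (t : F₀), C.f₀ e e = 0 ∧ C.f₀ e x = 0 ∧ C.f₀ (b + t • e) (b + t • e) = 0 := by
  obtain ⟨u, h1, h2, h3⟩ := uf_iso1 C.hf₀ (by have := C.hn; omega) x b hb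
  obtain ⟨l, hl⟩ := uf_isotropize C.hf₀ b u h1 (uf_ne_zero_symm C.hf₀ h3)
  exact ⟨u, l, h1, h2, hl⟩

theorem split0 (C : UCtx σ f F₀ Pm M) {b : ι → F₀} (hb : b ≠ 0) :
    ∃ (e : ι → F₀) (t : F₀), C.f₀ e e = 0 ∧ C.f₀ (b + t • e) (b + t • e) = 0 := by
  obtain ⟨u, h1, h3⟩ := uf_iso0 C.hf₀ (by have := C.hn; omega) b hb
  obtain ⟨l, hl⟩ := uf_isotropize C.hf₀ b u h1 (uf_ne_zero_symm C.hf₀ h3)
  exact ⟨u, l, h1, hl⟩

theorem tv_all (C : UCtx σ f F₀ Pm M) (hB : ∀ l, C.Bo l) {x : ι → F₀} (hx : C.f₀ x x = 0) (μ : F)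
    (hμ : σ μ = -μ) : UH σ f M (R x) 0 μ := by
  obtain ⟨y, y', iy, iy', hp, he, hf'⟩ := C.hpair (by omega) ![x]
  have h1 : C.f₀ y x = 0 := he 0
  have h2 : C.f₀ y' x = 0 := hf' 0
  obtain ⟨l, rfl⟩ := uf_skew_surj C.hf μ hμ
  have a1 := hB l x y hx iy h1
  have a2 := C.rat0 hx iy' h2
  have A := a1.mul C.hf a2
  have B := a2.mul C.hf a1
  have D := A.mul C.hf (B.inv C.hf)
  have e1 : l • R y + R y' + -(R y' + l • R y) = 0 := by abel
  have e2 : 0 + 0 - f (R y') (l • R y) + σ (0 + 0 - f (l • R y) (R y')) -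
      f (-(R y' + l • R y)) (l • R y + R y') = l - σ l := by
    simp only [C.hf.add_left, uf_add_right C.hf, C.hf.smul_left, uf_smul_right C.hf,
      uf_neg_left C.hf, C.z0 iy, C.z0 iy', C.o1 hp, C.o1 (C.sym1 hp), map_sub, map_add, map_zero,
      map_mul, map_one]
    ring
  rw [e1, e2] at D
  exact D

theorem rat_mem_uSet (C : UCtx σ f F₀ Pm M) (hB : ∀ l, C.Bo l) {x : ι → F₀} (hx : C.f₀ x x = 0) :
    R x ∈ uSet σ f M := by
  apply uSet_of_mem C.hf (C.z0 hx)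
  intro c hc
  obtain ⟨-, -, -, g, hg, e⟩ := C.tv_all hB hx c hc
  have : glT (R x) (c • uPhi f (R x)) (uS_aux C.hf (R x) (C.z0 hx) c) = g := by
    apply gl_ext_mulVec
    intro v
    rw [e, US, uS_mulVec C.hf _ (C.z0 hx), uf_zero_right C.hf]
    module
  rw [this]; exact hg

theorem rad1 (C : UCtx σ f F₀ Pm M) (hB : ∀ l, C.Bo l) {x a : ι → F₀} (hx : C.f₀ x x = 0)
    (hax : C.f₀ a x = 0) (l : F) : ∃ μ, UH σ f M (R x) (l • R a) μ := by
  by_cases ha : C.f₀ a a = 0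
  · exact ⟨0, hB l x a hx ha hax⟩
  have hns : a ∉ Submodule.span F₀ {x} := by
    intro h
    obtain ⟨c, rfl⟩ := Submodule.mem_span_singleton.1 h
    apply ha
    rw [C.hf₀.smul_left, uf_smul_right C.hf₀, hx]; ring
  obtain ⟨e, t, ie, hex, hs⟩ := C.split1 hns
  have h1 := hB l x (a + t • e) hx hs (by rw [C.hf₀.add_left, C.hf₀.smul_left, hax, hex]; ring)
  have h2 := hB (-l) x (t • e) hx (by rw [C.hf₀.smul_left, uf_smul_right C.hf₀, ie]; ring)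
    (by rw [C.hf₀.smul_left, hex, mul_zero])
  have h3 := h1.mul C.hf h2
  have e1 : l • R (a + t • e) + -l • R (t • e) = l • R a := by
    rw [rv_add]; module
  rw [e1] at h3
  exact ⟨_, h3⟩

theorem rad2 (C : UCtx σ f F₀ Pm M) (hB : ∀ l, C.Bo l) {x : ι → F₀} (hx : C.f₀ x x = 0)
    (hx0 : x ≠ 0) (z : ι → F) (hz : f z (R x) = 0) : ∃ μ, UH σ f M (R x) z μ := by
  obtain ⟨d, -, hd⟩ := C.exists_partner ⊥ x (by simpa using hx0)
  have hd' := C.sym1 hd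
  have key : ∀ s : Finset ι, ∃ μ, UH σ f M (R x)
      ((∑ i ∈ s, (rc F₀ Pm (Pi.single i 1) ⬝ᵥ z) • R (Pi.single i 1)) -
        f (∑ i ∈ s, (rc F₀ Pm (Pi.single i 1) ⬝ᵥ z) • R (Pi.single i 1)) (R x) • R d) μ := by
    intro s
    induction s using Finset.induction_on with
    | empty =>
      refine ⟨0, ?_⟩
      have := UH_zero (M := M) C.hf (C.z0 hx)
      simpa [uf_zero_left C.hf] using this
    | insert a s ha ih =>
      obtain ⟨μ, hμ⟩ := ih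
      obtain ⟨μ', hμ'⟩ := C.rad1 hB hx (a := Pi.single a 1 - C.f₀ (Pi.single a 1) x • d)
        (by rw [uf_sub_left C.hf₀, C.hf₀.smul_left, hd']; ring) (rc F₀ Pm (Pi.single a 1) ⬝ᵥ z)
      obtain ⟨ν, h3⟩ : ∃ ν, UH σ f M (R x) _ ν := ⟨_, hμ'.mul C.hf hμ⟩
      refine ⟨ν, ?_⟩
      rw [Finset.sum_insert ha, C.hf.add_left, C.hf.smul_left]
      convert h3 using 1
      rw [rv_sub, rv_smul, ← C.fc]
      module
  obtain ⟨μ, hμ⟩ := key Finset.univ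
  rw [← eq_sum_rv F₀ Pm z, hz, zero_smul, sub_zero] at hμ
  exact ⟨μ, hμ⟩

theorem rad3 (C : UCtx σ f F₀ Pm M) (hB : ∀ l, C.Bo l) {x : ι → F₀} (hx : C.f₀ x x = 0)
    (hx0 : x ≠ 0) (z : ι → F) (hz : f z (R x) = 0) (μ : F) (hμ : μ + σ μ + f z z = 0) :
    UH σ f M (R x) z μ := by
  obtain ⟨μ', h⟩ := C.rad2 hB hx hx0 z hz
  have h2 := C.tv_all hB hx (μ - μ') (by
    rw [map_sub]
    linear_combination hμ - h.cond)
  have h3 := h.mul C.hf h2
  rw [uf_zero_left C.hf, add_zero] at h3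
  convert h3 using 1
  ring

theorem mem_uSet_of_ne (C : UCtx σ f F₀ Pm M) (hB : ∀ l, C.Bo l) {x : ι → F₀} (hx : C.f₀ x x = 0)
    {v : ι → F} (hv : f v v = 0) (hne : f v (R x) ≠ 0) : v ∈ uSet σ f M := by
  have hx0 : x ≠ 0 := by
    rintro rfl
    rw [rv_zero, uf_zero_right C.hf] at hne
    exact hne rfl
  obtain ⟨w, iw, hw⟩ := uf_iso0 C.hf₀ (by have := C.hn; omega) x hx0
  have hw' : f (R w) (R x) ≠ 0 := by
    intro h0
    exact hw (Subtype.ext h0)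
  have hu : (f v (R x) / f (R w) (R x)) • R w ∈ uSet σ f M :=
    uSet_smul C.hf (C.rat_mem_uSet hB iw) _
  obtain ⟨z, μ, hz, hμ, e⟩ := uQ_trans C.hf (R x) ((f v (R x) / f (R w) (R x)) • R w) v (C.z0 hx)
    hu.1 hv (by rw [C.hf.smul_left, div_mul_cancel₀ _ hw'])
    (by rw [C.hf.smul_left, div_mul_cancel₀ _ hw']; exact hne)
  obtain ⟨-, -, -, g, hg, eg⟩ := C.rad3 hB hx hx0 z hz μ hμ
  have := uSet_mulVec C.hf hu hg (C.hM hg)
  rw [eg, US, ← uQ_mulVec C.hf _ _ _ (C.z0 hx) hz, e] at this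
  exact this

theorem exists_iso_ne (C : UCtx σ f F₀ Pm M) {v : ι → F} (hv : v ≠ 0) :
    ∃ x, C.f₀ x x = 0 ∧ f v (R x) ≠ 0 := by
  by_contra hcon
  push Not at hcon
  apply hv
  apply C.eq_zero_of_rat
  intro y
  by_cases hy : y = 0
  · rw [hy, rv_zero, uf_zero_right C.hf]
  obtain ⟨e, t, ie, hs⟩ := C.split0 hy
  have h1 := hcon _ hs
  rw [rv_add, rv_smul, uf_add_right C.hf, uf_smul_right C.hf, hcon _ ie, mul_zero, add_zero] at h1
  exact h1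

theorem all_uSet (C : UCtx σ f F₀ Pm M) (hB : ∀ l, C.Bo l) (v : ι → F) (hv : f v v = 0) :
    v ∈ uSet σ f M := by
  by_cases h0 : v = 0
  · rw [h0]; exact uSet_zero C.hf
  obtain ⟨x, hx, hne⟩ := C.exists_iso_ne h0
  exact C.mem_uSet_of_ne hB hx hv hne

end UCtx

end Cfsg.Agent.Lib.Helper16.SU
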