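import Mathlib
import Cfsg.Agent.Lib.Helper16.SubU4

set_option autoImplicit false
set_option linter.unusedSectionVars false

namespace Cfsg.Agent.Lib.Helper16.SU

open Cfsg Cfsg.Agent.Lib.Helper6 Module Matrix

variable {F : Type*} [Field F] [Fintype F] {ι : Type} [Fintype ι] [DecidableEq ι]
  {σ : F ≃+* F} {f : (ι → F) → (ι → F) → F}
variable {F₀ : Subfield F} {Pm : Matrix.GeneralLinearGroup ι F}
variable {M : Subgroup (Matrix.GeneralLinearGroup ι F)}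

local notation "R" => rv F₀ Pm

namespace UCtx

theorem exists_irr (C : UCtx σ f F₀ Pm M) {x₀ : ι → F₀} (hx₀ : x₀ ≠ 0) (ix₀ : C.f₀ x₀ x₀ = 0)
    {y : ι → F} (hy : ¬ ∃ (y₀ : ι → F₀) (s : F), y = R y₀ + s • R x₀) :
    ∃ b, C.f₀ b b = 0 ∧ C.f₀ b x₀ = 0 ∧ f y (R b) ∉ F₀ := by
  by_contra hall
  push Not at hall
  have hall2 : ∀ b, C.f₀ b x₀ = 0 → f y (R b) ∈ F₀ := by
    intro b hb
    by_cases ib : C.f₀ b b = 0
    · exact hall b ib hb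
    have hns : b ∉ Submodule.span F₀ {x₀} := by
      intro h
      obtain ⟨c, rfl⟩ := Submodule.mem_span_singleton.1 h
      apply ib
      rw [C.hf₀.smul_left, uf_smul_right C.hf₀, ix₀]; ring
    obtain ⟨e, t, ie, hex, hs⟩ := C.split1 hns
    have h1 := hall _ hs (by rw [C.hf₀.add_left, C.hf₀.smul_left, hb, hex]; ring)
    have h2 := hall _ ie hex
    rw [rv_add, rv_smul, uf_add_right C.hf, uf_smul_right C.hf] at h1
    have h3 := F₀.sub_mem h1 (F₀.mul_mem (C.hσ _ t.2) h2)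
    simpa using h3
  obtain ⟨d, -, hd⟩ := C.exists_partner ⊥ x₀ (by simpa using hx₀)
  have hd' := C.sym1 hd
  obtain ⟨yW, hyW⟩ : ∃ yW, yW = y - f y (R d) • R x₀ := ⟨_, rfl⟩
  have hW : f yW (R d) = 0 := by
    rw [hyW, uf_sub_left C.hf, C.hf.smul_left, C.o1 hd]; ring
  have hr : ∀ z, f yW (R z) ∈ F₀ := by
    intro z
    have hz' : C.f₀ (z - C.f₀ z x₀ • d) x₀ = 0 := by
      rw [uf_sub_left C.hf₀, C.hf₀.smul_left, hd']; ring
    have h1 := hall2 _ hz'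
    have e1 : f yW (R z) = f y (R (z - C.f₀ z x₀ • d)) := by
      have e2 : R z = R (z - C.f₀ z x₀ • d) + (C.f₀ z x₀ : F) • R d := by
        rw [rv_sub, rv_smul]; abel
      conv_lhs => rw [e2]
      rw [uf_add_right C.hf, uf_smul_right C.hf, hW, mul_zero, add_zero, hyW, uf_sub_left C.hf,
        C.hf.smul_left, C.z0 (C.sym0 hz')]
      ring
    rw [e1]; exact h1
  obtain ⟨y₀, hy₀⟩ := C.rat_of_f yW hr
  exact hy ⟨y₀, f y (R d), by rw [← hy₀, hyW]; abel⟩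

theorem exists_Bo (C : UCtx σ f F₀ Pm M) {x₀ : ι → F₀} (hx₀ : x₀ ≠ 0)
    {y : ι → F} {c : F} (h : UH σ f M (R x₀) y c)
    (hy : ¬ ∃ (y₀ : ι → F₀) (s : F), y = R y₀ + s • R x₀) :
    ∃ β, β ∉ F₀ ∧ C.Bo β := by
  have ix₀ : C.f₀ x₀ x₀ = 0 := C.iso_of h.iso
  obtain ⟨b, ib, hbx, hβ⟩ := C.exists_irr hx₀ ix₀ hy
  obtain ⟨a, fa, ia, ifa, hpa, hea, hfa⟩ := C.hpair (by omega) ![x₀, b]
  obtain ⟨a', fa', ia', ifa', hpa', hea', hfa'⟩ := C.hpair (by omega) ![x₀, a, b, fa]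
  have a0 : C.f₀ a x₀ = 0 := hea 0
  have a1 : C.f₀ a b = 0 := hea 1
  have a2 : C.f₀ fa x₀ = 0 := hfa 0
  have a3 : C.f₀ fa b = 0 := hfa 1
  have b0 : C.f₀ a' x₀ = 0 := hea' 0
  have b1 : C.f₀ a' a = 0 := hea' 1
  have b2 : C.f₀ a' b = 0 := hea' 2
  have b3 : C.f₀ a' fa = 0 := hea' 3
  have b4 : C.f₀ fa' x₀ = 0 := hfa' 0
  obtain ⟨-, -, -, k, hk, ek⟩ := C.rat0 ia ib (C.sym0 a1)
  have h2 := h.map C.hM hk
  rw [ek, ek, US, US, C.z0 (C.sym0 a0), C.z0 (C.sym0 hbx)] at h2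
  simp only [zero_smul, add_zero, sub_zero] at h2
  have h3 := h2.mul C.hf (h.inv C.hf)
  have e3 : y - f y (R b) • R a + f y (R a) • R b + -y = - f y (R b) • R a + f y (R a) • R b := by
    module
  rw [e3] at h3
  have h4 := h3.move C.hf C.hM (C.rat0 ia' ifa (C.sym0 b3)) (C.z0 (C.sym0 b0)) (C.z0 (C.sym0 a2))
    (by rw [C.hf.add_left, C.hf.smul_left, C.hf.smul_left, C.z0 (C.sym0 b1), C.z0 (C.sym0 b2)]
        ring)
  have e4 : f (- f y (R b) • R a + f y (R a) • R b) (R fa) = - f y (R b) := by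
    rw [C.hf.add_left, C.hf.smul_left, C.hf.smul_left, C.o1 hpa, C.z0 (C.sym0 a3)]
    ring
  rw [e4] at h4
  refine ⟨_, ?_, C.Bo_of_one hx₀ (C.notMem_span_of hpa' (C.sym0 b4)) h4⟩
  intro hm
  apply hβ
  have := F₀.neg_mem hm
  rwa [neg_neg] at this

/-- elements of the unipotent radicals of rational points are rational modulo the centre -/
def Hyp (_C : UCtx σ f F₀ Pm M) : Prop :=
  ∀ x₀ : ι → F₀, x₀ ≠ 0 → ∀ (y : ι → F) (c : F), UH σ f M (R x₀) y c →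
    ∃ (y₀ : ι → F₀) (s : F), y = R y₀ + s • R x₀

theorem hyp_of_not (C : UCtx σ f F₀ Pm M) (r : ℕ) (hr : r.Prime)
    (hcard : Fintype.card F = Nat.card F₀ ^ r)
    (hM : ¬ ∀ v, f v v = 0 → v ∈ uSet σ f M) : C.Hyp := by
  intro x₀ hx₀ y c h
  by_contra hy
  obtain ⟨β, hβ, hB⟩ := C.exists_Bo hx₀ h hy
  exact hM (C.all_uSet (subring_dichotomy F₀ r hr hcard C.Bo C.Bo_coe (fun _ _ => C.Bo_add)
    (fun _ _ => C.Bo_mul) β hB hβ))

theorem hyp_swap (C : UCtx σ f F₀ Pm M) (H : C.Hyp) {p : ι → F} {l : F} (hl : l ≠ 0)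
    {a : ι → F₀} (ha0 : a ≠ 0) (h : UH σ f M p (l • R a) 0) :
    ∃ (t : ι → F₀) (s : F), σ l • p = R t + s • R a :=
  H a ha0 _ _ ((h.swap C.hf).scale C.hf hl)

end UCtx

end Cfsg.Agent.Lib.Helper16.SU
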