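import Mathlib
import Cfsg.Agent.Lib.Helper16.SubU5

set_option autoImplicit false
set_option linter.unusedSectionVars false

namespace Cfsg.Agent.Lib.Helper16.SU

open Cfsg Cfsg.Agent.Lib.Helper6 Module Matrix

variable {F : Type*} [Field F] [Fintype F] {ι : Type} [Fintype ι] [DecidableEq ι]
  {σ : F ≃+* F} {f : (ι → F) → (ι → F) → F}
variable {F₀ : Subfield F} {Pm : Matrix.GeneralLinearGroup ι F}
variable {M : Subgroup (Matrix.GeneralLinearGroup ι F)}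

local notation "R" => rv F₀ Pm

namespace UCtx

theorem key_point (C : UCtx σ f F₀ Pm M) (H : C.Hyp) {g : Matrix.GeneralLinearGroup ι F}
    (hgM : g ∈ M) {x x' : ι → F₀} {c : F} (hc : c ≠ 0) (hx : C.f₀ x x = 0) (hx' : x' ≠ 0)
    (hg : (g : Matrix ι ι F) *ᵥ R x = c • R x') {a : ι → F₀} (ia : C.f₀ a a = 0)
    (hax : C.f₀ a x = 0) : ∃ w, c⁻¹ • ((g : Matrix ι ι F) *ᵥ R a) = R w := by
  have hgS := C.hM hgM
  have hσc : σ c ≠ 0 := by simpa using hc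
  have step1 : ∀ y : ι → F₀, C.f₀ y x = 0 → ∃ (y' : ι → F₀) (l : F),
      σ c • ((g : Matrix ι ι F) *ᵥ R y) = R y' + l • R x' := by
    intro y hy
    obtain ⟨c₁, hc₁⟩ := C.ratE hx hy
    have h1 := hc₁.map C.hM hgM
    rw [hg] at h1
    exact H x' hx' _ _ (h1.scale C.hf hc)
  obtain ⟨v', l, hv⟩ := step1 a hax
  obtain ⟨b, fb, ib, ifb, hpb, heb, hfb⟩ := C.hpair (by omega) ![x, a]
  have hxb : C.f₀ b x = 0 := heb 0
  have hab : C.f₀ b a = 0 := heb 1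
  have hxfb : C.f₀ fb x = 0 := hfb 0
  have hafb : C.f₀ fb a = 0 := hfb 1
  obtain ⟨b', lb, hb⟩ := step1 b hxb
  obtain ⟨p, hp⟩ : ∃ p, p = R v' + l • R x' := ⟨_, rfl⟩
  obtain ⟨q, hq⟩ : ∃ q, q = R b' + lb • R x' := ⟨_, rfl⟩
  rw [← hp] at hv
  rw [← hq] at hb
  have e1 : (g : Matrix ι ι F) *ᵥ R a = (σ c)⁻¹ • p := by
    rw [← hv, smul_smul, inv_mul_cancel₀ hσc, one_smul]
  have e2 : (g : Matrix ι ι F) *ᵥ R b = (σ c)⁻¹ • q := by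
    rw [← hb, smul_smul, inv_mul_cancel₀ hσc, one_smul]
  have e3 : R x' = c⁻¹ • ((g : Matrix ι ι F) *ᵥ R x) := by
    rw [hg, smul_smul, inv_mul_cancel₀ hc, one_smul]
  have s3 := (C.rat0 ia ib hab).map C.hM hgM
  rw [e1, e2] at s3
  have s4 := s3.scale C.hf (inv_ne_zero hσc)
  rw [smul_smul, mul_zero, map_inv₀, C.hf.involutive] at s4
  have hb' : b' ∉ Submodule.span F₀ {v', x'} := by
    intro hmem
    obtain ⟨μ₁, μ₂, hμ⟩ := Submodule.mem_span_pair.1 hmem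
    have h1 : q = (μ₁ : F) • p + ((μ₂ : F) + lb - μ₁ * l) • R x' := by
      rw [hq, hp, ← hμ, rv_add, rv_smul, rv_smul]
      module
    have h2 : f q ((g : Matrix ι ι F) *ᵥ R fb) = σ c := by
      rw [← hb, C.hf.smul_left, uIso_app hgS, C.o1 hpb, mul_one]
    have h3 : f p ((g : Matrix ι ι F) *ᵥ R fb) = 0 := by
      rw [← hv, C.hf.smul_left, uIso_app hgS, C.z0 (C.sym0 hafb), mul_zero]
    have h4 : f (R x') ((g : Matrix ι ι F) *ᵥ R fb) = 0 := by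
      rw [e3, C.hf.smul_left, uIso_app hgS, C.z0 (C.sym0 hxfb), mul_zero]
    rw [h1, C.hf.add_left, C.hf.smul_left, C.hf.smul_left, h3, h4] at h2
    apply hσc
    rw [← h2]; ring
  obtain ⟨f', hf1, hfb'⟩ := C.exists_partner _ b' hb'
  have hfv : C.f₀ v' f' = 0 := hf1 _ (Submodule.subset_span (by simp))
  have hfx : C.f₀ x' f' = 0 := hf1 _ (Submodule.subset_span (by simp))
  obtain ⟨a₂, f₂, ia₂, if₂, hp₂, he₂, hf₂⟩ := C.hpair (by omega) ![v', x', b', f']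
  have k1 : C.f₀ a₂ v' = 0 := he₂ 0
  have k2 : C.f₀ a₂ x' = 0 := he₂ 1
  have k3 : C.f₀ a₂ b' = 0 := he₂ 2
  have k4 : C.f₀ a₂ f' = 0 := he₂ 3
  have k1' : C.f₀ f₂ v' = 0 := hf₂ 0
  have k2' : C.f₀ f₂ x' = 0 := hf₂ 1
  have k3' : C.f₀ f₂ b' = 0 := hf₂ 2
  have k4' : C.f₀ f₂ f' = 0 := hf₂ 3
  have hpz : ∀ z : ι → F₀, C.f₀ v' z = 0 → C.f₀ x' z = 0 → f p (R z) = 0 := by
    intro z h1 h2
    rw [hp, C.hf.add_left, C.hf.smul_left, C.z0 h1, C.z0 h2]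
    ring
  have hqz : ∀ z : ι → F₀, C.f₀ x' z = 0 → f ((c⁻¹ * (σ c)⁻¹) • q) (R z) =
      (c⁻¹ * (σ c)⁻¹) * ((C.f₀ b' z : F₀) : F) := by
    intro z h2
    rw [hq, C.hf.smul_left, C.hf.add_left, C.hf.smul_left, C.z0 h2, C.fc]
    ring
  have hcc : c⁻¹ * (σ c)⁻¹ ≠ 0 := mul_ne_zero (inv_ne_zero hc) (inv_ne_zero hσc)
  have hσcc : σ (c⁻¹ * (σ c)⁻¹) = c⁻¹ * (σ c)⁻¹ := by
    rw [map_mul, map_inv₀, map_inv₀, C.hf.involutive, mul_comm]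
  obtain ⟨c₂, hc₂⟩ := C.ratE ia₂ (C.sym0 k4)
  obtain ⟨c₃, hc₃⟩ := C.ratE if₂ (C.sym0 k4')
  have m1 := s4.move C.hf C.hM hc₂ (hpz a₂ (C.sym0 k1) (C.sym0 k2)) (hpz f' hfv hfx)
    (by rw [hqz a₂ (C.sym0 k2), C.sym0 k3]; simp)
  have m2 := s4.move C.hf C.hM hc₃ (hpz f₂ (C.sym0 k1') (C.sym0 k2')) (hpz f' hfv hfx)
    (by rw [hqz f₂ (C.sym0 k2'), C.sym0 k3']; simp)
  rw [hqz f' hfx, hfb'] at m1 m2
  simp only [OneMemClass.coe_one, mul_one] at m1 m2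
  have hp₂' : C.f₀ f₂ a₂ = 1 := C.sym1 hp₂
  obtain ⟨t, s, hts⟩ := C.hyp_swap H hcc (C.ne_zero_of hp₂) m1
  obtain ⟨t', s', hts'⟩ := C.hyp_swap H hcc (C.ne_zero_of hp₂') m2
  have hs' : s' = ((C.f₀ t a₂ - C.f₀ t' a₂ : F₀) : F) := by
    have h1 : f (R t + s • R a₂) (R a₂) = f (R t' + s' • R f₂) (R a₂) := by rw [← hts, ← hts']
    rw [C.hf.add_left, C.hf.add_left, C.hf.smul_left, C.hf.smul_left, C.z0 ia₂, C.o1 hp₂', C.fc,
      C.fc] at h1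
    push_cast
    linear_combination -h1
  refine ⟨t' + (C.f₀ t a₂ - C.f₀ t' a₂) • f₂, ?_⟩
  rw [rv_add, rv_smul, ← hs', ← hts', e1, smul_smul, hσcc]

/-- an element of `M` mapping a rational point to a rational point is in the subfield group -/
theorem mem_SF_of_point (C : UCtx σ f F₀ Pm M) (H : C.Hyp)
    {g : Matrix.GeneralLinearGroup ι F} (hgM : g ∈ M) {x x' : ι → F₀}
    {c : F} (hx0 : x ≠ 0) (hx : C.f₀ x x = 0) (hg : (g : Matrix ι ι F) *ᵥ R x = c • R x') :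
    g ∈ Geo.subfieldSubgroup F₀ Pm := by
  have hne : (g : Matrix ι ι F) *ᵥ R x ≠ 0 :=
    gl_mulVec_ne_zero g (rv_ne_zero F₀ Pm hx0)
  have hc : c ≠ 0 := by
    rintro rfl
    rw [zero_smul] at hg
    exact hne hg
  have hx' : x' ≠ 0 := by
    rintro rfl
    rw [rv_zero, smul_zero] at hg
    exact hne hg
  have iso : ∀ b, C.f₀ b b = 0 → ∃ w, c⁻¹ • ((g : Matrix ι ι F) *ᵥ R b) = R w := by
    intro b ib
    obtain ⟨a, fa, ia, ifa, hpa, hea, hfa⟩ := C.hpair (by omega) ![x, b]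
    have h1 : C.f₀ a x = 0 := hea 0
    have h2 : C.f₀ a b = 0 := hea 1
    obtain ⟨w, hw⟩ := C.key_point H hgM hc hx hx' hg ia h1
    have hw' : (g : Matrix ι ι F) *ᵥ R a = c • R w := by
      rw [← hw, smul_smul, mul_inv_cancel₀ hc, one_smul]
    have hw0 : w ≠ 0 := by
      rintro rfl
      rw [rv_zero, smul_zero] at hw'
      exact gl_mulVec_ne_zero g (rv_ne_zero F₀ Pm (C.ne_zero_of hpa)) hw'
    exact C.key_point H hgM hc ia hw0 hw' ib (C.sym0 h2)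
  apply mem_SF_of g c⁻¹ (inv_ne_zero hc)
  intro b
  by_cases hb : b = 0
  · exact ⟨0, by rw [hb, rv_zero, Matrix.mulVec_zero, smul_zero]⟩
  obtain ⟨e, t, ie, hs⟩ := C.split0 hb
  obtain ⟨w₁, hw₁⟩ := iso _ hs
  obtain ⟨w₂, hw₂⟩ := iso _ ie
  refine ⟨w₁ - t • w₂, ?_⟩
  rw [rv_sub, rv_smul, ← hw₁, ← hw₂, rv_add, rv_smul, Matrix.mulVec_add, Matrix.mulVec_smul]
  module

end UCtx

end Cfsg.Agent.Lib.Helper16.SU
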