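import Mathlib
import Cfsg.Agent.Lib.Helper16.SubU6

set_option autoImplicit false
set_option linter.unusedSectionVars false

namespace Cfsg.Agent.Lib.Helper16.SU

open Cfsg Cfsg.Agent.Lib.Helper6 Module Matrix

variable {F : Type*} [Field F] [Fintype F] {ι : Type} [Fintype ι] [DecidableEq ι]
  {σ : F ≃+* F} {f : (ι → F) → (ι → F) → F}
variable {F₀ : Subfield F} {Pm : Matrix.GeneralLinearGroup ι F}
variable {M : Subgroup (Matrix.GeneralLinearGroup ι F)}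

local notation "R" => rv F₀ Pm

theorem eq_zero_of_mul_mem {a z : F} (ha : a ∈ F₀) (hz : z ∉ F₀) (h : a * z ∈ F₀) : a = 0 := by
  by_contra h0
  apply hz
  have : z = a⁻¹ * (a * z) := by field_simp
  rw [this]
  exact F₀.mul_mem (F₀.inv_mem ha) h

/-- lower unitriangular matrices -/
def yL (t : F) : Matrix.SpecialLinearGroup (Fin 2) F := ⟨!![1, 0; t, 1], by simp [det_fin_two]⟩

/-- the configuration: a rational totally isotropic line and a point -/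
structure Cfg (C : UCtx σ f F₀ Pm M) (x d : Fin 2 → ι → F₀) (y fy : ι → F₀) (A : ι → F) (s : F) :
    Prop where
  xx : ∀ i j, C.f₀ (x i) (x j) = 0
  xd : ∀ i j, C.f₀ (x i) (d j) = if i = j then 1 else 0
  iy : C.f₀ y y = 0
  hy : C.f₀ y fy = 1
  yx : ∀ i, C.f₀ y (x i) = 0
  fx : ∀ i, C.f₀ fy (x i) = 0
  A0 : f (R (x 0)) A = 1
  hs : s ≠ 0
  hM : UH σ f M A 0 s
  hz : f (R (x 1)) A ∉ F₀

variable (Pm f) in
/-- the radical vector -/
def zv (x : Fin 2 → ι → F₀) (A : ι → F) : ι → F := R (x 1) - f (R (x 1)) A • R (x 0)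

variable (Pm) in
/-- membership in the three-dimensional space -/
def InX (x : Fin 2 → ι → F₀) (A : ι → F) (v : ι → F) : Prop :=
  ∃ c₀ c₁ c₂ : F, v = c₀ • R (x 0) + c₁ • R (x 1) + c₂ • A

theorem InX.add {x : Fin 2 → ι → F₀} {A v w : ι → F} (h : InX Pm x A v) (h' : InX Pm x A w) :
    InX Pm x A (v + w) := by
  obtain ⟨c₀, c₁, c₂, rfl⟩ := h
  obtain ⟨e₀, e₁, e₂, rfl⟩ := h'
  exact ⟨c₀ + e₀, c₁ + e₁, c₂ + e₂, by module⟩

theorem InX.neg {x : Fin 2 → ι → F₀} {A v : ι → F} (h : InX Pm x A v) : InX Pm x A (-v) := by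
  obtain ⟨c₀, c₁, c₂, rfl⟩ := h
  exact ⟨-c₀, -c₁, -c₂, by module⟩

variable (Pm f) in
/-- the relation between `SL₂` and `GL` -/
structure Rel (x : Fin 2 → ι → F₀) (A : ι → F) (μ : Matrix.SpecialLinearGroup (Fin 2) F)
    (g : Matrix.GeneralLinearGroup ι F) : Prop where
  fz : (g : Matrix ι ι F) *ᵥ zv f Pm x A = zv f Pm x A
  fX : ∀ v, InX Pm x A ((g : Matrix ι ι F) *ᵥ v - v)
  e1 : ∃ κ : F, (g : Matrix ι ι F) *ᵥ R (x 0) = μ.1 0 0 • R (x 0) + μ.1 1 0 • A + κ • zv f Pm x A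
  e2 : ∃ κ : F, (g : Matrix ι ι F) *ᵥ A = μ.1 0 1 • R (x 0) + μ.1 1 1 • A + κ • zv f Pm x A

theorem Rel.one (x : Fin 2 → ι → F₀) (A : ι → F) : Rel f Pm x A 1 1 := by
  refine ⟨by simp, fun v => ⟨0, 0, 0, by simp⟩, ⟨0, ?_⟩, ⟨0, ?_⟩⟩
  all_goals
    rw [sl2_val_one]
    simp

theorem sl2_mul_entries (a b : Matrix.SpecialLinearGroup (Fin 2) F) (i j : Fin 2) :
    (a * b).1 i j = a.1 i 0 * b.1 0 j + a.1 i 1 * b.1 1 j := by
  rw [sl2_val_mul, Matrix.mul_apply, Fin.sum_univ_two]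

theorem Rel.mul {x : Fin 2 → ι → F₀} {A : ι → F} {μ μ' : Matrix.SpecialLinearGroup (Fin 2) F}
    {g g' : Matrix.GeneralLinearGroup ι F} (h : Rel f Pm x A μ g) (h' : Rel f Pm x A μ' g') :
    Rel f Pm x A (μ * μ') (g * g') := by
  obtain ⟨k1, a1⟩ := h.e1
  obtain ⟨k2, a2⟩ := h.e2
  obtain ⟨l1, b1⟩ := h'.e1
  obtain ⟨l2, b2⟩ := h'.e2
  have hmul : ∀ v, ((g * g' : Matrix.GeneralLinearGroup ι F) : Matrix ι ι F) *ᵥ v =
      (g : Matrix ι ι F) *ᵥ ((g' : Matrix ι ι F) *ᵥ v) := by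
    intro v; rw [Units.val_mul, Matrix.mulVec_mulVec]
  refine ⟨by rw [hmul, h'.fz, h.fz], fun v => ?_, ?_, ?_⟩
  · have := (h.fX ((g' : Matrix ι ι F) *ᵥ v)).add (h'.fX v)
    rw [hmul]
    convert this using 1
    abel
  · refine ⟨μ'.1 0 0 * k1 + μ'.1 1 0 * k2 + l1, ?_⟩
    rw [hmul, b1, Matrix.mulVec_add, Matrix.mulVec_add, Matrix.mulVec_smul, Matrix.mulVec_smul,
      Matrix.mulVec_smul, a1, a2, h.fz, sl2_mul_entries, sl2_mul_entries]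
    module
  · refine ⟨μ'.1 0 1 * k1 + μ'.1 1 1 * k2 + l2, ?_⟩
    rw [hmul, b2, Matrix.mulVec_add, Matrix.mulVec_add, Matrix.mulVec_smul, Matrix.mulVec_smul,
      Matrix.mulVec_smul, a1, a2, h.fz, sl2_mul_entries, sl2_mul_entries]
    module

theorem Rel.inv {x : Fin 2 → ι → F₀} {A : ι → F} {μ : Matrix.SpecialLinearGroup (Fin 2) F}
    {g : Matrix.GeneralLinearGroup ι F} (h : Rel f Pm x A μ g) : Rel f Pm x A μ⁻¹ g⁻¹ := by
  obtain ⟨k1, a1⟩ := h.e1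
  obtain ⟨k2, a2⟩ := h.e2
  have hz : ((g⁻¹ : Matrix.GeneralLinearGroup ι F) : Matrix ι ι F) *ᵥ zv f Pm x A =
      zv f Pm x A := by
    conv_lhs => rw [← h.fz]
    exact gl_inv_mulVec g _
  have hdet : μ.1 0 0 * μ.1 1 1 - μ.1 0 1 * μ.1 1 0 = 1 := by
    have := μ.2
    rwa [det_fin_two] at this
  have c1 := congrArg (fun v => ((g⁻¹ : Matrix.GeneralLinearGroup ι F) : Matrix ι ι F) *ᵥ v) a1
  have c2 := congrArg (fun v => ((g⁻¹ : Matrix.GeneralLinearGroup ι F) : Matrix ι ι F) *ᵥ v) a2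
  simp only [gl_inv_mulVec, Matrix.mulVec_add, Matrix.mulVec_smul, hz] at c1 c2
  have i00 : (μ⁻¹).1 0 0 = μ.1 1 1 := by rw [sl2_val_inv, adjugate_fin_two]; simp
  have i01 : (μ⁻¹).1 0 1 = - μ.1 0 1 := by rw [sl2_val_inv, adjugate_fin_two]; simp
  have i10 : (μ⁻¹).1 1 0 = - μ.1 1 0 := by rw [sl2_val_inv, adjugate_fin_two]; simp
  have i11 : (μ⁻¹).1 1 1 = μ.1 0 0 := by rw [sl2_val_inv, adjugate_fin_two]; simp
  have one : ∀ v : ι → F, v = (μ.1 0 0 * μ.1 1 1 - μ.1 0 1 * μ.1 1 0) • v := by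
    intro v; rw [hdet, one_smul]
  refine ⟨hz, fun v => ?_, ?_, ?_⟩
  · have := (h.fX (((g⁻¹ : Matrix.GeneralLinearGroup ι F) : Matrix ι ι F) *ᵥ v)).neg
    rw [gl_mulVec_inv] at this
    convert this using 1
    abel
  · refine ⟨-(μ.1 1 1 * k1 - μ.1 1 0 * k2), ?_⟩
    rw [i00, i10, one (((g⁻¹ : Matrix.GeneralLinearGroup ι F) : Matrix ι ι F) *ᵥ R (x 0))]
    linear_combination (norm := module) (- μ.1 1 1) • c1 + μ.1 1 0 • c2
  · refine ⟨-(μ.1 0 0 * k2 - μ.1 0 1 * k1), ?_⟩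
    rw [i01, i11, one (((g⁻¹ : Matrix.GeneralLinearGroup ι F) : Matrix ι ι F) *ᵥ A)]
    linear_combination (norm := module) (- μ.1 0 0) • c2 + μ.1 0 1 • c1

variable (Pm f M) in
/-- the image of `M` in `SL₂` -/
def HT (x : Fin 2 → ι → F₀) (A : ι → F) : Subgroup (Matrix.SpecialLinearGroup (Fin 2) F) where
  carrier := {μ | ∃ g ∈ M, Rel f Pm x A μ g}
  one_mem' := ⟨1, M.one_mem, Rel.one x A⟩
  mul_mem' := by
    rintro a b ⟨g, hg, h⟩ ⟨g', hg', h'⟩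
    exact ⟨g * g', M.mul_mem hg hg', h.mul h'⟩
  inv_mem' := by
    rintro a ⟨g, hg, h⟩
    exact ⟨g⁻¹, M.inv_mem hg, h.inv⟩

theorem UCtx.exists_norm_ne_one (C : UCtx σ f F₀ Pm M) (z : F) :
    ∃ c : F₀, (z + c) * σ (z + c) ≠ 1 := by
  by_contra h
  push Not at h
  obtain ⟨c₀, hc₀, hne⟩ := C.hne
  have h0 := h 0
  have h1 := h 1
  have hm1 := h (-1)
  have hc := h ⟨c₀, hc₀⟩
  have hc1 := h (⟨c₀, hc₀⟩ + 1)
  push_cast at h0 h1 hm1 hc hc1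
  simp only [map_add, map_neg, map_one, map_zero, add_zero] at h0 h1 hm1 hc hc1
  have two : (2 : F) = 0 := by linear_combination h1 + hm1 - 2 * h0
  have tr : c₀ + σ c₀ = 0 := by linear_combination hc1 - hc - h1 + h0
  apply hne
  linear_combination tr - c₀ * two

end Cfsg.Agent.Lib.Helper16.SU
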