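import Mathlib
import Cfsg.Agent.Lib.Helper16.SubU7

set_option autoImplicit false
set_option linter.unusedSectionVars false

namespace Cfsg.Agent.Lib.Helper16.SU

open Cfsg Cfsg.Agent.Lib.Helper6 Module Matrix

variable {F : Type*} [Field F] [Fintype F] {ι : Type} [Fintype ι] [DecidableEq ι]
  {σ : F ≃+* F} {f : (ι → F) → (ι → F) → F}
variable {F₀ : Subfield F} {Pm : Matrix.GeneralLinearGroup ι F}
variable {M : Subgroup (Matrix.GeneralLinearGroup ι F)}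

local notation "R" => rv F₀ Pm

namespace Cfg

variable {C : UCtx σ f F₀ Pm M} {x d : Fin 2 → ι → F₀} {y fy : ι → F₀} {A : ι → F} {s : F}

theorem uu (c : Cfg C x d y fy A s) (i j : Fin 2) : f (R (x i)) (R (x j)) = 0 := C.z0 (c.xx i j)

theorem ud (c : Cfg C x d y fy A s) (i j : Fin 2) :
    f (R (x i)) (R (d j)) = if i = j then 1 else 0 := by
  rw [C.fc, c.xd]; split_ifs <;> rfl

theorem yu (c : Cfg C x d y fy A s) (i : Fin 2) : f (R y) (R (x i)) = 0 := C.z0 (c.yx i)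

theorem fu (c : Cfg C x d y fy A s) (i : Fin 2) : f (R fy) (R (x i)) = 0 := C.z0 (c.fx i)

theorem uf (c : Cfg C x d y fy A s) (i : Fin 2) : f (R (x i)) (R fy) = 0 :=
  uf_eq_zero_symm C.hf (c.fu i)

theorem x_ne (c : Cfg C x d y fy A s) (i : Fin 2) : x i ≠ 0 := by
  intro h
  have := c.xd i i
  rw [h, uf_zero_left C.hf₀] at this
  simp at this

theorem A0' (c : Cfg C x d y fy A s) : f A (R (x 0)) = 1 := by
  rw [C.hf.herm, c.A0, map_one]

theorem zu (c : Cfg C x d y fy A s) (i : Fin 2) : f (zv f Pm x A) (R (x i)) = 0 := by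
  rw [zv, uf_sub_left C.hf, C.hf.smul_left, c.uu, c.uu]; ring

theorem zA (c : Cfg C x d y fy A s) : f (zv f Pm x A) A = 0 := by
  rw [zv, uf_sub_left C.hf, C.hf.smul_left, c.A0]; ring

theorem relX1 (c : Cfg C x d y fy A s) (a : F₀) (ha : C.σ₀ a = -a) :
    xU (a : F) ∈ HT f Pm M x A := by
  have h := C.rat (x := x 0) (y := 0) (c.xx 0 0) (uf_zero_left C.hf₀ _) a
    (by rw [ha, uf_zero_left C.hf₀]; ring)
  obtain ⟨-, -, -, g, hg, e⟩ := h
  refine ⟨g, hg, ?_, fun v => ?_, ⟨0, ?_⟩, ⟨0, ?_⟩⟩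
  · rw [e, US, c.zu, rv_zero, uf_zero_right C.hf]; simp
  · rw [e, US, rv_zero, uf_zero_right C.hf]
    exact ⟨f v (R (x 0)) * a, 0, 0, by module⟩
  · rw [e, US, c.uu, rv_zero, uf_zero_right C.hf]; simp [xU]
  · rw [e, US, c.A0', rv_zero, uf_zero_right C.hf]; simp [xU]; abel

theorem relX2 (c : Cfg C x d y fy A s) (a : F₀) (ha : C.σ₀ a = -a) (k : F₀) :
    xU ((a : F) * ((f (R (x 1)) A + k) * σ (f (R (x 1)) A + k))) ∈ HT f Pm M x A := by
  have iw : C.f₀ (x 1 + k • x 0) (x 1 + k • x 0) = 0 := by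
    simp only [C.hf₀.add_left, uf_add_right C.hf₀, C.hf₀.smul_left, uf_smul_right C.hf₀, c.xx]
    ring
  have h := C.rat (x := x 1 + k • x 0) (y := 0) iw (uf_zero_left C.hf₀ _) a
    (by rw [ha, uf_zero_left C.hf₀]; ring)
  obtain ⟨-, -, -, g, hg, e⟩ := h
  have hw : R (x 1 + k • x 0) = R (x 1) + (k : F) • R (x 0) := by rw [rv_add, rv_smul]
  have hAw : f A (R (x 1 + k • x 0)) = σ (f (R (x 1)) A + k) := by
    rw [hw, uf_add_right C.hf, uf_smul_right C.hf, c.A0', map_add, ← C.hf.herm A]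
    ring
  refine ⟨g, hg, ?_, fun v => ?_, ⟨0, ?_⟩, ⟨(a : F) * σ (f (R (x 1)) A + k), ?_⟩⟩
  · have : f (zv f Pm x A) (R (x 1 + k • x 0)) = 0 := by
      rw [hw, uf_add_right C.hf, uf_smul_right C.hf, c.zu, c.zu]; ring
    rw [e, US, this, rv_zero, uf_zero_right C.hf]; simp
  · rw [e, US, rv_zero, uf_zero_right C.hf, hw]
    exact ⟨f v (R (x 1) + (k : F) • R (x 0)) * a * k, f v (R (x 1) + (k : F) • R (x 0)) * a, 0,
      by module⟩
  · have : f (R (x 0)) (R (x 1 + k • x 0)) = 0 := by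
      rw [hw, uf_add_right C.hf, uf_smul_right C.hf, c.uu, c.uu]; ring
    rw [e, US, this, rv_zero, uf_zero_right C.hf]; simp [xU]
  · rw [e, US, hAw, rv_zero, uf_zero_right C.hf, hw, zv]
    simp only [xU]
    simp
    module

theorem relY (c : Cfg C x d y fy A s) : yL s ∈ HT f Pm M x A := by
  obtain ⟨iA, -, -, g, hg, e⟩ := c.hM
  refine ⟨g, hg, ?_, fun v => ?_, ⟨0, ?_⟩, ⟨0, ?_⟩⟩
  · rw [e, US, c.zA, uf_zero_right C.hf]; simp
  · rw [e, US, uf_zero_right C.hf]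
    exact ⟨0, 0, f v A * s, by module⟩
  · rw [e, US, c.A0, uf_zero_right C.hf]; simp [yL]
  · rw [e, US, iA, uf_zero_right C.hf]; simp [yL]

theorem lemR (c : Cfg C x d y fy A s) (H : C.Hyp) {p w : ι → F} {c' : F} (p₀ p₁ w₀ w₁ : F)
    (hp : p = p₀ • R (x 0) + p₁ • R (x 1)) (hw : w = w₀ • R (x 0) + w₁ • R (x 1))
    (h : UH σ f M p (R y + w) c') : ∃ t, p = R t := by
  have hup : ∀ j, f p (R (x j)) = 0 := by
    intro j
    rw [hp, C.hf.add_left, C.hf.smul_left, C.hf.smul_left, c.uu, c.uu]; ring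
  have hfp : f p (R fy) = 0 := by
    rw [hp, C.hf.add_left, C.hf.smul_left, C.hf.smul_left, c.uf, c.uf]; ring
  have hyu : ∀ j, f (R y + w) (R (x j)) = 0 := by
    intro j
    rw [hw, C.hf.add_left, C.hf.add_left, C.hf.smul_left, C.hf.smul_left, c.uu, c.uu, c.yu]; ring
  have hyf : f (R y + w) (R fy) = 1 := by
    rw [hw, C.hf.add_left, C.hf.add_left, C.hf.smul_left, C.hf.smul_left, c.uf, c.uf, C.o1 c.hy]
    ring
  have mv : ∀ j, ∃ (t : ι → F₀) (s : F), p = R t + s • R (x j) := by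
    intro j
    obtain ⟨c₂, hc₂⟩ := C.ratE (c.xx j j) (c.fx j)
    have h1 := h.move C.hf C.hM hc₂ (hup j) hfp (hyu j)
    rw [hyf] at h1
    obtain ⟨t, s, hts⟩ := C.hyp_swap H one_ne_zero (c.x_ne j) h1
    exact ⟨t, s, by rw [← hts, map_one, one_smul]⟩
  obtain ⟨t, s₀, h0⟩ := mv 0
  obtain ⟨t', s₁, h1⟩ := mv 1
  have hs₁ : s₁ = ((C.f₀ t (d 1) - C.f₀ t' (d 1) : F₀) : F) := by
    have h2 : f (R t + s₀ • R (x 0)) (R (d 1)) = f (R t' + s₁ • R (x 1)) (R (d 1)) := by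
      rw [← h0, ← h1]
    rw [C.hf.add_left, C.hf.add_left, C.hf.smul_left, C.hf.smul_left, c.ud, c.ud, C.fc, C.fc,
      if_neg (by decide), if_pos rfl] at h2
    push_cast
    linear_combination -h2
  exact ⟨t' + (C.f₀ t (d 1) - C.f₀ t' (d 1)) • x 1, by rw [rv_add, rv_smul, ← hs₁, ← h1]⟩

theorem coords (c : Cfg C x d y fy A s) {p₀ p₁ : F} {t : ι → F₀}
    (h : p₀ • R (x 0) + p₁ • R (x 1) = R t) : p₀ ∈ F₀ ∧ p₁ ∈ F₀ := by
  have key : ∀ j, f (p₀ • R (x 0) + p₁ • R (x 1)) (R (d j)) ∈ F₀ := by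
    intro j
    rw [h, C.fc]
    exact (C.f₀ t (d j)).2
  have k0 := key 0
  have k1 := key 1
  rw [C.hf.add_left, C.hf.smul_left, C.hf.smul_left, c.ud, c.ud] at k0 k1
  simp at k0 k1
  exact ⟨k0, k1⟩

theorem borel (c : Cfg C x d y fy A s) (H : C.Hyp) (μ : Matrix.SpecialLinearGroup (Fin 2) F)
    (hm : μ ∈ HT f Pm M x A) (h10 : μ.1 1 0 = 0) : μ.1 0 0 = 1 := by
  obtain ⟨g, hgM, hR⟩ := hm
  have hgS := C.hM hgM
  obtain ⟨κ, a1⟩ := hR.e1
  rw [h10, zero_smul, add_zero] at a1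
  have hdet := μ.2
  rw [det_fin_two, h10, mul_zero, sub_zero] at hdet
  obtain ⟨α, hα⟩ : ∃ α, α = μ.1 0 0 := ⟨_, rfl⟩
  rw [← hα] at a1 hdet ⊢
  have hα0 : α ≠ 0 := left_ne_zero_of_mul_eq_one hdet
  have hσα : σ α ≠ 0 := by simpa using hα0
  obtain ⟨ζ₁, hζ₁⟩ : ∃ ζ₁, ζ₁ = f (R (x 1)) A := ⟨_, rfl⟩
  have hzv : zv f Pm x A = R (x 1) - ζ₁ • R (x 0) := by rw [zv, hζ₁]
  have hz1 : ζ₁ ∉ F₀ := by rw [hζ₁]; exact c.hz
  have fz := hR.fz
  obtain ⟨c₀, c₁, c₂, hc⟩ := hR.fX (R y)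
  have hyz : f (R y) (zv f Pm x A) = 0 := by
    rw [hzv, uf_sub_right C.hf, uf_smul_right C.hf, c.yu, c.yu]; ring
  have gyz : f ((g : Matrix ι ι F) *ᵥ R y) (zv f Pm x A) = 0 := by
    have := uIso_app hgS (R y) (zv f Pm x A)
    rw [fz, hyz] at this
    exact this
  have gy0 : f ((g : Matrix ι ι F) *ᵥ R y) (R (x 0)) = 0 := by
    have := uIso_app hgS (R y) (R (x 0))
    rw [a1, uf_add_right C.hf, uf_smul_right C.hf, uf_smul_right C.hf, gyz, c.yu, mul_zero,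
      add_zero] at this
    exact (mul_eq_zero.1 this).resolve_left hσα
  have hc2 : c₂ = 0 := by
    have := congrArg (fun v => f v (R (x 0))) hc
    simp only [C.hf.add_left, uf_sub_left C.hf, C.hf.smul_left, c.uu, c.yu, gy0, c.A0'] at this
    simpa using this.symm
  have hgy : (g : Matrix ι ι F) *ᵥ R y = R y + (c₀ • R (x 0) + c₁ • R (x 1)) := by
    rw [hc2, zero_smul, add_zero] at hc
    rw [← hc]; abel
  have hS : ∀ i, UH σ f M ((g : Matrix ι ι F) *ᵥ R (x i))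
      (R y + (c₀ • R (x 0) + c₁ • R (x 1))) 0 := by
    intro i
    rw [← hgy]
    exact (C.rat0 (c.xx i i) c.iy (c.yx i)).map C.hM hgM
  have e0 : (g : Matrix ι ι F) *ᵥ R (x 0) = (α - κ * ζ₁) • R (x 0) + κ • R (x 1) := by
    rw [a1, hzv]; module
  have e1 : (g : Matrix ι ι F) *ᵥ R (x 1) =
      (ζ₁ * α - ζ₁ * (1 + ζ₁ * κ)) • R (x 0) + (1 + ζ₁ * κ) • R (x 1) := by
    have h2 : R (x 1) = zv f Pm x A + ζ₁ • R (x 0) := by rw [hzv]; abel
    conv_lhs => rw [h2]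
    rw [Matrix.mulVec_add, Matrix.mulVec_smul, fz, a1, hzv]
    module
  obtain ⟨t₀, ht₀⟩ := c.lemR H _ _ _ _ e0 rfl (hS 0)
  obtain ⟨t₁, ht₁⟩ := c.lemR H _ _ _ _ e1 rfl (hS 1)
  obtain ⟨b0, b1⟩ := c.coords (e0.symm.trans ht₀)
  obtain ⟨d0, d1⟩ := c.coords (e1.symm.trans ht₁)
  have hκ : κ = 0 := by
    apply eq_zero_of_mul_mem b1 hz1
    have := F₀.sub_mem d1 F₀.one_mem
    convert this using 1
    ring
  rw [hκ] at b0 d0
  have hαF : α ∈ F₀ := by simpa using b0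
  have := eq_zero_of_mul_mem (F₀.sub_mem hαF F₀.one_mem) hz1 (by
    convert d0 using 1
    ring)
  exact sub_eq_zero.1 this

/-- the configuration is contradictory -/
theorem false (c : Cfg C x d y fy A s) (H : C.Hyp) : False := by
  have hz : f (R (x 1)) A ∉ F₀ := c.hz
  obtain ⟨a, ha0, ha⟩ := uf_exists_skew C.hf₀
  obtain ⟨k, hk⟩ := C.exists_norm_ne_one (f (R (x 1)) A)
  have ha0' : (a : F) ≠ 0 := by
    intro h0
    exact ha0 (Subtype.ext h0)
  have hne : f (R (x 1)) A + k ≠ 0 := by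
    intro h0
    apply hz
    have : f (R (x 1)) A = ((-k : F₀) : F) := by
      push_cast
      linear_combination h0
    rw [this]
    exact (-k).2
  have hσne : σ (f (R (x 1)) A + k) ≠ 0 := (map_ne_zero σ).2 hne
  have h := sl2_frob (HT f Pm M x A) (c.borel H) (a : F)
    ((a : F) * ((f (R (x 1)) A + k) * σ (f (R (x 1)) A + k))) ha0'
    (mul_ne_zero ha0' (mul_ne_zero hne hσne))
    (by
      intro h0
      apply hk
      have h1 : (a : F) * ((f (R (x 1)) A + k) * σ (f (R (x 1)) A + k) - 1) = 0 := by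
        linear_combination -h0
      exact sub_eq_zero.1 ((mul_eq_zero.1 h1).resolve_left ha0'))
    (c.relX1 a ha) (c.relX2 a ha k) _ c.relY
  have h2 : (yL s).1 1 0 = s := by simp [yL]
  rw [h2] at h
  exact c.hs h

end Cfg

end Cfsg.Agent.Lib.Helper16.SU
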