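import Mathlib
import Cfsg.Agent.Lib.Helper16.SubU8
import Cfsg.Agent.Lib.Helper16.Orth34

set_option autoImplicit false
set_option linter.unusedSectionVars false

namespace Cfsg.Agent.Lib.Helper16.SU

open Cfsg Cfsg.Agent.Lib.Helper6 Module Matrix

section NT

theorem exists_pow_ne {K : Type*} [Field K] [Fintype K] (t : ℕ) (ht : 1 < t)
    (hcard : t < Fintype.card K) : ∃ c : K, c ^ t ≠ c := by
  by_contra hall
  push Not at hall
  have hne := FiniteField.X_pow_card_sub_X_ne_zero K (p := t) ht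
  have hdeg := FiniteField.X_pow_card_sub_X_natDegree_eq K (p := t) ht
  have hsub : (Finset.univ : Finset K).val ⊆ (Polynomial.X ^ t - Polynomial.X : Polynomial K).roots := by
    intro a _
    rw [Polynomial.mem_roots hne]
    simp [hall a]
  have := Polynomial.card_le_degree_of_subset_roots hsub
  rw [hdeg, Finset.card_univ] at this
  omega

theorem exists_frob_ne {F : Type*} [Field F] [Fintype F] (q : ℕ) (hF : Fintype.card F = q ^ 2)
    (F₀ : Subfield F) (r : ℕ) (hro : Odd r) (hcard : Fintype.card F = Nat.card F₀ ^ r) :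
    ∃ c ∈ F₀, c ^ q ≠ c := by
  classical
  haveI : Fintype F₀ := Fintype.ofFinite _
  obtain ⟨k, rfl⟩ := hro
  obtain ⟨N, hN⟩ : ∃ N, N = Nat.card F₀ := ⟨_, rfl⟩
  have hN' : Fintype.card F₀ = N := by rw [hN, Nat.card_eq_fintype_card]
  have hN2 : 2 ≤ N := by
    rw [← hN']
    exact Fintype.one_lt_card
  rw [← hN, hF] at hcard
  have h1 : (N ^ k) ^ 2 ∣ q ^ 2 := ⟨N, by rw [hcard]; ring⟩
  rw [Nat.pow_dvd_pow_iff two_ne_zero] at h1
  obtain ⟨t, ht⟩ := h1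
  have hpos : 0 < (N ^ k) ^ 2 := by positivity
  have h2 : N = t ^ 2 := by
    have : (N ^ k) ^ 2 * N = (N ^ k) ^ 2 * t ^ 2 := by
      rw [ht] at hcard
      calc (N ^ k) ^ 2 * N = N ^ (2 * k + 1) := by ring
        _ = (N ^ k * t) ^ 2 := hcard.symm
        _ = (N ^ k) ^ 2 * t ^ 2 := by ring
    exact Nat.eq_of_mul_eq_mul_left hpos this
  have ht2 : 1 < t := by
    by_contra hlt
    have : t ≤ 1 := by omega
    have : t ^ 2 ≤ 1 := by nlinarith
    omega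
  obtain ⟨c, hc⟩ := exists_pow_ne (K := F₀) t ht2 (by rw [hN', h2]; nlinarith)
  refine ⟨c, c.2, ?_⟩
  intro h0
  apply hc
  have h3 : c ^ (N ^ k) = c := by
    rw [← hN']
    exact FiniteField.pow_card_pow k c
  apply Subtype.ext
  push_cast
  rw [ht, pow_mul] at h0
  have h4 := congrArg Subtype.val h3
  push_cast at h4
  rw [h4] at h0
  exact h0

end NT

variable {F : Type*} [Field F] [Fintype F] {ι : Type} [Fintype ι] [DecidableEq ι]
  {σ : F ≃+* F} {f : (ι → F) → (ι → F) → F}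
variable {F₀ : Subfield F} {Pm : Matrix.GeneralLinearGroup ι F}
variable {M : Subgroup (Matrix.GeneralLinearGroup ι F)}

local notation "R" => rv F₀ Pm

namespace UCtx

theorem sub_max (C : UCtx σ f F₀ Pm M) (r : ℕ) (hr : r.Prime)
    (hcard : Fintype.card F = Nat.card F₀ ^ r) (h : Matrix.GeneralLinearGroup ι F)
    (hhM : h ∈ M) (hh : h ∉ Geo.subfieldSubgroup F₀ Pm) : ∀ v, f v v = 0 → v ∈ uSet σ f M := by
  by_contra hM
  have H : C.Hyp := C.hyp_of_not r hr hcard hM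
  obtain ⟨x, fx, ix, -, hpx, -, -⟩ := C.hpair (by omega) ![]
  have hx0 : x ≠ 0 := C.ne_zero_of hpx
  obtain ⟨p, hp⟩ : ∃ p, p = (h : Matrix ι ι F) *ᵥ R x := ⟨_, rfl⟩
  have hp0 : p ≠ 0 := by rw [hp]; exact gl_mulVec_ne_zero h (rv_ne_zero F₀ Pm hx0)
  obtain ⟨a, ha0, ha⟩ := uf_exists_skew C.hf₀
  have ha0' : (a : F) ≠ 0 := by
    intro h0
    exact ha0 (Subtype.ext h0)
  have hEp : UH σ f M p 0 a := by
    have h1 := (C.rat (x := x) (y := 0) ix (uf_zero_left C.hf₀ _) a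
      (by rw [ha, uf_zero_left C.hf₀]; ring)).map C.hM hhM
    rw [rv_zero, Matrix.mulVec_zero, ← hp] at h1
    exact h1
  obtain ⟨x₀, ix₀, hx₀⟩ := C.exists_iso_ne hp0
  obtain ⟨a', ha'⟩ : ∃ a', a' = f p (R x₀) := ⟨_, rfl⟩
  rw [← ha'] at hx₀
  have hσa' : σ a' ≠ 0 := (map_ne_zero σ).2 hx₀
  obtain ⟨A, hA⟩ : ∃ A, A = a'⁻¹ • p := ⟨_, rfl⟩
  have hpA : p = a' • A := by rw [hA, smul_smul, mul_inv_cancel₀ hx₀, one_smul]
  have hEA : UH σ f M A 0 (a' * σ a' * a) := by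
    rw [hpA] at hEp
    have := hEp.scale C.hf hx₀
    rwa [smul_zero] at this
  have A0 : f (R x₀) A = 1 := by
    rw [hA, uf_smul_right C.hf, C.hf.herm (R x₀) p, ← ha', map_inv₀, inv_mul_cancel₀ hσa']
  have hx₀0 : x₀ ≠ 0 := by
    rintro rfl
    rw [rv_zero, uf_zero_left C.hf] at A0
    exact zero_ne_one A0
  obtain ⟨x₁, f₁, ix₁, if₁, hp₁, he₁, hf₁⟩ := C.hpair (by omega) ![x₀]
  have e0 : C.f₀ x₁ x₀ = 0 := he₁ 0
  have f0 : C.f₀ f₁ x₀ = 0 := hf₁ 0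
  obtain ⟨d₀, hd₀, hpd⟩ := C.exists_partner (Submodule.span F₀ {x₁}) x₀
    (C.notMem_span_of' hp₁ (C.sym0 f0) hx₀0)
  have hd₀' : C.f₀ x₁ d₀ = 0 := hd₀ _ (Submodule.mem_span_singleton_self _)
  obtain ⟨y, fy, iy, ify, hpy, hey, hfy⟩ := C.hpair (by omega) ![x₀, x₁]
  have y0 : C.f₀ y x₀ = 0 := hey 0
  have y1 : C.f₀ y x₁ = 0 := hey 1
  have g0 : C.f₀ fy x₀ = 0 := hfy 0
  have g1 : C.f₀ fy x₁ = 0 := hfy 1
  have hs0 : a' * σ a' * a ≠ 0 := mul_ne_zero (mul_ne_zero hx₀ hσa') ha0'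
  by_cases hz : f (R x₁) A ∈ F₀
  · obtain ⟨-, -, -, g, hg, e⟩ := hEA
    have hAz : f (R (x₁ - (⟨_, hz⟩ : F₀) • x₀)) A = 0 := by
      rw [rv_sub, rv_smul, uf_sub_left C.hf, C.hf.smul_left, A0]
      simp
    have hz0 : x₁ - (⟨_, hz⟩ : F₀) • x₀ ≠ 0 := by
      intro h0
      have := congrArg (fun v => C.f₀ v f₁) h0
      simp only [uf_sub_left C.hf₀, C.hf₀.smul_left, hp₁, C.sym0 f0, mul_zero, sub_zero,
        uf_zero_left C.hf₀] at this
      exact one_ne_zero this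
    have iz : C.f₀ (x₁ - (⟨_, hz⟩ : F₀) • x₀) (x₁ - (⟨_, hz⟩ : F₀) • x₀) = 0 := by
      simp only [uf_sub_left C.hf₀, uf_sub_right C.hf₀, C.hf₀.smul_left, uf_smul_right C.hf₀, ix₁,
        ix₀, e0, C.sym0 e0]
      ring
    have hgz : (g : Matrix ι ι F) *ᵥ R (x₁ - (⟨_, hz⟩ : F₀) • x₀) =
        (1 : F) • R (x₁ - (⟨_, hz⟩ : F₀) • x₀) := by
      rw [e, US, hAz, uf_zero_right C.hf]; simp
    have hgS := C.mem_SF_of_point H hg hz0 iz hgz
    obtain ⟨l, hl0, hall⟩ := exists_of_mem_SF _ hgS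
    obtain ⟨t₀, ht₀⟩ := hall (x₁ - (⟨_, hz⟩ : F₀) • x₀)
    rw [hgz, one_smul] at ht₀
    have hlF : l ∈ F₀ := smul_rv_eq_rv hz0 ht₀
    obtain ⟨t₁, ht₁⟩ := hall x₀
    rw [e, US, A0, uf_zero_right C.hf] at ht₁
    have h3 : (a' * σ a' * a) • A = R ((⟨l, hlF⟩ : F₀)⁻¹ • t₁ - x₀) := by
      rw [rv_sub, rv_smul, ← ht₁, smul_smul]
      have : (((⟨l, hlF⟩ : F₀)⁻¹ : F₀) : F) * l = 1 := by
        push_cast
        exact inv_mul_cancel₀ hl0
      rw [this, one_smul]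
      module
    apply hh
    apply C.mem_SF_of_point H hhM hx0 ix (c := a' * (a' * σ a' * a)⁻¹)
      (x' := (⟨l, hlF⟩ : F₀)⁻¹ • t₁ - x₀)
    rw [← h3, ← hp, hpA, smul_smul, mul_assoc, inv_mul_cancel₀ hs0, mul_one]
  · have c : Cfg C ![x₀, x₁] ![d₀, f₁] y fy A (a' * σ a' * a) := by
      refine ⟨?_, ?_, iy, hpy, ?_, ?_, A0, hs0, hEA, hz⟩
      · intro i j
        fin_cases i <;> fin_cases j
        · exact ix₀
        · exact C.sym0 e0
        · exact e0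
        · exact ix₁
      · intro i j
        fin_cases i <;> fin_cases j
        · exact hpd
        · exact C.sym0 f0
        · exact hd₀'
        · exact hp₁
      · intro i
        fin_cases i
        · exact y0
        · exact y1
      · intro i
        fin_cases i
        · exact g0
        · exact g1
    exact c.false H

theorem sub_ne (C : UCtx σ f F₀ Pm M) (l : F) (hl : l ∉ F₀) :
    ∃ g ∈ uIso f ⊓ Geo.specialLinear ι F, g ∉ Geo.subfieldSubgroup F₀ Pm := by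
  obtain ⟨e, fe, ie, -, hpe, -, -⟩ := C.hpair (by omega) ![]
  obtain ⟨a, fa, ia, ifa, hpa, hea, hfa⟩ := C.hpair (by omega) ![e]
  have h1 : C.f₀ a e = 0 := hea 0
  have h2 : C.f₀ fa e = 0 := hfa 0
  have he0 : e ≠ 0 := C.ne_zero_of hpe
  have ha : f (R e) (R e) = 0 := C.z0 ie
  have o : f (l • R a) (R e) = 0 := by rw [C.hf.smul_left, C.z0 h1, mul_zero]
  refine ⟨uQ C.hf (R e) (l • R a) 0 ha o, ⟨uQ_mem_uIso C.hf _ _ _ ha o (by
    rw [C.hf.smul_left, uf_smul_right C.hf, C.z0 ia]; simp), uQ_mem_SL C.hf _ _ _ ha o⟩, ?_⟩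
  intro hc
  obtain ⟨c, hc0, hall⟩ := exists_of_mem_SF _ hc
  obtain ⟨t₀, ht₀⟩ := hall e
  rw [uQ_mulVec C.hf, ha, uf_eq_zero_symm C.hf o] at ht₀
  simp only [zero_smul, add_zero, sub_zero] at ht₀
  have hcF : c ∈ F₀ := smul_rv_eq_rv he0 ht₀
  obtain ⟨t₁, ht₁⟩ := hall fa
  rw [uQ_mulVec C.hf, uf_smul_right C.hf, C.o1 (C.sym1 hpa), C.z0 h2] at ht₁
  simp only [zero_smul, add_zero, mul_one] at ht₁
  apply hl
  have h3 : σ l • R e = R (fa - (⟨c, hcF⟩ : F₀)⁻¹ • t₁) := by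
    rw [rv_sub, rv_smul, ← ht₁, smul_smul]
    have : (((⟨c, hcF⟩ : F₀)⁻¹ : F₀) : F) * c = 1 := by
      push_cast
      exact inv_mul_cancel₀ hc0
    rw [this, one_smul]
    module
  have h4 := C.hσ _ (smul_rv_eq_rv he0 h3)
  rwa [C.hf.involutive] at h4

end UCtx

/-- maximality of the subfield subgroups of the unitary groups -/
theorem su_subfield_isMaximalIn (n q : ℕ) (hF : Fintype.card F = q ^ 2) (hn : 13 ≤ n)
    (F₀ : Subfield F) (r : ℕ) (hr : r.Prime) (hro : Odd r)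
    (hcard : Fintype.card F = Nat.card F₀ ^ r) (Pm : Matrix.GeneralLinearGroup (Fin n) F)
    (hP : Geo.IsFormRationalStructure (hermForm n F q) F₀ 1 Pm) :
    Geo.IsMaximalIn (GU n F q ⊓ Geo.specialLinear (Fin n) F)
      (Geo.subfieldSubgroup F₀ Pm ⊓ (GU n F q ⊓ Geo.specialLinear (Fin n) F)) := by
  have hrat : ∀ x y : Fin n → F₀, hermForm n F q (rv F₀ Pm x) (rv F₀ Pm y) ∈ F₀ := fun x y => by
    have := hP _ _ (fun i => (x i).2) (fun i => (y i).2)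
    rwa [one_mul] at this
  have hσ : ∀ c ∈ F₀, frobEquiv hF c ∈ F₀ := fun c hc => F₀.pow_mem hc q
  have hne : ∃ c ∈ F₀, frobEquiv hF c ≠ c := exists_frob_ne q hF F₀ r hro hcard
  have hn' : 13 ≤ Fintype.card (Fin n) := by rw [Fintype.card_fin]; exact hn
  obtain ⟨l, hl⟩ := exists_notMem_subfield F₀ r hr hcard
  apply isMaximalIn_of'
  · exact (⟨herm_isUnitary hF n, hrat, hσ, hne, hn', inf_le_right, inf_le_left⟩ :
      UCtx (frobEquiv hF) (hermForm n F q) F₀ Pm (GU n F q ⊓ Geo.specialLinear (Fin n) F)).sub_ne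
        l hl
  · rintro M hS hM ⟨h, hhM, hh⟩
    exact SU_le_of_uSet hF n (by omega) M
      ((⟨herm_isUnitary hF n, hrat, hσ, hne, hn', hS, hM.trans inf_le_left⟩ :
        UCtx (frobEquiv hF) (hermForm n F q) F₀ Pm M).sub_max r hr hcard h hhM hh)

end Cfsg.Agent.Lib.Helper16.SU
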