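import Mathlib
import Cfsg.Agent.Lib.Helper16.SymmDisc

set_option autoImplicit false

namespace Cfsg.Agent.Lib.Helper16

open Module Matrix

universe u v

theorem sd_det_lagr {m R : Type*} [Fintype m] [DecidableEq m] [CommRing R] (A C : Matrix m m R) :
    (fromBlocks 0 A Aᵀ C).det = (-1) ^ (Fintype.card m) * A.det ^ 2 := by
  have : fromBlocks 0 A Aᵀ C =
      fromBlocks A 0 0 1 * (fromBlocks 0 1 1 1 * fromBlocks Aᵀ (C - 1) 0 1) := by
    simp [fromBlocks_multiply]
  rw [this, det_mul, det_mul, det_fromBlocks_zero₂₁, det_fromBlocks_one₂₂, det_fromBlocks_zero₂₁]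
  simp [det_neg]
  ring

variable {F : Type u} [Field F] {V : Type v} [AddCommGroup V] [Module F V]

/-- change of basis for the discriminant, arbitrary index types -/
theorem sd_change {κ κ' : Type*} [Fintype κ] [DecidableEq κ] [Fintype κ'] [DecidableEq κ']
    (b : Basis κ F V) (c : Basis κ' F V) (B : LinearMap.BilinForm F V) :
    ∃ t : F, t ≠ 0 ∧ (LinearMap.BilinForm.toMatrix c B).det =
      t ^ 2 * (LinearMap.BilinForm.toMatrix b B).det := by
  let e : κ ≃ κ' := b.indexEquiv c
  have h1 : LinearMap.BilinForm.toMatrix (b.reindex e) B =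
      Matrix.reindex e e (LinearMap.BilinForm.toMatrix b B) := by
    ext i j
    simp [LinearMap.BilinForm.toMatrix_apply]
  have h2 : (LinearMap.BilinForm.toMatrix (b.reindex e) B).det =
      (LinearMap.BilinForm.toMatrix b B).det := by
    rw [h1, Matrix.det_reindex_self]
  refine ⟨((b.reindex e).toMatrix c).det, ?_, ?_⟩
  · intro h0
    have := congrArg Matrix.det (Basis.toMatrix_mul_toMatrix_flip (b.reindex e) c)
    rw [Matrix.det_mul, h0, zero_mul, Matrix.det_one] at this
    exact zero_ne_one this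
  · rw [← h2, ← LinearMap.BilinForm.toMatrix_mul_basis_toMatrix (b.reindex e) c B, Matrix.det_mul,
      Matrix.det_mul, Matrix.det_transpose]
    ring

theorem sd_isometric' [Finite F] (h2 : (2 : F) ≠ 0)
    {κ κ' : Type*} [Fintype κ] [DecidableEq κ] [Fintype κ'] [DecidableEq κ']
    (B B' : LinearMap.BilinForm F V)
    (hS : B.IsSymm) (hB : B.Nondegenerate) (hS' : B'.IsSymm) (hB' : B'.Nondegenerate)
    (b : Basis κ F V) (b' : Basis κ' F V) (s : F) (hs : s ≠ 0)
    (hd : (LinearMap.BilinForm.toMatrix b' B').det = s ^ 2 * (LinearMap.BilinForm.toMatrix b B).det) :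
    ∃ g : V ≃ₗ[F] V, ∀ x y, B' (g x) (g y) = B x y := by
  have : FiniteDimensional F V := Module.Finite.of_basis b
  obtain ⟨t, ht, h1⟩ := sd_change b (finBasis F V) B
  obtain ⟨t', ht', h1'⟩ := sd_change b' (finBasis F V) B'
  refine sd_isometric h2 B B' hS hB hS' hB' (finBasis F V) (finBasis F V) (t' * s / t)
    (div_ne_zero (mul_ne_zero ht' hs) ht) ?_
  rw [h1, h1', hd]
  field_simp

/-- a space with a Lagrangian has discriminant `(-1)^m` -/
theorem sd_isSquare_of_lagr {κ : Type*} [Fintype κ] [DecidableEq κ] (B : LinearMap.BilinForm F V)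
    (hS : B.IsSymm) (b : Basis κ F V) (m : ℕ) (hm : finrank F V = 2 * m)
    (X : Submodule F V) (hX : finrank F X = m) (hX0 : ∀ x ∈ X, ∀ y ∈ X, B x y = 0) :
    IsSquare ((-1) ^ m * (LinearMap.BilinForm.toMatrix b B).det) := by
  have : FiniteDimensional F V := Module.Finite.of_basis b
  obtain ⟨Y, hY⟩ := Submodule.exists_isCompl X
  have hYd : finrank F Y = m := by
    have := Submodule.finrank_add_eq_of_isCompl hY
    omega
  let bX : Basis (Fin m) F X := finBasisOfFinrankEq F X hX
  let bY : Basis (Fin m) F Y := finBasisOfFinrankEq F Y hYd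
  let c : Basis (Fin m ⊕ Fin m) F V := (bX.prod bY).map (Submodule.prodEquivOfIsCompl X Y hY)
  have hc1 : ∀ i, c (Sum.inl i) = (bX i : V) := by
    intro i
    simp [c]
  have hc2 : ∀ i, c (Sum.inr i) = (bY i : V) := by
    intro i
    simp [c]
  have hG : LinearMap.BilinForm.toMatrix c B =
      fromBlocks 0 (Matrix.of fun i j => B (bX i : V) (bY j : V))
        (Matrix.of fun i j => B (bX i : V) (bY j : V))ᵀ
        (Matrix.of fun i j => B (bY i : V) (bY j : V)) := by
    ext i j
    rw [LinearMap.BilinForm.toMatrix_apply]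
    rcases i with i | i <;> rcases j with j | j
    · rw [hc1, hc1, fromBlocks_apply₁₁, hX0 _ (bX i).2 _ (bX j).2]; rfl
    · rw [hc1, hc2, fromBlocks_apply₁₂]; rfl
    · rw [hc2, hc1, fromBlocks_apply₂₁, Matrix.transpose_apply, Matrix.of_apply]
      exact hS.eq _ _
    · rw [hc2, hc2, fromBlocks_apply₂₂]; rfl
  obtain ⟨t, ht, h1⟩ := sd_change c b B
  rw [h1, hG, sd_det_lagr, Fintype.card_fin]
  refine ⟨t * (Matrix.of fun i j => B (bX i : V) (bY j : V)).det, ?_⟩
  have : ((-1 : F) ^ m) * (-1) ^ m = 1 := by rw [← mul_pow]; simp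
  linear_combination (t ^ 2 * (Matrix.of fun i j => B (bX i : V) (bY j : V)).det ^ 2) * this

/-- conversely, over a finite field of odd order -/
theorem sd_lagr_of_isSquare [Finite F] (h2 : (2 : F) ≠ 0) {κ : Type*} [Fintype κ] [DecidableEq κ]
    (B : LinearMap.BilinForm F V) (hS : B.IsSymm) (hB : B.Nondegenerate) (b : Basis κ F V) (m : ℕ)
    (hm : finrank F V = 2 * m)
    (hsq : IsSquare ((-1) ^ m * (LinearMap.BilinForm.toMatrix b B).det)) :
    ∃ X : Submodule F V, finrank F X = m ∧ ∀ x ∈ X, ∀ y ∈ X, B x y = 0 := by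
  have : FiniteDimensional F V := Module.Finite.of_basis b
  have hD := (LinearMap.BilinForm.nondegenerate_iff_det_ne_zero b).1 hB
  obtain ⟨r, hr⟩ := hsq
  have hcard : Fintype.card κ = Fintype.card (Fin m ⊕ Fin m) := by
    rw [← finrank_eq_card_basis b, hm]; simp; ring
  let c : Basis (Fin m ⊕ Fin m) F V := b.reindex (Fintype.equivOfCardEq hcard)
  let w : Fin m ⊕ Fin m → F := Sum.elim (fun _ => 1) (fun _ => -1)
  obtain ⟨B', hB'⟩ : ∃ B' : LinearMap.BilinForm F V, B' = Matrix.toBilin c (Matrix.diagonal w) :=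
    ⟨_, rfl⟩
  have happ : ∀ x y, B' x y = ∑ i, w i * (c.repr x i * c.repr y i) := by
    intro x y
    rw [hB', Matrix.toBilin_apply]
    apply Finset.sum_congr rfl
    intro i _
    rw [Finset.sum_eq_single i]
    · rw [Matrix.diagonal_apply_eq]; ring
    · intro j _ hj
      rw [Matrix.diagonal_apply_ne _ (Ne.symm hj)]; ring
    · intro h; exact absurd (Finset.mem_univ i) h
  have hdet : (LinearMap.BilinForm.toMatrix c B').det = (-1) ^ m := by
    rw [hB', LinearMap.BilinForm.toMatrix_toBilin, Matrix.det_diagonal, Fintype.prod_sum_type]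
    simp [w]
  have hS' : B'.IsSymm := ⟨fun x y => by
    rw [happ, happ]
    exact Finset.sum_congr rfl (fun i _ => by ring)⟩
  have hN' : B'.Nondegenerate := by
    rw [LinearMap.BilinForm.nondegenerate_iff_det_ne_zero c, hdet]
    exact pow_ne_zero _ (neg_ne_zero.2 one_ne_zero)
  have hr0 : r ≠ 0 := by
    rintro rfl
    rw [mul_zero] at hr
    exact (mul_ne_zero (pow_ne_zero _ (neg_ne_zero.2 one_ne_zero)) hD) hr
  obtain ⟨g, hg⟩ := sd_isometric' h2 B B' hS hB hS' hN' b c
    (r / (LinearMap.BilinForm.toMatrix b B).det) (div_ne_zero hr0 hD) (by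
      rw [hdet]
      field_simp
      linear_combination hr)
  -- the Lagrangian of the model
  let σ : Fin m ⊕ Fin m → Fin m := Sum.elim id id
  have hσ : Function.Surjective σ := fun i => ⟨Sum.inl i, rfl⟩
  let T : (Fin m → F) →ₗ[F] V :=
    (g.symm.toLinearMap ∘ₗ c.equivFun.symm.toLinearMap) ∘ₗ LinearMap.funLeft F F σ
  have hT : Function.Injective T := by
    have h1 := LinearMap.funLeft_injective_of_surjective F F σ hσ
    exact (g.symm.injective.comp c.equivFun.symm.injective).comp h1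
  refine ⟨LinearMap.range T, ?_, ?_⟩
  · rw [LinearMap.finrank_range_of_inj hT]; simp
  · rintro _ ⟨x, rfl⟩ _ ⟨y, rfl⟩
    rw [← hg, happ]
    have hrep : ∀ z : Fin m → F, ∀ i, c.repr (g (T z)) i = z (σ i) := by
      intro z i
      simp only [T, LinearMap.comp_apply, LinearEquiv.coe_coe, LinearEquiv.apply_symm_apply]
      rw [← Basis.equivFun_apply, LinearEquiv.apply_symm_apply]
      rfl
    simp only [hrep]
    rw [Fintype.sum_sum_type]
    simp [w, σ]

theorem sd_lagr_iff [Finite F] (h2 : (2 : F) ≠ 0) {κ : Type*} [Fintype κ] [DecidableEq κ]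
    (B : LinearMap.BilinForm F V) (hS : B.IsSymm) (hB : B.Nondegenerate) (b : Basis κ F V) (m : ℕ)
    (hm : finrank F V = 2 * m) :
    (∃ X : Submodule F V, finrank F X = m ∧ ∀ x ∈ X, ∀ y ∈ X, B x y = 0) ↔
    IsSquare ((-1) ^ m * (LinearMap.BilinForm.toMatrix b B).det) :=
  ⟨fun ⟨X, hX, hX0⟩ => sd_isSquare_of_lagr B hS b m hm X hX hX0,
    sd_lagr_of_isSquare h2 B hS hB b m hm⟩

end Cfsg.Agent.Lib.Helper16
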