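import Mathlib
import Cfsg.Agent.Lib.Helper16.SymmDisc2

set_option autoImplicit false

namespace Cfsg.Agent.Lib.Helper16

open Module Matrix

theorem sd_det_tmul {F U W : Type*} [Field F] [AddCommGroup U] [Module F U] [AddCommGroup W]
    [Module F W] {κ₁ κ₂ : Type*} [Fintype κ₁] [DecidableEq κ₁] [Fintype κ₂] [DecidableEq κ₂]
    (b₁ : Basis κ₁ F U) (b₂ : Basis κ₂ F W)
    (B₁ : LinearMap.BilinForm F U) (B₂ : LinearMap.BilinForm F W) :
    (LinearMap.BilinForm.toMatrix (b₁.tensorProduct b₂) (B₁.tmul B₂)).det =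
      (LinearMap.BilinForm.toMatrix b₁ B₁).det ^ Fintype.card κ₂ *
      (LinearMap.BilinForm.toMatrix b₂ B₂).det ^ Fintype.card κ₁ := by
  have : LinearMap.BilinForm.toMatrix (b₁.tensorProduct b₂) (B₁.tmul B₂) =
      Matrix.kroneckerMap (· * ·) (LinearMap.BilinForm.toMatrix b₁ B₁)
        (LinearMap.BilinForm.toMatrix b₂ B₂) := by
    ext ⟨i, j⟩ ⟨i', j'⟩
    rw [LinearMap.BilinForm.toMatrix_apply, Matrix.kroneckerMap_apply,
      LinearMap.BilinForm.toMatrix_apply, LinearMap.BilinForm.toMatrix_apply,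
      Basis.tensorProduct_apply, Basis.tensorProduct_apply,
      LinearMap.BilinForm.tensorDistrib_tmul, smul_eq_mul, mul_comm]
  rw [this, Matrix.det_kronecker]

end Cfsg.Agent.Lib.Helper16
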